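import Cfsg.Prelude.Def_OddOrderLocal

/-!
# S1538 (Type II: `A₀(M)`, `A(M)`, `A₁(M)` are TI-subsets with normaliser `M`): piece statements

Context `Ctx M W₁ U W₂`: `G` minimal simple of odd order, `M` maximal, `(W₁, U, W₂)` type-P data
of `M` with `U ≠ 1`, `|W₁| = p` prime, `F(M)` a TI-subset, `U` abelian, `N_G(U) ⊄ M`
(= `IsOfTypeII M` without its last two clauses).  Write `H = M_F = fittingHallOf M`, `M' = ⁅M, M⁆`.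

Basic facts (from `IsTypePWith`; each piece derives what it needs):
* `M' = H U` (`U_compl`), `M = M' W₁` (`W₁_compl`), so `|M| = |H| |U| p`
  (`Helper23.TypeP.card_of_isComplIn`); `gcd(p, |M'|) = 1` (`W₁_hall`, `relIndex W₁ M = |M'|`);
  `gcd(|U|, |H|) = 1` (`Helper23.TypeP.coprime_card_fittingHallOf M U`), also
  `gcd(p, |H|) = 1`.
* `H ≤ F(M)` (`fitting_eq`), `F(M) ≤ M'` (`fitting_le`), `H ≠ 1` (`H_not_cyclic`),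
  `M ≤ N_G(H)` (`Helper50.CNMax.le_normalizer_fittingHallOf`), `H` nilpotent
  (`Helper50.CNMax.fittingHallOf_nilpotent`).
* `N_G(F(M)) = M` (`Helper9.BG11b.normalizer_eq` with
  `Helper50.BG157.normalizer_le_normalizer_fittingOf`, `Helper90.Bender.fittingOf_le`), so by
  `hTI`: `y ∈ F(M)`, `y ≠ 1`, `g y g⁻¹ ∈ F(M)` ⟹ `g ∈ M`; in particular `C_G(y) ≤ M`.
* `W₂ = M' ∩ C_G(w)` for `1 ≠ w ∈ W₁` (`W₂_centralizer`), `W₂ ≠ 1`, `W₂ ≤ H` (`W₂_le`).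
-/

set_option autoImplicit false

universe u

namespace Cfsg.Agent.Lib.Helper83.S38Stmt

/-- The context. -/
structure Ctx {G : Type u} [Group G] (M W₁ U W₂ : Subgroup G) : Prop where
  hG : Cfsg.IsMinSimpleOddOrder G
  hM : IsCoatom M
  hP : Cfsg.IsTypePWith M W₁ U W₂
  hU1 : U ≠ ⊥
  hpr : (Nat.card W₁).Prime
  hTI : Cfsg.IsTISubset (Cfsg.fittingOf M : Set G)
  hUab : IsMulCommutative U
  hN : ¬ Subgroup.normalizer (U : Set G) ≤ M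

/-- CONJW (Sylow).  `W₁` has order `p` and `p² ∤ |M|`, so `W₁` is a Sylow `p`-subgroup of `M`:
every `k ∈ M` of order `p` is `M`-conjugate into `W₁`. -/
def ConjW : Prop :=
  ∀ {G : Type u} [Group G] [Finite G] (M W₁ U W₂ : Subgroup G), Ctx M W₁ U W₂ →
    ∀ k ∈ M, orderOf k = Nat.card W₁ → ∃ m ∈ M, m * k * m⁻¹ ∈ W₁

/-- PSIG.  `p ∉ σ(M)`: else `W₁` is a `σ(M)`-subgroup of `M`, so `W₁ ≤ M_σ`
(`Helper9.BG11b.le_sigmaCore_of_isPGroup`) `≤ M'`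
(`Helper9.BG10f.sigmaCore_le_commutator hG (fun K => Cfsg.Agent.S1403.result hG K) hM`), against
`M' ⊓ W₁ = ⊥`. -/
def PSig : Prop :=
  ∀ {G : Type u} [Group G] [Finite G] (M W₁ U W₂ : Subgroup G), Ctx M W₁ U W₂ →
    Nat.card W₁ ∉ Cfsg.sigma M

/-- USIG.  No prime `q ∣ |U|` is in `σ(M)`.  (`Q := {u ∈ U | u ^ (q ^ n) = 1}` is the Sylow
`q`-subgroup of the abelian `U`, normalized by `N_G(U)`; `|Q|` = the `q`-part of `|M|`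
(`|M| = |H| |U| p`, `q ∤ |H| p`), so `Q` is (the image of) a Sylow `q`-subgroup of `M`; if
`q ∈ σ(M)`, some Sylow `q`-subgroup `P` of `M` has `N_G(P) ≤ M`, `Q = m P m⁻¹` (`m ∈ M`), so
`N_G(U) ≤ N_G(Q) ≤ M`, against `hN`.) -/
def USig : Prop :=
  ∀ {G : Type u} [Group G] [Finite G] (M W₁ U W₂ : Subgroup G), Ctx M W₁ U W₂ →
    ∀ q : ℕ, q.Prime → q ∣ Nat.card U → q ∉ Cfsg.sigma M

/-- HSIG.  Every prime `q ∣ |H|` is in `σ(M)`.  (The Sylow `q`-subgroup `S` of the nilpotent `H`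
is normal in `M` and is a Sylow `q`-subgroup of `M` (`q ∤ |U| p`), so `N_G(S) ≥ M`, hence
`N_G(S) = M` (`Helper9.BG11b.normalizer_eq`) and `q ∈ σ(M)` by definition.) -/
def HSig : Prop :=
  ∀ {G : Type u} [Group G] [Finite G] (M W₁ U W₂ : Subgroup G), Ctx M W₁ U W₂ →
    ∀ q : ℕ, q.Prime → q ∣ Nat.card (Cfsg.fittingHallOf M) → q ∈ Cfsg.sigma M

/-- MSIG.  `M_σ = H`.  (`H ≤ M_σ`: `Helper9.BG11b.le_sigmaCore` with HSIG.  Primes of `|M_σ|`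
are in `σ(M)` (`Helper9.BG11b.mem_sigma_of_dvd` or the like), so `|M_σ|` is prime to `|U| p`
(USIG, PSIG) and divides `|M| = |H| |U| p`: `|M_σ| ∣ |H|`, hence equality.) -/
def MSig : Prop :=
  ∀ {G : Type u} [Group G] [Finite G] (M W₁ U W₂ : Subgroup G), Ctx M W₁ U W₂ →
    Cfsg.sigmaCore M = Cfsg.fittingHallOf M

/-- PKAP.  `p ∈ κ(M)`.  (`p ∣ |M|`, `p ∉ σ(M)` (PSIG); a Sylow `p`-subgroup `P` of `M` has order
`p`, so it is cyclic, generated by some `x` of order `p`; CONJW: `m x m⁻¹ = w ∈ W₁`, `w ≠ 1`;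
`w` centralizes `W₂ ∋ y₀ ≠ 1`, `y₀ ∈ H = M_σ` (MSIG); `x` centralizes `m⁻¹ y₀ m ∈ M_σ`.) -/
def PKap : Prop :=
  ∀ {G : Type u} [Group G] [Finite G] (M W₁ U W₂ : Subgroup G), Ctx M W₁ U W₂ →
    Nat.card W₁ ∈ Cfsg.kappa M

/-- UKAP.  No prime `q ∣ |U|` is in `κ(M)`.  (`S1351.result hG M hM`: a Hall `κ(M)`-subgroup `K`
of `M` exists and is cyclic.  If `q ∈ κ(M)`: `p, q ∣ |K|` (PKAP; Hall), so `K` has elements `k` of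
order `p` and `y` of order `q` (Cauchy), `k y = y k`.  CONJW: `w := m k m⁻¹ ∈ W₁`, `w ≠ 1`;
`y' := m y m⁻¹ ∈ M` has order `q ≠ p`, so `y' ∈ M'` (`y' = a b`, `a ∈ M'`, `b ∈ W₁`,
`b ^ q ∈ M' ⊓ W₁ = ⊥`); `y' ∈ M' ⊓ C_G(w) = W₂ ≤ H`, so `q ∣ |H|`, against
`gcd(|U|, |H|) = 1`.) -/
def UKap : Prop :=
  ∀ {G : Type u} [Group G] [Finite G] (M W₁ U W₂ : Subgroup G), Ctx M W₁ U W₂ →
    ∀ q : ℕ, q.Prime → q ∣ Nat.card U → q ∉ Cfsg.kappa M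

/-- CENT.  `a ∈ M'`, `a ≠ 1`, centralizing some `x ≠ 1` of `H`: `C_G(a) ≤ M`.
(`Helper64.S79PARTS.main a (σ(M))`: `a = a₁ a₂`, powers of `a`, `a₁` a `σ(M)`-element, `a₂` a
`σ(M)'`-element.  If `a₁ ≠ 1`: `a₁ ∈ M_σ` (`Helper90.FamCount.mem_sigmaCore_of_orderOf`)
`= H ≤ F(M)`, so `C_G(a) ≤ C_G(a₁) ≤ M` by `hTI`.  If `a₁ = 1`: `a` is a `σ(M)'`-element of
`M ⊓ C_G(x)`, `x ∈ M_σ` (MSIG): `S1432.result hG M hM x _ _ a _ _ _`: second alternative gives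
`C_G(a) ≤ M`; first alternative: a prime `q ∣ orderOf a` is in `κ(M)`, `q ∣ |M'| = |H| |U|`,
`q ∉ σ(M)` so `q ∤ |H|` (HSIG), `q ∣ |U|`: against UKAP.) -/
def Cent : Prop :=
  ∀ {G : Type u} [Group G] [Finite G] (M W₁ U W₂ : Subgroup G), Ctx M W₁ U W₂ →
    ∀ a ∈ ⁅M, M⁆, a ≠ 1 → ∀ x ∈ Cfsg.fittingHallOf M, x ≠ 1 → a * x = x * a →
      Subgroup.centralizer ({a} : Set G) ≤ M

/-- FUSA.  `a ∈ M'`, `a ≠ 1`, centralizing `x ≠ 1` of `H`, and `g a g⁻¹` centralizing `x' ≠ 1`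
of `H`: then `g ∈ M`.  (`x'' := g⁻¹ x' g ∈ C_G(a) ≤ M` (CENT); primes of `orderOf x'' = orderOf x'`
divide `|H|`, so are in `σ(M)` (HSIG): `x'' ∈ M_σ = H ≤ F(M)`
(`Helper90.FamCount.mem_sigmaCore_of_orderOf`, MSIG); `g x'' g⁻¹ = x' ∈ F(M)`, `x'' ≠ 1`: `hTI`
and `N_G(F(M)) = M` give `g ∈ M`.) -/
def FusA : Prop :=
  ∀ {G : Type u} [Group G] [Finite G] (M W₁ U W₂ : Subgroup G), Ctx M W₁ U W₂ →
    ∀ a ∈ ⁅M, M⁆, a ≠ 1 → ∀ x ∈ Cfsg.fittingHallOf M, x ≠ 1 → a * x = x * a →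
    ∀ g : G, ∀ x' ∈ Cfsg.fittingHallOf M, x' ≠ 1 → (g * a * g⁻¹) * x' = x' * (g * a * g⁻¹) →
      g ∈ M

/-- NOTI.  `M` is not of Type I.  (`IsOfTypeF ↥M`: a complement `U'` of `fittingHall M` in `↥M`
and `U₀ ≤ U'` with the same exponent acting freely on `fittingHall M`.  `p ∣ |U'|`
(`|M| = |fittingHall M| |U'|`, `p ∤ |H|`), so `p ∣ exponent U' = exponent U₀ ∣ |U₀|`: `u ∈ U₀` of
order `p` (Cauchy).  CONJW: `m u m⁻¹ = w ∈ W₁`, `w ≠ 1`, centralizing `y₀ ≠ 1` in `W₂ ≤ H`; then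
`u` centralizes `m⁻¹ y₀ m ∈ H`, `≠ 1`: against freeness.) -/
def NotI : Prop :=
  ∀ {G : Type u} [Group G] [Finite G] (M W₁ U W₂ : Subgroup G), Ctx M W₁ U W₂ →
    ¬ Cfsg.IsOfTypeI M

/-- NOT34.  `M` is not of Type III or IV.  (Data `(W₁', U', W₂')` with `N_G(U') ≤ M`: `U` and
`U'` are complements of `H` in `M'` (`U_compl`), `gcd(|H|, |U|) = 1`, `H` nilpotent hence
solvable: `Helper2.Split.conj_compl H M' U U' ..` gives `m ∈ H` with `m U m⁻¹ = U'`; then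
`N_G(U) = m⁻¹ N_G(U') m ≤ M`, against `hN`.) -/
def Not34 : Prop :=
  ∀ {G : Type u} [Group G] [Finite G] (M W₁ U W₂ : Subgroup G), Ctx M W₁ U W₂ →
    ¬ Cfsg.IsOfTypeIII M ∧ ¬ Cfsg.IsOfTypeIV M

/-- WORD.  For ANY type-P data `(W₁', U', W₂')` of `M` and `w ∈ W₁' W₂'` outside `W₂'`: no
conjugate of `w` lies in `M'`.  (`w = w₁ w₂` (`Subgroup.mem_sup` / elementwise commuting), `w₁ ≠ 1`;
`w ^ n = 1` forces `w₁ ^ n = w₂ ^ (-n) ∈ W₁' ⊓ W₂' = ⊥`, so `orderOf w₁ ∣ orderOf w`;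
`orderOf w₁ ∣ |W₁'|` is prime to `|M'|` (`W₁_hall`, `relIndex W₁' M = |M'|` by `W₁_compl`); if
`g w g⁻¹ ∈ M'` then `orderOf w ∣ |M'|`: `orderOf w₁ = 1`.) -/
def WOrd : Prop :=
  ∀ {G : Type u} [Group G] [Finite G] (M W₁ U W₂ : Subgroup G), Ctx M W₁ U W₂ →
    ∀ (W₁' U' W₂' : Subgroup G), Cfsg.IsTypePWith M W₁' U' W₂' →
    ∀ w ∈ W₁' ⊔ W₂', w ∉ W₂' → ∀ g : G, g * w * g⁻¹ ∉ ⁅M, M⁆

/-- WCONJ.  For ANY two type-P data of `M`, `w ∈ W₁' W₂'` outside `W₁'` and `w' ∈ W₁'' W₂''`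
outside `W₁''`, `h w h⁻¹ = w'`: then `h ∈ M`.  (`|W₁'| = |W₁''| = |M| / |M'| = p`
(`card_of_isComplIn`).  `w = w₁ w₂`, `w₂ ≠ 1`; `y := w ^ p = w₂ ^ p ∈ W₂' ≤ H ≤ F(M)`, `y ≠ 1`
(`orderOf w₂ ∣ |W₂'| ∣ |M'|` is prime to `p`); likewise `w' ^ p ∈ W₂'' ≤ F(M)`;
`h y h⁻¹ = w' ^ p ∈ F(M)`: `hTI` and `N_G(F(M)) = M` give `h ∈ M`.) -/
def WConj : Prop :=
  ∀ {G : Type u} [Group G] [Finite G] (M W₁ U W₂ : Subgroup G), Ctx M W₁ U W₂ →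
    ∀ (W₁' U' W₂' W₁'' U'' W₂'' : Subgroup G), Cfsg.IsTypePWith M W₁' U' W₂' →
    Cfsg.IsTypePWith M W₁'' U'' W₂'' →
    ∀ w ∈ W₁' ⊔ W₂', w ∉ W₁' → ∀ w' ∈ W₁'' ⊔ W₂'', w' ∉ W₁'' →
    ∀ h : G, h * w * h⁻¹ = w' → h ∈ M

/-- The statement. -/
def Final : Prop :=
  ∀ {G : Type u} [Group G] [Finite G], Cfsg.IsMinSimpleOddOrder G → ∀ (M : Subgroup G),
    IsCoatom M → Cfsg.IsOfTypeII M →
    (Cfsg.IsTISubset (Cfsg.typeA0 M) ∧ Subgroup.normalizer (Cfsg.typeA0 M) = M) ∧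
    (Cfsg.IsTISubset (Cfsg.typeA M) ∧ Subgroup.normalizer (Cfsg.typeA M) = M) ∧
    (Cfsg.IsTISubset (Cfsg.typeA1 M) ∧ Subgroup.normalizer (Cfsg.typeA1 M) = M)

end Cfsg.Agent.Lib.Helper83.S38Stmt
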