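import Mathlib
import Cfsg.Prelude.Def_RootSubgroups
import Cfsg.Agent.Lib.Helper83.RankOne
import Cfsg.Agent.Lib.Helper83.RootSub

set_option autoImplicit false

namespace Cfsg.Agent.Lib.Helper83.RootSub2

open Cfsg Cfsg.Agent.Lib.Helper83.RankOne Cfsg.Agent.Lib.Helper83.RootSub
open scoped commutatorElement

variable {G : Type*} [Group G] {S : Set (Subgroup G)} {A B : Subgroup G}

theorem commutator_le_sup (A B : Subgroup G) : ⁅A, B⁆ ≤ A ⊔ B := by
  rw [Subgroup.commutator_le]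
  intro a ha b hb
  rw [commutatorElement_def]
  have hA : a ∈ A ⊔ B := Subgroup.mem_sup_left ha
  have hB : b ∈ A ⊔ B := Subgroup.mem_sup_right hb
  exact Subgroup.mul_mem _ (Subgroup.mul_mem _ (Subgroup.mul_mem _ hA hB) (Subgroup.inv_mem _ hA))
    (Subgroup.inv_mem _ hB)

theorem conjBy_commutator_eq (A B : Subgroup G) {x : G} (hx : x ∈ A ⊔ B) :
    conjBy ⁅A, B⁆ x = ⁅A, B⁆ :=
  mem_normalizer_iff_conjBy.mp (sup_le (Subgroup.normalizer_commutator_ge_left A B)
    (Subgroup.normalizer_commutator_ge_right A B) hx)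

/-- If the commutator of two members is a member, the pair is in the commutator case. -/
theorem commCase_of_mem (hS : IsRootSubgroupSet S) (hA : A ∈ S) (hB : B ∈ S) (hC : ⁅A, B⁆ ∈ S) :
    RootCommutatorCase S A B := by
  rcases hS.pair A hA B hB with h1 | h1 | h1
  · exact absurd h1 (hS.ne_bot _ hC)
  · exfalso
    rcases unipotent_or_central hS hA hB h1 hC (commutator_le_sup A B) with h2 | h2
    · by_cases hCA : ⁅A, B⁆ = A
      · obtain ⟨b, hb, hb1⟩ := exists_mem_ne_one (right_ne_bot h1)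
        apply hb1
        apply eq_one_of_conjBy_eq (RankOnePair_symm h1) hb
        have h3 := conjBy_commutator_eq A B (Subgroup.mem_sup_right (S := A) hb)
        rwa [hCA] at h3
      · obtain ⟨hp2, -⟩ := isRankOnePair_of_mem_unipotent h1 h2 (left_mem_unipotent A B) hCA
        obtain ⟨a, ha, ha1⟩ := exists_mem_ne_one (left_ne_bot h1)
        exact ha1 (eq_one_of_conjBy_eq (RankOnePair_symm hp2) ha
          (conjBy_commutator_eq A B (Subgroup.mem_sup_left ha)))
    · obtain ⟨a, ha, ha1⟩ := exists_mem_ne_one (left_ne_bot h1)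
      have hu : conjBy B a ∈ unipotentSubgroups B A :=
        unipotent_symm h1 (conjBy_right_mem_unipotent h1 ha)
      have hne : conjBy B a ≠ B := fun hcon => ha1 (eq_one_of_conjBy_eq h1 ha hcon)
      exact absurd_of_unipotent_le (RankOnePair_symm h1)
        (fun f hf b hb => h2 f hf b (Subgroup.mem_sup_right hb)) hu hne
        (conjBy_le_commutator_sup ha)
  · exact h1

theorem ne_commutator_of_commCase (hS : IsRootSubgroupSet S) (hc : RootCommutatorCase S A B) :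
    A ≠ ⁅A, B⁆ := by
  intro h
  apply hS.ne_bot _ hc.1
  apply commutator_eq_bot_of_comm
  intro a ha b hb
  have ha' : a ∈ ⁅A, B⁆ := h ▸ ha
  exact hc.2.1 a ha' b (Subgroup.mem_sup_right hb)

/-- In the commutator case with `A` having a rank one partner, no non-identity elements
of `A` and `B` commute. -/
theorem eq_one_of_comm (hS : IsRootSubgroupSet S) (hA : A ∈ S) {D : Subgroup G} (hD : D ∈ S)
    (hp : IsRankOnePair A D) (hB : B ∈ S) (hc : RootCommutatorCase S A B) {a b : G} (ha : a ∈ A)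
    (ha1 : a ≠ 1) (hb : b ∈ B) (hab : a * b = b * a) : b = 1 := by
  by_contra hb1
  have hmem : a ∈ conjBy A b := by
    rw [mem_conjBy]
    have e : b⁻¹ * a * b = a := by
      rw [mul_assoc, hab, ← mul_assoc, inv_mul_cancel, one_mul]
    rw [e]; exact ha
  have hACbot : A ⊓ ⁅A, B⁆ = ⊥ :=
    (inf_eq_bot_or_eq hS hA hD hp hc.1).resolve_right (ne_commutator_of_commCase hS hc)
  rcases inf_eq_bot_or_eq hS hA hD hp (hS.conj_mem A hA b) with h1 | h1
  · have h2 : a ∈ A ⊓ conjBy A b := ⟨ha, hmem⟩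
    rw [h1, Subgroup.mem_bot] at h2
    exact ha1 h2
  · have hle : ⁅A, B⁆ ≤ A := by
      rw [← hc.2.2.2 b hb hb1, Subgroup.closure_le]
      rintro x ⟨a', ha', rfl⟩
      have h3 : b * a'⁻¹ * b⁻¹ ∈ conjBy A b := conj_mem_conjBy (A.inv_mem ha') b
      rw [← h1] at h3
      have h4 := A.mul_mem ha' h3
      have e : a' * (b * a'⁻¹ * b⁻¹) = a' * b * a'⁻¹ * b⁻¹ := by group
      rw [e] at h4
      exact h4
    rw [inf_eq_right.mpr hle] at hACbot
    exact hS.ne_bot _ hc.1 hACbot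

/-- The commutator map `b ↦ a⁻¹ b⁻¹ a b` is an isomorphism `B ≃* ⁅A, B⁆`. -/
theorem commIso (hS : IsRootSubgroupSet S) (hA : A ∈ S) {D : Subgroup G} (hD : D ∈ S)
    (hp : IsRankOnePair A D) (hB : B ∈ S) (hc : RootCommutatorCase S A B) {a : G} (ha : a ∈ A)
    (ha1 : a ≠ 1) : ∃ φ : ↥B ≃* ↥⁅A, B⁆, ∀ b : ↥B, (φ b : G) = a⁻¹ * (b : G)⁻¹ * a * b := by
  have hmem : ∀ b : ↥B, a⁻¹ * (b : G)⁻¹ * a * b ∈ ⁅A, B⁆ := by
    intro b
    have h1 := Subgroup.commutator_mem_commutator (A.inv_mem ha) (B.inv_mem b.2)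
    rw [commutatorElement_def] at h1
    simpa using h1
  let φ : ↥B →* ↥⁅A, B⁆ :=
    { toFun := fun b => ⟨a⁻¹ * (b : G)⁻¹ * a * b, hmem b⟩
      map_one' := by
        apply Subtype.ext
        simp
      map_mul' := by
        intro b b'
        apply Subtype.ext
        simp only [Subgroup.coe_mul]
        have hcomm := hc.2.1 _ (hmem b) (a⁻¹ * (b' : G)⁻¹ * a)
          (Subgroup.mul_mem _ (Subgroup.mul_mem _ (Subgroup.mem_sup_left (A.inv_mem ha))
            (Subgroup.mem_sup_right (B.inv_mem b'.2))) (Subgroup.mem_sup_left ha))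
        calc a⁻¹ * ((b : G) * (b' : G))⁻¹ * a * ((b : G) * (b' : G))
            = (a⁻¹ * (b' : G)⁻¹ * a) * (a⁻¹ * (b : G)⁻¹ * a * b) * b' := by group
          _ = (a⁻¹ * (b : G)⁻¹ * a * b) * (a⁻¹ * (b' : G)⁻¹ * a) * b' := by rw [hcomm]
          _ = (a⁻¹ * (b : G)⁻¹ * a * b) * (a⁻¹ * (b' : G)⁻¹ * a * b') := by group }
  have hφ : ∀ b : ↥B, (φ b : G) = a⁻¹ * (b : G)⁻¹ * a * b := fun b => rfl
  have hinj : Function.Injective φ := by
    rw [injective_iff_map_eq_one]
    intro b hb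
    have h1 : a⁻¹ * (b : G)⁻¹ * a * b = 1 := by
      rw [← hφ b, hb]; rfl
    have hab : a * (b : G) = b * a := by
      have e : a * (b : G) = b * a * (a⁻¹ * (b : G)⁻¹ * a * b) := by group
      rw [e, h1, mul_one]
    apply Subtype.ext
    exact eq_one_of_comm hS hA hD hp hB hc ha ha1 b.2 hab
  have hsurj : Function.Surjective φ := by
    intro c
    have hgen := hc.2.2.1 a⁻¹ (A.inv_mem ha) (by simpa using ha1)
    have hle : Subgroup.closure ((fun b => a⁻¹ * b * a⁻¹⁻¹ * b⁻¹) '' (B : Set G)) ≤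
        (φ.range).map (⁅A, B⁆).subtype := by
      rw [Subgroup.closure_le]
      rintro x ⟨b, hb, rfl⟩
      refine ⟨φ ⟨b⁻¹, B.inv_mem hb⟩, ⟨_, rfl⟩, ?_⟩
      simp only [Subgroup.coe_subtype]
      rw [hφ]
      simp
    have hc' : (c : G) ∈ Subgroup.closure ((fun b => a⁻¹ * b * a⁻¹⁻¹ * b⁻¹) '' (B : Set G)) := by
      rw [hgen]; exact c.2
    obtain ⟨y, ⟨b, rfl⟩, hy⟩ := hle hc'
    exact ⟨b, Subtype.ext hy⟩
  exact ⟨MulEquiv.ofBijective φ ⟨hinj, hsurj⟩, fun b => rfl⟩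

end Cfsg.Agent.Lib.Helper83.RootSub2
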