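import Mathlib
import Cfsg.Prelude.Def_RootSubgroups
import Cfsg.Agent.Lib.Helper83.RankOne
import Cfsg.Agent.Lib.Helper83.RootSub
import Cfsg.Agent.Lib.Helper83.RootSub2

/-!
# Generic tools: elementwise commuting subgroups, commutators of joins, a nilpotency criterion,
and basic consequences of the commutator case.
-/

set_option autoImplicit false

namespace Cfsg.Agent.Lib.Helper83.Triple

open Cfsg Cfsg.Agent.Lib.Helper83.RankOne Cfsg.Agent.Lib.Helper83.RootSub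
open Cfsg.Agent.Lib.Helper83.RootSub2
open scoped commutatorElement

variable {G : Type*} [Group G]

/-- Elementwise commuting subgroups. -/
def Cm (H K : Subgroup G) : Prop := ∀ x ∈ H, ∀ y ∈ K, x * y = y * x

theorem Cm.symm {H K : Subgroup G} (h : Cm H K) : Cm K H := fun x hx y hy => (h y hy x hx).symm

theorem Cm.mono {H K H' K' : Subgroup G} (h : Cm H K) (hH : H' ≤ H) (hK : K' ≤ K) : Cm H' K' :=
  fun x hx y hy => h x (hH hx) y (hK hy)

theorem Cm.sup_right {H K₁ K₂ : Subgroup G} (h₁ : Cm H K₁) (h₂ : Cm H K₂) : Cm H (K₁ ⊔ K₂) := by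
  intro x hx y hy
  refine sup_induction_gen (P := fun y => x * y = y * x) (h₁ x hx) (h₂ x hx) (by simp) ?_ hy
  intro y z hy hz
  rw [← mul_assoc, hy, mul_assoc, hz, mul_assoc]

theorem Cm.sup_left {H₁ H₂ K : Subgroup G} (h₁ : Cm H₁ K) (h₂ : Cm H₂ K) : Cm (H₁ ⊔ H₂) K :=
  (h₁.symm.sup_right h₂.symm).symm

theorem cm_iff_bot {H K : Subgroup G} : Cm H K ↔ ⁅H, K⁆ = ⊥ :=
  ⟨commutator_eq_bot_of_comm, fun h _ hx _ hy => comm_of_commutator_eq_bot h hx hy⟩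

theorem Cm.commutator_right {H K₁ K₂ : Subgroup G} (h₁ : Cm H K₁) (h₂ : Cm H K₂) :
    Cm H ⁅K₁, K₂⁆ :=
  (h₁.sup_right h₂).mono le_rfl (Subgroup.commutator_le_sup K₁ K₂)

theorem Cm.conjBy_eq {H K : Subgroup G} (h : Cm H K) {x : G} (hx : x ∈ H) : conjBy K x = K :=
  conjBy_eq_of_commute (h x hx)

theorem Cm.conj {H K : Subgroup G} (h : Cm H K) (g : G) : Cm (conjBy H g) (conjBy K g) := by
  intro x hx y hy
  rw [mem_conjBy] at hx hy
  have h1 := h _ hx _ hy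
  have e1 : x * y = g * (g⁻¹ * x * g * (g⁻¹ * y * g)) * g⁻¹ := by group
  have e2 : y * x = g * (g⁻¹ * y * g * (g⁻¹ * x * g)) * g⁻¹ := by group
  rw [e1, e2, h1]

theorem Cm.le_normalizer {H K : Subgroup G} (h : Cm H K) :
    H ≤ Subgroup.normalizer (K : Set G) :=
  fun _ hx => mem_normalizer_iff_conjBy.mpr (h.conjBy_eq hx)

theorem cm_self_of_comm {H : Subgroup G} (h : IsMulCommutative ↥H) : Cm H H := by
  intro x hx y hy
  have := (isMulCommutative_iff.mp h) ⟨x, hx⟩ ⟨y, hy⟩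
  exact congrArg Subtype.val this

theorem comm_of_cm_self {H : Subgroup G} (h : Cm H H) : IsMulCommutative ↥H := by
  rw [isMulCommutative_iff]
  rintro ⟨x, hx⟩ ⟨y, hy⟩
  exact Subtype.ext (h x hx y hy)

theorem le_normalizer_of_conj_le {H Z : Subgroup G} (h : ∀ x ∈ H, conjBy Z x ≤ Z) :
    H ≤ Subgroup.normalizer (Z : Set G) := by
  intro x hx
  rw [mem_normalizer_iff_conjBy]
  apply le_antisymm (h x hx)
  have h1 := h x⁻¹ (H.inv_mem hx)
  have h2 := conjBy_mono h1 x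
  rwa [conjBy_inv_cancel'] at h2

theorem conj_mem_of_le_normalizer {H Z : Subgroup G} (h : H ≤ Subgroup.normalizer (Z : Set G))
    {x z : G} (hx : x ∈ H) (hz : z ∈ Z) : x * z * x⁻¹ ∈ Z := by
  have h1 := mem_normalizer_iff_conjBy.mp (h hx)
  have h2 : x * z * x⁻¹ ∈ conjBy Z x := conj_mem_conjBy hz x
  rwa [h1] at h2

/-- Commutator of a join, left variable. -/
theorem commutator_sup_le {H₁ H₂ K Z : Subgroup G}
    (hn₁ : H₁ ≤ Subgroup.normalizer (Z : Set G)) (hn₂ : H₂ ≤ Subgroup.normalizer (Z : Set G))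
    (h₁ : ⁅H₁, K⁆ ≤ Z) (h₂ : ⁅H₂, K⁆ ≤ Z) : ⁅H₁ ⊔ H₂, K⁆ ≤ Z := by
  rw [Subgroup.commutator_le]
  intro x hx k hk
  have hn : H₁ ⊔ H₂ ≤ Subgroup.normalizer (Z : Set G) := sup_le hn₁ hn₂
  have key : x ∈ H₁ ⊔ H₂ ∧ ⁅x, k⁆ ∈ Z := by
    refine sup_induction_gen (P := fun x => x ∈ H₁ ⊔ H₂ ∧ ⁅x, k⁆ ∈ Z) ?_ ?_ ?_ ?_ hx
    · intro a ha
      exact ⟨Subgroup.mem_sup_left ha, h₁ (Subgroup.commutator_mem_commutator ha hk)⟩
    · intro a ha
      exact ⟨Subgroup.mem_sup_right ha, h₂ (Subgroup.commutator_mem_commutator ha hk)⟩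
    · refine ⟨Subgroup.one_mem _, ?_⟩
      rw [commutatorElement_one_left]
      exact Z.one_mem
    · rintro x y ⟨hx, hxk⟩ ⟨hy, hyk⟩
      refine ⟨Subgroup.mul_mem _ hx hy, ?_⟩
      have e : ⁅x * y, k⁆ = x * ⁅y, k⁆ * x⁻¹ * ⁅x, k⁆ := by
        simp only [commutatorElement_def]; group
      rw [e]
      exact Z.mul_mem (conj_mem_of_le_normalizer hn hx hyk) hxk
  exact key.2

/-- Commutator of a join, right variable. -/
theorem commutator_le_of_sup {H₁ H₂ K Z : Subgroup G}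
    (hn₁ : H₁ ≤ Subgroup.normalizer (Z : Set G)) (hn₂ : H₂ ≤ Subgroup.normalizer (Z : Set G))
    (h₁ : ⁅K, H₁⁆ ≤ Z) (h₂ : ⁅K, H₂⁆ ≤ Z) : ⁅K, H₁ ⊔ H₂⁆ ≤ Z := by
  rw [Subgroup.commutator_comm]
  apply commutator_sup_le hn₁ hn₂
  · rwa [Subgroup.commutator_comm]
  · rwa [Subgroup.commutator_comm]

/-- Commutator of a triple join with itself. -/
theorem commutator_sup3_le {A B C Z : Subgroup G}
    (hnA : A ≤ Subgroup.normalizer (Z : Set G)) (hnB : B ≤ Subgroup.normalizer (Z : Set G))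
    (hnC : C ≤ Subgroup.normalizer (Z : Set G))
    (hAA : ⁅A, A⁆ ≤ Z) (hAB : ⁅A, B⁆ ≤ Z) (hAC : ⁅A, C⁆ ≤ Z) (hBB : ⁅B, B⁆ ≤ Z)
    (hBC : ⁅B, C⁆ ≤ Z) (hCC : ⁅C, C⁆ ≤ Z) : ⁅A ⊔ B ⊔ C, A ⊔ B ⊔ C⁆ ≤ Z := by
  have hBA : ⁅B, A⁆ ≤ Z := by rwa [Subgroup.commutator_comm]
  have hCA : ⁅C, A⁆ ≤ Z := by rwa [Subgroup.commutator_comm]
  have hCB : ⁅C, B⁆ ≤ Z := by rwa [Subgroup.commutator_comm]
  have hnAB : A ⊔ B ≤ Subgroup.normalizer (Z : Set G) := sup_le hnA hnB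
  apply commutator_sup_le hnAB hnC
  · apply commutator_sup_le hnA hnB
    · exact commutator_le_of_sup hnAB hnC (commutator_le_of_sup hnA hnB hAA hAB) hAC
    · exact commutator_le_of_sup hnAB hnC (commutator_le_of_sup hnA hnB hBA hBB) hBC
  · exact commutator_le_of_sup hnAB hnC (commutator_le_of_sup hnA hnB hCA hCB) hCC

/-- A subgroup with a central chain of length four is nilpotent. -/
theorem nilpotent_of_chain {R K₁ K₂ K₃ : Subgroup G} (h1 : ⁅R, R⁆ ≤ K₁) (h2 : ⁅K₁, R⁆ ≤ K₂)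
    (h3 : ⁅K₂, R⁆ ≤ K₃) (h4 : ⁅K₃, R⁆ = ⊥) : Group.IsNilpotent ↥R := by
  rw [Subgroup.nilpotent_iff_finite_descending_central_series]
  refine ⟨4, fun i => match i with
    | 0 => ⊤
    | 1 => K₁.subgroupOf R
    | 2 => K₂.subgroupOf R
    | 3 => K₃.subgroupOf R
    | _ => ⊥, ⟨rfl, ?_⟩, rfl⟩
  intro x n hx g
  have hcoe : ((x * g * x⁻¹ * g⁻¹ : ↥R) : G) = ⁅(x : G), (g : G)⁆ := by
    simp [commutatorElement_def]
  match n, hx with
  | 0, _ =>
    show x * g * x⁻¹ * g⁻¹ ∈ K₁.subgroupOf R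
    rw [Subgroup.mem_subgroupOf, hcoe]
    exact h1 (Subgroup.commutator_mem_commutator x.2 g.2)
  | 1, hx =>
    show x * g * x⁻¹ * g⁻¹ ∈ K₂.subgroupOf R
    rw [Subgroup.mem_subgroupOf, hcoe]
    exact h2 (Subgroup.commutator_mem_commutator (Subgroup.mem_subgroupOf.mp hx) g.2)
  | 2, hx =>
    show x * g * x⁻¹ * g⁻¹ ∈ K₃.subgroupOf R
    rw [Subgroup.mem_subgroupOf, hcoe]
    exact h3 (Subgroup.commutator_mem_commutator (Subgroup.mem_subgroupOf.mp hx) g.2)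
  | 3, hx =>
    show x * g * x⁻¹ * g⁻¹ ∈ (⊥ : Subgroup ↥R)
    rw [Subgroup.mem_bot]
    apply Subtype.ext
    rw [hcoe]
    have := Subgroup.commutator_mem_commutator (Subgroup.mem_subgroupOf.mp hx) g.2
    rw [h4, Subgroup.mem_bot] at this
    simpa using this
  | (n + 4), hx =>
    show x * g * x⁻¹ * g⁻¹ ∈ (⊥ : Subgroup ↥R)
    have hx1 : x = 1 := Subgroup.mem_bot.mp hx
    rw [hx1, Subgroup.mem_bot]
    group

/-! ### Consequences of the commutator case -/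

variable {S : Set (Subgroup G)} {P Q : Subgroup G}

theorem commCase_cm (hc : RootCommutatorCase S P Q) : Cm ⁅P, Q⁆ (P ⊔ Q) := hc.2.1

theorem closure_image_inv_eq (f g : G → G) (T : Set G) (h : ∀ t ∈ T, f t = (g t)⁻¹) :
    Subgroup.closure (f '' T) = Subgroup.closure (g '' T) := by
  apply le_antisymm
  · rw [Subgroup.closure_le]
    rintro _ ⟨t, ht, rfl⟩
    rw [h t ht]
    exact Subgroup.inv_mem _ (Subgroup.subset_closure ⟨t, ht, rfl⟩)
  · rw [Subgroup.closure_le]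
    rintro _ ⟨t, ht, rfl⟩
    have e : g t = (f t)⁻¹ := by rw [h t ht, inv_inv]
    rw [e]
    exact Subgroup.inv_mem _ (Subgroup.subset_closure ⟨t, ht, rfl⟩)

theorem commCase_symm (hc : RootCommutatorCase S P Q) : RootCommutatorCase S Q P := by
  have e : ⁅Q, P⁆ = ⁅P, Q⁆ := Subgroup.commutator_comm Q P
  refine ⟨e ▸ hc.1, ?_, ?_, ?_⟩
  · intro c hc' x hx
    rw [e] at hc'
    rw [sup_comm] at hx
    exact hc.2.1 c hc' x hx
  · intro q hq hq1
    rw [e, ← hc.2.2.2 q hq hq1]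
    apply closure_image_inv_eq
    intro p _
    group
  · intro p hp hp1
    rw [e, ← hc.2.2.1 p hp hp1]
    apply closure_image_inv_eq
    intro q _
    group

theorem exists_noncomm_right (hS : IsRootSubgroupSet S) (hc : RootCommutatorCase S P Q) {p : G}
    (hp : p ∈ P) (hp1 : p ≠ 1) : ∃ q ∈ Q, p * q ≠ q * p := by
  by_contra hcon
  push Not at hcon
  apply hS.ne_bot _ hc.1
  rw [← hc.2.2.1 p hp hp1, Subgroup.closure_eq_bot_iff]
  rintro _ ⟨q, hq, rfl⟩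
  show p * q * p⁻¹ * q⁻¹ = 1
  rw [hcon q hq]
  group

theorem exists_noncomm_left (hS : IsRootSubgroupSet S) (hc : RootCommutatorCase S P Q) {q : G}
    (hq : q ∈ Q) (hq1 : q ≠ 1) : ∃ p ∈ P, p * q ≠ q * p := by
  by_contra hcon
  push Not at hcon
  apply hS.ne_bot _ hc.1
  rw [← hc.2.2.2 q hq hq1, Subgroup.closure_eq_bot_iff]
  rintro _ ⟨p, hp, rfl⟩
  show p * q * p⁻¹ * q⁻¹ = 1
  rw [hcon p hp]
  group

/-- If `Q` has exponent two, so has the commutator. -/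
theorem sq_of_commCase (hS : IsRootSubgroupSet S) (hP : P ∈ S) (hc : RootCommutatorCase S P Q)
    (hQ : ∀ q ∈ Q, q * q = 1) : ∀ x ∈ ⁅P, Q⁆, x * x = 1 := by
  obtain ⟨p, hp, hp1⟩ := exists_mem_ne_one (hS.ne_bot P hP)
  have hcm : Cm ⁅P, Q⁆ ⁅P, Q⁆ := (commCase_cm hc).mono le_rfl (Subgroup.commutator_le_sup P Q)
  intro x hx
  have key : x ∈ ⁅P, Q⁆ ∧ x * x = 1 := by
    rw [← hc.2.2.1 p hp hp1] at hx
    induction hx using Subgroup.closure_induction with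
    | mem y hy =>
      obtain ⟨q, hq, rfl⟩ := hy
      have hmem : p * q * p⁻¹ * q⁻¹ ∈ ⁅P, Q⁆ := Subgroup.commutator_mem_commutator hp hq
      refine ⟨hmem, ?_⟩
      have hcomm := hc.2.1 _ hmem q (Subgroup.mem_sup_right hq)
      show p * q * p⁻¹ * q⁻¹ * (p * q * p⁻¹ * q⁻¹) = 1
      have e1 : p * q * p⁻¹ * q⁻¹ * (p * q * p⁻¹ * q⁻¹)
          = p * q * p⁻¹ * q⁻¹ * (p * q * p⁻¹ * q⁻¹ * q) * q⁻¹ := by group
      have e2 : p * q * p⁻¹ * q⁻¹ * (q * (p * q * p⁻¹ * q⁻¹)) * q⁻¹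
          = p * (q * q) * p⁻¹ * (q * q)⁻¹ := by group
      rw [e1, hcomm, e2, hQ q hq]
      group
    | one => exact ⟨Subgroup.one_mem _, by simp⟩
    | mul y z _ _ hy hz =>
      refine ⟨Subgroup.mul_mem _ hy.1 hz.1, ?_⟩
      have h1 := hcm y hy.1 z hz.1
      calc y * z * (y * z) = y * (z * y) * z := by group
        _ = y * (y * z) * z := by rw [h1]
        _ = (y * y) * (z * z) := by group
        _ = 1 := by rw [hy.2, hz.2, one_mul]
    | inv y _ hy =>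
      refine ⟨Subgroup.inv_mem _ hy.1, ?_⟩
      calc y⁻¹ * y⁻¹ = (y * y)⁻¹ := by group
        _ = 1 := by rw [hy.2, inv_one]
  exact key.2

end Cfsg.Agent.Lib.Helper83.Triple
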