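import Mathlib
import Cfsg.Prelude.Def_RootSubgroups
import Cfsg.Agent.Lib.Helper83.RankOne
import Cfsg.Agent.Lib.Helper83.RootSub
import Cfsg.Agent.Lib.Helper83.RootSub2
import Cfsg.Agent.Lib.Helper83.Triple
import Cfsg.Agent.S5025

/-!
# Three root subgroups `A, B, C` with `⁅A, B⁆, ⁅C, B⁆ ∈ S` and `A, C` commuting
-/

set_option autoImplicit false

namespace Cfsg.Agent.Lib.Helper83.Trip

open Cfsg Cfsg.Agent.Lib.Helper83.RankOne Cfsg.Agent.Lib.Helper83.RootSub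
open Cfsg.Agent.Lib.Helper83.RootSub2 Cfsg.Agent.Lib.Helper83.Triple
open scoped commutatorElement

variable {G : Type*} [Group G] {S : Set (Subgroup G)}

/-- The hypotheses on the triple, in a form symmetric in `A` and `C`. -/
structure Tri (S : Set (Subgroup G)) (A B C : Subgroup G) : Prop where
  hS : IsRootSubgroupSet S
  hA : A ∈ S
  hB : B ∈ S
  hC : C ∈ S
  hAB : RootCommutatorCase S A B
  hCB : RootCommutatorCase S C B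
  hAC : Cm A C
  hne : A ≠ C

namespace Tri

variable {A B C : Subgroup G}

theorem symm (T : Tri S A B C) : Tri S C B A :=
  ⟨T.hS, T.hC, T.hB, T.hA, T.hCB, T.hAB, T.hAC.symm, T.hne.symm⟩

theorem cmAA (T : Tri S A B C) : Cm A A := cm_self_of_comm (T.hS.commutative A T.hA)

theorem cmBB (T : Tri S A B C) : Cm B B := cm_self_of_comm (T.hS.commutative B T.hB)

theorem cmCC (T : Tri S A B C) : Cm C C := cm_self_of_comm (T.hS.commutative C T.hC)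

theorem cmNA (T : Tri S A B C) : Cm ⁅A, B⁆ A := (commCase_cm T.hAB).mono le_rfl le_sup_left

theorem cmNB (T : Tri S A B C) : Cm ⁅A, B⁆ B := (commCase_cm T.hAB).mono le_rfl le_sup_right

theorem cmMC (T : Tri S A B C) : Cm ⁅C, B⁆ C := T.symm.cmNA

theorem cmMB (T : Tri S A B C) : Cm ⁅C, B⁆ B := T.symm.cmNB

theorem cmNN (T : Tri S A B C) : Cm ⁅A, B⁆ ⁅A, B⁆ :=
  cm_self_of_comm (T.hS.commutative _ T.hAB.1)

theorem cmMM (T : Tri S A B C) : Cm ⁅C, B⁆ ⁅C, B⁆ := T.symm.cmNN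

theorem conjC_le (_T : Tri S A B C) {b' : G} (hb' : b' ∈ B) : conjBy C b' ≤ ⁅C, B⁆ ⊔ C := by
  have := conjBy_le_commutator_sup (C := C) hb'
  rwa [Subgroup.commutator_comm] at this

theorem conjA_le (T : Tri S A B C) {b' : G} (hb' : b' ∈ B) : conjBy A b' ≤ ⁅A, B⁆ ⊔ A :=
  T.symm.conjC_le hb'

theorem N_le (T : Tri S A B C) {b' : G} (hb' : b' ∈ B) (hb'1 : b' ≠ 1) :
    ⁅A, B⁆ ≤ A ⊔ conjBy A b' := by
  rw [← T.hAB.2.2.2 b' hb' hb'1, Subgroup.closure_le]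
  rintro _ ⟨a, ha, rfl⟩
  have h1 : b' * a⁻¹ * b'⁻¹ ∈ conjBy A b' := conj_mem_conjBy (A.inv_mem ha) b'
  have e : a * b' * a⁻¹ * b'⁻¹ = a * (b' * a⁻¹ * b'⁻¹) := by group
  show a * b' * a⁻¹ * b'⁻¹ ∈ A ⊔ conjBy A b'
  rw [e]
  exact Subgroup.mul_mem _ (Subgroup.mem_sup_left ha) (Subgroup.mem_sup_right h1)

theorem M_le (T : Tri S A B C) {b' : G} (hb' : b' ∈ B) (hb'1 : b' ≠ 1) :
    ⁅C, B⁆ ≤ C ⊔ conjBy C b' := T.symm.N_le hb' hb'1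

/-- `A` and `⁅C, B⁆` are not a rank one pair. -/
theorem not_rankOne (T : Tri S A B C) : ¬ IsRankOnePair A ⁅C, B⁆ := by
  intro hp
  obtain ⟨b, hb, hb1⟩ := exists_mem_ne_one (T.hS.ne_bot B T.hB)
  obtain ⟨c, hc, hcb⟩ := exists_noncomm_left T.hS T.hCB hb hb1
  have hc1 : c ≠ 1 := by
    rintro rfl
    exact hcb (by simp)
  have hm : c⁻¹ * b⁻¹ * c * b ∈ ⁅C, B⁆ := by
    have := Subgroup.commutator_mem_commutator (C.inv_mem hc) (B.inv_mem hb)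
    rw [commutatorElement_def] at this
    simpa using this
  have hm1 : c⁻¹ * b⁻¹ * c * b ≠ 1 := by
    intro h
    apply hcb
    have : c * b = b * c * (c⁻¹ * b⁻¹ * c * b) := by group
    rw [this, h, mul_one]
  have hz : c ∈ Subgroup.centralizer ((⁅C, B⁆ ⊔ A : Subgroup G) : Set G) := by
    rw [Subgroup.mem_centralizer_iff]
    intro x hx
    exact ((T.cmMC.symm.sup_right T.hAC.symm) c hc x hx).symm
  have h0 := Cfsg.Agent.S5025.result T.hS T.hCB.1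
    (show A ∈ rankOnePartners S ⁅C, B⁆ from ⟨T.hA, RankOnePair_symm hp⟩) hz hc1 _ hm hm1
  apply h0
  refine ⟨?_, conjBy C b⁻¹, T.hS.conj_mem C T.hC b⁻¹, ?_⟩
  · intro h
    apply hc1
    have : c = b * (c * (c⁻¹ * b⁻¹ * c * b)) * b⁻¹ := by group
    rw [this, h]
    group
  · rw [mem_conjBy]
    have : b⁻¹⁻¹ * (c * (c⁻¹ * b⁻¹ * c * b)) * b⁻¹ = c := by group
    rw [this]
    exact hc

/-- Dichotomy for `A` and `⁅C, B⁆`. -/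
theorem dich (T : Tri S A B C) : Cm A ⁅C, B⁆ ∨ RootCommutatorCase S A ⁅C, B⁆ := by
  rcases T.hS.pair A T.hA _ T.hCB.1 with h | h | h
  · exact Or.inl (cm_iff_bot.mpr h)
  · exact absurd h T.not_rankOne
  · exact Or.inr h

/-- Three subgroups lemma. -/
theorem cm_rotate (T : Tri S A B C) (h : Cm A ⁅C, B⁆) : Cm C ⁅A, B⁆ := by
  rw [cm_iff_bot, Subgroup.commutator_comm]
  apply Subgroup.commutator_commutator_eq_bot_of_rotate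
  · rw [Subgroup.commutator_comm B C, Subgroup.commutator_comm]
    exact cm_iff_bot.mp h
  · rw [cm_iff_bot.mp T.hAC.symm]
    exact Subgroup.commutator_bot_left _

/-- `X = ⟨A, C^b⟩` and `Y = ⟨A^b, C⟩` commute. -/
theorem cmXY (T : Tri S A B C) {b' : G} (hb' : b' ∈ B) :
    Cm (A ⊔ conjBy C b') (conjBy A b' ⊔ C) := by
  have h1 : Cm A (conjBy A b') :=
    (T.cmNA.symm.sup_right T.cmAA).mono le_rfl (T.conjA_le hb')
  have h2 : Cm A C := T.hAC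
  have h3 : Cm (conjBy C b') (conjBy A b') := (T.hAC.symm).conj b'
  have h4 : Cm (conjBy C b') C :=
    ((T.cmMC.symm.sup_right T.cmCC).mono le_rfl (T.conjC_le hb')).symm
  exact (h1.sup_right h2).sup_left (h3.sup_right h4)

/-- `XY` is normalised by `⟨A, B, C⟩`. -/
theorem normal_W (T : Tri S A B C) {b : G} (hb : b ∈ B) (hb1 : b ≠ 1) :
    A ⊔ B ⊔ C ≤ Subgroup.normalizer
      (((A ⊔ conjBy C b) ⊔ (conjBy A b ⊔ C) : Subgroup G) : Set G) := by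
  have hAW : A ≤ (A ⊔ conjBy C b) ⊔ (conjBy A b ⊔ C) := le_sup_of_le_left le_sup_left
  have hCW : C ≤ (A ⊔ conjBy C b) ⊔ (conjBy A b ⊔ C) := le_sup_of_le_right le_sup_right
  have hA'W : conjBy A b ≤ (A ⊔ conjBy C b) ⊔ (conjBy A b ⊔ C) := le_sup_of_le_right le_sup_left
  have hC'W : conjBy C b ≤ (A ⊔ conjBy C b) ⊔ (conjBy A b ⊔ C) := le_sup_of_le_left le_sup_right
  have hNW : ⁅A, B⁆ ≤ (A ⊔ conjBy C b) ⊔ (conjBy A b ⊔ C) :=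
    (T.N_le hb hb1).trans (sup_le hAW hA'W)
  have hMW : ⁅C, B⁆ ≤ (A ⊔ conjBy C b) ⊔ (conjBy A b ⊔ C) :=
    (T.M_le hb hb1).trans (sup_le hCW hC'W)
  have hconjA : ∀ b' ∈ B, conjBy A b' ≤ (A ⊔ conjBy C b) ⊔ (conjBy A b ⊔ C) :=
    fun b' hb' => (T.conjA_le hb').trans (sup_le hNW hAW)
  have hconjC : ∀ b' ∈ B, conjBy C b' ≤ (A ⊔ conjBy C b) ⊔ (conjBy A b ⊔ C) :=
    fun b' hb' => (T.conjC_le hb').trans (sup_le hMW hCW)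
  refine sup_le (sup_le ?_ ?_) ?_
  · intro x hx
    exact mem_normalizer_iff_conjBy.mpr (conjBy_of_mem (hAW hx))
  · apply le_normalizer_of_conj_le
    intro b' hb'
    rw [conjBy_sup, conjBy_sup, conjBy_sup, conjBy_conjBy, conjBy_conjBy]
    exact sup_le (sup_le (hconjA b' hb') (hconjC _ (B.mul_mem hb' hb)))
      (sup_le (hconjA _ (B.mul_mem hb' hb)) (hconjC b' hb'))
  · intro x hx
    exact mem_normalizer_iff_conjBy.mpr (conjBy_of_mem (hCW hx))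

/-! ### The commuting case -/

theorem cmX_of_cm (T : Tri S A B C) (h : Cm A ⁅C, B⁆) {b' : G} (hb' : b' ∈ B) :
    Cm (A ⊔ conjBy C b') (A ⊔ conjBy C b') := by
  have hX : A ⊔ conjBy C b' ≤ A ⊔ (⁅C, B⁆ ⊔ C) := sup_le_sup le_rfl (T.conjC_le hb')
  have h1 : Cm A (A ⊔ (⁅C, B⁆ ⊔ C)) := T.cmAA.sup_right (h.sup_right T.hAC)
  have h2 : Cm (⁅C, B⁆ ⊔ C) (A ⊔ (⁅C, B⁆ ⊔ C)) := by
    refine Cm.sup_left ?_ ?_
    · exact h.symm.sup_right (T.cmMM.sup_right T.cmMC)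
    · exact T.hAC.symm.sup_right (T.cmMC.symm.sup_right T.cmCC)
  exact (h1.sup_left h2).mono hX hX

theorem nilpotent_of_cm (T : Tri S A B C) (h : Cm A ⁅C, B⁆) :
    Group.IsNilpotent ↥(A ⊔ B ⊔ C) := by
  have h' := T.cm_rotate h
  have cN : Cm ⁅A, B⁆ (A ⊔ B ⊔ C) := (T.cmNA.sup_right T.cmNB).sup_right h'.symm
  have cM : Cm ⁅C, B⁆ (A ⊔ B ⊔ C) := (h.symm.sup_right T.cmMB).sup_right T.cmMC
  have cZ : Cm (⁅A, B⁆ ⊔ ⁅C, B⁆) (A ⊔ B ⊔ C) := cN.sup_left cM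
  have hn : A ⊔ B ⊔ C ≤ Subgroup.normalizer ((⁅A, B⁆ ⊔ ⁅C, B⁆ : Subgroup G) : Set G) :=
    cZ.symm.le_normalizer
  apply nilpotent_of_chain (K₁ := ⁅A, B⁆ ⊔ ⁅C, B⁆) (K₂ := ⊥) (K₃ := ⊥)
  · apply commutator_sup3_le ((le_sup_left.trans le_sup_left).trans hn)
      ((le_sup_right.trans le_sup_left).trans hn) (le_sup_right.trans hn)
    · rw [cm_iff_bot.mp T.cmAA]; exact bot_le
    · exact le_sup_left
    · rw [cm_iff_bot.mp T.hAC]; exact bot_le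
    · rw [cm_iff_bot.mp T.cmBB]; exact bot_le
    · rw [Subgroup.commutator_comm]; exact le_sup_right
    · rw [cm_iff_bot.mp T.cmCC]; exact bot_le
  · rw [cm_iff_bot.mp cZ]
  · rw [Subgroup.commutator_bot_left]
  · exact Subgroup.commutator_bot_left _

/-! ### The commutator case -/

theorem not_cmX (T : Tri S A B C) (h1 : RootCommutatorCase S A ⁅C, B⁆) {b' : G} (hb' : b' ∈ B)
    (hb'1 : b' ≠ 1) : ¬ Cm (A ⊔ conjBy C b') (A ⊔ conjBy C b') := by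
  intro hX
  have hAM : Cm A ⁅C, B⁆ :=
    (T.hAC.sup_right (hX.mono le_sup_left le_sup_right)).mono le_rfl (T.M_le hb' hb'1)
  exact T.hS.ne_bot _ h1.1 (cm_iff_bot.mp hAM)

theorem cmLA (_T : Tri S A B C) (h1 : RootCommutatorCase S A ⁅C, B⁆) : Cm ⁅A, ⁅C, B⁆⁆ A :=
  (commCase_cm h1).mono le_rfl le_sup_left

theorem cmLM (_T : Tri S A B C) (h1 : RootCommutatorCase S A ⁅C, B⁆) :
    Cm ⁅A, ⁅C, B⁆⁆ ⁅C, B⁆ :=
  (commCase_cm h1).mono le_rfl le_sup_right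

theorem cmLC (T : Tri S A B C) : Cm ⁅A, ⁅C, B⁆⁆ C :=
  (T.hAC.symm.commutator_right T.cmMC.symm).symm

theorem class2_X (T : Tri S A B C) (h1 : RootCommutatorCase S A ⁅C, B⁆) {b' : G} (hb' : b' ∈ B) :
    ⁅⁅A ⊔ conjBy C b', A ⊔ conjBy C b'⁆, A ⊔ conjBy C b'⁆ = ⊥ := by
  have hX : A ⊔ conjBy C b' ≤ A ⊔ ⁅C, B⁆ ⊔ C := by
    rw [sup_assoc]
    exact sup_le_sup le_rfl (T.conjC_le hb')
  have cL : Cm ⁅A, ⁅C, B⁆⁆ (A ⊔ ⁅C, B⁆ ⊔ C) := ((T.cmLA h1).sup_right (T.cmLM h1)).sup_right T.cmLC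
  have hle : ⁅A ⊔ ⁅C, B⁆ ⊔ C, A ⊔ ⁅C, B⁆ ⊔ C⁆ ≤ ⁅A, ⁅C, B⁆⁆ := by
    apply commutator_sup3_le (T.cmLA h1).symm.le_normalizer (T.cmLM h1).symm.le_normalizer
      T.cmLC.symm.le_normalizer
    · rw [cm_iff_bot.mp T.cmAA]; exact bot_le
    · exact le_rfl
    · rw [cm_iff_bot.mp T.hAC]; exact bot_le
    · rw [cm_iff_bot.mp T.cmMM]; exact bot_le
    · rw [cm_iff_bot.mp T.cmMC]; exact bot_le
    · rw [cm_iff_bot.mp T.cmCC]; exact bot_le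
  rw [eq_bot_iff]
  calc ⁅⁅A ⊔ conjBy C b', A ⊔ conjBy C b'⁆, A ⊔ conjBy C b'⁆
      ≤ ⁅⁅A ⊔ ⁅C, B⁆ ⊔ C, A ⊔ ⁅C, B⁆ ⊔ C⁆, A ⊔ ⁅C, B⁆ ⊔ C⁆ :=
        Subgroup.commutator_mono (Subgroup.commutator_mono hX hX) hX
    _ ≤ ⁅⁅A, ⁅C, B⁆⁆, A ⊔ ⁅C, B⁆ ⊔ C⁆ := Subgroup.commutator_mono hle le_rfl
    _ = ⊥ := cm_iff_bot.mp cL

/-- `L = ⁅A, ⁅C, B⁆⁆` lies in `X = ⟨A, C^b⟩`. -/
theorem L_le_X (T : Tri S A B C) (h1 : RootCommutatorCase S A ⁅C, B⁆) {b' : G} (hb' : b' ∈ B)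
    (hb'1 : b' ≠ 1) : ⁅A, ⁅C, B⁆⁆ ≤ A ⊔ conjBy C b' := by
  obtain ⟨a, ha, ha1⟩ := exists_mem_ne_one (T.hS.ne_bot A T.hA)
  have key : ∀ m ∈ ⁅C, B⁆, a * m * a⁻¹ * m⁻¹ ∈ A ⊔ conjBy C b' := by
    intro m hm
    rw [← T.hCB.2.2.2 b' hb' hb'1] at hm
    have : m ∈ ⁅C, B⁆ ∧ a * m * a⁻¹ * m⁻¹ ∈ A ⊔ conjBy C b' := by
      induction hm using Subgroup.closure_induction with
      | mem y hy =>
        obtain ⟨c, hc, rfl⟩ := hy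
        have hyM : c * b' * c⁻¹ * b'⁻¹ ∈ ⁅C, B⁆ := Subgroup.commutator_mem_commutator hc hb'
        refine ⟨hyM, ?_⟩
        have hx' : b' * c⁻¹ * b'⁻¹ ∈ conjBy C b' := conj_mem_conjBy (C.inv_mem hc) b'
        have hLy : a * (c * b' * c⁻¹ * b'⁻¹) * a⁻¹ * (c * b' * c⁻¹ * b'⁻¹)⁻¹ ∈ ⁅A, ⁅C, B⁆⁆ :=
          Subgroup.commutator_mem_commutator ha hyM
        have hcomm := T.cmLC _ hLy c hc
        have hac : a * c = c * a := T.hAC a ha c hc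
        have hca : c * a * c⁻¹ * a⁻¹ = 1 := by rw [← hac]; group
        have e1 : a * (b' * c⁻¹ * b'⁻¹) * a⁻¹ * (b' * c⁻¹ * b'⁻¹)⁻¹
            = c⁻¹ * (c * a * c⁻¹ * a⁻¹) *
              ((a * (c * b' * c⁻¹ * b'⁻¹) * a⁻¹ * (c * b' * c⁻¹ * b'⁻¹)⁻¹) * c) := by group
        have e2 : a * (b' * c⁻¹ * b'⁻¹) * a⁻¹ * (b' * c⁻¹ * b'⁻¹)⁻¹
            = a * (c * b' * c⁻¹ * b'⁻¹) * a⁻¹ * (c * b' * c⁻¹ * b'⁻¹)⁻¹ := by
          rw [e1, hca, hcomm]; group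
        show a * (c * b' * c⁻¹ * b'⁻¹) * a⁻¹ * (c * b' * c⁻¹ * b'⁻¹)⁻¹ ∈ A ⊔ conjBy C b'
        rw [← e2]
        exact Subgroup.mul_mem _ (Subgroup.mul_mem _ (Subgroup.mul_mem _ (Subgroup.mem_sup_left ha)
          (Subgroup.mem_sup_right hx')) (Subgroup.inv_mem _ (Subgroup.mem_sup_left ha)))
          (Subgroup.inv_mem _ (Subgroup.mem_sup_right hx'))
      | one => exact ⟨Subgroup.one_mem _, by simp⟩
      | mul y z _ _ hy hz =>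
        refine ⟨Subgroup.mul_mem _ hy.1 hz.1, ?_⟩
        have hLz : a * z * a⁻¹ * z⁻¹ ∈ ⁅A, ⁅C, B⁆⁆ := Subgroup.commutator_mem_commutator ha hz.1
        have hcomm := T.cmLM h1 _ hLz y hy.1
        have e : a * (y * z) * a⁻¹ * (y * z)⁻¹
            = (a * y * a⁻¹ * y⁻¹) * (y * (a * z * a⁻¹ * z⁻¹)) * y⁻¹ := by group
        have e2 : (a * y * a⁻¹ * y⁻¹) * ((a * z * a⁻¹ * z⁻¹) * y) * y⁻¹
            = (a * y * a⁻¹ * y⁻¹) * (a * z * a⁻¹ * z⁻¹) := by group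
        rw [e, ← hcomm, e2]
        exact Subgroup.mul_mem _ hy.2 hz.2
      | inv y _ hy =>
        refine ⟨Subgroup.inv_mem _ hy.1, ?_⟩
        have hLy : a * y * a⁻¹ * y⁻¹ ∈ ⁅A, ⁅C, B⁆⁆ := Subgroup.commutator_mem_commutator ha hy.1
        have hcomm := T.cmLM h1 _ hLy y hy.1
        have e : a * y⁻¹ * a⁻¹ * y⁻¹⁻¹ = (y⁻¹ * ((a * y * a⁻¹ * y⁻¹) * y))⁻¹ := by group
        have e2 : (y⁻¹ * (y * (a * y * a⁻¹ * y⁻¹)))⁻¹ = (a * y * a⁻¹ * y⁻¹)⁻¹ := by group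
        rw [e, hcomm, e2]
        exact Subgroup.inv_mem _ hy.2
    exact this.2
  rw [← h1.2.2.1 a ha ha1, Subgroup.closure_le]
  rintro _ ⟨m, hm, rfl⟩
  exact key m hm

theorem cmL_conjA (T : Tri S A B C) (h1 : RootCommutatorCase S A ⁅C, B⁆) {b' : G} (hb' : b' ∈ B)
    (hb'1 : b' ≠ 1) : Cm ⁅A, ⁅C, B⁆⁆ (conjBy A b') :=
  (T.cmXY hb').mono (T.L_le_X h1 hb' hb'1) le_sup_left

theorem cmLN (T : Tri S A B C) (h1 : RootCommutatorCase S A ⁅C, B⁆) : Cm ⁅A, ⁅C, B⁆⁆ ⁅A, B⁆ := by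
  obtain ⟨b, hb, hb1⟩ := exists_mem_ne_one (T.hS.ne_bot B T.hB)
  exact ((T.cmLA h1).sup_right (T.cmL_conjA h1 hb hb1)).mono le_rfl (T.N_le hb hb1)

theorem cmLL' (T : Tri S A B C) (h1 : RootCommutatorCase S A ⁅C, B⁆)
    (h2 : RootCommutatorCase S C ⁅A, B⁆) : Cm ⁅A, ⁅C, B⁆⁆ ⁅C, ⁅A, B⁆⁆ := by
  obtain ⟨b, hb, hb1⟩ := exists_mem_ne_one (T.hS.ne_bot B T.hB)
  have hL := T.L_le_X h1 hb hb1
  have hL' := T.symm.L_le_X h2 hb hb1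
  rw [sup_comm] at hL'
  exact (T.cmXY hb).mono hL hL'

/-- Hall–Witt: conjugation by a non-identity element of `B` maps `L'` into `L`. -/
theorem hw (T : Tri S A B C) (h2 : RootCommutatorCase S C ⁅A, B⁆) {b' : G} (hb' : b' ∈ B)
    (hb'1 : b' ≠ 1) : conjBy ⁅C, ⁅A, B⁆⁆ b' ≤ ⁅A, ⁅C, B⁆⁆ := by
  have hbi : b'⁻¹ ∈ B := B.inv_mem hb'
  have hbi1 : b'⁻¹ ≠ 1 := by simpa using hb'1
  obtain ⟨a₀, ha₀, hnc⟩ := exists_noncomm_left T.hS T.hAB hbi hbi1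
  have hn₀ : b'⁻¹ * a₀ * b' * a₀⁻¹ ∈ ⁅A, B⁆ := by
    have := Subgroup.commutator_mem_commutator hbi ha₀
    rw [Subgroup.commutator_comm, commutatorElement_def, inv_inv] at this
    exact this
  have hn₀1 : b'⁻¹ * a₀ * b' * a₀⁻¹ ≠ 1 := by
    intro h
    apply hnc
    have : b'⁻¹ * a₀ = (b'⁻¹ * a₀ * b' * a₀⁻¹) * a₀ * b'⁻¹ := by group
    rw [this, h, one_mul]
  have key : ∀ y ∈ ⁅C, ⁅A, B⁆⁆, b' * y * b'⁻¹ ∈ ⁅A, ⁅C, B⁆⁆ := by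
    intro y hy
    rw [← h2.2.2.2 _ hn₀ hn₀1] at hy
    induction hy using Subgroup.closure_induction with
    | mem y hy =>
      obtain ⟨c, hc, rfl⟩ := hy
      show b' * (c * (b'⁻¹ * a₀ * b' * a₀⁻¹) * c⁻¹ * (b'⁻¹ * a₀ * b' * a₀⁻¹)⁻¹) * b'⁻¹
        ∈ ⁅A, ⁅C, B⁆⁆
      have hwi : b' * (c * (b'⁻¹ * a₀ * b' * a₀⁻¹) * c⁻¹ * (b'⁻¹ * a₀ * b' * a₀⁻¹)⁻¹) * b'⁻¹
          = c * ⁅⁅c⁻¹, b'⁆, a₀⁆ * c⁻¹ * (a₀ * ⁅⁅a₀⁻¹, c⁆, b'⁆ * a₀⁻¹) := by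
        simp only [commutatorElement_def]; group
      have h3 : ⁅a₀⁻¹, c⁆ = 1 :=
        commutatorElement_eq_one_iff_mul_comm.mpr (T.hAC _ (A.inv_mem ha₀) c hc)
      have ht2 : ⁅⁅c⁻¹, b'⁆, a₀⁆ ∈ ⁅A, ⁅C, B⁆⁆ := by
        have := Subgroup.commutator_mem_commutator
          (Subgroup.commutator_mem_commutator (C.inv_mem hc) hb') ha₀
        rwa [Subgroup.commutator_comm] at this
      have hcomm := T.cmLC _ ht2 c hc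
      have e : c * ⁅⁅c⁻¹, b'⁆, a₀⁆ * c⁻¹ = ⁅⁅c⁻¹, b'⁆, a₀⁆ := by
        rw [← hcomm]; group
      rw [hwi, h3, commutatorElement_one_left, mul_one, mul_inv_cancel, mul_one, e]
      exact ht2
    | one => simp
    | mul y z _ _ hy hz =>
      have e : b' * (y * z) * b'⁻¹ = (b' * y * b'⁻¹) * (b' * z * b'⁻¹) := by group
      rw [e]
      exact Subgroup.mul_mem _ hy hz
    | inv y _ hy =>
      have e : b' * y⁻¹ * b'⁻¹ = (b' * y * b'⁻¹)⁻¹ := by group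
      rw [e]
      exact Subgroup.inv_mem _ hy
  intro x hx
  rw [mem_conjBy] at hx
  have := key _ hx
  have e : b' * (b'⁻¹ * x * b') * b'⁻¹ = x := by group
  rwa [e] at this

theorem conjL' (T : Tri S A B C) (h1 : RootCommutatorCase S A ⁅C, B⁆)
    (h2 : RootCommutatorCase S C ⁅A, B⁆) {b' : G} (hb' : b' ∈ B) (hb'1 : b' ≠ 1) :
    conjBy ⁅C, ⁅A, B⁆⁆ b' = ⁅A, ⁅C, B⁆⁆ := by
  apply le_antisymm (T.hw h2 hb' hb'1)
  have hbi : b'⁻¹ ∈ B := B.inv_mem hb'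
  have hbi1 : b'⁻¹ ≠ 1 := by simpa using hb'1
  have h3 := T.symm.hw h1 hbi hbi1
  have h4 := conjBy_mono h3 b'
  rwa [conjBy_inv_cancel'] at h4

theorem conjL (T : Tri S A B C) (h1 : RootCommutatorCase S A ⁅C, B⁆)
    (h2 : RootCommutatorCase S C ⁅A, B⁆) {b' : G} (hb' : b' ∈ B) (hb'1 : b' ≠ 1) :
    conjBy ⁅A, ⁅C, B⁆⁆ b' = ⁅C, ⁅A, B⁆⁆ := T.symm.conjL' h2 h1 hb' hb'1

/-- Nilpotency of `⟨A, B, C⟩` in the commutator case. -/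
theorem nilpotent_of_commCase (T : Tri S A B C) (h1 : RootCommutatorCase S A ⁅C, B⁆)
    (h2 : RootCommutatorCase S C ⁅A, B⁆) : Group.IsNilpotent ↥(A ⊔ B ⊔ C) := by
  obtain ⟨b, hb, hb1⟩ := exists_mem_ne_one (T.hS.ne_bot B T.hB)
  have cLA := T.cmLA h1
  have cLM := T.cmLM h1
  have cLC := T.cmLC
  have cLN := T.cmLN h1
  have cL'C : Cm ⁅C, ⁅A, B⁆⁆ C := T.symm.cmLA h2
  have cL'N : Cm ⁅C, ⁅A, B⁆⁆ ⁅A, B⁆ := T.symm.cmLM h2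
  have cL'A : Cm ⁅C, ⁅A, B⁆⁆ A := T.symm.cmLC
  have cL'M : Cm ⁅C, ⁅A, B⁆⁆ ⁅C, B⁆ := T.symm.cmLN h2
  have cLL' := T.cmLL' h1 h2
  have cLL : Cm ⁅A, ⁅C, B⁆⁆ ⁅A, ⁅C, B⁆⁆ := cm_self_of_comm (T.hS.commutative _ h1.1)
  have cL'L' : Cm ⁅C, ⁅A, B⁆⁆ ⁅C, ⁅A, B⁆⁆ := cm_self_of_comm (T.hS.commutative _ h2.1)
  have cK2K2 : Cm (⁅A, ⁅C, B⁆⁆ ⊔ ⁅C, ⁅A, B⁆⁆) (⁅A, ⁅C, B⁆⁆ ⊔ ⁅C, ⁅A, B⁆⁆) :=
    (cLL.sup_right cLL').sup_left (cLL'.symm.sup_right cL'L')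
  have cK2A : Cm (⁅A, ⁅C, B⁆⁆ ⊔ ⁅C, ⁅A, B⁆⁆) A := cLA.sup_left cL'A
  have cK2C : Cm (⁅A, ⁅C, B⁆⁆ ⊔ ⁅C, ⁅A, B⁆⁆) C := cLC.sup_left cL'C
  have cK2N : Cm (⁅A, ⁅C, B⁆⁆ ⊔ ⁅C, ⁅A, B⁆⁆) ⁅A, B⁆ := cLN.sup_left cL'N
  have cK2M : Cm (⁅A, ⁅C, B⁆⁆ ⊔ ⁅C, ⁅A, B⁆⁆) ⁅C, B⁆ := cLM.sup_left cL'M
  have hK2B : ∀ b' ∈ B, conjBy (⁅A, ⁅C, B⁆⁆ ⊔ ⁅C, ⁅A, B⁆⁆) b' ≤ ⁅A, ⁅C, B⁆⁆ ⊔ ⁅C, ⁅A, B⁆⁆ := by
    intro b' hb'
    by_cases hb'1 : b' = 1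
    · rw [hb'1, conjBy_one]
    · rw [conjBy_sup, T.conjL h1 h2 hb' hb'1, T.conjL' h1 h2 hb' hb'1]
      exact sup_le le_sup_right le_sup_left
  have nK2B : B ≤ Subgroup.normalizer ((⁅A, ⁅C, B⁆⁆ ⊔ ⁅C, ⁅A, B⁆⁆ : Subgroup G) : Set G) :=
    le_normalizer_of_conj_le hK2B
  have nK2A : A ≤ Subgroup.normalizer ((⁅A, ⁅C, B⁆⁆ ⊔ ⁅C, ⁅A, B⁆⁆ : Subgroup G) : Set G) :=
    cK2A.symm.le_normalizer
  have nK2C : C ≤ Subgroup.normalizer ((⁅A, ⁅C, B⁆⁆ ⊔ ⁅C, ⁅A, B⁆⁆ : Subgroup G) : Set G) :=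
    cK2C.symm.le_normalizer
  have nK2 : A ⊔ B ⊔ C ≤ Subgroup.normalizer ((⁅A, ⁅C, B⁆⁆ ⊔ ⁅C, ⁅A, B⁆⁆ : Subgroup G) : Set G) :=
    sup_le (sup_le nK2A nK2B) nK2C
  -- normalisers of K₁
  have nK1A : A ≤ Subgroup.normalizer
      (((⁅A, ⁅C, B⁆⁆ ⊔ ⁅C, ⁅A, B⁆⁆) ⊔ (⁅A, B⁆ ⊔ ⁅C, B⁆) : Subgroup G) : Set G) := by
    apply le_normalizer_of_conj_le
    intro a ha
    rw [conjBy_sup, conjBy_sup ⁅A, B⁆, cK2A.symm.conjBy_eq ha, T.cmNA.symm.conjBy_eq ha]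
    have h3 : conjBy ⁅C, B⁆ a ≤ ⁅A, ⁅C, B⁆⁆ ⊔ ⁅C, B⁆ := conjBy_le_commutator_sup ha
    refine sup_le le_sup_left (sup_le (le_sup_of_le_right le_sup_left) (h3.trans ?_))
    exact sup_le (le_sup_of_le_left le_sup_left) (le_sup_of_le_right le_sup_right)
  have nK1C : C ≤ Subgroup.normalizer
      (((⁅A, ⁅C, B⁆⁆ ⊔ ⁅C, ⁅A, B⁆⁆) ⊔ (⁅A, B⁆ ⊔ ⁅C, B⁆) : Subgroup G) : Set G) := by
    apply le_normalizer_of_conj_le
    intro c hc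
    rw [conjBy_sup, conjBy_sup ⁅A, B⁆, cK2C.symm.conjBy_eq hc, T.cmMC.symm.conjBy_eq hc]
    have h3 : conjBy ⁅A, B⁆ c ≤ ⁅C, ⁅A, B⁆⁆ ⊔ ⁅A, B⁆ := conjBy_le_commutator_sup hc
    refine sup_le le_sup_left (sup_le (h3.trans ?_) (le_sup_of_le_right le_sup_right))
    exact sup_le (le_sup_of_le_left le_sup_right) (le_sup_of_le_right le_sup_left)
  have nK1B : B ≤ Subgroup.normalizer
      (((⁅A, ⁅C, B⁆⁆ ⊔ ⁅C, ⁅A, B⁆⁆) ⊔ (⁅A, B⁆ ⊔ ⁅C, B⁆) : Subgroup G) : Set G) := by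
    apply le_normalizer_of_conj_le
    intro b' hb'
    rw [conjBy_sup, conjBy_sup ⁅A, B⁆, T.cmNB.symm.conjBy_eq hb', T.cmMB.symm.conjBy_eq hb']
    exact sup_le ((hK2B b' hb').trans le_sup_left) le_sup_right
  -- the key: `B` centralises `⁅L ⊔ L', B⁆`
  have key : Cm ⁅⁅A, ⁅C, B⁆⁆ ⊔ ⁅C, ⁅A, B⁆⁆, B⁆ B := by
    by_cases hLL : ⁅A, ⁅C, B⁆⁆ = ⁅C, ⁅A, B⁆⁆
    · have e : ⁅A, ⁅C, B⁆⁆ ⊔ ⁅C, ⁅A, B⁆⁆ = ⁅A, ⁅C, B⁆⁆ := by rw [← hLL]; exact sup_idem _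
      rw [e]
      rcases T.hS.pair _ h1.1 B T.hB with h | h | h
      · rw [h]
        intro x hx y _
        rw [Subgroup.mem_bot] at hx
        rw [hx]; simp
      · exfalso
        apply hb1
        apply eq_one_of_conjBy_eq (RankOnePair_symm h) hb
        rw [T.conjL h1 h2 hb hb1]
        exact hLL.symm
      · exact (commCase_cm h).mono le_rfl le_sup_right
    · have hB2 : ∀ b' ∈ B, b' = 1 ∨ b' = b := by
        intro b' hb'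
        by_contra hcon
        push Not at hcon
        obtain ⟨hn1, hnb⟩ := hcon
        apply hLL
        have hne : b'⁻¹ * b ≠ 1 := by
          intro h
          apply hnb
          have : b' = b * (b'⁻¹ * b)⁻¹ := by group
          rw [this, h]; simp
        have e1 : conjBy ⁅A, ⁅C, B⁆⁆ (b'⁻¹ * b) = ⁅C, ⁅A, B⁆⁆ :=
          T.conjL h1 h2 (B.mul_mem (B.inv_mem hb') hb) hne
        have e2 : conjBy ⁅A, ⁅C, B⁆⁆ (b'⁻¹ * b) = ⁅A, ⁅C, B⁆⁆ := by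
          rw [← conjBy_conjBy, T.conjL h1 h2 hb hb1,
            T.conjL' h1 h2 (B.inv_mem hb') (by simpa using hn1)]
        exact e2.symm.trans e1
      have hbb : b * b = 1 := by
        rcases hB2 b⁻¹ (B.inv_mem hb) with h | h
        · exact absurd (inv_eq_one.mp h) hb1
        · have : b * b = b⁻¹ * b := by rw [h]
          rw [this, inv_mul_cancel]
      have hBsq : ∀ q ∈ B, q * q = 1 := by
        intro q hq
        rcases hB2 q hq with h | h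
        · rw [h]; simp
        · rw [h]; exact hbb
      have hNsq := sq_of_commCase T.hS T.hA T.hAB hBsq
      have hMsq := sq_of_commCase T.hS T.hC T.hCB hBsq
      have hLsq := sq_of_commCase T.hS T.hA h1 hMsq
      have hL'sq := sq_of_commCase T.hS T.hC h2 hNsq
      have hK2sq : ∀ k ∈ ⁅A, ⁅C, B⁆⁆ ⊔ ⁅C, ⁅A, B⁆⁆, k * k = 1 := by
        intro k hk
        have : k ∈ ⁅A, ⁅C, B⁆⁆ ⊔ ⁅C, ⁅A, B⁆⁆ ∧ k * k = 1 := by
          refine sup_induction_gen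
            (P := fun k => k ∈ ⁅A, ⁅C, B⁆⁆ ⊔ ⁅C, ⁅A, B⁆⁆ ∧ k * k = 1) ?_ ?_ ?_ ?_ hk
          · intro x hx; exact ⟨Subgroup.mem_sup_left hx, hLsq x hx⟩
          · intro x hx; exact ⟨Subgroup.mem_sup_right hx, hL'sq x hx⟩
          · exact ⟨Subgroup.one_mem _, by simp⟩
          · rintro x y ⟨hx, hx2⟩ ⟨hy, hy2⟩
            refine ⟨Subgroup.mul_mem _ hx hy, ?_⟩
            have h3 := cK2K2 x hx y hy
            calc x * y * (x * y) = x * (y * x) * y := by group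
              _ = x * (x * y) * y := by rw [h3]
              _ = (x * x) * (y * y) := by group
              _ = 1 := by rw [hx2, hy2, one_mul]
        exact this.2
      have hle : ⁅⁅A, ⁅C, B⁆⁆ ⊔ ⁅C, ⁅A, B⁆⁆, B⁆ ≤ Subgroup.centralizer (B : Set G) := by
        rw [Subgroup.commutator_le]
        intro k hk b' hb'
        rw [Subgroup.mem_centralizer_iff]
        intro b'' hb''
        rcases hB2 b' hb' with h | h
        · rw [h]; simp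
        rcases hB2 b'' hb'' with h' | h'
        · rw [h']; simp
        rw [h, h']
        have hbinv : b⁻¹ = b := inv_eq_of_mul_eq_one_right hbb
        have hkinv : k⁻¹ = k := inv_eq_of_mul_eq_one_right (hK2sq k hk)
        have hy : b * k * b ∈ ⁅A, ⁅C, B⁆⁆ ⊔ ⁅C, ⁅A, B⁆⁆ := by
          have := conj_mem_of_le_normalizer nK2B hb hk
          rwa [hbinv] at this
        have hyk := cK2K2 _ hy k hk
        rw [commutatorElement_def, hkinv, hbinv]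
        calc b * (k * b * k * b) = (b * k * b * k) * b := by group
          _ = (k * (b * k * b)) * b := by rw [hyk]
          _ = k * b * k * b * b := by group
      intro x hx y hy
      exact (Subgroup.mem_centralizer_iff.mp (hle hx) y hy).symm
  have hK3le : ⁅⁅A, ⁅C, B⁆⁆ ⊔ ⁅C, ⁅A, B⁆⁆, B⁆ ≤ ⁅A, ⁅C, B⁆⁆ ⊔ ⁅C, ⁅A, B⁆⁆ :=
    Subgroup.le_normalizer_iff_commutator_le_left.mp nK2B
  have cK3A : Cm ⁅⁅A, ⁅C, B⁆⁆ ⊔ ⁅C, ⁅A, B⁆⁆, B⁆ A := cK2A.mono hK3le le_rfl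
  have cK3C : Cm ⁅⁅A, ⁅C, B⁆⁆ ⊔ ⁅C, ⁅A, B⁆⁆, B⁆ C := cK2C.mono hK3le le_rfl
  apply nilpotent_of_chain (K₁ := (⁅A, ⁅C, B⁆⁆ ⊔ ⁅C, ⁅A, B⁆⁆) ⊔ (⁅A, B⁆ ⊔ ⁅C, B⁆))
    (K₂ := ⁅A, ⁅C, B⁆⁆ ⊔ ⁅C, ⁅A, B⁆⁆) (K₃ := ⁅⁅A, ⁅C, B⁆⁆ ⊔ ⁅C, ⁅A, B⁆⁆, B⁆)
  · apply commutator_sup3_le nK1A nK1B nK1C
    · rw [cm_iff_bot.mp T.cmAA]; exact bot_le
    · exact le_sup_of_le_right le_sup_left
    · rw [cm_iff_bot.mp T.hAC]; exact bot_le
    · rw [cm_iff_bot.mp T.cmBB]; exact bot_le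
    · rw [Subgroup.commutator_comm]; exact le_sup_of_le_right le_sup_right
    · rw [cm_iff_bot.mp T.cmCC]; exact bot_le
  · apply commutator_sup_le cK2K2.le_normalizer (cK2N.sup_right cK2M).symm.le_normalizer
    · exact Subgroup.le_normalizer_iff_commutator_le_left.mp nK2
    · apply commutator_sup_le cK2N.symm.le_normalizer cK2M.symm.le_normalizer
      · apply commutator_le_of_sup (sup_le nK2A nK2B) nK2C
        · rw [cm_iff_bot.mp (T.cmNA.sup_right T.cmNB)]; exact bot_le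
        · rw [Subgroup.commutator_comm]; exact le_sup_right
      · apply commutator_le_of_sup (sup_le nK2A nK2B) nK2C
        · apply commutator_le_of_sup nK2A nK2B
          · rw [Subgroup.commutator_comm]; exact le_sup_left
          · rw [cm_iff_bot.mp T.cmMB]; exact bot_le
        · rw [cm_iff_bot.mp T.cmMC]; exact bot_le
  · apply commutator_le_of_sup (sup_le cK3A.symm.le_normalizer key.symm.le_normalizer)
      cK3C.symm.le_normalizer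
    · apply commutator_le_of_sup cK3A.symm.le_normalizer key.symm.le_normalizer
      · rw [cm_iff_bot.mp cK2A]; exact bot_le
      · exact le_rfl
    · rw [cm_iff_bot.mp cK2C]; exact bot_le
  · exact cm_iff_bot.mp ((cK3A.sup_right key).sup_right cK3C)

end Tri

end Cfsg.Agent.Lib.Helper83.Trip
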