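import Mathlib
import Cfsg.Prelude.Def_RootSubgroups
import Cfsg.Agent.Lib.Helper83.RankOne
import Cfsg.Agent.Lib.Helper83.RootSub
import Cfsg.Agent.Lib.Helper83.RootSub2
import Cfsg.Agent.Lib.Helper83.Triple
import Cfsg.Agent.S5018
import Cfsg.Agent.S5025
import Cfsg.Agent.S5030

/-!
# Components of the graph of rank one pairs, and line partners
-/

set_option autoImplicit false

namespace Cfsg.Agent.Lib.Helper83.Comp

open Cfsg Cfsg.Agent.Lib.Helper83.RankOne Cfsg.Agent.Lib.Helper83.RootSub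
open Cfsg.Agent.Lib.Helper83.RootSub2 Cfsg.Agent.Lib.Helper83.Triple
open scoped commutatorElement

variable {G : Type*} [Group G] {S : Set (Subgroup G)} {A B : Subgroup G}

/-! ### A rank one pair inside `G` gives a rank one group on the join -/

theorem isRankOneGroup_subgroupOf (hp : IsRankOnePair A B) :
    IsRankOneGroup ↥(A ⊔ B) (A.subgroupOf (A ⊔ B)) (B.subgroupOf (A ⊔ B)) := by
  have hA : A ≤ A ⊔ B := le_sup_left
  have hB : B ≤ A ⊔ B := le_sup_right
  have cond : ∀ {A B : Subgroup G} (H : Subgroup G), A ≤ H → B ≤ H → RankOneCondition A B →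
      RankOneCondition (A.subgroupOf H) (B.subgroupOf H) := by
    intro A B H hA hB hc a ha ha1
    rw [Subgroup.mem_subgroupOf] at ha
    have ha1' : (a : G) ≠ 1 := fun h => ha1 (Subtype.ext h)
    obtain ⟨b, hb, hb1, hab⟩ := hc (a : G) ha ha1'
    refine ⟨⟨b, hB hb⟩, Subgroup.mem_subgroupOf.mpr hb, fun h => hb1 (congrArg Subtype.val h), ?_⟩
    ext x
    rw [mem_conjBy, mem_conjBy, Subgroup.mem_subgroupOf, Subgroup.mem_subgroupOf]
    have h1 : (x : G) ∈ conjBy A b⁻¹ ↔ (x : G) ∈ conjBy B (a : G)⁻¹ := by rw [hab]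
    rw [mem_conjBy, mem_conjBy] at h1
    simpa using h1
  refine ⟨?_, ?_, ?_, ?_, ?_, ?_⟩
  · rw [← Subgroup.subgroupOf_sup hA hB, Subgroup.subgroupOf_self]
  · intro h
    rw [Subgroup.subgroupOf_inj, inf_eq_left.mpr hA, inf_eq_left.mpr hB] at h
    exact hp.ne h
  · have := hp.nilpotent_left
    exact Group.nilpotent_of_mulEquiv (Subgroup.subgroupOfEquivOfLe hA).symm
  · have := hp.nilpotent_right
    exact Group.nilpotent_of_mulEquiv (Subgroup.subgroupOfEquivOfLe hB).symm
  · exact cond _ hA hB hp.cond_left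
  · exact cond _ hB hA hp.cond_right

/-- A rank one pair does not lie in a nilpotent subgroup. -/
theorem not_nilpotent_of_le (hp : IsRankOnePair A B) {R : Subgroup G} (hle : A ⊔ B ≤ R)
    (hR : Group.IsNilpotent ↥R) : False := by
  have h1 := (Cfsg.Agent.S5018.result (isRankOneGroup_subgroupOf hp)).2
  apply h1
  have := hR
  have h2 : Group.IsNilpotent ↥((A ⊔ B).subgroupOf R) := inferInstance
  have := h2
  exact Group.nilpotent_of_mulEquiv (Subgroup.subgroupOfEquivOfLe hle)

/-! ### Elements of a join of commuting subgroups -/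

theorem mem_sup_of_cm (h : Cm A B) {x : G} (hx : x ∈ A ⊔ B) : ∃ a ∈ A, ∃ b ∈ B, x = a * b := by
  refine sup_induction_gen (P := fun x => ∃ a ∈ A, ∃ b ∈ B, x = a * b) ?_ ?_ ?_ ?_ hx
  · intro a ha
    exact ⟨a, ha, 1, B.one_mem, by simp⟩
  · intro b hb
    exact ⟨1, A.one_mem, b, hb, by simp⟩
  · exact ⟨1, A.one_mem, 1, B.one_mem, by simp⟩
  · rintro x y ⟨a, ha, b, hb, rfl⟩ ⟨a', ha', b', hb', rfl⟩
    refine ⟨a * a', A.mul_mem ha ha', b * b', B.mul_mem hb hb', ?_⟩
    have h1 := h a' ha' b hb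
    calc a * b * (a' * b') = a * (b * a') * b' := by group
      _ = a * (a' * b) * b' := by rw [h1]
      _ = a * a' * (b * b') := by group

/-! ### Components -/

theorem fadj_symm {X Y : Subgroup G} (h : FAdj S X Y) : FAdj S Y X :=
  ⟨h.2.1, h.1, RankOnePair_symm h.2.2⟩

theorem rtg_symm {X Y : Subgroup G} (h : Relation.ReflTransGen (FAdj S) X Y) :
    Relation.ReflTransGen (FAdj S) Y X := by
  induction h with
  | refl => exact Relation.ReflTransGen.refl
  | tail _ hbc ih => exact Relation.ReflTransGen.head (fadj_symm hbc) ih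

theorem component_eq {X Y : Subgroup G} (h : Relation.ReflTransGen (FAdj S) X Y) :
    componentOf (FAdj S) S X = componentOf (FAdj S) S Y := by
  ext Z
  constructor
  · rintro ⟨hZ, hXZ⟩
    exact ⟨hZ, (rtg_symm h).trans hXZ⟩
  · rintro ⟨hZ, hYZ⟩
    exact ⟨hZ, h.trans hYZ⟩

theorem exists_partner_of_component (hA2 : ∃ A' ∈ componentOf (FAdj S) S A, A' ≠ A) :
    ∃ D ∈ S, IsRankOnePair A D := by
  obtain ⟨A', ⟨-, hrtg⟩, hne⟩ := hA2
  rcases Relation.ReflTransGen.cases_head hrtg with h | ⟨D, hD, -⟩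
  · exact absurd h.symm hne
  · exact ⟨D, hD.2.1, hD.2.2⟩

/-! ### The key lemma on line partners -/

/-- Let `A, B` commute with all non-identity elements of `AB` root elements, `D` a rank one
partner of `A` which is not a rank one partner of `B`. Then `D` is a rank one partner of every
other member of `S` inside `AB`. -/
theorem rankOne_of_line (hS : IsRootSubgroupSet S) (hA : A ∈ S) (hB : B ∈ S) (hcm : Cm A B)
    (hroot : ∀ x ∈ A ⊔ B, x ≠ 1 → x ∈ rootElements S)
    {D : Subgroup G} (hD : D ∈ S) (hp : IsRankOnePair A D)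
    {D' : Subgroup G} (hD' : D' ∈ S) (hp' : IsRankOnePair B D')
    (hnDB : ¬ IsRankOnePair D B)
    {E : Subgroup G} (hE : E ∈ S) (hEle : E ≤ A ⊔ B) (hEA : E ≠ A) (hEB : E ≠ B) :
    IsRankOnePair D E := by
  have cAA : Cm A A := cm_self_of_comm (hS.commutative A hA)
  have cBB : Cm B B := cm_self_of_comm (hS.commutative B hB)
  have cAB2 : Cm (A ⊔ B) (A ⊔ B) := (cAA.sup_right hcm).sup_left (hcm.symm.sup_right cBB)
  obtain ⟨a, ha, ha1⟩ := exists_mem_ne_one (hS.ne_bot A hA)
  -- no member of `S` inside `AB` other than `A` commutes with `D`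
  have hnc : ∀ F ∈ S, F ≤ A ⊔ B → F ≠ A → ¬ Cm D F := by
    intro F hF hFle hFA hDF
    obtain ⟨f, hf, hf1⟩ := exists_mem_ne_one (hS.ne_bot F hF)
    have hz : f ∈ Subgroup.centralizer ((A ⊔ D : Subgroup G) : Set G) := by
      rw [Subgroup.mem_centralizer_iff]
      intro x hx
      have c1 : Cm F A := cAB2.mono hFle le_sup_left
      exact ((c1.sup_right hDF.symm) f hf x hx).symm
    have h0 := Cfsg.Agent.S5025.result hS hA (show D ∈ rankOnePartners S A from ⟨hD, hp⟩) hz hf1
      a ha ha1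
    apply h0
    apply hroot
    · exact Subgroup.mul_mem _ (hFle hf) (Subgroup.mem_sup_left ha)
    · intro h
      have hfA : f ∈ A := by
        have : f = a⁻¹ := eq_inv_of_mul_eq_one_left h
        rw [this]
        exact A.inv_mem ha
      rcases inf_eq_bot_or_eq hS hA hD hp hF with h2 | h2
      · have : f ∈ A ⊓ F := ⟨hfA, hf⟩
        rw [h2, Subgroup.mem_bot] at this
        exact hf1 this
      · exact hFA h2.symm
  have hBA : B ≠ A := by
    intro h
    rw [h] at hp'
    exact hnDB (h ▸ RankOnePair_symm hp)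
  -- `(D, B)` is in the commutator case
  have hcDB : RootCommutatorCase S D B := by
    rcases hS.pair D hD B hB with h | h | h
    · exact absurd (cm_iff_bot.mpr h) (hnc B hB le_sup_right hBA)
    · exact absurd h hnDB
    · exact h
  rcases hS.pair D hD E hE with h | h | h
  · exact absurd (cm_iff_bot.mpr h) (hnc E hE hEle hEA)
  · exact h
  · exfalso
    obtain ⟨d, hd, hd1⟩ := exists_mem_ne_one (hS.ne_bot D hD)
    have hBD : ⁅B, D⁆ ∈ S := by
      rw [Subgroup.commutator_comm]; exact hcDB.1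
    have hcomm : E ∈ commutingPartners S B :=
      ⟨hE, hEB, cm_iff_bot.mp (cAB2.mono le_sup_right hEle)⟩
    have hnil := (Cfsg.Agent.S5030.result hS hB hD hE hBD h.1 hcomm hd hd1).2.2.2.2
    obtain ⟨e, he, he1⟩ := exists_mem_ne_one (hS.ne_bot E hE)
    obtain ⟨a₁, ha₁, b₁, hb₁, hab⟩ := mem_sup_of_cm hcm (hEle he)
    have ha₁1 : a₁ ≠ 1 := by
      intro h1
      rw [h1, one_mul] at hab
      rcases inf_eq_bot_or_eq hS hB hD' hp' hE with h2 | h2
      · have : e ∈ B ⊓ E := ⟨hab ▸ hb₁, he⟩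
        rw [h2, Subgroup.mem_bot] at this
        exact he1 this
      · exact hEB h2.symm
    have hBR : B ≤ B ⊔ D ⊔ E := le_sup_of_le_left le_sup_left
    have hDR : D ≤ B ⊔ D ⊔ E := le_sup_of_le_left le_sup_right
    have hER : E ≤ B ⊔ D ⊔ E := le_sup_right
    have ha₁R : a₁ ∈ B ⊔ D ⊔ E := by
      have : a₁ = e * b₁⁻¹ := by rw [hab]; group
      rw [this]
      exact Subgroup.mul_mem _ (hER he) (Subgroup.inv_mem _ (hBR hb₁))
    obtain ⟨d₁, hd₁, -, hconj⟩ := hp.cond_left a₁ ha₁ ha₁1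
    have h3 : conjBy D a₁⁻¹ ≤ B ⊔ D ⊔ E := conjBy_le_of_mem hDR (Subgroup.inv_mem _ ha₁R)
    rw [← hconj] at h3
    have h4 : A ≤ B ⊔ D ⊔ E := by
      have h5 := conjBy_mono h3 d₁
      rw [conjBy_inv_cancel'] at h5
      exact h5.trans (conjBy_le_of_mem le_rfl (hDR hd₁))
    exact not_nilpotent_of_le hp (sup_le h4 hDR) hnil

end Cfsg.Agent.Lib.Helper83.Comp
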