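import Mathlib
import Cfsg.Prelude.Def_RootSubgroups
import Cfsg.Agent.Lib.Helper83.RankOne
import Cfsg.Agent.Lib.Helper83.RootSub
import Cfsg.Agent.Lib.Helper83.RootSub2
import Cfsg.Agent.Lib.Helper83.Triple
import Cfsg.Agent.Lib.Helper83.Comp
import Cfsg.Agent.S5025
import Cfsg.Agent.S5029

/-!
# Lines: the structure of `AB` for a line partner `B` of `A`
-/

set_option autoImplicit false

namespace Cfsg.Agent.Lib.Helper83.Line

open Cfsg Cfsg.Agent.Lib.Helper83.RankOne Cfsg.Agent.Lib.Helper83.RootSub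
open Cfsg.Agent.Lib.Helper83.RootSub2 Cfsg.Agent.Lib.Helper83.Triple Cfsg.Agent.Lib.Helper83.Comp
open scoped commutatorElement

variable {G : Type*} [Group G] {S : Set (Subgroup G)}

theorem not_cm_of_rankOne {P Q : Subgroup G} (hp : IsRankOnePair P Q) : ¬ Cm P Q := by
  intro h
  obtain ⟨a, ha, ha1⟩ := exists_mem_ne_one (left_ne_bot hp)
  exact ha1 (eq_one_of_conjBy_eq hp ha (h.conjBy_eq ha))

theorem not_isolated_of_partner {X D : Subgroup G} (hX : X ∈ S) (hD : D ∈ S)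
    (hp : IsRankOnePair X D) : ¬ IsIsolatedIn (FAdj S) S X :=
  fun h => (h.2 D).1 ⟨hX, hD, hp⟩

/-- No member of `S` inside the abelian group `AB` other than `A` commutes with a rank one
partner `D` of `A`, as soon as the non-identity elements of `AB` are root elements. -/
theorem no_comm {A B : Subgroup G} (hS : IsRootSubgroupSet S) (hA : A ∈ S)
    (hcm2 : Cm (A ⊔ B) (A ⊔ B)) (hroot : ∀ x ∈ A ⊔ B, x ≠ 1 → x ∈ rootElements S)
    {D : Subgroup G} (hD : D ∈ S) (hp : IsRankOnePair A D) :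
    ∀ F ∈ S, F ≤ A ⊔ B → F ≠ A → ¬ Cm D F := by
  obtain ⟨a, ha, ha1⟩ := exists_mem_ne_one (hS.ne_bot A hA)
  intro F hF hFle hFA hDF
  obtain ⟨f, hf, hf1⟩ := exists_mem_ne_one (hS.ne_bot F hF)
  have hz : f ∈ Subgroup.centralizer ((A ⊔ D : Subgroup G) : Set G) := by
    rw [Subgroup.mem_centralizer_iff]
    intro x hx
    have c1 : Cm F A := hcm2.mono hFle le_sup_left
    exact ((c1.sup_right hDF.symm) f hf x hx).symm
  have h0 := Cfsg.Agent.S5025.result hS hA (show D ∈ rankOnePartners S A from ⟨hD, hp⟩) hz hf1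
    a ha ha1
  apply h0
  apply hroot
  · exact Subgroup.mul_mem _ (hFle hf) (Subgroup.mem_sup_left ha)
  · intro h
    have hfA : f ∈ A := by
      have : f = a⁻¹ := eq_inv_of_mul_eq_one_left h
      rw [this]
      exact A.inv_mem ha
    rcases inf_eq_bot_or_eq hS hA hD hp hF with h2 | h2
    · have : f ∈ A ⊓ F := ⟨hfA, hf⟩
      rw [h2, Subgroup.mem_bot] at this
      exact hf1 this
    · exact hFA h2.symm

/-- Some member of `S` inside `AB` other than `A` is in the commutator case with a given rank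
one partner `D` of `A`. -/
theorem exists_commCase {A B : Subgroup G} (hS : IsRootSubgroupSet S) (hA : A ∈ S) (hB : B ∈ S)
    (hAB : A ≠ B) (hcm : Cm A B)
    (hcover : ∀ x ∈ A ⊔ B, x ≠ 1 → ∃ C ∈ membersIn S (A ⊔ B), x ∈ C)
    {D : Subgroup G} (hD : D ∈ S) (hp : IsRankOnePair A D) :
    ∃ E ∈ membersIn S (A ⊔ B), E ≠ A ∧ RootCommutatorCase S D E := by
  have cAA : Cm A A := cm_self_of_comm (hS.commutative A hA)
  have cBB : Cm B B := cm_self_of_comm (hS.commutative B hB)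
  have cAB2 : Cm (A ⊔ B) (A ⊔ B) := (cAA.sup_right hcm).sup_left (hcm.symm.sup_right cBB)
  have hroot : ∀ x ∈ A ⊔ B, x ≠ 1 → x ∈ rootElements S := by
    intro x hx hx1
    obtain ⟨C, hC, hxC⟩ := hcover x hx hx1
    exact ⟨hx1, C, hC.1, hxC⟩
  have hnc := no_comm hS hA cAB2 hroot hD hp
  have hinf : A ⊓ B = ⊥ := (inf_eq_bot_or_eq hS hA hD hp hB).resolve_right hAB
  rcases hS.pair D hD B hB with h | h | h
  · exact absurd (cm_iff_bot.mpr h) (hnc B hB le_sup_right hAB.symm)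
  · -- `D` is a rank one partner of both `A` and `B`
    obtain ⟨b, hb, hb1⟩ := exists_mem_ne_one (hS.ne_bot B hB)
    obtain ⟨d', hd', hd'1, hc1⟩ := h.cond_right b hb hb1
    obtain ⟨a', ha', ha'1, hc2⟩ := hp.cond_right d' hd' hd'1
    -- hc1 : conjBy B d'⁻¹ = conjBy D b⁻¹, hc2 : conjBy D a'⁻¹ = conjBy A d'⁻¹
    have h1 : Cm (conjBy A d'⁻¹) (conjBy B d'⁻¹) := hcm.conj d'⁻¹
    rw [hc1, ← hc2] at h1
    have h2 := h1.conj b
    rw [conjBy_conjBy, conjBy_inv_cancel'] at h2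
    -- h2 : Cm (conjBy D (b * a'⁻¹)) D
    have heN : b * a'⁻¹ ∈ A ⊔ B :=
      Subgroup.mul_mem _ (Subgroup.mem_sup_right hb) (Subgroup.mem_sup_left (A.inv_mem ha'))
    have he1 : b * a'⁻¹ ≠ 1 := by
      intro h3
      have h4 : b = a' := by
        have := mul_inv_eq_one.mp h3
        exact this
      have : b ∈ A ⊓ B := ⟨h4 ▸ ha', hb⟩
      rw [hinf, Subgroup.mem_bot] at this
      exact hb1 this
    obtain ⟨E, hE, heE⟩ := hcover _ heN he1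
    have hEA : E ≠ A := by
      intro h3
      rw [h3] at heE
      have h4 : b ∈ A := by
        have := A.mul_mem heE ha'
        simpa using this
      have : b ∈ A ⊓ B := ⟨h4, hb⟩
      rw [hinf, Subgroup.mem_bot] at this
      exact hb1 this
    refine ⟨E, hE, hEA, ?_⟩
    rcases hS.pair D hD E hE.1 with h3 | h3 | h3
    · exact absurd (cm_iff_bot.mpr h3) (hnc E hE.1 hE.2 hEA)
    · exfalso
      have hu : conjBy D (b * a'⁻¹) ∈ unipotentSubgroups D E :=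
        conjBy_mem_unipotent (left_mem_unipotent D E) (Subgroup.mem_sup_right heE)
      by_cases hDe : conjBy D (b * a'⁻¹) = D
      · exact he1 (eq_one_of_conjBy_eq (RankOnePair_symm h3) heE hDe)
      · obtain ⟨hp2, -⟩ := isRankOnePair_of_mem_unipotent h3 hu (left_mem_unipotent D E) hDe
        exact not_cm_of_rankOne hp2 h2
    · exact h3
  · exact ⟨B, ⟨hB, le_sup_right⟩, hAB.symm, h⟩

/-- If `D` is a rank one partner of `A`, `E` commutes with `A`, all non-identity elements of `AE`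
are root elements and `D, E` are in the commutator case, then `⁅A, ⁅D, E⁆⁆ = E`. -/
theorem comm_eq {A E D : Subgroup G} (hS : IsRootSubgroupSet S) (hA : A ∈ S) (hD : D ∈ S)
    (hp : IsRankOnePair A D) (hE : E ∈ S) (hEA : E ≠ A) (cAE : Cm A E)
    (hroot : ∀ x ∈ A ⊔ E, x ≠ 1 → x ∈ rootElements S)
    {D' : Subgroup G} (hD' : D' ∈ S) (hp' : IsRankOnePair E D')
    (hc : RootCommutatorCase S D E) :
    RootCommutatorCase S A ⁅D, E⁆ ∧ ⁅A, ⁅D, E⁆⁆ = E := by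
  have cFD : Cm ⁅D, E⁆ D := (commCase_cm hc).mono le_rfl le_sup_left
  have cFE : Cm ⁅D, E⁆ E := (commCase_cm hc).mono le_rfl le_sup_right
  have hinfAE : A ⊓ E = ⊥ := (inf_eq_bot_or_eq hS hA hD hp hE).resolve_right (fun h => hEA h.symm)
  obtain ⟨a, ha, ha1⟩ := exists_mem_ne_one (hS.ne_bot A hA)
  -- the pair `(A, F)` is in the commutator case
  have hcAF : RootCommutatorCase S A ⁅D, E⁆ := by
    rcases hS.pair A hA _ hc.1 with h | h | h
    · exfalso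
      have h' : Cm A ⁅D, E⁆ := cm_iff_bot.mpr h
      have hAV : Cm A (E ⊔ ⁅D, E⁆) := cAE.sup_right h'
      have hnA : A ≤ Subgroup.normalizer ((E ⊔ ⁅D, E⁆ : Subgroup G) : Set G) := hAV.le_normalizer
      have hnD : D ≤ Subgroup.normalizer ((E ⊔ ⁅D, E⁆ : Subgroup G) : Set G) := by
        apply le_normalizer_of_conj_le
        intro d hd
        rw [conjBy_sup, cFD.symm.conjBy_eq hd]
        have h3 : conjBy E d ≤ ⁅D, E⁆ ⊔ E := conjBy_le_commutator_sup hd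
        exact sup_le (h3.trans (sup_le le_sup_right le_sup_left)) le_sup_right
      obtain ⟨u, hu, hDu⟩ := right_mem_unipotent hp
      have hVu : conjBy (E ⊔ ⁅D, E⁆) u = E ⊔ ⁅D, E⁆ :=
        mem_normalizer_iff_conjBy.mp (sup_le hnA hnD hu)
      have h4 := hAV.conj u
      rw [← hDu, hVu] at h4
      exact hS.ne_bot _ hc.1 (cm_iff_bot.mp (h4.mono le_rfl le_sup_left))
    · exfalso
      obtain ⟨e, he, he1⟩ := exists_mem_ne_one (hS.ne_bot E hE)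
      have hz : e ∈ Subgroup.centralizer ((A ⊔ ⁅D, E⁆ : Subgroup G) : Set G) := by
        rw [Subgroup.mem_centralizer_iff]
        intro x hx
        exact ((cAE.symm.sup_right cFE.symm) e he x hx).symm
      have h0 := Cfsg.Agent.S5025.result hS hA
        (show ⁅D, E⁆ ∈ rankOnePartners S A from ⟨hc.1, h⟩) hz he1 a ha ha1
      apply h0
      apply hroot
      · exact Subgroup.mul_mem _ (Subgroup.mem_sup_right he) (Subgroup.mem_sup_left ha)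
      · intro h3
        have heA : e ∈ A := by
          have : e = a⁻¹ := eq_inv_of_mul_eq_one_left h3
          rw [this]
          exact A.inv_mem ha
        have : e ∈ A ⊓ E := ⟨heA, he⟩
        rw [hinfAE, Subgroup.mem_bot] at this
        exact he1 this
    · exact h
  refine ⟨hcAF, ?_⟩
  have cF2A : Cm ⁅A, ⁅D, E⁆⁆ A := (commCase_cm hcAF).mono le_rfl le_sup_left
  have cF2E : Cm ⁅A, ⁅D, E⁆⁆ E := (cAE.symm.commutator_right cFE.symm).symm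
  have hF2 : ⁅A, ⁅D, E⁆⁆ ∈ S := hcAF.1
  have hinfAF2 : A ⊓ ⁅A, ⁅D, E⁆⁆ = ⊥ :=
    (inf_eq_bot_or_eq hS hA hD hp hF2).resolve_right (ne_commutator_of_commCase hS hcAF)
  have h29 := Cfsg.Agent.S5029.result hS (not_isolated_of_partner hA hD hp) hA hc.1 hF2
  obtain ⟨d, hd, -, hconj⟩ := hp.cond_left a ha ha1
  have hu : conjBy A (a * d⁻¹) = D := by
    rw [← conjBy_conjBy, hconj, conjBy_inv_cancel']
  -- every element of `E` lies in `⁅A, ⁅D, E⁆⁆`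
  have hle : E ≤ ⁅A, ⁅D, E⁆⁆ := by
    intro e he
    by_cases he1 : e = 1
    · rw [he1]; exact Subgroup.one_mem _
    have hφ : e⁻¹ * d⁻¹ * e * d ∈ ⁅D, E⁆ := by
      have := Subgroup.commutator_mem_commutator (E.inv_mem he) (D.inv_mem hd)
      rw [Subgroup.commutator_comm, commutatorElement_def] at this
      simpa using this
    have hψ : (e⁻¹ * d⁻¹ * e * d)⁻¹ * a * (e⁻¹ * d⁻¹ * e * d) * a⁻¹ ∈ ⁅A, ⁅D, E⁆⁆ := by
      have := Subgroup.commutator_mem_commutator (Subgroup.inv_mem _ hφ) ha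
      rw [Subgroup.commutator_comm, commutatorElement_def] at this
      simpa using this
    have hae : a * e = e * a := cAE a ha e he
    -- `z = e ψ` centralises `A ⊔ D`
    have hzD : ∀ d' ∈ D, e * ((e⁻¹ * d⁻¹ * e * d)⁻¹ * a * (e⁻¹ * d⁻¹ * e * d) * a⁻¹) * d'
        = d' * (e * ((e⁻¹ * d⁻¹ * e * d)⁻¹ * a * (e⁻¹ * d⁻¹ * e * d) * a⁻¹)) := by
      intro d' hd'
      have hmem : (a * d⁻¹) * e * (a * d⁻¹)⁻¹ ∈ conjBy E (a * d⁻¹) := conj_mem_conjBy he _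
      have hcD : Cm (conjBy E (a * d⁻¹)) D := by
        have := cAE.symm.conj (a * d⁻¹)
        rwa [hu] at this
      have h3 := hcD _ hmem d' hd'
      have h4 := cFD _ hφ d' hd'
      have h5 := cFE _ hφ e he
      have hae' : a * e * a⁻¹ * e⁻¹ = 1 := by rw [hae]; group
      have e1 : (a * d⁻¹) * e * (a * d⁻¹)⁻¹
          = (a * e * a⁻¹ * e⁻¹) * (e * (e⁻¹ * d⁻¹ * e * d)) *
            ((e⁻¹ * d⁻¹ * e * d)⁻¹ * a * (e⁻¹ * d⁻¹ * e * d) * a⁻¹) := by group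
      rw [e1, hae', one_mul, ← h5] at h3
      -- h3 : φ * e * ψ * d' = d' * (φ * e * ψ)
      calc e * ((e⁻¹ * d⁻¹ * e * d)⁻¹ * a * (e⁻¹ * d⁻¹ * e * d) * a⁻¹) * d'
          = (e⁻¹ * d⁻¹ * e * d)⁻¹ * ((e⁻¹ * d⁻¹ * e * d) * e *
              ((e⁻¹ * d⁻¹ * e * d)⁻¹ * a * (e⁻¹ * d⁻¹ * e * d) * a⁻¹) * d') := by group
        _ = (e⁻¹ * d⁻¹ * e * d)⁻¹ * (d' * ((e⁻¹ * d⁻¹ * e * d) * e *
              ((e⁻¹ * d⁻¹ * e * d)⁻¹ * a * (e⁻¹ * d⁻¹ * e * d) * a⁻¹))) := by rw [h3]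
        _ = (e⁻¹ * d⁻¹ * e * d)⁻¹ * ((d' * (e⁻¹ * d⁻¹ * e * d)) * e *
              ((e⁻¹ * d⁻¹ * e * d)⁻¹ * a * (e⁻¹ * d⁻¹ * e * d) * a⁻¹)) := by group
        _ = (e⁻¹ * d⁻¹ * e * d)⁻¹ * (((e⁻¹ * d⁻¹ * e * d) * d') * e *
              ((e⁻¹ * d⁻¹ * e * d)⁻¹ * a * (e⁻¹ * d⁻¹ * e * d) * a⁻¹)) := by rw [h4]
        _ = d' * (e * ((e⁻¹ * d⁻¹ * e * d)⁻¹ * a * (e⁻¹ * d⁻¹ * e * d) * a⁻¹)) := by group
    have hzA : ∀ a' ∈ A, e * ((e⁻¹ * d⁻¹ * e * d)⁻¹ * a * (e⁻¹ * d⁻¹ * e * d) * a⁻¹) * a'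
        = a' * (e * ((e⁻¹ * d⁻¹ * e * d)⁻¹ * a * (e⁻¹ * d⁻¹ * e * d) * a⁻¹)) := by
      intro a' ha'
      have h3 := cF2A _ hψ a' ha'
      have h4 := cAE a' ha' e he
      rw [mul_assoc, h3, ← mul_assoc, ← h4, mul_assoc]
    -- `z = 1`
    have hz1 : e * ((e⁻¹ * d⁻¹ * e * d)⁻¹ * a * (e⁻¹ * d⁻¹ * e * d) * a⁻¹) = 1 := by
      by_contra hzne
      have hz : e * ((e⁻¹ * d⁻¹ * e * d)⁻¹ * a * (e⁻¹ * d⁻¹ * e * d) * a⁻¹)
          ∈ Subgroup.centralizer ((A ⊔ D : Subgroup G) : Set G) := by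
        rw [Subgroup.mem_centralizer_iff]
        intro x hx
        refine sup_induction_gen (P := fun x => x *
          (e * ((e⁻¹ * d⁻¹ * e * d)⁻¹ * a * (e⁻¹ * d⁻¹ * e * d) * a⁻¹))
          = e * ((e⁻¹ * d⁻¹ * e * d)⁻¹ * a * (e⁻¹ * d⁻¹ * e * d) * a⁻¹) * x) ?_ ?_ ?_ ?_ hx
        · intro a' ha'; exact (hzA a' ha').symm
        · intro d' hd'; exact (hzD d' hd').symm
        · simp
        · intro x y hx hy
          rw [mul_assoc, hy, ← mul_assoc, hx, mul_assoc]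
      have h0 := Cfsg.Agent.S5025.result hS hA (show D ∈ rankOnePartners S A from ⟨hD, hp⟩) hz
        hzne a ha ha1
      apply h0
      -- `ψ a` lies in a conjugate of `A` under `F`
      have hψa : (e⁻¹ * d⁻¹ * e * d)⁻¹ * a * (e⁻¹ * d⁻¹ * e * d) * a⁻¹ * a ∈ A ⊔ ⁅A, ⁅D, E⁆⁆ :=
        Subgroup.mul_mem _ (Subgroup.mem_sup_right hψ) (Subgroup.mem_sup_left ha)
      have hψa1 : (e⁻¹ * d⁻¹ * e * d)⁻¹ * a * (e⁻¹ * d⁻¹ * e * d) * a⁻¹ * a ≠ 1 := by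
        intro h3
        have haF : a ∈ ⁅A, ⁅D, E⁆⁆ := by
          have : a = ((e⁻¹ * d⁻¹ * e * d)⁻¹ * a * (e⁻¹ * d⁻¹ * e * d) * a⁻¹)⁻¹ :=
            eq_inv_of_mul_eq_one_right h3
          rw [this]
          exact Subgroup.inv_mem _ hψ
        have : a ∈ A ⊓ ⁅A, ⁅D, E⁆⁆ := ⟨ha, haF⟩
        rw [hinfAF2, Subgroup.mem_bot] at this
        exact ha1 this
      obtain ⟨P, hP, hPmem⟩ := h29.2.1.2.1 _ hψa hψa1
      rw [h29.1] at hP
      rcases hP with ⟨f, hf, rfl⟩ | hP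
      · -- `ψ a = f a'' f⁻¹`
        rw [mem_conjBy] at hPmem
        have hfe := cFE f hf e he
        have hea'' : e * (f⁻¹ * ((e⁻¹ * d⁻¹ * e * d)⁻¹ * a * (e⁻¹ * d⁻¹ * e * d) * a⁻¹ * a) * f)
            ∈ A ⊔ E := Subgroup.mul_mem _ (Subgroup.mem_sup_right he) (Subgroup.mem_sup_left hPmem)
        have hea''1 : e * (f⁻¹ * ((e⁻¹ * d⁻¹ * e * d)⁻¹ * a * (e⁻¹ * d⁻¹ * e * d) * a⁻¹ * a) * f)
            ≠ 1 := by
          intro h3
          have heA : e ∈ A := by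
            have : e = (f⁻¹ * ((e⁻¹ * d⁻¹ * e * d)⁻¹ * a * (e⁻¹ * d⁻¹ * e * d) * a⁻¹ * a) * f)⁻¹ :=
              eq_inv_of_mul_eq_one_left h3
            rw [this]
            exact A.inv_mem hPmem
          have : e ∈ A ⊓ E := ⟨heA, he⟩
          rw [hinfAE, Subgroup.mem_bot] at this
          exact he1 this
        obtain ⟨hr1, P', hP', hmem'⟩ := hroot _ hea'' hea''1
        have heq : e * ((e⁻¹ * d⁻¹ * e * d)⁻¹ * a * (e⁻¹ * d⁻¹ * e * d) * a⁻¹) * a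
            = f * (e * (f⁻¹ * ((e⁻¹ * d⁻¹ * e * d)⁻¹ * a * (e⁻¹ * d⁻¹ * e * d) * a⁻¹ * a) * f))
              * f⁻¹ := by
          calc e * ((e⁻¹ * d⁻¹ * e * d)⁻¹ * a * (e⁻¹ * d⁻¹ * e * d) * a⁻¹) * a
              = f⁻¹⁻¹ * (f⁻¹ * e) * ((e⁻¹ * d⁻¹ * e * d)⁻¹ * a * (e⁻¹ * d⁻¹ * e * d) * a⁻¹ * a) := by
                group
            _ = f * (e * f⁻¹) * ((e⁻¹ * d⁻¹ * e * d)⁻¹ * a * (e⁻¹ * d⁻¹ * e * d) * a⁻¹ * a) := by
                have : f⁻¹ * e = e * f⁻¹ := by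
                  rw [eq_mul_inv_iff_mul_eq, mul_assoc, ← hfe, ← mul_assoc, inv_mul_cancel, one_mul]
                rw [this, inv_inv]
            _ = f * (e * (f⁻¹ * ((e⁻¹ * d⁻¹ * e * d)⁻¹ * a * (e⁻¹ * d⁻¹ * e * d) * a⁻¹ * a) * f))
                  * f⁻¹ := by group
        rw [heq]
        refine ⟨?_, conjBy P' f, hS.conj_mem P' hP' f, conj_mem_conjBy hmem' f⟩
        intro h3
        apply hr1
        have : e * (f⁻¹ * ((e⁻¹ * d⁻¹ * e * d)⁻¹ * a * (e⁻¹ * d⁻¹ * e * d) * a⁻¹ * a) * f)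
            = f⁻¹ * (f * (e * (f⁻¹ * ((e⁻¹ * d⁻¹ * e * d)⁻¹ * a * (e⁻¹ * d⁻¹ * e * d) * a⁻¹ * a) * f))
              * f⁻¹) * f := by group
        rw [this, h3]; group
      · exfalso
        rw [Set.mem_singleton_iff] at hP
        rw [hP] at hPmem
        have haF : a ∈ ⁅A, ⁅D, E⁆⁆ := by
          have := Subgroup.mul_mem _ (Subgroup.inv_mem _ hψ) hPmem
          rwa [inv_mul_cancel_left] at this
        have : a ∈ A ⊓ ⁅A, ⁅D, E⁆⁆ := ⟨ha, haF⟩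
        rw [hinfAF2, Subgroup.mem_bot] at this
        exact ha1 this
    have : e = ((e⁻¹ * d⁻¹ * e * d)⁻¹ * a * (e⁻¹ * d⁻¹ * e * d) * a⁻¹)⁻¹ :=
      eq_inv_of_mul_eq_one_left hz1
    rw [this]
    exact Subgroup.inv_mem _ hψ
  rcases inf_eq_bot_or_eq hS hE hD' hp' hF2 with h | h
  · exfalso
    rw [inf_eq_left.mpr hle] at h
    exact hS.ne_bot E hE h
  · exact h.symm

/-- The structure of a line `AB`, relative to a rank one partner `D` of `A`. -/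
theorem line_structure {A B : Subgroup G} (hS : IsRootSubgroupSet S)
    (hni : ∀ X ∈ S, ∃ D ∈ S, IsRankOnePair X D) (hA : A ∈ S) (hB : B ∈ linePartners S A)
    {D : Subgroup G} (hD : D ∈ S) (hp : IsRankOnePair A D) :
    ∃ E ∈ membersIn S (A ⊔ B), E ≠ A ∧ RootCommutatorCase S D E ∧
      RootCommutatorCase S A ⁅D, E⁆ ∧ ⁅A, ⁅D, E⁆⁆ = E ∧ A ⊔ E = A ⊔ B ∧
      membersIn S (A ⊔ B) = (fun f : G => conjBy A f) '' ((⁅D, E⁆ : Subgroup G) : Set G) ∪ {E} := by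
  obtain ⟨⟨hBS, hBA, hcomm⟩, -, hcover, -⟩ := hB
  have hcm : Cm A B := cm_iff_bot.mpr hcomm
  have cAA := cm_self_of_comm (hS.commutative A hA)
  have cBB := cm_self_of_comm (hS.commutative B hBS)
  have cAB2 : Cm (A ⊔ B) (A ⊔ B) := (cAA.sup_right hcm).sup_left (hcm.symm.sup_right cBB)
  obtain ⟨E, hE, hEA, hc⟩ := exists_commCase hS hA hBS hBA.symm hcm hcover hD hp
  have cAE : Cm A E := cAB2.mono le_sup_left hE.2
  have hrootE : ∀ x ∈ A ⊔ E, x ≠ 1 → x ∈ rootElements S := by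
    intro x hx hx1
    obtain ⟨C, hC, hxC⟩ := hcover x (sup_le le_sup_left hE.2 hx) hx1
    exact ⟨hx1, C, hC.1, hxC⟩
  obtain ⟨D', hD', hp'⟩ := hni E hE.1
  obtain ⟨hcAF, hEq⟩ := comm_eq hS hA hD hp hE.1 hEA cAE hrootE hD' hp' hc
  have h29 := Cfsg.Agent.S5029.result hS (not_isolated_of_partner hA hD hp) hA hc.1 hcAF.1
  rw [hEq] at h29
  have hinfAE : A ⊓ E = ⊥ :=
    (inf_eq_bot_or_eq hS hA hD hp hE.1).resolve_right (fun h => hEA h.symm)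
  have hsup : A ⊔ E = A ⊔ B := by
    apply le_antisymm (sup_le le_sup_left hE.2)
    apply sup_le le_sup_left
    by_cases hEB : E = B
    · rw [← hEB]; exact le_sup_right
    · obtain ⟨e, he, he1⟩ := exists_mem_ne_one (hS.ne_bot E hE.1)
      obtain ⟨a₁, ha₁, b₁, hb₁, hab⟩ := mem_sup_of_cm hcm (hE.2 he)
      have hb₁1 : b₁ ≠ 1 := by
        intro h1
        rw [h1, mul_one] at hab
        have : e ∈ A ⊓ E := ⟨hab ▸ ha₁, he⟩
        rw [hinfAE, Subgroup.mem_bot] at this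
        exact he1 this
      have hb₁N : b₁ ∈ A ⊔ E := by
        have : b₁ = a₁⁻¹ * e := by rw [hab]; group
        rw [this]
        exact Subgroup.mul_mem _ (Subgroup.mem_sup_left (A.inv_mem ha₁))
          (Subgroup.mem_sup_right he)
      obtain ⟨B', hB', hb₁B'⟩ := h29.2.1.2.1 b₁ hb₁N hb₁1
      obtain ⟨DB, hDB, hpB⟩ := hni B hBS
      rcases inf_eq_bot_or_eq hS hBS hDB hpB hB'.1 with h2 | h2
      · exfalso
        have : b₁ ∈ B ⊓ B' := ⟨hb₁, hb₁B'⟩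
        rw [h2, Subgroup.mem_bot] at this
        exact hb₁1 this
      · rw [h2]; exact hB'.2
  refine ⟨E, hE, hEA, hc, hcAF, hEq, hsup, ?_⟩
  rw [← hsup]
  exact h29.1

/-- `F` fixes the point `E` of the line `N` and is transitive on the other points. -/
def Pivot (S : Set (Subgroup G)) (N E F : Subgroup G) : Prop :=
  E ∈ membersIn S N ∧ F ∈ normalizingMembers S N ∧ (∀ f ∈ F, conjBy E f = E) ∧
    ∀ P ∈ membersIn S N, ∀ Q ∈ membersIn S N, P ≠ E → Q ≠ E → ∃ f ∈ F, conjBy P f = Q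

theorem exists_pivot {A B : Subgroup G} (hS : IsRootSubgroupSet S)
    (hni : ∀ X ∈ S, ∃ D ∈ S, IsRankOnePair X D) (hA : A ∈ S) (hB : B ∈ linePartners S A) :
    ∃ E F, E ≠ A ∧ A ⊔ E = A ⊔ B ∧ Pivot S (A ⊔ B) E F := by
  obtain ⟨D, hD, hp⟩ := hni A hA
  obtain ⟨E, hE, hEA, hc, hcAF, hEq, hsup, hmem⟩ := line_structure hS hni hA hB hD hp
  have cEF : Cm E ⁅D, E⁆ := by
    have := (commCase_cm hcAF).mono le_rfl (le_sup_right (a := A))
    rwa [hEq] at this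
  refine ⟨E, ⁅D, E⁆, hEA, hsup, hE, ⟨hc.1, ?_⟩, ?_, ?_⟩
  · rw [← hsup]
    apply le_normalizer_of_conj_le
    intro f hf
    rw [conjBy_sup, cEF.symm.conjBy_eq hf]
    have h1 : conjBy A f ≤ ⁅⁅D, E⁆, A⁆ ⊔ A := conjBy_le_commutator_sup hf
    rw [Subgroup.commutator_comm, hEq] at h1
    exact sup_le (h1.trans (sup_le le_sup_right le_sup_left)) le_sup_right
  · intro f hf
    exact cEF.symm.conjBy_eq hf
  · intro P hP Q hQ hPE hQE
    rw [hmem] at hP hQ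
    rcases hP with ⟨f₁, hf₁, rfl⟩ | hP
    · rcases hQ with ⟨f₂, hf₂, rfl⟩ | hQ
      · refine ⟨f₂ * f₁⁻¹, Subgroup.mul_mem _ hf₂ (Subgroup.inv_mem _ hf₁), ?_⟩
        show conjBy (conjBy A f₁) (f₂ * f₁⁻¹) = conjBy A f₂
        rw [conjBy_conjBy, inv_mul_cancel_right]
      · exact absurd (Set.mem_singleton_iff.mp hQ) hQE
    · exact absurd (Set.mem_singleton_iff.mp hP) hPE

/-- A third point on a line. -/
theorem exists_third {A B : Subgroup G} (hS : IsRootSubgroupSet S)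
    (hni : ∀ X ∈ S, ∃ D ∈ S, IsRankOnePair X D) (hA : A ∈ S) (hB : B ∈ linePartners S A) :
    ∃ E ∈ membersIn S (A ⊔ B), E ≠ A ∧ E ≠ B := by
  obtain ⟨⟨hBS, hBA, hcomm⟩, -, hcover, -⟩ := hB
  obtain ⟨D, hD, hp⟩ := hni A hA
  obtain ⟨a, ha, ha1⟩ := exists_mem_ne_one (hS.ne_bot A hA)
  obtain ⟨b, hb, hb1⟩ := exists_mem_ne_one (hS.ne_bot B hBS)
  have hinf : A ⊓ B = ⊥ := (inf_eq_bot_or_eq hS hA hD hp hBS).resolve_right (fun h => hBA h.symm)
  have hab1 : a * b ≠ 1 := by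
    intro h
    have : a = b⁻¹ := eq_inv_of_mul_eq_one_left h
    have h2 : a ∈ A ⊓ B := ⟨ha, this ▸ B.inv_mem hb⟩
    rw [hinf, Subgroup.mem_bot] at h2
    exact ha1 h2
  have habm : a * b ∈ A ⊔ B :=
    Subgroup.mul_mem _ (Subgroup.mem_sup_left ha) (Subgroup.mem_sup_right hb)
  obtain ⟨E, hE, habE⟩ := hcover (a * b) habm hab1
  refine ⟨E, hE, ?_, ?_⟩
  · intro h
    rw [h] at habE
    have h2 : b ∈ A := by
      have := A.mul_mem (A.inv_mem ha) habE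
      simpa using this
    have h3 : b ∈ A ⊓ B := ⟨h2, hb⟩
    rw [hinf, Subgroup.mem_bot] at h3
    exact hb1 h3
  · intro h
    rw [h] at habE
    have h2 : a ∈ B := by
      have := B.mul_mem habE (B.inv_mem hb)
      simpa using this
    have h3 : a ∈ A ⊓ B := ⟨ha, h2⟩
    rw [hinf, Subgroup.mem_bot] at h3
    exact ha1 h3

/-- Double transitivity on the points of a line. -/
theorem doubly_transitive {A B : Subgroup G} (hS : IsRootSubgroupSet S)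
    (hni : ∀ X ∈ S, ∃ D ∈ S, IsRankOnePair X D) (hA : A ∈ S) (hB : B ∈ linePartners S A) :
    ∀ C₁ ∈ membersIn S (A ⊔ B), ∀ C₂ ∈ membersIn S (A ⊔ B), ∀ D₁ ∈ membersIn S (A ⊔ B),
      ∀ D₂ ∈ membersIn S (A ⊔ B), C₁ ≠ C₂ → D₁ ≠ D₂ →
        ∃ x ∈ ⨆ E ∈ normalizingMembers S (A ⊔ B), E, conjBy C₁ x = D₁ ∧ conjBy C₂ x = D₂ := by
  obtain ⟨E₁, F₁, hE₁A, hsup₁, hpiv₁⟩ := exists_pivot hS hni hA hB
  obtain ⟨E₃, hE₃, hE₃A, hE₃B⟩ := exists_third hS hni hA hB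
  obtain ⟨⟨hBS, hBA, hcomm⟩, hpart⟩ := hB
  have hcm : Cm A B := cm_iff_bot.mpr hcomm
  have cAA := cm_self_of_comm (hS.commutative A hA)
  have cBB := cm_self_of_comm (hS.commutative B hBS)
  have cAB2 : Cm (A ⊔ B) (A ⊔ B) := (cAA.sup_right hcm).sup_left (hcm.symm.sup_right cBB)
  have e : E₁ ⊔ A = A ⊔ B := by rw [sup_comm]; exact hsup₁
  have hA' : A ∈ linePartners S E₁ := by
    refine ⟨⟨hA, hE₁A.symm, cm_iff_bot.mp (cAB2.mono hpiv₁.1.2 le_sup_left)⟩, ?_⟩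
    rw [e]
    exact hpart
  obtain ⟨E₂, F₂, hE₂E₁, -, hpiv₂⟩ := exists_pivot hS hni hpiv₁.1.1 hA'
  rw [e] at hpiv₂
  have hF₁H : F₁ ≤ ⨆ E ∈ normalizingMembers S (A ⊔ B), E := le_biSup (fun E => E) hpiv₁.2.1
  have hF₂H : F₂ ≤ ⨆ E ∈ normalizingMembers S (A ⊔ B), E := le_biSup (fun E => E) hpiv₂.2.1
  have hHN : (⨆ E ∈ normalizingMembers S (A ⊔ B), E)
      ≤ Subgroup.normalizer ((A ⊔ B : Subgroup G) : Set G) := iSup₂_le (fun E hE => hE.2)
  have hpres : ∀ x ∈ ⨆ E ∈ normalizingMembers S (A ⊔ B), E, ∀ P ∈ membersIn S (A ⊔ B),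
      conjBy P x ∈ membersIn S (A ⊔ B) := by
    intro x hx P hP
    refine ⟨hS.conj_mem P hP.1 x, ?_⟩
    have h1 := conjBy_mono hP.2 x
    rwa [mem_normalizer_iff_conjBy.mp (hHN hx)] at h1
  have hAm : A ∈ membersIn S (A ⊔ B) := ⟨hA, le_sup_left⟩
  have hBm : B ∈ membersIn S (A ⊔ B) := ⟨hBS, le_sup_right⟩
  -- a third point different from the two pivots
  have h3 : ∃ P ∈ membersIn S (A ⊔ B), P ≠ E₁ ∧ P ≠ E₂ := by
    by_cases hA1 : A = E₁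
    · by_cases hB2 : B = E₂
      · refine ⟨E₃, hE₃, ?_, ?_⟩
        · rw [← hA1]; exact hE₃A
        · rw [← hB2]; exact hE₃B
      · refine ⟨B, hBm, ?_, hB2⟩
        rw [← hA1]; exact hBA
    · by_cases hA2 : A = E₂
      · by_cases hB1 : B = E₁
        · refine ⟨E₃, hE₃, ?_, ?_⟩
          · rw [← hB1]; exact hE₃B
          · rw [← hA2]; exact hE₃A
        · refine ⟨B, hBm, hB1, ?_⟩
          rw [← hA2]; exact hBA
      · exact ⟨A, hAm, hA1, hA2⟩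
  have T1 : ∀ C ∈ membersIn S (A ⊔ B),
      ∃ x ∈ ⨆ E ∈ normalizingMembers S (A ⊔ B), E, conjBy C x = E₁ := by
    intro C hC
    by_cases h1 : C = E₁
    · exact ⟨1, Subgroup.one_mem _, by rw [conjBy_one]; exact h1⟩
    by_cases h2 : C = E₂
    · obtain ⟨P, hP, hP1, hP2⟩ := h3
      obtain ⟨f₁, hf₁, hf₁eq⟩ := hpiv₁.2.2.2 C hC P hP h1 hP1
      obtain ⟨f₂, hf₂, hf₂eq⟩ := hpiv₂.2.2.2 P hP E₁ hpiv₁.1 hP2 hE₂E₁.symm
      exact ⟨f₂ * f₁, Subgroup.mul_mem _ (hF₂H hf₂) (hF₁H hf₁),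
        by rw [← conjBy_conjBy, hf₁eq, hf₂eq]⟩
    · obtain ⟨f₂, hf₂, hf₂eq⟩ := hpiv₂.2.2.2 C hC E₁ hpiv₁.1 h2 hE₂E₁.symm
      exact ⟨f₂, hF₂H hf₂, hf₂eq⟩
  intro C₁ hC₁ C₂ hC₂ D₁ hD₁ D₂ hD₂ hC hD
  obtain ⟨x, hx, hxeq⟩ := T1 C₁ hC₁
  obtain ⟨y, hy, hyeq⟩ := T1 D₁ hD₁
  have hC₂' : conjBy C₂ x ≠ E₁ := by
    intro h
    apply hC
    rw [← hxeq] at h
    exact (conjBy_injective x h).symm
  have hD₂' : conjBy D₂ y ≠ E₁ := by
    intro h
    apply hD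
    rw [← hyeq] at h
    exact (conjBy_injective y h).symm
  obtain ⟨f, hf, hfeq⟩ := hpiv₁.2.2.2 _ (hpres x hx C₂ hC₂) _ (hpres y hy D₂ hD₂) hC₂' hD₂'
  refine ⟨y⁻¹ * f * x, Subgroup.mul_mem _ (Subgroup.mul_mem _ (Subgroup.inv_mem _ hy)
    (hF₁H hf)) hx, ?_, ?_⟩
  · rw [← conjBy_conjBy, ← conjBy_conjBy, hxeq, hpiv₁.2.2.1 f hf, ← hyeq, conjBy_inv_cancel]
  · rw [← conjBy_conjBy, ← conjBy_conjBy, hfeq, conjBy_inv_cancel]

end Cfsg.Agent.Lib.Helper83.Line
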