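import Mathlib
import Cfsg.Prelude.Def_RootSubgroups
import Cfsg.Agent.Lib.Helper83.RankOne
import Cfsg.Agent.Lib.Helper83.RootSub
import Cfsg.Agent.Lib.Helper83.RootSub2
import Cfsg.Agent.Lib.Helper83.Triple
import Cfsg.Agent.Lib.Helper83.Comp
import Cfsg.Agent.Lib.Helper83.Line
import Cfsg.Agent.S5029

/-!
# Line partners: conjugation, connectivity of the graph of lines, generation by line partners
-/

set_option autoImplicit false

namespace Cfsg.Agent.Lib.Helper83.Conn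

open Cfsg Cfsg.Agent.Lib.Helper83.RankOne Cfsg.Agent.Lib.Helper83.RootSub
open Cfsg.Agent.Lib.Helper83.RootSub2 Cfsg.Agent.Lib.Helper83.Triple Cfsg.Agent.Lib.Helper83.Comp
open Cfsg.Agent.Lib.Helper83.Line
open scoped commutatorElement

variable {G : Type*} [Group G] {S : Set (Subgroup G)}

/-! ### Symmetry and conjugation of line partners -/

theorem linePartners_symm {A C : Subgroup G} (hC : C ∈ S) (h : A ∈ linePartners S C) :
    C ∈ linePartners S A := by
  obtain ⟨⟨-, hAC, hcomm⟩, hpart⟩ := h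
  refine ⟨⟨hC, hAC.symm, ?_⟩, ?_⟩
  · rw [Subgroup.commutator_comm]; exact hcomm
  · rw [sup_comm]; exact hpart

theorem membersIn_conj (hS : IsRootSubgroupSet S) {X U : Subgroup G} (h : X ∈ membersIn S U)
    (g : G) : conjBy X g ∈ membersIn S (conjBy U g) :=
  ⟨hS.conj_mem X h.1 g, conjBy_mono h.2 g⟩

theorem linePartners_conj (hS : IsRootSubgroupSet S) {A B : Subgroup G}
    (h : B ∈ linePartners S A) (g : G) : conjBy B g ∈ linePartners S (conjBy A g) := by
  obtain ⟨⟨hBS, hBA, hcomm⟩, -, hcover, hdisj⟩ := h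
  refine ⟨⟨hS.conj_mem B hBS g, fun h => hBA (conjBy_injective g h), ?_⟩, ?_, ?_, ?_⟩
  · exact cm_iff_bot.mp ((cm_iff_bot.mpr hcomm).conj g)
  · intro C hC; exact hC.2
  · intro x hx hx1
    rw [← conjBy_sup, mem_conjBy] at hx
    have hx1' : g⁻¹ * x * g ≠ 1 := by
      intro h
      apply hx1
      have : x = g * (g⁻¹ * x * g) * g⁻¹ := by group
      rw [this, h]; group
    obtain ⟨C, hC, hxC⟩ := hcover _ hx hx1'
    refine ⟨conjBy C g, ?_, mem_conjBy.mpr hxC⟩
    have := membersIn_conj hS hC g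
    rwa [conjBy_sup] at this
  · intro C hC D hD hCD
    have hC' : conjBy C g⁻¹ ∈ membersIn S (A ⊔ B) := by
      have := membersIn_conj hS hC g⁻¹
      rwa [← conjBy_sup, conjBy_inv_cancel] at this
    have hD' : conjBy D g⁻¹ ∈ membersIn S (A ⊔ B) := by
      have := membersIn_conj hS hD g⁻¹
      rwa [← conjBy_sup, conjBy_inv_cancel] at this
    have h1 := hdisj _ hC' _ hD' (fun h => hCD (conjBy_injective g⁻¹ h))
    rw [eq_bot_iff]
    intro x hx
    obtain ⟨hxC, hxD⟩ := Subgroup.mem_inf.mp hx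
    have h2 : g⁻¹ * x * g⁻¹⁻¹ ∈ conjBy C g⁻¹ ⊓ conjBy D g⁻¹ :=
      Subgroup.mem_inf.mpr ⟨conj_mem_conjBy hxC g⁻¹, conj_mem_conjBy hxD g⁻¹⟩
    rw [h1, Subgroup.mem_bot] at h2
    rw [Subgroup.mem_bot]
    have : x = g * (g⁻¹ * x * g⁻¹⁻¹) * g⁻¹ := by group
    rw [this, h2]; group

theorem eadj_symm {A B : Subgroup G} (h : EAdj S S A B) : EAdj S S B A :=
  ⟨h.2.1, h.1, linePartners_symm h.1 h.2.2⟩

theorem eadj_conj (hS : IsRootSubgroupSet S) {A B : Subgroup G} (h : EAdj S S A B) (g : G) :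
    EAdj S S (conjBy A g) (conjBy B g) :=
  ⟨hS.conj_mem A h.1 g, hS.conj_mem B h.2.1 g, linePartners_conj hS h.2.2 g⟩

theorem rtg_eadj_symm {A B : Subgroup G} (h : Relation.ReflTransGen (EAdj S S) A B) :
    Relation.ReflTransGen (EAdj S S) B A := by
  induction h with
  | refl => exact Relation.ReflTransGen.refl
  | tail _ hbc ih => exact Relation.ReflTransGen.head (eadj_symm hbc) ih

theorem rtg_eadj_conj (hS : IsRootSubgroupSet S) {A B : Subgroup G}
    (h : Relation.ReflTransGen (EAdj S S) A B) (g : G) :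
    Relation.ReflTransGen (EAdj S S) (conjBy A g) (conjBy B g) := by
  induction h with
  | refl => exact Relation.ReflTransGen.refl
  | tail _ hbc ih => exact Relation.ReflTransGen.tail ih (eadj_conj hS hbc g)

/-! ### Lines through `A`, relative to a rank one partner -/

/-- `line_structure`, with the special point a line partner of `A`. -/
theorem line_data {A L : Subgroup G} (hS : IsRootSubgroupSet S)
    (hni : ∀ X ∈ S, ∃ D ∈ S, IsRankOnePair X D) (hA : A ∈ S) (hL : L ∈ linePartners S A)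
    {D : Subgroup G} (hD : D ∈ S) (hp : IsRankOnePair A D) :
    ∃ E ∈ linePartners S A, A ⊔ E = A ⊔ L ∧ RootCommutatorCase S D E ∧
      RootCommutatorCase S A ⁅D, E⁆ ∧ ⁅A, ⁅D, E⁆⁆ = E ∧
      ∀ P ∈ membersIn S (A ⊔ L), P = E ∨ ∃ f ∈ ⁅D, E⁆, P = conjBy A f := by
  obtain ⟨E, hE, hEA, hc, hcAF, hEq, hsup, hmem⟩ := line_structure hS hni hA hL hD hp
  have cAA : Cm A A := cm_self_of_comm (hS.commutative A hA)
  have cAL : Cm A L := cm_iff_bot.mpr hL.1.2.2
  have cAE : Cm A E := (cAA.sup_right cAL).mono le_rfl hE.2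
  refine ⟨E, ⟨⟨hE.1, hEA, cm_iff_bot.mp cAE⟩, ?_⟩, hsup, hc, hcAF, hEq, ?_⟩
  · rw [hsup]; exact hL.2
  · intro P hP
    rw [hmem] at hP
    rcases hP with ⟨f, hf, rfl⟩ | hP
    · exact Or.inr ⟨f, hf, rfl⟩
    · exact Or.inl (Set.mem_singleton_iff.mp hP)

/-- Every point other than `A` on a line through `A` is a line partner of `A`. -/
theorem linePartner_of_mem {A L : Subgroup G} (hS : IsRootSubgroupSet S)
    (hni : ∀ X ∈ S, ∃ D ∈ S, IsRankOnePair X D) (hA : A ∈ S) (hL : L ∈ linePartners S A)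
    {P : Subgroup G} (hP : P ∈ membersIn S (A ⊔ L)) (hPA : P ≠ A) :
    P ∈ linePartners S A ∧ A ⊔ P = A ⊔ L := by
  obtain ⟨D, hD, hp⟩ := hni A hA
  obtain ⟨E, hE, hsup, hc, hcAF, hEq, hcases⟩ := line_data hS hni hA hL hD hp
  have cAA : Cm A A := cm_self_of_comm (hS.commutative A hA)
  have cAL : Cm A L := cm_iff_bot.mpr hL.1.2.2
  have cAP : Cm A P := (cAA.sup_right cAL).mono le_rfl hP.2
  have hsupP : A ⊔ P = A ⊔ L := by
    rcases hcases P hP with rfl | ⟨f, hf, rfl⟩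
    · exact hsup
    · apply le_antisymm (sup_le le_sup_left hP.2)
      rw [← hsup]
      apply sup_le le_sup_left
      have hf1 : f ≠ 1 := by
        intro h
        apply hPA
        rw [h, conjBy_one]
      rw [← hEq, ← hcAF.2.2.2 f hf hf1, Subgroup.closure_le]
      rintro _ ⟨a, ha, rfl⟩
      show a * f * a⁻¹ * f⁻¹ ∈ A ⊔ conjBy A f
      have h1 : f * a⁻¹ * f⁻¹ ∈ conjBy A f := conj_mem_conjBy (A.inv_mem ha) f
      have h2 := Subgroup.mul_mem _ (Subgroup.mem_sup_left (T := conjBy A f) ha)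
        (Subgroup.mem_sup_right (S := A) h1)
      have e : a * (f * a⁻¹ * f⁻¹) = a * f * a⁻¹ * f⁻¹ := by group
      rwa [e] at h2
  refine ⟨⟨⟨hP.1, hPA, cm_iff_bot.mp cAP⟩, ?_⟩, hsupP⟩
  rw [hsupP]; exact hL.2

/-! ### Connectivity of the graph of lines -/

/-- Conjugating `A` by an element of a member of `S` stays in the `𝓔`-component of `A`, as soon
as every rank one pair `A, B` has a line partner of `A` in the commutator case with `B`. -/
theorem rtg_conj_mem (hS : IsRootSubgroupSet S) (hni : ∀ X ∈ S, ∃ D ∈ S, IsRankOnePair X D)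
    (hline : ∀ A ∈ S, ∀ B ∈ S, IsRankOnePair A B → ∃ C ∈ linePartners S A, ⁅B, C⁆ ∈ S)
    {A D : Subgroup G} (hA : A ∈ S) (hD : D ∈ S) {d : G} (hd : d ∈ D) :
    Relation.ReflTransGen (EAdj S S) A (conjBy A d) := by
  have hiso : ∀ X ∈ S, ¬ IsIsolatedIn (FAdj S) S X := by
    intro X hX
    obtain ⟨D', hD', hp'⟩ := hni X hX
    exact not_isolated_of_partner hX hD' hp'
  rcases hS.pair A hA D hD with h | h | h
  · rw [(cm_iff_bot.mpr h).symm.conjBy_eq hd]
  · by_cases hd1 : d = 1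
    · rw [hd1, conjBy_one]
    have hu : conjBy A d ∈ unipotentSubgroups A D :=
      conjBy_mem_unipotent (left_mem_unipotent A D) (Subgroup.mem_sup_right hd)
    have hne : A ≠ conjBy A d :=
      fun hcon => hd1 (eq_one_of_conjBy_eq (RankOnePair_symm h) hd hcon.symm)
    obtain ⟨hp', -⟩ := isRankOnePair_of_mem_unipotent h (left_mem_unipotent A D) hu hne
    have hB'S : conjBy A d ∈ S := hS.conj_mem A hA d
    obtain ⟨C, hC, hF⟩ := hline A hA _ hB'S hp'
    have hCS : C ∈ S := hC.1.1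
    have h1 : conjBy A d ∈ linePartners S ⁅conjBy A d, C⁆ :=
      (Cfsg.Agent.S5029.result hS (hiso _ hB'S) hB'S hCS hF).2.2.1
    have hF' : ⁅C, conjBy A d⁆ ∈ S := by rw [Subgroup.commutator_comm]; exact hF
    have h2 : C ∈ linePartners S ⁅conjBy A d, C⁆ := by
      have := (Cfsg.Agent.S5029.result hS (hiso _ hCS) hCS hB'S hF').2.2.1
      rwa [Subgroup.commutator_comm] at this
    exact ((Relation.ReflTransGen.single ⟨hA, hCS, hC⟩).tail
      ⟨hCS, hF, linePartners_symm hF h2⟩).tail ⟨hF, hB'S, h1⟩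
  · have h1 : A ∈ linePartners S ⁅A, D⁆ :=
      (Cfsg.Agent.S5029.result hS (hiso _ hA) hA hD h.1).2.2.1
    have h2 := linePartners_conj hS h1 d
    have cFD : Cm D ⁅A, D⁆ := ((commCase_cm h).mono le_rfl le_sup_right).symm
    rw [cFD.conjBy_eq hd] at h2
    exact (Relation.ReflTransGen.single ⟨hA, h.1, linePartners_symm h.1 h1⟩).tail
      ⟨h.1, hS.conj_mem A hA d, h2⟩

/-- The graph of lines is connected on a class. -/
theorem e_connected (hS : IsRootSubgroupSet S) (hcl : IsConjClassOfSubgroups S)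
    (hni : ∀ X ∈ S, ∃ D ∈ S, IsRankOnePair X D)
    (hline : ∀ A ∈ S, ∀ B ∈ S, IsRankOnePair A B → ∃ C ∈ linePartners S A, ⁅B, C⁆ ∈ S) :
    IsConnectedFamily (EAdj S S) S := by
  let H : Subgroup G :=
    { carrier := {g | ∀ X ∈ S, Relation.ReflTransGen (EAdj S S) X (conjBy X g)}
      one_mem' := by
        intro X _
        rw [conjBy_one]
      mul_mem' := by
        intro x y hx hy X hX
        rw [← conjBy_conjBy]
        exact (hy X hX).trans (hx _ (hS.conj_mem X hX y))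
      inv_mem' := by
        intro x hx X hX
        have := hx _ (hS.conj_mem X hX x⁻¹)
        rw [conjBy_inv_cancel'] at this
        exact rtg_eadj_symm this }
  have hle : ∀ D ∈ S, D ≤ H := by
    intro D hD d hd X hX
    exact rtg_conj_mem hS hni hline hX hD hd
  have htop : H = ⊤ := by
    rw [eq_top_iff, ← hS.generates]
    exact iSup₂_le hle
  intro A hA B hB
  obtain ⟨g, rfl⟩ := hcl.2 A hA B hB
  have hg : g ∈ H := by rw [htop]; trivial
  exact hg A hA

theorem d_connected_of_e (h : IsConnectedFamily (EAdj S S) S) : IsConnectedFamily (DAdj S) S := by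
  intro A hA B hB
  refine Relation.ReflTransGen.mono ?_ A B (h A hA B hB)
  intro X Y hXY
  exact ⟨hXY.1, hXY.2.1, hXY.2.2.1.2.1.symm, hXY.2.2.1.2.2⟩

/-! ### Generation by the line partners and a rank one partner -/

theorem generated_by_lines (hS : IsRootSubgroupSet S)
    (hni : ∀ X ∈ S, ∃ D ∈ S, IsRankOnePair X D)
    (hconn : IsConnectedFamily (EAdj S S) S)
    {A B : Subgroup G} (hA : A ∈ S) (hB : B ∈ S) (hp : IsRankOnePair A B)
    (hex : ∃ L, L ∈ linePartners S A) :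
    (⨆ C ∈ linePartners S A, C) ⊔ B = ⊤ := by
  set R : Subgroup G := (⨆ C ∈ linePartners S A, C) ⊔ B with hR
  have hiso : ∀ X ∈ S, ¬ IsIsolatedIn (FAdj S) S X := by
    intro X hX
    obtain ⟨D', hD', hp'⟩ := hni X hX
    exact not_isolated_of_partner hX hD' hp'
  have hΛR : ∀ C ∈ linePartners S A, C ≤ R := fun C hC =>
    (le_biSup (fun C => C) hC).trans le_sup_left
  have hBR : B ≤ R := le_sup_right
  -- `A ≤ R`
  have hAR : A ≤ R := by
    obtain ⟨L, hL⟩ := hex
    obtain ⟨E, hE, hsup, hc, hcAF, hEq, hcases⟩ := line_data hS hni hA hL hB hp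
    have hFR : ⁅B, E⁆ ≤ R := (commutator_le_sup B E).trans (sup_le hBR (hΛR E hE))
    obtain ⟨f, hf, hf1⟩ := exists_mem_ne_one (hS.ne_bot _ hc.1)
    have hinf : A ⊓ E = ⊥ :=
      (inf_eq_bot_or_eq hS hA hB hp hE.1.1).resolve_right (fun h => hE.1.2.1 h.symm)
    have hPA : conjBy A f ≠ A := by
      intro hcon
      obtain ⟨a, ha, haf⟩ := exists_noncomm_left hS hcAF hf hf1
      apply haf
      have h1 : a * f * a⁻¹ * f⁻¹ ∈ E := by
        have := Subgroup.commutator_mem_commutator ha hf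
        rwa [hEq] at this
      have h2 : a * f * a⁻¹ * f⁻¹ ∈ A := by
        have h3 : f * a⁻¹ * f⁻¹ ∈ conjBy A f := conj_mem_conjBy (A.inv_mem ha) f
        rw [hcon] at h3
        have h4 := A.mul_mem ha h3
        have e : a * (f * a⁻¹ * f⁻¹) = a * f * a⁻¹ * f⁻¹ := by group
        rwa [e] at h4
      have h5 : a * f * a⁻¹ * f⁻¹ ∈ A ⊓ E := Subgroup.mem_inf.mpr ⟨h2, h1⟩
      rw [hinf, Subgroup.mem_bot] at h5
      have : a * f = (a * f * a⁻¹ * f⁻¹) * (f * a) := by group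
      rw [this, h5, one_mul]
    have hPm : conjBy A f ∈ membersIn S (A ⊔ L) := by
      refine ⟨hS.conj_mem A hA f, ?_⟩
      rw [← hsup]
      have h1 : conjBy A f ≤ ⁅⁅B, E⁆, A⁆ ⊔ A := conjBy_le_commutator_sup hf
      rw [Subgroup.commutator_comm, hEq] at h1
      exact h1.trans (sup_le le_sup_right le_sup_left)
    have hPR : conjBy A f ≤ R := hΛR _ (linePartner_of_mem hS hni hA hL hPm hPA).1
    intro a ha
    have h1 : f * a * f⁻¹ ∈ R := hPR (conj_mem_conjBy ha f)
    have h2 := R.mul_mem (R.mul_mem (R.inv_mem (hFR hf)) h1) (hFR hf)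
    have e : f⁻¹ * (f * a * f⁻¹) * f = a := by group
    rwa [e] at h2
  -- line partners of `R`-conjugates of `A` lie in `R`
  have hgood : ∀ r ∈ R, ∀ L ∈ linePartners S (conjBy A r), L ≤ R := by
    intro r hr L hL
    have h1 := linePartners_conj hS hL r⁻¹
    rw [conjBy_inv_cancel] at h1
    have h2 := conjBy_le_of_mem (hΛR _ h1) hr
    rwa [conjBy_inv_cancel'] at h2
  -- every line partner of `A` is an `R`-conjugate of `A`
  have key : ∀ L ∈ linePartners S A, ∃ r ∈ R, L = conjBy A r := by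
    intro L hL
    obtain ⟨E, hE, hsup, hc, hcAF, hEq, hcases⟩ := line_data hS hni hA hL hB hp
    have hFR : ⁅B, E⁆ ≤ R := (commutator_le_sup B E).trans (sup_le hBR (hΛR E hE))
    have hES : E ∈ S := hE.1.1
    have hgoodE : ∃ r ∈ R, E = conjBy A r := by
      obtain ⟨D₀, hD₀, hp₀⟩ := hni E hES
      have hA' : A ∈ linePartners S E := linePartners_symm hA hE
      obtain ⟨E₂, hE₂, hE₂E, hc₂, -, -, hsup₂, hmem₂⟩ := line_structure hS hni hES hA' hD₀ hp₀
      have hE₂' : E₂ ∈ membersIn S (A ⊔ L) := by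
        rw [← hsup, sup_comm]; exact hE₂
      obtain ⟨f₁, hf₁, hE₂eq⟩ := (hcases E₂ hE₂').resolve_left hE₂E
      have hF₂ : ⁅E₂, D₀⁆ ∈ S := by rw [Subgroup.commutator_comm]; exact hc₂.1
      have h1 : E₂ ∈ linePartners S ⁅E₂, D₀⁆ :=
        (Cfsg.Agent.S5029.result hS (hiso _ hE₂.1) hE₂.1 hD₀ hF₂).2.2.1
      have h2 : ⁅D₀, E₂⁆ ∈ linePartners S E₂ := by
        have := linePartners_symm hF₂ h1
        rwa [Subgroup.commutator_comm] at this
      have hF₂R : ⁅D₀, E₂⁆ ≤ R := by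
        have h2' : ⁅D₀, E₂⁆ ∈ linePartners S (conjBy A f₁) := by
          rw [← hE₂eq]; exact h2
        exact hgood f₁ (hFR hf₁) _ h2'
      have hE₂line : E₂ ∈ linePartners S E := (linePartner_of_mem hS hni hES hA' hE₂ hE₂E).1
      obtain ⟨P₃, hP₃, hP₃E, hP₃E₂⟩ := exists_third hS hni hES hE₂line
      rw [hsup₂] at hP₃
      have hP₃' : P₃ ∈ membersIn S (A ⊔ L) := by
        rw [← hsup, sup_comm]; exact hP₃
      obtain ⟨f₃, hf₃, hP₃eq⟩ := (hcases P₃ hP₃').resolve_left hP₃E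
      rw [hmem₂] at hP₃
      rcases hP₃ with ⟨f₂, hf₂, hP₃eq'⟩ | hP₃
      · refine ⟨f₂⁻¹ * f₃, R.mul_mem (R.inv_mem (hF₂R hf₂)) (hFR hf₃), ?_⟩
        have h3 : conjBy E f₂ = conjBy A f₃ := hP₃eq'.trans hP₃eq
        rw [conjBy_eq_iff.mp h3, conjBy_conjBy]
      · exact absurd (Set.mem_singleton_iff.mp hP₃) hP₃E₂
    rcases hcases L ⟨hL.1.1, le_sup_right⟩ with rfl | ⟨f, hf, rfl⟩
    · exact hgoodE
    · exact ⟨f, hFR hf, rfl⟩
  -- every member of `S` is an `R`-conjugate of `A`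
  have hall : ∀ X ∈ S, ∃ r ∈ R, X = conjBy A r := by
    intro X hX
    have h1 := hconn A hA X hX
    induction h1 with
    | refl => exact ⟨1, R.one_mem, (conjBy_one A).symm⟩
    | tail _ hbc ih =>
      obtain ⟨r, hr, rfl⟩ := ih hbc.1
      have h2 := linePartners_conj hS hbc.2.2 r⁻¹
      rw [conjBy_inv_cancel] at h2
      obtain ⟨r', hr', h3⟩ := key _ h2
      refine ⟨r * r', R.mul_mem hr hr', ?_⟩
      rw [← conjBy_conjBy, ← h3, conjBy_inv_cancel']
  rw [eq_top_iff, ← hS.generates]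
  apply iSup₂_le
  intro X hX
  obtain ⟨r, hr, rfl⟩ := hall X hX
  exact conjBy_le_of_mem hAR hr

end Cfsg.Agent.Lib.Helper83.Conn
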