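import Mathlib

/-!
# Generic points for finitely many polynomial-like conditions over an infinite field (helper83)

`PolyLike c` : the function `c : V → k` restricts to a polynomial function on every affine line
and its non-vanishing is invariant under non-zero scaling.
* `generic_exists`: finitely many poly-like conditions each having a witness have a common one.
* `generic_line`: a common witness `ξ` stays one at `ξ ± t • η` for some `t ≠ 0`.
* `polyLike_det`: `x ↦ det (M x)` for a linear family of square matrices is poly-like.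
* `det_ne_zero_of_anti`: anti-triangular matrices with unit anti-diagonal are invertible.
-/

set_option autoImplicit false
set_option linter.unusedVariables false
set_option linter.unusedSectionVars false
set_option linter.unusedSimpArgs false

namespace Cfsg.Agent.Lib.Helper83.Generic

variable {k : Type*} [Field k] {V : Type*} [AddCommGroup V] [Module k V]

/-- polynomial-like conditions: polynomial along lines, non-vanishing scale invariant -/
def PolyLike (c : V → k) : Prop :=
  (∀ a b : V, ∃ p : Polynomial k, ∀ t : k, c (a + t • b) = p.eval t) ∧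
  (∀ (a : V) (s : k), s ≠ 0 → c a ≠ 0 → c (s • a) ≠ 0)

lemma PolyLike.finite_bad {c : V → k} (hc : PolyLike c) (a b : V) (ha : c a ≠ 0) :
    {t : k | c (a + t • b) = 0}.Finite := by
  classical
  obtain ⟨p, hp⟩ := hc.1 a b
  have hp0 : p ≠ 0 := by
    rintro rfl
    have h := hp 0
    simp at h
    exact ha h
  refine (p.roots.toFinset.finite_toSet).subset ?_
  intro t ht
  have ht' : c (a + t • b) = 0 := ht
  rw [hp t] at ht'
  simp [Polynomial.mem_roots hp0, Polynomial.IsRoot, ht']

lemma PolyLike.comp {c : V → k} (hc : PolyLike c) (L : V →ₗ[k] V) :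
    PolyLike (fun x => c (L x)) := by
  refine ⟨fun a b => ?_, fun a s hs ha => ?_⟩
  · obtain ⟨p, hp⟩ := hc.1 (L a) (L b)
    refine ⟨p, fun t => ?_⟩
    show c (L (a + t • b)) = _
    rw [map_add, map_smul, hp t]
  · show c (L (s • a)) ≠ 0
    rw [map_smul]; exact hc.2 _ s hs ha

theorem generic_exists [Infinite k] (S : Finset (V → k))
    (hS : ∀ c ∈ S, PolyLike c ∧ ∃ w, c w ≠ 0) : ∃ ξ : V, ∀ c ∈ S, c ξ ≠ 0 := by
  classical
  induction S using Finset.induction_on with
  | empty => exact ⟨0, by simp⟩
  | insert c S hcS ih =>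
    obtain ⟨ξ, hξ⟩ := ih (fun c' hc' => hS c' (Finset.mem_insert_of_mem hc'))
    obtain ⟨hcP, w, hw⟩ := hS c (Finset.mem_insert_self c S)
    have hb1 : {t : k | c (w + t • ξ) = 0}.Finite := hcP.finite_bad w ξ hw
    have hb3 : (⋃ c' ∈ (S : Set (V → k)), {t : k | c' (ξ + t • w) = 0}).Finite :=
      Set.Finite.biUnion S.finite_toSet (fun c' hc' =>
        (hS c' (Finset.mem_insert_of_mem hc')).1.finite_bad ξ w (hξ c' hc'))
    have hfin : (({0} : Set k) ∪ {t : k | c (w + t • ξ) = 0} ∪
        (fun t => t⁻¹) '' (⋃ c' ∈ (S : Set (V → k)), {t : k | c' (ξ + t • w) = 0})).Finite :=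
      ((Set.finite_singleton 0).union hb1).union (hb3.image _)
    obtain ⟨s, hs⟩ := hfin.infinite_compl.nonempty
    have hs0 : s ≠ 0 := fun h => hs (Or.inl (Or.inl h))
    have hs1 : c (w + s • ξ) ≠ 0 := fun h => hs (Or.inl (Or.inr h))
    refine ⟨w + s • ξ, ?_⟩
    intro c' hc'
    rcases Finset.mem_insert.1 hc' with rfl | hc'
    · exact hs1
    · have e : w + s • ξ = s • (ξ + s⁻¹ • w) := by
        rw [smul_add, smul_smul, mul_inv_cancel₀ hs0, one_smul, add_comm]
      rw [e]
      apply (hS c' (Finset.mem_insert_of_mem hc')).1.2 _ s hs0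
      intro h
      apply hs
      refine Or.inr ⟨s⁻¹, ?_, inv_inv s⟩
      exact Set.mem_biUnion (show c' ∈ (S : Set (V → k)) from hc') h

theorem generic_line [Infinite k] (S : Finset (V → k)) (hS : ∀ c ∈ S, PolyLike c) (ξ η : V)
    (hξ : ∀ c ∈ S, c ξ ≠ 0) :
    ∃ t : k, t ≠ 0 ∧ (∀ c ∈ S, c (ξ + t • η) ≠ 0) ∧ (∀ c ∈ S, c (ξ - t • η) ≠ 0) := by
  classical
  have hb : (⋃ c ∈ (S : Set (V → k)), {t : k | c (ξ + t • η) = 0}).Finite :=
    Set.Finite.biUnion S.finite_toSet (fun c hc => (hS c hc).finite_bad ξ η (hξ c hc))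
  have hfin : (({0} : Set k) ∪ (⋃ c ∈ (S : Set (V → k)), {t : k | c (ξ + t • η) = 0}) ∪
      (fun t => -t) '' (⋃ c ∈ (S : Set (V → k)), {t : k | c (ξ + t • η) = 0})).Finite :=
    ((Set.finite_singleton 0).union hb).union (hb.image _)
  obtain ⟨t, ht⟩ := hfin.infinite_compl.nonempty
  refine ⟨t, fun h => ht (Or.inl (Or.inl h)), fun c hc h => ?_, fun c hc h => ?_⟩
  · exact ht (Or.inl (Or.inr (Set.mem_biUnion (show c ∈ (S : Set (V → k)) from hc) h)))
  · refine ht (Or.inr ⟨-t, ?_, neg_neg t⟩)
    refine Set.mem_biUnion (show c ∈ (S : Set (V → k)) from hc) ?_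
    show c (ξ + (-t) • η) = 0
    rw [neg_smul, ← sub_eq_add_neg]; exact h

lemma polyLike_det {n : ℕ} (M : V →ₗ[k] Matrix (Fin n) (Fin n) k) :
    PolyLike (fun x => (M x).det) := by
  refine ⟨fun a b => ?_, fun a s hs ha => ?_⟩
  · refine ⟨((Polynomial.X : Polynomial k) • (M b).map Polynomial.C +
      (M a).map Polynomial.C).det, fun t => ?_⟩
    show (M (a + t • b)).det = _
    rw [← Polynomial.coe_evalRingHom, RingHom.map_det, map_add, map_smul]
    have e : (Polynomial.evalRingHom t).mapMatrix ((Polynomial.X : Polynomial k) •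
        (M b).map Polynomial.C + (M a).map Polynomial.C) = M a + t • M b := by
      ext i j
      simp only [RingHom.mapMatrix_apply, Matrix.map_apply, Matrix.add_apply, Matrix.smul_apply,
        Polynomial.coe_evalRingHom, Polynomial.eval_add, smul_eq_mul, Polynomial.eval_mul,
        Polynomial.eval_X, Polynomial.eval_C]
      ring
    rw [e]
  · show (M (s • a)).det ≠ 0
    rw [map_smul, Matrix.det_smul]
    exact mul_ne_zero (pow_ne_zero _ hs) ha

lemma det_ne_zero_of_anti {m : ℕ} (M : Matrix (Fin m) (Fin m) k)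
    (h0 : ∀ i j : Fin m, (i : ℕ) + j + 1 < m → M i j = 0)
    (h1 : ∀ i j : Fin m, (i : ℕ) + j + 1 = m → M i j = 1) : M.det ≠ 0 := by
  have hdet := Matrix.det_permute' (Fin.revPerm : Equiv.Perm (Fin m)) M
  have hlow : (M.submatrix id (Fin.revPerm : Equiv.Perm (Fin m))).IsLowerTriangular := by
    intro i j hij
    simp only [Matrix.submatrix_apply, id]
    apply h0
    have h1 : (i : ℕ) < j := hij
    simp only [Fin.revPerm_apply, Fin.val_rev]
    omega
  have hone : (M.submatrix id (Fin.revPerm : Equiv.Perm (Fin m))).det = 1 := by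
    rw [Matrix.det_of_isLowerTriangular _ hlow]
    apply Finset.prod_eq_one
    intro i _
    simp only [Matrix.submatrix_apply, id]
    apply h1
    simp only [Fin.revPerm_apply, Fin.val_rev]
    omega
  intro h
  rw [hone, h, mul_zero] at hdet
  exact one_ne_zero hdet

end Cfsg.Agent.Lib.Helper83.Generic
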