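import Mathlib
import Cfsg.Prelude.Def_RootSubgroups
import Cfsg.Agent.Lib.Helper83.RankOne
import Cfsg.Agent.Lib.Helper83.RootSub
import Cfsg.Agent.Lib.Helper83.RootSub2
import Cfsg.Agent.Lib.Helper83.Triple
import Cfsg.Agent.Lib.Helper83.Comp
import Cfsg.Agent.S5030

/-!
# The "natural module" configuration: `A, B, D ∈ S` with `C = ⁅A, B⁆ ∈ S` and `⁅D, C⁆ = A`
-/

set_option autoImplicit false

namespace Cfsg.Agent.Lib.Helper83.NatMod

open Cfsg Cfsg.Agent.Lib.Helper83.RankOne Cfsg.Agent.Lib.Helper83.RootSub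
open Cfsg.Agent.Lib.Helper83.RootSub2 Cfsg.Agent.Lib.Helper83.Triple Cfsg.Agent.Lib.Helper83.Comp
open scoped commutatorElement

variable {G : Type*} [Group G] {S : Set (Subgroup G)}

/-- In a nilpotent subgroup `R`, a subgroup `U` with `U ≤ ⁅U, R⁆` is trivial. -/
theorem eq_bot_of_le_commutator {R U : Subgroup G} (hR : Group.IsNilpotent ↥R) (hUR : U ≤ R)
    (h : U ≤ ⁅U, R⁆) : U = ⊥ := by
  rw [Subgroup.nilpotent_iff_finite_descending_central_series] at hR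
  obtain ⟨n, H, ⟨h0, hstep⟩, hn⟩ := hR
  have key : ∀ k, U ≤ (H k).map R.subtype := by
    intro k
    induction k with
    | zero =>
      rw [h0]
      intro u hu
      exact ⟨⟨u, hUR hu⟩, Subgroup.mem_top _, rfl⟩
    | succ k ih =>
      refine h.trans ?_
      rw [Subgroup.commutator_le]
      intro u hu r hr
      obtain ⟨u', hu', rfl⟩ := ih hu
      refine ⟨u' * ⟨r, hr⟩ * u'⁻¹ * ⟨r, hr⟩⁻¹, hstep u' k hu' ⟨r, hr⟩, ?_⟩
      simp [commutatorElement_def]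
  have := key n
  rw [hn, Subgroup.map_bot] at this
  exact le_bot_iff.mp this

/-- The configuration. -/
structure Cfg (S : Set (Subgroup G)) (A B D : Subgroup G) : Prop where
  hS : IsRootSubgroupSet S
  hA : A ∈ S
  hB : B ∈ S
  hD : D ∈ S
  hAB : RootCommutatorCase S A B
  hDC : RootCommutatorCase S D ⁅A, B⁆
  hEq : ⁅D, ⁅A, B⁆⁆ = A

namespace Cfg

variable {A B D : Subgroup G}

theorem cCA (K : Cfg S A B D) : Cm ⁅A, B⁆ A := (commCase_cm K.hAB).mono le_rfl le_sup_left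

theorem cCB (K : Cfg S A B D) : Cm ⁅A, B⁆ B := (commCase_cm K.hAB).mono le_rfl le_sup_right

theorem cAD (K : Cfg S A B D) : Cm A D := by
  have := (commCase_cm K.hDC).mono le_rfl (le_sup_left (b := ⁅A, B⁆))
  rwa [K.hEq] at this

theorem hpair (K : Cfg S A B D) : IsRankOnePair B D := by
  have hAne : A ≠ ⊥ := K.hS.ne_bot A K.hA
  rcases K.hS.pair B K.hB D K.hD with h | h | h
  · exfalso
    apply hAne
    rw [← K.hEq, Subgroup.commutator_comm]
    apply Subgroup.commutator_commutator_eq_bot_of_rotate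
    · rw [h]; exact Subgroup.commutator_bot_left _
    · rw [cm_iff_bot.mp K.cAD.symm]; exact Subgroup.commutator_bot_left _
  · exact h
  · exfalso
    obtain ⟨b, hb, hb1⟩ := exists_mem_ne_one (K.hS.ne_bot B K.hB)
    have hne : D ≠ A := by
      intro hDA
      apply hAne
      have h1 : ⁅A, ⁅A, B⁆⁆ = A := by
        have := K.hEq
        rwa [hDA] at this
      rw [← h1]
      exact cm_iff_bot.mp K.cCA.symm
    have hnil := (Cfsg.Agent.S5030.result K.hS K.hA K.hB K.hD K.hAB.1 h.1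
      ⟨K.hD, hne, cm_iff_bot.mp K.cAD⟩ hb hb1).2.2.2.2
    have hU : ⁅A, B⁆ ⊔ A = ⊥ := by
      apply eq_bot_of_le_commutator hnil
      · exact sup_le ((Subgroup.commutator_le_sup A B).trans le_sup_left)
          (le_sup_of_le_left le_sup_left)
      · apply sup_le
        · exact Subgroup.commutator_mono le_sup_right (le_sup_of_le_left le_sup_right)
        · calc A = ⁅D, ⁅A, B⁆⁆ := K.hEq.symm
            _ = ⁅⁅A, B⁆, D⁆ := Subgroup.commutator_comm _ _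
            _ ≤ ⁅⁅A, B⁆ ⊔ A, A ⊔ B ⊔ D⁆ := Subgroup.commutator_mono le_sup_left le_sup_right
    exact hAne (le_bot_iff.mp (hU ▸ le_sup_right))

theorem infAC (K : Cfg S A B D) : A ⊓ ⁅A, B⁆ = ⊥ := by
  rw [Subgroup.eq_bot_iff_forall]
  rintro x ⟨hxA, hxC⟩
  by_contra hx1
  obtain ⟨b, hb, hnc⟩ := exists_noncomm_right K.hS K.hAB hxA hx1
  exact hnc (K.cCB x hxC b hb)

theorem fixB (K : Cfg S A B D) {y : G} (hy : y ∈ A ⊔ ⁅A, B⁆) (hcomm : ∀ b ∈ B, y * b = b * y) :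
    y ∈ ⁅A, B⁆ := by
  obtain ⟨a, ha, c, hc, rfl⟩ := mem_sup_of_cm K.cCA.symm hy
  have ha1 : a = 1 := by
    by_contra ha1
    obtain ⟨b, hb, hnc⟩ := exists_noncomm_right K.hS K.hAB ha ha1
    apply hnc
    have h1 := hcomm b hb
    have h2 := K.cCB c hc b hb
    calc a * b = a * (b * c) * c⁻¹ := by group
      _ = a * (c * b) * c⁻¹ := by rw [h2]
      _ = (a * c * b) * c⁻¹ := by group
      _ = b * (a * c) * c⁻¹ := by rw [h1]
      _ = b * a := by group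
  rw [ha1, one_mul]
  exact hc

theorem fixD (K : Cfg S A B D) {y : G} (hy : y ∈ A ⊔ ⁅A, B⁆) (hcomm : ∀ d ∈ D, y * d = d * y) :
    y ∈ A := by
  obtain ⟨a, ha, c, hc, rfl⟩ := mem_sup_of_cm K.cCA.symm hy
  have hc1 : c = 1 := by
    by_contra hc1
    obtain ⟨d, hd, hnc⟩ := exists_noncomm_left K.hS K.hDC hc hc1
    apply hnc
    have h1 := hcomm d hd
    have h2 := K.cAD a ha d hd
    calc d * c = a⁻¹ * (a * d) * c := by group
      _ = a⁻¹ * (d * a) * c := by rw [h2]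
      _ = a⁻¹ * (d * (a * c)) := by group
      _ = a⁻¹ * (a * c * d) := by rw [h1]
      _ = c * d := by group
  rw [hc1, mul_one]
  exact ha

theorem conjA_le (_K : Cfg S A B D) {b : G} (hb : b ∈ B) : conjBy A b ≤ A ⊔ ⁅A, B⁆ := by
  have := conjBy_le_commutator_sup (C := A) hb
  rw [Subgroup.commutator_comm, sup_comm] at this
  exact this

theorem conjC_le (K : Cfg S A B D) {d : G} (hd : d ∈ D) : conjBy ⁅A, B⁆ d ≤ A ⊔ ⁅A, B⁆ := by
  have := conjBy_le_commutator_sup (C := ⁅A, B⁆) hd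
  rw [K.hEq] at this
  exact this

theorem conjN_B (K : Cfg S A B D) {b : G} (hb : b ∈ B) :
    conjBy (A ⊔ ⁅A, B⁆) b ≤ A ⊔ ⁅A, B⁆ := by
  rw [conjBy_sup, K.cCB.symm.conjBy_eq hb]
  exact sup_le (K.conjA_le hb) le_sup_right

theorem conjN_D (K : Cfg S A B D) {d : G} (hd : d ∈ D) :
    conjBy (A ⊔ ⁅A, B⁆) d ≤ A ⊔ ⁅A, B⁆ := by
  rw [conjBy_sup, K.cAD.symm.conjBy_eq hd]
  exact sup_le le_sup_left (K.conjC_le hd)

/-- The fixed "points" of the two unipotent subgroups correspond. -/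
theorem conj_eq (K : Cfg S A B D) {b d : G} (hb : b ∈ B) (hd : d ∈ D)
    (h : conjBy B d⁻¹ = conjBy D b⁻¹) : conjBy ⁅A, B⁆ d⁻¹ = conjBy A b⁻¹ := by
  ext x
  constructor
  · intro hx
    rw [mem_conjBy]
    apply K.fixD
    · have hxN : x ∈ A ⊔ ⁅A, B⁆ := K.conjC_le (D.inv_mem hd) hx
      have h1 := conj_mem_conjBy hxN b
      have h2 := K.conjN_B hb h1
      simpa using h2
    · intro d' hd'
      have hc : Cm (conjBy ⁅A, B⁆ d⁻¹) (conjBy B d⁻¹) := K.cCB.conj d⁻¹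
      rw [h] at hc
      have hmem : b⁻¹ * d' * b ∈ conjBy D b⁻¹ := by
        have := conj_mem_conjBy hd' b⁻¹
        simpa using this
      have h3 := hc x hx _ hmem
      calc b⁻¹⁻¹ * x * b⁻¹ * d' = b * (x * (b⁻¹ * d' * b)) * b⁻¹ := by group
        _ = b * ((b⁻¹ * d' * b) * x) * b⁻¹ := by rw [h3]
        _ = d' * (b⁻¹⁻¹ * x * b⁻¹) := by group
  · intro hx
    rw [mem_conjBy]
    apply K.fixB
    · have hxN : x ∈ A ⊔ ⁅A, B⁆ := K.conjA_le (B.inv_mem hb) hx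
      have h1 := conj_mem_conjBy hxN d
      have h2 := K.conjN_D hd h1
      simpa using h2
    · intro b' hb'
      have hc : Cm (conjBy A b⁻¹) (conjBy D b⁻¹) := K.cAD.conj b⁻¹
      rw [← h] at hc
      have hmem : d⁻¹ * b' * d ∈ conjBy B d⁻¹ := by
        have := conj_mem_conjBy hb' d⁻¹
        simpa using this
      have h3 := hc x hx _ hmem
      calc d⁻¹⁻¹ * x * d⁻¹ * b' = d * (x * (d⁻¹ * b' * d)) * d⁻¹ := by group
        _ = d * ((d⁻¹ * b' * d) * x) * d⁻¹ := by rw [h3]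
        _ = b' * (d⁻¹⁻¹ * x * d⁻¹) := by group

theorem centA (K : Cfg S A B D) (hp : IsRankOnePair B D) {b : G} (hb : b ∈ B) (hb1 : b ≠ 1)
    {a : G} (ha : a ∈ A) (hab : a * b = b * a) : a = 1 := by
  obtain ⟨d, hd, -, hconj⟩ := hp.cond_left b hb hb1
  have h1 := K.conj_eq hb hd hconj
  have h2 : a ∈ conjBy A b⁻¹ := by
    rw [mem_conjBy]
    have : b⁻¹⁻¹ * a * b⁻¹ = a := by
      rw [inv_inv, ← hab]; group
    rw [this]
    exact ha
  rw [← h1, mem_conjBy] at h2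
  have h3 : d⁻¹⁻¹ * a * d⁻¹ = a := by
    have := K.cAD a ha d hd
    rw [inv_inv, ← this]; group
  rw [h3] at h2
  have : a ∈ A ⊓ ⁅A, B⁆ := ⟨ha, h2⟩
  rw [K.infAC, Subgroup.mem_bot] at this
  exact this

theorem centC (K : Cfg S A B D) (hp : IsRankOnePair B D) {d : G} (hd : d ∈ D) (hd1 : d ≠ 1)
    {c : G} (hc : c ∈ ⁅A, B⁆) (hcd : c * d = d * c) : c = 1 := by
  obtain ⟨b, hb, -, hconj⟩ := hp.cond_right d hd hd1
  have h1 := K.conj_eq hb hd hconj.symm
  have h2 : c ∈ conjBy ⁅A, B⁆ d⁻¹ := by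
    rw [mem_conjBy]
    have : d⁻¹⁻¹ * c * d⁻¹ = c := by
      rw [inv_inv, ← hcd]; group
    rw [this]
    exact hc
  rw [h1, mem_conjBy] at h2
  have h3 : b⁻¹⁻¹ * c * b⁻¹ = c := by
    have := K.cCB c hc b hb
    rw [inv_inv, ← this]; group
  rw [h3] at h2
  have : c ∈ A ⊓ ⁅A, B⁆ := ⟨h2, hc⟩
  rw [K.infAC, Subgroup.mem_bot] at this
  exact this

/-- Every element of `⁅A, B⁆` is a commutator with a fixed non-identity `a`. -/
theorem surj (K : Cfg S A B D) {a : G} (ha : a ∈ A) (ha1 : a ≠ 1) {c : G} (hc : c ∈ ⁅A, B⁆) :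
    ∃ b ∈ B, c = a * b * a⁻¹ * b⁻¹ := by
  rw [← K.hAB.2.2.1 a ha ha1] at hc
  induction hc using Subgroup.closure_induction with
  | mem y hy =>
    obtain ⟨b, hb, rfl⟩ := hy
    exact ⟨b, hb, rfl⟩
  | one => exact ⟨1, B.one_mem, by simp⟩
  | mul y z _ _ hy hz =>
    obtain ⟨b, hb, rfl⟩ := hy
    obtain ⟨b', hb', rfl⟩ := hz
    refine ⟨b * b', B.mul_mem hb hb', ?_⟩
    have hmem : a * b' * a⁻¹ * b'⁻¹ ∈ ⁅A, B⁆ := Subgroup.commutator_mem_commutator ha hb'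
    have hcomm := K.cCB _ hmem b hb
    calc a * b * a⁻¹ * b⁻¹ * (a * b' * a⁻¹ * b'⁻¹)
        = a * b * a⁻¹ * b⁻¹ * ((a * b' * a⁻¹ * b'⁻¹) * b) * b⁻¹ := by group
      _ = a * b * a⁻¹ * b⁻¹ * (b * (a * b' * a⁻¹ * b'⁻¹)) * b⁻¹ := by rw [hcomm]
      _ = a * (b * b') * a⁻¹ * (b * b')⁻¹ := by group
  | inv y _ hy =>
    obtain ⟨b, hb, rfl⟩ := hy
    refine ⟨b⁻¹, B.inv_mem hb, ?_⟩
    have hmem : a * b * a⁻¹ * b⁻¹ ∈ ⁅A, B⁆ := Subgroup.commutator_mem_commutator ha hb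
    have hcomm := K.cCB _ hmem b hb
    calc (a * b * a⁻¹ * b⁻¹)⁻¹ = (b⁻¹ * (b * (a * b * a⁻¹ * b⁻¹)))⁻¹ := by group
      _ = (b⁻¹ * ((a * b * a⁻¹ * b⁻¹) * b))⁻¹ := by rw [hcomm]
      _ = a * b⁻¹ * a⁻¹ * b⁻¹⁻¹ := by group

theorem om_eq (K : Cfg S A B D) (hp : IsRankOnePair B D) :
    (fun b : G => conjBy A b) '' (B : Set G) ∪ {⁅A, B⁆}
      = (fun d : G => conjBy ⁅A, B⁆ d) '' (D : Set G) ∪ {A} := by
  apply Set.Subset.antisymm
  · rintro E (⟨b, hb, rfl⟩ | hE)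
    · by_cases hb1 : b = 1
      · right
        show conjBy A b = A
        rw [hb1, conjBy_one]
      · left
        have hbi : b⁻¹ ∈ B := B.inv_mem hb
        have hbi1 : b⁻¹ ≠ 1 := by simpa using hb1
        obtain ⟨d, hd, -, hconj⟩ := hp.cond_left b⁻¹ hbi hbi1
        have h1 := K.conj_eq hbi hd hconj
        rw [inv_inv] at h1
        exact ⟨d⁻¹, D.inv_mem hd, h1⟩
    · left
      rw [Set.mem_singleton_iff] at hE
      exact ⟨1, D.one_mem, by rw [hE]; exact conjBy_one _⟩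
  · rintro E (⟨d, hd, rfl⟩ | hE)
    · by_cases hd1 : d = 1
      · right
        show conjBy ⁅A, B⁆ d = ⁅A, B⁆
        rw [hd1, conjBy_one]
      · left
        have hdi : d⁻¹ ∈ D := D.inv_mem hd
        have hdi1 : d⁻¹ ≠ 1 := by simpa using hd1
        obtain ⟨b, hb, -, hconj⟩ := hp.cond_right d⁻¹ hdi hdi1
        have h1 := K.conj_eq hb hdi hconj.symm
        rw [inv_inv] at h1
        exact ⟨b⁻¹, B.inv_mem hb, h1.symm⟩
    · left
      rw [Set.mem_singleton_iff] at hE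
      exact ⟨1, B.one_mem, by rw [hE]; exact conjBy_one _⟩

theorem orbit_eq_om1 (K : Cfg S A B D) (hp : IsRankOnePair B D) :
    {E | ∃ x ∈ B ⊔ D, E = conjBy A x} = (fun b : G => conjBy A b) '' (B : Set G) ∪ {⁅A, B⁆} := by
  apply Set.Subset.antisymm
  · rintro E ⟨x, hx, rfl⟩
    have key : ∀ E ∈ (fun b : G => conjBy A b) '' (B : Set G) ∪ {⁅A, B⁆},
        conjBy E x ∈ (fun b : G => conjBy A b) '' (B : Set G) ∪ {⁅A, B⁆} := by
      refine sup_induction_gen (P := fun x => ∀ E ∈ (fun b : G => conjBy A b) '' (B : Set G) ∪ {⁅A, B⁆},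
        conjBy E x ∈ (fun b : G => conjBy A b) '' (B : Set G) ∪ {⁅A, B⁆}) ?_ ?_ ?_ ?_ hx
      · rintro b hb E (⟨b₀, hb₀, rfl⟩ | hE)
        · left
          exact ⟨b * b₀, B.mul_mem hb hb₀, (conjBy_conjBy A b₀ b).symm⟩
        · right
          rw [Set.mem_singleton_iff] at hE
          show conjBy E b = ⁅A, B⁆
          rw [hE]
          exact K.cCB.symm.conjBy_eq hb
      · intro d hd E hE
        rw [K.om_eq hp] at hE ⊢
        rcases hE with ⟨d₀, hd₀, rfl⟩ | hE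
        · left
          exact ⟨d * d₀, D.mul_mem hd hd₀, (conjBy_conjBy ⁅A, B⁆ d₀ d).symm⟩
        · right
          rw [Set.mem_singleton_iff] at hE
          show conjBy E d = A
          rw [hE]
          exact K.cAD.symm.conjBy_eq hd
      · intro E hE
        rw [conjBy_one]
        exact hE
      · intro x y hx hy E hE
        rw [← conjBy_conjBy]
        exact hx _ (hy E hE)
    exact key A (Or.inl ⟨1, B.one_mem, conjBy_one A⟩)
  · rintro E (⟨b, hb, rfl⟩ | hE)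
    · exact ⟨b, Subgroup.mem_sup_left hb, rfl⟩
    · rw [Set.mem_singleton_iff] at hE
      obtain ⟨b, hb, hb1⟩ := exists_mem_ne_one (K.hS.ne_bot B K.hB)
      obtain ⟨d, hd, -, hconj⟩ := hp.cond_left b hb hb1
      have h1 := K.conj_eq hb hd hconj
      refine ⟨d * b⁻¹, Subgroup.mul_mem _ (Subgroup.mem_sup_right hd)
        (Subgroup.mem_sup_left (B.inv_mem hb)), ?_⟩
      rw [hE, ← conjBy_conjBy, ← h1, conjBy_inv_cancel']

theorem orbit_eq_orbitC (K : Cfg S A B D) (hp : IsRankOnePair B D) :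
    {E | ∃ x ∈ B ⊔ D, E = conjBy A x} = {E | ∃ x ∈ B ⊔ D, E = conjBy ⁅A, B⁆ x} := by
  have hC : ⁅A, B⁆ ∈ {E | ∃ x ∈ B ⊔ D, E = conjBy A x} := by
    rw [K.orbit_eq_om1 hp]
    exact Or.inr rfl
  obtain ⟨x₀, hx₀, hCx₀⟩ := hC
  have hA' : A = conjBy ⁅A, B⁆ x₀⁻¹ := conjBy_eq_iff.mp hCx₀.symm
  apply Set.Subset.antisymm
  · rintro E ⟨x, hx, rfl⟩
    refine ⟨x * x₀⁻¹, Subgroup.mul_mem _ hx (Subgroup.inv_mem _ hx₀), ?_⟩
    rw [← conjBy_conjBy, ← hA']
  · rintro E ⟨x, hx, rfl⟩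
    refine ⟨x * x₀, Subgroup.mul_mem _ hx hx₀, ?_⟩
    rw [← conjBy_conjBy, ← hCx₀]

theorem partition (K : Cfg S A B D) (hp : IsRankOnePair B D) :
    IsSubgroupPartition (A ⊔ ⁅A, B⁆) ((fun b : G => conjBy A b) '' (B : Set G) ∪ {⁅A, B⁆}) := by
  refine ⟨?_, ?_, ?_⟩
  · rintro E (⟨b, hb, rfl⟩ | hE)
    · exact K.conjA_le hb
    · rw [Set.mem_singleton_iff] at hE
      rw [hE]
      exact le_sup_right
  · intro x hx hx1
    obtain ⟨a, ha, c, hc, rfl⟩ := mem_sup_of_cm K.cCA.symm hx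
    by_cases ha1 : a = 1
    · refine ⟨⁅A, B⁆, Or.inr rfl, ?_⟩
      rw [ha1, one_mul]
      exact hc
    · obtain ⟨b, hb, hcb⟩ := K.surj ha ha1 (Subgroup.inv_mem _ hc)
      refine ⟨conjBy A b, Or.inl ⟨b, hb, rfl⟩, ?_⟩
      rw [mem_conjBy]
      have hcc : c = b * a * b⁻¹ * a⁻¹ := by
        have : c = (a * b * a⁻¹ * b⁻¹)⁻¹ := by rw [← hcb, inv_inv]
        rw [this]; group
      have hac := K.cCA c hc a ha
      have : b⁻¹ * (a * c) * b = a := by
        rw [← hac, hcc]; group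
      rw [this]
      exact ha
  · rintro E hE F hF hne
    have h1 : ∀ b ∈ B, conjBy A b ⊓ ⁅A, B⁆ = ⊥ := by
      intro b hb
      rw [Subgroup.eq_bot_iff_forall]
      intro x hx
      obtain ⟨hx1, hx2⟩ := Subgroup.mem_inf.mp hx
      rw [mem_conjBy] at hx1
      have e : b⁻¹ * x * b = x := by
        have := K.cCB x hx2 b hb
        rw [mul_assoc, this, ← mul_assoc, inv_mul_cancel, one_mul]
      rw [e] at hx1
      have : x ∈ A ⊓ ⁅A, B⁆ := ⟨hx1, hx2⟩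
      rw [K.infAC, Subgroup.mem_bot] at this
      exact this
    rcases hE with ⟨b, hb, rfl⟩ | hE <;> rcases hF with ⟨b', hb', rfl⟩ | hF
    · show conjBy A b ⊓ conjBy A b' = ⊥
      have hne' : conjBy A b ≠ conjBy A b' := hne
      rw [Subgroup.eq_bot_iff_forall]
      intro x hx
      obtain ⟨hx1, hx2⟩ := Subgroup.mem_inf.mp hx
      rw [mem_conjBy] at hx1 hx2
      have hb'' : b'⁻¹ * b ∈ B := B.mul_mem (B.inv_mem hb') hb
      have hcomm_mem : ⁅b'⁻¹ * b, b⁻¹ * x * b⁆ ∈ ⁅A, B⁆ := by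
        rw [Subgroup.commutator_comm]
        exact Subgroup.commutator_mem_commutator hb'' hx1
      have hcomm_eq : ⁅b'⁻¹ * b, b⁻¹ * x * b⁆ = (b'⁻¹ * x * b') * (b⁻¹ * x * b)⁻¹ := by
        rw [commutatorElement_def]; group
      have hin : ⁅b'⁻¹ * b, b⁻¹ * x * b⁆ ∈ A ⊓ ⁅A, B⁆ :=
        ⟨by rw [hcomm_eq]; exact A.mul_mem hx2 (A.inv_mem hx1), hcomm_mem⟩
      rw [K.infAC, Subgroup.mem_bot, commutatorElement_eq_one_iff_mul_comm] at hin
      have hb''1 : b'⁻¹ * b ≠ 1 := by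
        intro h
        apply hne'
        have : b' = b := inv_mul_eq_one.mp h
        rw [this]
      have ha1 : b⁻¹ * x * b = 1 := K.centA hp hb'' hb''1 hx1 hin.symm
      have : x = b * (b⁻¹ * x * b) * b⁻¹ := by group
      rw [this, ha1]; group
    · rw [Set.mem_singleton_iff] at hF
      rw [hF]
      exact h1 b hb
    · rw [Set.mem_singleton_iff] at hE
      rw [hE, inf_comm]
      exact h1 b' hb'
    · rw [Set.mem_singleton_iff] at hE hF
      exact absurd (hE.trans hF.symm) hne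

theorem central (K : Cfg S A B D) (hp : IsRankOnePair B D) {x : G} (hx : x ∈ B ⊔ D)
    (hxc : x ∈ Subgroup.centralizer ((A ⊔ ⁅A, B⁆ : Subgroup G) : Set G)) :
    ∀ y ∈ B ⊔ D, x * y = y * x := by
  have hxN : ∀ n ∈ A ⊔ ⁅A, B⁆, n * x = x * n :=
    fun n hn => Subgroup.mem_centralizer_iff.mp hxc n hn
  have hxA : conjBy A x = A :=
    conjBy_eq_of_commute (fun a ha => (hxN a (Subgroup.mem_sup_left ha)).symm)
  have hxC : conjBy ⁅A, B⁆ x = ⁅A, B⁆ :=
    conjBy_eq_of_commute (fun c hc => (hxN c (Subgroup.mem_sup_right hc)).symm)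
  have hBx : conjBy B x = B := by
    by_contra hne
    have hu : conjBy B x ∈ unipotentSubgroups B D :=
      conjBy_mem_unipotent (left_mem_unipotent B D) hx
    obtain ⟨-, hsup⟩ := isRankOnePair_of_mem_unipotent hp hu (left_mem_unipotent B D) hne
    have c1 : Cm (conjBy B x) ⁅A, B⁆ := by
      have := K.cCB.symm.conj x
      rwa [hxC] at this
    have c2 : Cm (B ⊔ D) ⁅A, B⁆ := by
      rw [← hsup]
      exact c1.sup_left K.cCB.symm
    have c3 : Cm D ⁅A, B⁆ := c2.mono le_sup_right le_rfl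
    apply K.hS.ne_bot A K.hA
    rw [← K.hEq]
    exact cm_iff_bot.mp c3
  have hDx : conjBy D x = D := by
    by_contra hne
    have hu : conjBy D x ∈ unipotentSubgroups B D :=
      conjBy_mem_unipotent (right_mem_unipotent hp) hx
    obtain ⟨-, hsup⟩ := isRankOnePair_of_mem_unipotent hp hu (right_mem_unipotent hp) hne
    have c1 : Cm (conjBy D x) A := by
      have := K.cAD.symm.conj x
      rwa [hxA] at this
    have c2 : Cm (B ⊔ D) A := by
      rw [← hsup]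
      exact c1.sup_left K.cAD.symm
    have c3 : Cm A B := (c2.mono le_sup_left le_rfl).symm
    exact K.hS.ne_bot _ K.hAB.1 (cm_iff_bot.mp c3)
  have hxB : ∀ b ∈ B, x * b = b * x := by
    intro b hb
    by_contra hne
    have hb₀ : x * b * x⁻¹ * b⁻¹ ∈ B := by
      have h1 : x * b * x⁻¹ ∈ conjBy B x := conj_mem_conjBy hb x
      rw [hBx] at h1
      exact B.mul_mem h1 (B.inv_mem hb)
    have hb₀1 : x * b * x⁻¹ * b⁻¹ ≠ 1 := by
      intro h
      apply hne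
      have : x * b = (x * b * x⁻¹ * b⁻¹) * b * x := by group
      rw [this, h, one_mul]
    obtain ⟨a, ha, ha1⟩ := exists_mem_ne_one (K.hS.ne_bot A K.hA)
    apply ha1
    apply K.centA hp hb₀ hb₀1 ha
    have h1 := hxN a (Subgroup.mem_sup_left ha)
    have hn : b⁻¹ * a * b ∈ A ⊔ ⁅A, B⁆ := by
      have h3 := conj_mem_conjBy ha b⁻¹
      have h2 := K.conjA_le (B.inv_mem hb) h3
      simpa using h2
    have h2 := hxN _ hn
    symm
    calc (x * b * x⁻¹ * b⁻¹) * a = x * b * x⁻¹ * ((b⁻¹ * a * b) * x) * x⁻¹ * b⁻¹ := by group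
      _ = x * b * x⁻¹ * (x * (b⁻¹ * a * b)) * x⁻¹ * b⁻¹ := by rw [h2]
      _ = (x * a) * b * x⁻¹ * b⁻¹ := by group
      _ = (a * x) * b * x⁻¹ * b⁻¹ := by rw [h1]
      _ = a * (x * b * x⁻¹ * b⁻¹) := by group
  have hxD : ∀ d ∈ D, x * d = d * x := by
    intro d hd
    by_contra hne
    have hd₀ : x * d * x⁻¹ * d⁻¹ ∈ D := by
      have h1 : x * d * x⁻¹ ∈ conjBy D x := conj_mem_conjBy hd x
      rw [hDx] at h1
      exact D.mul_mem h1 (D.inv_mem hd)
    have hd₀1 : x * d * x⁻¹ * d⁻¹ ≠ 1 := by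
      intro h
      apply hne
      have : x * d = (x * d * x⁻¹ * d⁻¹) * d * x := by group
      rw [this, h, one_mul]
    obtain ⟨c, hc, hc1⟩ := exists_mem_ne_one (K.hS.ne_bot _ K.hAB.1)
    apply hc1
    apply K.centC hp hd₀ hd₀1 hc
    have h1 := hxN c (Subgroup.mem_sup_right hc)
    have hn : d⁻¹ * c * d ∈ A ⊔ ⁅A, B⁆ := by
      have h3 := conj_mem_conjBy hc d⁻¹
      have h2 := K.conjC_le (D.inv_mem hd) h3
      simpa using h2
    have h2 := hxN _ hn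
    symm
    calc (x * d * x⁻¹ * d⁻¹) * c = x * d * x⁻¹ * ((d⁻¹ * c * d) * x) * x⁻¹ * d⁻¹ := by group
      _ = x * d * x⁻¹ * (x * (d⁻¹ * c * d)) * x⁻¹ * d⁻¹ := by rw [h2]
      _ = (x * c) * d * x⁻¹ * d⁻¹ := by group
      _ = (c * x) * d * x⁻¹ * d⁻¹ := by rw [h1]
      _ = c * (x * d * x⁻¹ * d⁻¹) := by group
  intro y hy
  exact sup_induction_gen (P := fun y => x * y = y * x) hxB hxD (by simp)
    (fun y z hy hz => by rw [← mul_assoc, hy, mul_assoc, hz, mul_assoc]) hy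

end Cfg

end Cfsg.Agent.Lib.Helper83.NatMod
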