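import Mathlib
import Cfsg.Agent.Lib.Helper98.SL2Gen

/-!
# Elementary lemmas on `N k lam = ⟨u a, l (lam * a) | a ∈ k⟩ ≤ SL(2, F)` for an arbitrary field
(helper83; builds on helper98's `SL2Sub`/`SL2Gen`, no finiteness assumptions)

* `smul_mem_UA`: `{z | u z ∈ N k lam}` is stable under multiplication by `k` (char ≠ 2).
* `R1`: an element of `N k lam` whose lower left entry `r` lies in `k ∖ {0}` and upper left entry
  is `p` forces `u (p / r) ∈ N k lam`.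
* `u_mem_of_zero`, `l_mem_of_zero`: consequences of an element with upper left entry `0`.
-/

set_option autoImplicit false
set_option linter.unusedVariables false
set_option linter.unusedSectionVars false
set_option linter.unusedSimpArgs false
set_option linter.unnecessarySeqFocus false
set_option linter.unreachableTactic false
set_option linter.unusedTactic false

namespace Cfsg.Agent.Lib.Helper83.SL2R1

open Matrix MatrixGroups
open Cfsg.Agent.Lib.Helper98.SL2Sub Cfsg.Agent.Lib.Helper98.SL2Gen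

variable {F : Type*} [Field F] (k : Subfield F)

lemma smul_mem_UA (h2 : (2 : F) ≠ 0) (lam : F) {a z : F} (ha : a ∈ k)
    (hz : z ∈ UA (N k lam)) : a * z ∈ UA (N k lam) := by
  have hsq : ∀ s ∈ k, s ^ 2 * z ∈ UA (N k lam) := by
    intro s hs
    by_cases hs0 : s = 0
    · rw [hs0]; simp
    · show u (s ^ 2 * z) ∈ N k lam
      rw [← d_u_d s hs0]
      exact norm_d k lam s hs hs0 _ hz
  have h2k : (2 : F) ∈ k := by
    have : (2 : F) = 1 + 1 := by norm_num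
    rw [this]; exact k.add_mem k.one_mem k.one_mem
  have e : a * z = ((a + 1) / 2) ^ 2 * z - ((a - 1) / 2) ^ 2 * z := by
    field_simp; ring
  rw [e]
  exact (UA (N k lam)).sub_mem (hsq _ (k.div_mem (k.add_mem ha k.one_mem) h2k))
    (hsq _ (k.div_mem (k.sub_mem ha k.one_mem) h2k))

theorem R1 (h2 : (2 : F) ≠ 0) (lam : F) (ht : ∃ t ∈ k, t ≠ 0 ∧ t ^ 2 ≠ 1)
    (g : SL(2, F)) (hg : g ∈ N k lam) (hr : g.1 1 0 ∈ k) (hr0 : g.1 1 0 ≠ 0) :
    u (g.1 0 0 / g.1 1 0) ∈ N k lam := by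
  obtain ⟨t, htk, ht0, ht1⟩ := ht
  set z := g.1 0 0 / g.1 1 0 with hz
  have hl : ∀ c ∈ k, u z * l c * (u z)⁻¹ ∈ N k lam := by
    intro c hc
    have h := conj_gen g hr0 (c / (g.1 1 0) ^ 2)
    have e : (g.1 1 0) ^ 2 * (c / (g.1 1 0) ^ 2) = c := by field_simp
    rw [e] at h
    rw [h]
    exact (N k lam).mul_mem ((N k lam).mul_mem hg
      (u_mem_N k lam (k.neg_mem (k.div_mem hc (k.pow_mem hr 2))))) ((N k lam).inv_mem hg)
  have hu : ∀ c ∈ k, u z * u c * (u z)⁻¹ ∈ N k lam := by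
    intro c hc
    rw [u_inv, u_mul, u_mul]
    have : z + c + -z = c := by ring
    rw [this]; exact u_mem_N k lam hc
  have hd : u z * d t ht0 * (u z)⁻¹ ∈ N k lam := by
    rw [diag_eq t ht0]
    have e : u z * (u t⁻¹ * l (-t) * u t⁻¹ * (u (t ^ 2)⁻¹ * l (-t ^ 2) * u (t ^ 2)⁻¹)⁻¹) *
        (u z)⁻¹ = (u z * u t⁻¹ * (u z)⁻¹) * (u z * l (-t) * (u z)⁻¹) * (u z * u t⁻¹ * (u z)⁻¹) *
          ((u z * u (t ^ 2)⁻¹ * (u z)⁻¹) * (u z * l (-t ^ 2) * (u z)⁻¹) *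
            (u z * u (t ^ 2)⁻¹ * (u z)⁻¹))⁻¹ := by
      group
    rw [e]
    exact (N k lam).mul_mem ((N k lam).mul_mem ((N k lam).mul_mem (hu _ (k.inv_mem htk))
      (hl _ (k.neg_mem htk))) (hu _ (k.inv_mem htk)))
      ((N k lam).inv_mem ((N k lam).mul_mem ((N k lam).mul_mem
        (hu _ (k.inv_mem (k.pow_mem htk 2))) (hl _ (k.neg_mem (k.pow_mem htk 2))))
        (hu _ (k.inv_mem (k.pow_mem htk 2)))))
  have hd2 := norm_d k lam t htk ht0 _ hd
  have hprod := (N k lam).mul_mem ((N k lam).inv_mem hd) hd2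
  have e : (u z * d t ht0 * (u z)⁻¹)⁻¹ * (d t ht0 * (u z * d t ht0 * (u z)⁻¹) * (d t ht0)⁻¹)
      = u ((t ^ 2 - 1) * ((t ^ 2)⁻¹ - 1) * z) := by
    apply sl2_ext <;> simp [mul00, mul01, mul10, mul11, inv00, inv01, inv10, inv11] <;>
      field_simp <;> ring
  rw [e] at hprod
  have hc0 : (t ^ 2 - 1) * ((t ^ 2)⁻¹ - 1) ≠ 0 := by
    have h1 : t ^ 2 - 1 ≠ 0 := sub_ne_zero.2 ht1
    have h3 : (t ^ 2)⁻¹ - 1 ≠ 0 := by
      intro h
      apply ht1
      have : (t ^ 2)⁻¹ = 1 := sub_eq_zero.1 h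
      have := inv_eq_one.1 this
      exact this
    exact mul_ne_zero h1 h3
  have hck : ((t ^ 2 - 1) * ((t ^ 2)⁻¹ - 1))⁻¹ ∈ k :=
    k.inv_mem (k.mul_mem (k.sub_mem (k.pow_mem htk 2) k.one_mem)
      (k.sub_mem (k.inv_mem (k.pow_mem htk 2)) k.one_mem))
  have hfin := smul_mem_UA k h2 lam hck (show (t ^ 2 - 1) * ((t ^ 2)⁻¹ - 1) * z ∈ UA (N k lam)
    from hprod)
  have e2 : ((t ^ 2 - 1) * ((t ^ 2)⁻¹ - 1))⁻¹ * ((t ^ 2 - 1) * ((t ^ 2)⁻¹ - 1) * z) = z := by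
    rw [← mul_assoc, inv_mul_cancel₀ hc0, one_mul]
  rw [e2] at hfin
  exact hfin

lemma u_mem_of_zero (lam : F) (g : SL(2, F)) (hg : g ∈ N k lam) (h0 : g.1 0 0 = 0) {c : F}
    (hc : c ∈ k) : u (-(lam * c) * (g.1 0 1) ^ 2) ∈ N k lam := by
  have hd := det_eq g
  rw [h0] at hd
  have e : g⁻¹ * l (lam * c) * g = u (-(lam * c) * (g.1 0 1) ^ 2) := by
    apply sl2_ext <;> simp [mul00, mul01, mul10, mul11, inv00, inv01, inv10, inv11, h0]
    · linear_combination hd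
    · ring
    · linear_combination hd
  rw [← e]
  exact (N k lam).mul_mem ((N k lam).mul_mem ((N k lam).inv_mem hg) (l_mem_N k lam hc)) hg

lemma l_mem_of_zero (lam : F) (g : SL(2, F)) (hg : g ∈ N k lam) (h0 : g.1 0 0 = 0)
    (hu : ∀ z, u z ∈ N k lam) (y : F) : l y ∈ N k lam := by
  have hd := det_eq g
  rw [h0] at hd
  have hr0 : g.1 1 0 ≠ 0 := by
    intro h; rw [h] at hd; simp at hd
  have h := conj_gen g hr0 (y / (g.1 1 0) ^ 2)
  rw [h0, zero_div, u_zero, one_mul, inv_one, mul_one] at h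
  have e : (g.1 1 0) ^ 2 * (y / (g.1 1 0) ^ 2) = y := by field_simp
  rw [e] at h
  rw [h]
  exact (N k lam).mul_mem ((N k lam).mul_mem hg (hu _)) ((N k lam).inv_mem hg)

end Cfsg.Agent.Lib.Helper83.SL2R1
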