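import Mathlib
import Cfsg.Agent.Lib.Helper98.SL2Gen
import Cfsg.Agent.Lib.Helper83.SL2R1
import Cfsg.Agent.Lib.Helper83.Generic

/-!
# Two root subgroups `u(k)`, `l(k·λ)` generate `SL(2, k(λ))`: the infinite case (helper83)

`E` a field with a power basis `pb` over an infinite field `k` of characteristic `≠ 2`,
`λ = pb.gen ≠ 0`.  Then `N (image of k) λ = ⊤` (`N_eq_top_of_infinite`).

Method: for a `k`-linear functional `τ` on `E` such that the forms `τ(xy)` and `τ(λxy)` are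
nondegenerate on every `W m = ⟨1, λ, …, λ^(m-1)⟩`, the orthogonal polynomials `π_n`
and kernel polynomials `κ_n` of `τ` satisfy `π_{n+1} = λ κ_n - a_n π_n`,
`κ_n = π_n - b_n κ_{n-1}` with nonzero `a_n, b_n`; read as a word in `u(k)`, `l(kλ)` this gives
an element of the group with first column `(0, r)` (`chain`).  Generic functionals exist over an
infinite field (`Generic`), and varying them along lines gives all `u z`.
-/

set_option autoImplicit false
set_option linter.unusedVariables false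
set_option linter.unusedSectionVars false
set_option linter.unusedSimpArgs false
set_option linter.unnecessarySeqFocus false
set_option linter.unreachableTactic false
set_option linter.unusedTactic false

namespace Cfsg.Agent.Lib.Helper83.OPChain

open Polynomial Matrix MatrixGroups
open Cfsg.Agent.Lib.Helper98.SL2Sub Cfsg.Agent.Lib.Helper98.SL2Gen
open Cfsg.Agent.Lib.Helper83.Generic Cfsg.Agent.Lib.Helper83.SL2R1

variable {k E : Type*} [Field k] [Field E] [Algebra k E] (pb : PowerBasis k E)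

/-- `W m`: values at `pb.gen` of the polynomials of degree `< m` -/
noncomputable def W (m : ℕ) : Submodule k E :=
  (Polynomial.degreeLT k m).map (Polynomial.aeval pb.gen).toLinearMap

lemma mem_W {m : ℕ} {x : E} :
    x ∈ W pb m ↔ ∃ p : k[X], (∀ i, m ≤ i → p.coeff i = 0) ∧ Polynomial.aeval pb.gen p = x := by
  unfold W
  rw [Submodule.mem_map]
  constructor
  · rintro ⟨p, hp, rfl⟩
    exact ⟨p, (Polynomial.degree_lt_iff_coeff_zero p m).1 (Polynomial.mem_degreeLT.1 hp), rfl⟩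
  · rintro ⟨p, hp, rfl⟩
    exact ⟨p, Polynomial.mem_degreeLT.2 ((Polynomial.degree_lt_iff_coeff_zero p m).2 hp), rfl⟩

lemma W_mono {m m' : ℕ} (h : m ≤ m') : W pb m ≤ W pb m' :=
  Submodule.map_mono (Polynomial.degreeLT_mono h)

lemma W_zero {x : E} (hx : x ∈ W pb 0) : x = 0 := by
  obtain ⟨p, hp, rfl⟩ := (mem_W pb).1 hx
  have : p = 0 := by
    ext i
    simpa using hp i (Nat.zero_le i)
  rw [this, map_zero]

lemma one_mem_W : (1 : E) ∈ W pb 1 := by
  refine (mem_W pb).2 ⟨1, fun i hi => ?_, by simp⟩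
  rw [Polynomial.coeff_one]
  rw [if_neg]; omega

lemma W_top (x : E) : x ∈ W pb pb.dim := by
  obtain ⟨p, hp, rfl⟩ := pb.exists_eq_aeval x
  exact (mem_W pb).2 ⟨p, fun i hi => Polynomial.coeff_eq_zero_of_natDegree_lt (by omega), rfl⟩

lemma gen_mul_mem_W {m : ℕ} {x : E} (hx : x ∈ W pb m) : pb.gen * x ∈ W pb (m + 1) := by
  obtain ⟨p, hp, rfl⟩ := (mem_W pb).1 hx
  refine (mem_W pb).2 ⟨X * p, fun i hi => ?_, by simp⟩
  obtain ⟨j, rfl⟩ : ∃ j, i = j + 1 := ⟨i - 1, by omega⟩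
  rw [Polynomial.coeff_X_mul]
  exact hp j (by omega)

/-- degree argument: multiplication by `gen` raises the exact level below the dimension -/
lemma gen_mul_not_mem_W {n : ℕ} {x : E} (hx : x ∈ W pb (n + 1)) (hx' : x ∉ W pb n)
    (hn : n + 2 ≤ pb.dim) : pb.gen * x ∉ W pb (n + 1) := by
  intro h
  obtain ⟨p, hp, rfl⟩ := (mem_W pb).1 hx
  obtain ⟨q, hq, hqe⟩ := (mem_W pb).1 h
  by_cases hP : X * p - q = 0
  · apply hx'
    refine (mem_W pb).2 ⟨p, fun i hi => ?_, rfl⟩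
    have h1 : X * p = q := sub_eq_zero.1 hP
    rw [← Polynomial.coeff_X_mul, h1]
    exact hq _ (by omega)
  · have hroot : Polynomial.aeval pb.gen (X * p - q) = 0 := by
      rw [map_sub, hqe]; simp
    have hdim := pb.dim_le_natDegree_of_root hP hroot
    have hdeg : (X * p - q).natDegree ≤ n + 1 := by
      rw [Polynomial.natDegree_le_iff_coeff_eq_zero]
      intro i hi
      obtain ⟨j, rfl⟩ : ∃ j, i = j + 1 := ⟨i - 1, by omega⟩
      rw [Polynomial.coeff_sub, Polynomial.coeff_X_mul, hp j (by omega), hq _ (by omega), sub_zero]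
    omega

lemma W_repr {m : ℕ} {x : E} (hx : x ∈ W pb m) :
    ∃ v : Fin m → k, x = ∑ j : Fin m, v j • pb.gen ^ (j : ℕ) := by
  obtain ⟨p, hp, rfl⟩ := (mem_W pb).1 hx
  refine ⟨fun j => p.coeff j, ?_⟩
  rw [Polynomial.aeval_eq_sum_range, ← Finset.sum_range (fun j => p.coeff j • pb.gen ^ j)]
  by_cases h : p.natDegree + 1 ≤ m
  · refine Finset.sum_subset (fun i hi => ?_) (fun i hi hi' => ?_)
    · simp only [Finset.mem_range] at hi ⊢; omega
    · simp only [Finset.mem_range] at hi hi'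
      rw [Polynomial.coeff_eq_zero_of_natDegree_lt (by omega), zero_smul]
  · symm
    refine Finset.sum_subset (fun i hi => ?_) (fun i hi hi' => ?_)
    · simp only [Finset.mem_range] at hi ⊢; omega
    · simp only [Finset.mem_range] at hi hi'
      rw [hp i (by omega), zero_smul]

/-- nondegeneracy of `(x, y) ↦ τ (x * y)` on `W m`, tested against the powers of `gen` -/
def ND (τ : E →ₗ[k] k) (m : ℕ) : Prop :=
  ∀ x ∈ W pb m, (∀ i < m, τ (x * pb.gen ^ i) = 0) → x = 0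

/-- the subgroup generated by `u c`, `l (gen * c)`, `c ∈ k` -/
abbrev HH : Subgroup SL(2, E) := N (algebraMap k E).fieldRange pb.gen

lemma u_mem_HH (c : k) : u (algebraMap k E c) ∈ HH pb := u_mem_N _ _ ⟨c, rfl⟩

lemma l_mem_HH (c : k) : l (pb.gen * algebraMap k E c) ∈ HH pb := l_mem_N _ _ ⟨c, rfl⟩

/-- the invariant of the chain at level `n` -/
def J (τ : E →ₗ[k] k) (n : ℕ) : Prop :=
  ∃ g ∈ HH pb, ∃ κ : E, g.1 1 0 = pb.gen * κ ∧ g.1 0 0 ∈ W pb (n + 1) ∧ κ ∈ W pb (n + 1) ∧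
    g.1 0 0 ≠ 0 ∧ κ ≠ 0 ∧ (∀ i < n, τ (g.1 0 0 * pb.gen ^ i) = 0) ∧
    (∀ i < n, τ (pb.gen * (κ * pb.gen ^ i)) = 0)

omit pb in
lemma aux_solve {c : k} (hc : c ≠ 0) {x y : E} (h : x + algebraMap k E c * y = 0) :
    y = (-c⁻¹) • x := by
  rw [Algebra.smul_def, map_neg, map_inv₀]
  have hc' : algebraMap k E c ≠ 0 := by simpa using hc
  field_simp
  linear_combination h

/-- the `u`-move of the chain -/
lemma move1 (τ : E →ₗ[k] k) {n : ℕ} (h0 : ND pb τ (n + 1))
    (h1 : ND pb (τ.comp (LinearMap.mulLeft k pb.gen)) (n + 1)) (hJ : J pb τ n) :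
    ∃ g' ∈ HH pb, ∃ κ : E, g'.1 1 0 = pb.gen * κ ∧ κ ∈ W pb (n + 1) ∧ κ ≠ 0 ∧
      (∀ i < n, τ (pb.gen * (κ * pb.gen ^ i)) = 0) ∧ τ (pb.gen * (κ * pb.gen ^ n)) ≠ 0 ∧
      (∀ i < n + 1, τ (g'.1 0 0 * pb.gen ^ i) = 0) ∧
      ∃ c : k, c ≠ 0 ∧ ∃ π ∈ W pb (n + 1), g'.1 0 0 = π + algebraMap k E c * (pb.gen * κ) := by
  obtain ⟨g, hg, κ, hκ, hπW, hκW, hπ0, hκ0, hπo, hκo⟩ := hJ
  have ht1 : τ (g.1 0 0 * pb.gen ^ n) ≠ 0 := by
    intro h
    apply hπ0
    apply h0 _ hπW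
    intro i hi
    rcases Nat.lt_succ_iff_lt_or_eq.1 hi with h' | rfl
    · exact hπo i h'
    · exact h
  have ht2 : τ (pb.gen * (κ * pb.gen ^ n)) ≠ 0 := by
    intro h
    apply hκ0
    apply h1 _ hκW
    intro i hi
    show τ (pb.gen * (κ * pb.gen ^ i)) = 0
    rcases Nat.lt_succ_iff_lt_or_eq.1 hi with h' | rfl
    · exact hκo i h'
    · exact h
  have hc10 : -τ (g.1 0 0 * pb.gen ^ n) / τ (pb.gen * (κ * pb.gen ^ n)) ≠ 0 :=
    div_ne_zero (neg_ne_zero.2 ht1) ht2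
  have hg'00 : (u (algebraMap k E (-τ (g.1 0 0 * pb.gen ^ n) / τ (pb.gen * (κ * pb.gen ^ n))))
      * g).1 0 0 = g.1 0 0 + algebraMap k E (-τ (g.1 0 0 * pb.gen ^ n) /
        τ (pb.gen * (κ * pb.gen ^ n))) * (pb.gen * κ) := by
    rw [mul00, u00, u01, one_mul, hκ]
  have hg'10 : (u (algebraMap k E (-τ (g.1 0 0 * pb.gen ^ n) / τ (pb.gen * (κ * pb.gen ^ n))))
      * g).1 1 0 = pb.gen * κ := by
    rw [mul10, u10, u11, zero_mul, one_mul, zero_add, hκ]
  refine ⟨_, (HH pb).mul_mem (u_mem_HH pb _) hg, κ, hg'10, hκW, hκ0, hκo, ht2, ?_, _, hc10,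
    g.1 0 0, hπW, hg'00⟩
  intro i hi
  have e : (g.1 0 0 + algebraMap k E (-τ (g.1 0 0 * pb.gen ^ n) /
      τ (pb.gen * (κ * pb.gen ^ n))) * (pb.gen * κ)) * pb.gen ^ i = g.1 0 0 * pb.gen ^ i +
      (-τ (g.1 0 0 * pb.gen ^ n) / τ (pb.gen * (κ * pb.gen ^ n))) •
        (pb.gen * (κ * pb.gen ^ i)) := by
    rw [Algebra.smul_def]; ring
  rw [hg'00, e, map_add, map_smul, smul_eq_mul]
  rcases Nat.lt_succ_iff_lt_or_eq.1 hi with h' | rfl
  · rw [hπo i h', hκo i h']; simp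
  · rw [div_mul_cancel₀ _ ht2, add_neg_cancel]

lemma J_step (τ : E →ₗ[k] k)
    (h0 : ∀ m ≤ pb.dim, ND pb τ m)
    (h1 : ∀ m ≤ pb.dim, ND pb (τ.comp (LinearMap.mulLeft k pb.gen)) m)
    {n : ℕ} (hn : n + 2 ≤ pb.dim) (hJ : J pb τ n) : J pb τ (n + 1) := by
  obtain ⟨g', hg'm, κ, hg'10, hκW, hκ0, hκo, ht2, hπ'o, c1, hc10, π, hπW, hg'00⟩ :=
    move1 pb τ (h0 (n + 1) (by omega)) (h1 (n + 1) (by omega)) hJ
  have hκn : κ ∉ W pb n := by
    intro h
    apply hκ0
    apply h1 n (by omega) κ h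
    intro i hi
    exact hκo i hi
  have hgκ : pb.gen * κ ∉ W pb (n + 1) := gen_mul_not_mem_W pb hκW hκn hn
  have hπ'W : g'.1 0 0 ∈ W pb (n + 2) := by
    rw [hg'00]
    refine (W pb (n + 2)).add_mem (W_mono pb (by omega) hπW) ?_
    rw [← Algebra.smul_def]
    exact (W pb (n + 2)).smul_mem _ (gen_mul_mem_W pb hκW)
  have hπ'0 : g'.1 0 0 ≠ 0 := by
    intro h
    apply hgκ
    rw [hg'00] at h
    rw [aux_solve hc10 h]; exact (W pb (n + 1)).smul_mem _ hπW
  have ht3 : τ (g'.1 0 0 * pb.gen ^ (n + 1)) ≠ 0 := by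
    intro h
    apply hπ'0
    apply h0 (n + 2) hn _ hπ'W
    intro i hi
    rcases Nat.lt_succ_iff_lt_or_eq.1 hi with h' | rfl
    · exact hπ'o i h'
    · exact h
  have hc20 : -τ (pb.gen * (κ * pb.gen ^ n)) / τ (g'.1 0 0 * pb.gen ^ (n + 1)) ≠ 0 :=
    div_ne_zero (neg_ne_zero.2 ht2) ht3
  have hg''00 : (l (pb.gen * algebraMap k E (-τ (pb.gen * (κ * pb.gen ^ n)) /
      τ (g'.1 0 0 * pb.gen ^ (n + 1)))) * g').1 0 0 = g'.1 0 0 := by
    rw [mul00, l00, l01, one_mul, zero_mul, add_zero]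
  have hg''10 : (l (pb.gen * algebraMap k E (-τ (pb.gen * (κ * pb.gen ^ n)) /
      τ (g'.1 0 0 * pb.gen ^ (n + 1)))) * g').1 1 0 = pb.gen * (κ + algebraMap k E
        (-τ (pb.gen * (κ * pb.gen ^ n)) / τ (g'.1 0 0 * pb.gen ^ (n + 1))) * g'.1 0 0) := by
    rw [mul10, l10, l11, one_mul, hg'10]; ring
  refine ⟨_, (HH pb).mul_mem (l_mem_HH pb _) hg'm, _, hg''10, ?_, ?_, ?_, ?_, ?_, ?_⟩
  · rw [hg''00]; exact hπ'W
  · refine (W pb (n + 2)).add_mem (W_mono pb (by omega) hκW) ?_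
    rw [← Algebra.smul_def]; exact (W pb (n + 2)).smul_mem _ hπ'W
  · rw [hg''00]; exact hπ'0
  · intro h
    apply hπ'0
    apply h0 (n + 1) (by omega) _ ?_ hπ'o
    rw [aux_solve hc20 h]; exact (W pb (n + 1)).smul_mem _ hκW
  · rw [hg''00]; exact hπ'o
  · intro i hi
    have e : pb.gen * ((κ + algebraMap k E (-τ (pb.gen * (κ * pb.gen ^ n)) /
        τ (g'.1 0 0 * pb.gen ^ (n + 1))) * g'.1 0 0) * pb.gen ^ i) =
        pb.gen * (κ * pb.gen ^ i) + (-τ (pb.gen * (κ * pb.gen ^ n)) /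
        τ (g'.1 0 0 * pb.gen ^ (n + 1))) • (g'.1 0 0 * pb.gen ^ (i + 1)) := by
      rw [Algebra.smul_def, pow_succ]; ring
    rw [e, map_add, map_smul, smul_eq_mul]
    rcases Nat.lt_succ_iff_lt_or_eq.1 hi with h' | rfl
    · rw [hκo i h', hπ'o (i + 1) (by omega)]; simp
    · rw [div_mul_cancel₀ _ ht3, add_neg_cancel]

/-- **The chain**: a functional that is nondegenerate on all levels produces an element of the
group with first column `(0, r)`, `r` orthogonal to `W (dim - 1)`. -/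
theorem chain (τ : E →ₗ[k] k)
    (h0 : ∀ m ≤ pb.dim, ND pb τ m)
    (h1 : ∀ m ≤ pb.dim, ND pb (τ.comp (LinearMap.mulLeft k pb.gen)) m) :
    ∃ g ∈ HH pb, g.1 0 0 = 0 ∧ ∀ i, i + 1 < pb.dim → τ (g.1 1 0 * pb.gen ^ i) = 0 := by
  have hJ0 : J pb τ 0 := by
    refine ⟨l (pb.gen * algebraMap k E 1), l_mem_HH pb 1, 1, by simp, ?_, one_mem_W pb,
      by simp, one_ne_zero, by simp, by simp⟩
    rw [l00]; exact one_mem_W pb
  have hJ : ∀ n, n + 1 ≤ pb.dim → J pb τ n := by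
    intro n
    induction n with
    | zero => intro _; exact hJ0
    | succ n ih => intro hn; exact J_step pb τ h0 h1 (by omega) (ih (by omega))
  have hd := pb.dim_pos
  obtain ⟨n, hn⟩ : ∃ n, pb.dim = n + 1 := ⟨pb.dim - 1, by omega⟩
  obtain ⟨g', hg'm, κ, hg'10, hκW, hκ0, hκo, ht2, hπ'o, c1, hc10, π, hπW, hg'00⟩ :=
    move1 pb τ (h0 (n + 1) (by omega)) (h1 (n + 1) (by omega)) (hJ n (by omega))
  refine ⟨g', hg'm, ?_, ?_⟩
  · apply h0 pb.dim le_rfl _ (W_top pb _)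
    intro i hi
    exact hπ'o i (by omega)
  · intro i hi
    rw [hg'10, mul_assoc]
    exact hκo i (by omega)

/-- the top coefficient functional -/
noncomputable def τ0 : E →ₗ[k] k :=
  pb.basis.coord ⟨pb.dim - 1, Nat.sub_lt pb.dim_pos one_pos⟩

lemma τ0_pow {e : ℕ} (he : e < pb.dim) :
    τ0 pb (pb.gen ^ e) = if e + 1 = pb.dim then 1 else 0 := by
  have h : pb.gen ^ e = pb.basis ⟨e, he⟩ := by rw [pb.basis_eq_pow]
  rw [h, τ0, Module.Basis.coord_apply, Module.Basis.repr_self, Finsupp.single_apply]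
  by_cases h' : e + 1 = pb.dim
  · rw [if_pos h', if_pos]
    ext; simp; omega
  · rw [if_neg h', if_neg]
    intro h''
    apply h'
    have := congrArg Fin.val h''
    simp at this
    omega

/-- the Gram (Hankel) matrix of the functional `x ↦ τ0 (ξ * x)` on `W m`, linear in `ξ` -/
noncomputable def G (m : ℕ) : E →ₗ[k] Matrix (Fin m) (Fin m) k where
  toFun ξ := Matrix.of fun i j => τ0 pb (ξ * pb.gen ^ ((i : ℕ) + j))
  map_add' a b := by ext i j; simp [add_mul]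
  map_smul' c a := by ext i j; simp [smul_mul_assoc]

lemma G_apply (m : ℕ) (ξ : E) (i j : Fin m) :
    G pb m ξ i j = τ0 pb (ξ * pb.gen ^ ((i : ℕ) + j)) := rfl

lemma ND_of_det (ξ : E) (m : ℕ) (h : (G pb m ξ).det ≠ 0) :
    ND pb ((τ0 pb).comp (LinearMap.mulLeft k ξ)) m := by
  intro x hx hi
  obtain ⟨v, rfl⟩ := W_repr pb hx
  have hv : (G pb m ξ).mulVec v = 0 := by
    ext i
    have h' := hi i i.2
    simp only [LinearMap.comp_apply, LinearMap.mulLeft_apply] at h'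
    rw [Finset.sum_mul, Finset.mul_sum, map_sum] at h'
    simp only [Matrix.mulVec, dotProduct, G_apply, Pi.zero_apply]
    rw [← h']
    apply Finset.sum_congr rfl
    intro j _
    rw [smul_mul_assoc, mul_smul_comm, map_smul, smul_eq_mul, ← pow_add, mul_comm, add_comm]
  have hv0 := Matrix.eq_zero_of_mulVec_eq_zero h hv
  simp [hv0]

lemma det_G_pow {m : ℕ} (hm : m ≤ pb.dim) : (G pb m (pb.gen ^ (pb.dim - m))).det ≠ 0 := by
  apply det_ne_zero_of_anti
  · intro i j hij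
    rw [G_apply, ← pow_add, τ0_pow pb (by omega), if_neg (by omega)]
  · intro i j hij
    rw [G_apply, ← pow_add, τ0_pow pb (by omega), if_pos (by omega)]

/-- elements orthogonal to `W (dim - 1)` for the top coefficient functional are scalars -/
lemma L4 (y : E) (hy : ∀ i, i + 1 < pb.dim → τ0 pb (y * pb.gen ^ i) = 0) :
    ∃ c : k, y = algebraMap k E c := by
  obtain ⟨p, hp, rfl⟩ := pb.exists_eq_aeval y
  have hd := pb.dim_pos
  refine ⟨p.coeff 0, ?_⟩
  have hdiv := Polynomial.divX_mul_X_add p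
  have hq : Polynomial.aeval pb.gen p.divX = 0 := by
    have hND := ND_of_det pb pb.gen (pb.dim - 1) (by
      have h := det_G_pow pb (show pb.dim - 1 ≤ pb.dim by omega)
      have e : pb.dim - (pb.dim - 1) = 1 := by omega
      rwa [e, pow_one] at h)
    apply hND _ ((mem_W pb).2 ⟨p.divX, fun i hi => ?_, rfl⟩)
    · intro i hi
      show τ0 pb (pb.gen * (Polynomial.aeval pb.gen p.divX * pb.gen ^ i)) = 0
      have e : pb.gen * (Polynomial.aeval pb.gen p.divX * pb.gen ^ i) =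
          Polynomial.aeval pb.gen p * pb.gen ^ i - p.coeff 0 • pb.gen ^ i := by
        have hp' : Polynomial.aeval pb.gen p =
            Polynomial.aeval pb.gen p.divX * pb.gen + algebraMap k E (p.coeff 0) := by
          conv_lhs => rw [← hdiv]
          simp only [map_add, map_mul, Polynomial.aeval_X, Polynomial.aeval_C]
        rw [hp', Algebra.smul_def]
        ring
      rw [e, map_sub, map_smul, hy i (by omega), τ0_pow pb (by omega), if_neg (by omega)]
      simp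
    · rw [Polynomial.coeff_divX]
      exact Polynomial.coeff_eq_zero_of_natDegree_lt (by omega)
  conv_lhs => rw [← hdiv]
  simp [hq]

/-- the finite set of genericity conditions -/
noncomputable def conds : Finset (E → k) := by
  classical
  exact (Finset.range (pb.dim + 1)).image (fun m ξ => (G pb m ξ).det) ∪
    (Finset.range pb.dim).image (fun m ξ => (G pb m (pb.gen * ξ)).det)

lemma mem_conds {c : E → k} : c ∈ conds pb ↔
    (∃ m ≤ pb.dim, c = fun ξ => (G pb m ξ).det) ∨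
    (∃ m < pb.dim, c = fun ξ => (G pb m (pb.gen * ξ)).det) := by
  classical
  unfold conds
  simp only [Finset.mem_union, Finset.mem_image, Finset.mem_range]
  constructor
  · rintro (⟨m, hm, rfl⟩ | ⟨m, hm, rfl⟩)
    · exact Or.inl ⟨m, by omega, rfl⟩
    · exact Or.inr ⟨m, hm, rfl⟩
  · rintro (⟨m, hm, rfl⟩ | ⟨m, hm, rfl⟩)
    · exact Or.inl ⟨m, by omega, rfl⟩
    · exact Or.inr ⟨m, hm, rfl⟩

lemma conds_polyLike : ∀ c ∈ conds pb, PolyLike c := by
  intro c hc
  rcases (mem_conds pb).1 hc with ⟨m, hm, rfl⟩ | ⟨m, hm, rfl⟩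
  · exact polyLike_det (G pb m)
  · exact (polyLike_det (G pb m)).comp (LinearMap.mulLeft k pb.gen)

lemma conds_witness : ∀ c ∈ conds pb, ∃ w, c w ≠ 0 := by
  intro c hc
  rcases (mem_conds pb).1 hc with ⟨m, hm, rfl⟩ | ⟨m, hm, rfl⟩
  · exact ⟨pb.gen ^ (pb.dim - m), det_G_pow pb hm⟩
  · refine ⟨pb.gen ^ (pb.dim - m - 1), ?_⟩
    have h := det_G_pow pb hm.le
    have e : pb.gen * pb.gen ^ (pb.dim - m - 1) = pb.gen ^ (pb.dim - m) := by
      rw [← pow_succ']; congr 1; omega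
    show (G pb m (pb.gen * pb.gen ^ (pb.dim - m - 1))).det ≠ 0
    rw [e]; exact h

/-- a generic `ξ` gives `u (gen * ξ ^ 2)` in the group, and an element with upper left entry 0 -/
lemma good_elem (hgen : pb.gen ≠ 0) (ξ : E) (hξ : ∀ c ∈ conds pb, c ξ ≠ 0) :
    u (pb.gen * ξ ^ 2) ∈ HH pb ∧ ∃ g ∈ HH pb, g.1 0 0 = 0 := by
  have hd := pb.dim_pos
  have hξ0 : ξ ≠ 0 := by
    rintro rfl
    have h := hξ _ ((mem_conds pb).2 (Or.inl ⟨pb.dim, le_rfl, rfl⟩))
    have : Nonempty (Fin pb.dim) := ⟨⟨0, hd⟩⟩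
    simp [Matrix.det_zero] at h
  have h0 : ∀ m ≤ pb.dim, ND pb ((τ0 pb).comp (LinearMap.mulLeft k ξ)) m := fun m hm =>
    ND_of_det pb ξ m (hξ _ ((mem_conds pb).2 (Or.inl ⟨m, hm, rfl⟩)))
  have h1 : ∀ m ≤ pb.dim, ND pb (((τ0 pb).comp (LinearMap.mulLeft k ξ)).comp
      (LinearMap.mulLeft k pb.gen)) m := by
    intro m hm
    rcases hm.lt_or_eq with hlt | rfl
    · have h := ND_of_det pb (pb.gen * ξ) m (hξ _ ((mem_conds pb).2 (Or.inr ⟨m, hlt, rfl⟩)))
      have e : ((τ0 pb).comp (LinearMap.mulLeft k ξ)).comp (LinearMap.mulLeft k pb.gen) =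
          (τ0 pb).comp (LinearMap.mulLeft k (pb.gen * ξ)) := by
        ext x
        simp only [LinearMap.comp_apply, LinearMap.mulLeft_apply]
        congr 1; ring
      rw [e]; exact h
    · intro x _ hx
      have hND := ND_of_det pb 1 pb.dim (by
        have h := det_G_pow pb (le_refl pb.dim)
        rwa [Nat.sub_self, pow_zero] at h)
      have h := hND (ξ * (pb.gen * x)) (W_top pb _) (fun i hi => by
        have h' := hx i hi
        simp only [LinearMap.comp_apply, LinearMap.mulLeft_apply] at h' ⊢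
        rw [one_mul, mul_assoc, mul_assoc]
        exact h')
      rcases mul_eq_zero.1 h with h | h
      · exact absurd h hξ0
      · rcases mul_eq_zero.1 h with h | h
        · exact absurd h hgen
        · exact h
  obtain ⟨g, hg, hg0, hgo⟩ := chain pb _ h0 h1
  refine ⟨?_, g, hg, hg0⟩
  obtain ⟨c, hc⟩ := L4 pb (ξ * g.1 1 0) (fun i hi => by
    have h' := hgo i hi
    simp only [LinearMap.comp_apply, LinearMap.mulLeft_apply] at h'
    rw [mul_assoc]; exact h')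
  have hdet := det_eq g
  rw [hg0] at hdet
  have hr0 : g.1 1 0 ≠ 0 := by
    intro h; rw [h] at hdet; simp at hdet
  have hc0 : algebraMap k E c ≠ 0 := by
    rw [← hc]; exact mul_ne_zero hξ0 hr0
  have hq : g.1 0 1 = -ξ / algebraMap k E c := by
    rw [← hc, eq_div_iff (mul_ne_zero hξ0 hr0)]
    linear_combination (-ξ) * hdet
  have hmem := u_mem_of_zero (algebraMap k E).fieldRange pb.gen g hg hg0
    (c := algebraMap k E (-c ^ 2)) ⟨_, rfl⟩
  have e : -(pb.gen * algebraMap k E (-c ^ 2)) * (g.1 0 1) ^ 2 = pb.gen * ξ ^ 2 := by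
    rw [hq, map_neg, map_pow]
    field_simp
  rw [e] at hmem
  exact hmem

/-- **Main theorem, infinite case.** -/
theorem N_eq_top_of_infinite [Infinite k] (h2 : (2 : E) ≠ 0) (hgen : pb.gen ≠ 0) :
    N (algebraMap k E).fieldRange pb.gen = ⊤ := by
  obtain ⟨ξ, hξ⟩ := generic_exists (conds pb)
    (fun c hc => ⟨conds_polyLike pb c hc, conds_witness pb c hc⟩)
  obtain ⟨h1, g, hg, hg0⟩ := good_elem pb hgen ξ hξ
  have h2k : (2 : k) ≠ 0 := by
    intro h
    apply h2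
    have h2' : (2 : E) = algebraMap k E 2 := (map_ofNat (algebraMap k E) 2).symm
    rw [h2', h, map_zero]
  have hUA : ∀ η : E, pb.gen * η ^ 2 ∈ UA (HH pb) := by
    intro η
    obtain ⟨t, ht0, hp, hm⟩ := generic_line (conds pb) (conds_polyLike pb) ξ η hξ
    have h2' := (good_elem pb hgen _ hp).1
    have h3 := (good_elem pb hgen _ hm).1
    have hsum : pb.gen * (ξ + t • η) ^ 2 + pb.gen * (ξ - t • η) ^ 2 -
        (pb.gen * ξ ^ 2 + pb.gen * ξ ^ 2) ∈ UA (HH pb) :=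
      (UA (HH pb)).sub_mem ((UA (HH pb)).add_mem h2' h3) ((UA (HH pb)).add_mem h1 h1)
    have e : pb.gen * (ξ + t • η) ^ 2 + pb.gen * (ξ - t • η) ^ 2 -
        (pb.gen * ξ ^ 2 + pb.gen * ξ ^ 2) = algebraMap k E (2 * t ^ 2) * (pb.gen * η ^ 2) := by
      rw [Algebra.smul_def, map_mul, map_pow, map_ofNat]; ring
    rw [e] at hsum
    have h4 := smul_mem_UA (algebraMap k E).fieldRange h2 pb.gen
      (a := algebraMap k E (2 * t ^ 2)⁻¹) ⟨_, rfl⟩ hsum
    have e2 : algebraMap k E (2 * t ^ 2)⁻¹ * (algebraMap k E (2 * t ^ 2) * (pb.gen * η ^ 2)) =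
        pb.gen * η ^ 2 := by
      rw [← mul_assoc, ← map_mul, inv_mul_cancel₀ (mul_ne_zero h2k (pow_ne_zero 2 ht0)), map_one,
        one_mul]
    rw [e2] at h4
    exact h4
  have hu : ∀ z : E, u z ∈ HH pb := by
    intro z
    have e : pb.gen * ((z / pb.gen + 1) / 2) ^ 2 - pb.gen * ((z / pb.gen - 1) / 2) ^ 2 = z := by
      field_simp; ring
    have h5 := (UA (HH pb)).sub_mem (hUA ((z / pb.gen + 1) / 2)) (hUA ((z / pb.gen - 1) / 2))
    rw [e] at h5
    exact h5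
  exact eq_top_of_u_l _ hu (fun y => l_mem_of_zero _ pb.gen g hg hg0 hu y)

end Cfsg.Agent.Lib.Helper83.OPChain
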