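import Mathlib
import Cfsg.Agent.Lib.Helper98.SL2Gen
import Cfsg.Agent.Lib.Helper83.SL2R1
import Cfsg.Agent.Lib.Helper83.OPChain

/-!
# `⟨u(k), l(k·λ)⟩ = SL(2, k(λ))` for a simple algebraic extension (helper83)

`N_eq_top`: `E` a field with power basis `pb` over `k`, `char ≠ 2`, `|k| ≠ 3`, `pb.gen ≠ 0`:
the subgroup `N (image of k) pb.gen` of `SL(2, E)` is everything.
Finite `k`: helper98's Dickson generation theorem `gen_main` plus the exceptional case
(`3 = 0`, `λ² = -1`) by `SL2R1.R1`.  Infinite `k`: `OPChain.N_eq_top_of_infinite`.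
-/

set_option autoImplicit false
set_option linter.unusedVariables false
set_option linter.unusedSectionVars false
set_option linter.unusedSimpArgs false
set_option linter.style.haveILetI false

namespace Cfsg.Agent.Lib.Helper83.SL2Ext

open Polynomial Matrix MatrixGroups
open Cfsg.Agent.Lib.Helper98.SL2Sub Cfsg.Agent.Lib.Helper98.SL2Gen
open Cfsg.Agent.Lib.Helper83.SL2R1 Cfsg.Agent.Lib.Helper83.OPChain

variable {k E : Type*} [Field k] [Field E] [Algebra k E] (pb : PowerBasis k E)

lemma exists_sq_ne_one [Finite k] (h2 : (2 : E) ≠ 0) (h3 : Nat.card k ≠ 3) :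
    ∃ t ∈ (algebraMap k E).fieldRange, t ≠ 0 ∧ t ^ 2 ≠ 1 := by
  classical
  by_contra hno
  push Not at hno
  have h2k : (2 : k) ≠ 0 := by
    intro h
    apply h2
    have h2' : (2 : E) = algebraMap k E 2 := (map_ofNat (algebraMap k E) 2).symm
    rw [h2', h, map_zero]
  have hall : ∀ c : k, c = 0 ∨ c = 1 ∨ c = -1 := by
    intro c
    by_cases hc : c = 0
    · exact Or.inl hc
    · right
      have h := hno (algebraMap k E c) ⟨c, rfl⟩ (by simpa using hc)
      have h' : c ^ 2 = 1 := by
        apply (algebraMap k E).injective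
        rw [map_pow, h, map_one]
      have h'' : (c - 1) * (c + 1) = 0 := by linear_combination h'
      rcases mul_eq_zero.1 h'' with h | h
      · left; linear_combination h
      · right; linear_combination h
  apply h3
  haveI : Fintype k := Fintype.ofFinite k
  rw [Nat.card_eq_fintype_card, ← Finset.card_univ]
  have huniv : (Finset.univ : Finset k) = {0, 1, -1} := by
    ext c
    simp only [Finset.mem_univ, Finset.mem_insert, Finset.mem_singleton, true_iff]
    exact hall c
  rw [huniv]
  refine Finset.card_eq_three.2 ⟨0, 1, -1, zero_ne_one, ?_, ?_, rfl⟩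
  · intro h
    have : (1 : k) = 0 := by linear_combination h
    exact one_ne_zero this
  · intro h
    apply h2k
    linear_combination h

theorem N_eq_top_of_finite [Finite k] (h2 : (2 : E) ≠ 0) (h3 : Nat.card k ≠ 3)
    (hgen : pb.gen ≠ 0) : N (algebraMap k E).fieldRange pb.gen = ⊤ := by
  haveI : Module.Finite k E := pb.finite
  haveI : Finite E := Module.finite_of_finite k
  have hcl : ∀ z : E, z ∈ Subfield.closure
      (((algebraMap k E).fieldRange : Set E) ∪ {pb.gen}) := by
    intro z
    obtain ⟨p, -, rfl⟩ := pb.exists_eq_aeval z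
    rw [Polynomial.aeval_eq_sum_range]
    refine sum_mem (fun i _ => ?_)
    rw [Algebra.smul_def]
    have h1 : algebraMap k E (p.coeff i) ∈ Subfield.closure
        (((algebraMap k E).fieldRange : Set E) ∪ {pb.gen}) :=
      Subfield.subset_closure (Or.inl (show algebraMap k E (p.coeff i) ∈
        (algebraMap k E).fieldRange from ⟨_, rfl⟩))
    have h2' : pb.gen ∈ Subfield.closure
        (((algebraMap k E).fieldRange : Set E) ∪ {pb.gen}) :=
      Subfield.subset_closure (Or.inr rfl)
    exact mul_mem h1 (pow_mem h2' _)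
  rcases gen_main (algebraMap k E).fieldRange h2 pb.gen hgen with h | ⟨h3', hsq, hd⟩
  · exact eq_top_of_u_l _ (fun z => (h z (hcl z)).1) (fun z => (h z (hcl z)).2)
  · have ht := exists_sq_ne_one (k := k) (E := E) h2 h3
    have hg : d pb.gen hgen * l (pb.gen * algebraMap k E 1) ∈
        N (algebraMap k E).fieldRange pb.gen :=
      (N (algebraMap k E).fieldRange pb.gen).mul_mem hd (l_mem_HH pb 1)
    have h10 : (d pb.gen hgen * l (pb.gen * algebraMap k E 1)).1 1 0 = 1 := by
      simp [mul10, hgen]
    have h00 : (d pb.gen hgen * l (pb.gen * algebraMap k E 1)).1 0 0 = pb.gen := by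
      simp [mul00]
    have hR := R1 (algebraMap k E).fieldRange h2 pb.gen ht _ hg
      (by rw [h10]; exact Subfield.one_mem _) (by rw [h10]; exact one_ne_zero)
    rw [h10, h00, div_one] at hR
    have hall : ∀ z ∈ Subfield.closure (((algebraMap k E).fieldRange : Set E) ∪ {pb.gen}),
        z ∈ UA (N (algebraMap k E).fieldRange pb.gen) :=
      mem_of_closure_quad (algebraMap k E).fieldRange pb.gen (-1) 0
        (Subfield.neg_mem _ (Subfield.one_mem _)) (Subfield.zero_mem _)
        (by rw [hsq]; ring) (UA (N (algebraMap k E).fieldRange pb.gen))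
        (UA_smul (algebraMap k E).fieldRange pb.gen)
        (u_mem_N _ _ (Subfield.one_mem _)) hR
    have huinv : u pb.gen⁻¹ ∈ N (algebraMap k E).fieldRange pb.gen := by
      have e' : pb.gen * (-pb.gen) = 1 := by linear_combination -hsq
      have e : pb.gen⁻¹ = -pb.gen := (eq_inv_of_mul_eq_one_right e').symm
      rw [e, ← u_inv]
      exact inv_mem hR
    have hl := l_mem_of_u (algebraMap k E).fieldRange pb.gen hgen huinv
      (Subfield.closure (((algebraMap k E).fieldRange : Set E) ∪ {pb.gen}))
      (Subfield.subset_closure (Or.inr rfl)) hall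
    exact eq_top_of_u_l _ (fun z => hall z (hcl z)) (fun z => hl z (hcl z))

/-- **Generation theorem**: `u(k)` and `l(k·λ)` generate `SL(2, k(λ))`. -/
theorem N_eq_top (h2 : (2 : E) ≠ 0) (h3 : Nat.card k ≠ 3) (hgen : pb.gen ≠ 0) :
    N (algebraMap k E).fieldRange pb.gen = ⊤ := by
  rcases finite_or_infinite k with hf | hi
  · exact N_eq_top_of_finite pb h2 h3 hgen
  · exact N_eq_top_of_infinite pb h2 hgen

end Cfsg.Agent.Lib.Helper83.SL2Ext
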