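import Mathlib
import Cfsg.Agent.Lib.Helper98.SL2Sub
import Cfsg.Agent.Lib.Helper83.SL2Ext

/-!
# `SL(2, R)` over a commutative ring: elementary matrices and the subgroup `⟨u(k), l(k·λ)⟩` (helper83)

Basics for the generation theorem over finite-dimensional commutative `k`-algebras generated by a
unit `λ` (see `SL2RingGen`): elementary matrices `eu`, `el`, diagonal `ed`, the involution `theta`
swapping `eu x` and `el (-λ x)`, the subgroup `HR k lam`, functoriality and the field case.
-/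

set_option autoImplicit false
set_option linter.unusedVariables false
set_option linter.unusedSectionVars false
set_option linter.unusedSimpArgs false
set_option linter.unnecessarySeqFocus false
set_option linter.unreachableTactic false
set_option linter.unusedTactic false
set_option linter.style.haveILetI false

namespace Cfsg.Agent.Lib.Helper83.SL2Ring

open Matrix MatrixGroups

section basics
variable {R : Type*} [CommRing R]

lemma sl2_ext (g g' : SL(2, R)) (h00 : g.1 0 0 = g'.1 0 0) (h01 : g.1 0 1 = g'.1 0 1)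
    (h10 : g.1 1 0 = g'.1 1 0) (h11 : g.1 1 1 = g'.1 1 1) : g = g' := by
  apply Subtype.ext
  ext i j
  fin_cases i <;> fin_cases j
  · exact h00
  · exact h01
  · exact h10
  · exact h11

lemma det_eq (g : SL(2, R)) : g.1 0 0 * g.1 1 1 - g.1 0 1 * g.1 1 0 = 1 := by
  have := g.2
  rw [Matrix.det_fin_two] at this
  exact this

/-- upper elementary matrices -/
def eu (b : R) : SL(2, R) := ⟨!![1, b; 0, 1], by simp [Matrix.det_fin_two_of]⟩
/-- lower elementary matrices -/
def el (c : R) : SL(2, R) := ⟨!![1, 0; c, 1], by simp [Matrix.det_fin_two_of]⟩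
/-- diagonal matrices -/
def ed (a b : R) (h : a * b = 1) : SL(2, R) :=
  ⟨!![a, 0; 0, b], by simp [Matrix.det_fin_two_of, h]⟩

@[simp] lemma eu00 (b : R) : (eu b).1 0 0 = 1 := rfl
@[simp] lemma eu01 (b : R) : (eu b).1 0 1 = b := rfl
@[simp] lemma eu10 (b : R) : (eu b).1 1 0 = 0 := rfl
@[simp] lemma eu11 (b : R) : (eu b).1 1 1 = 1 := rfl
@[simp] lemma el00 (c : R) : (el c).1 0 0 = 1 := rfl
@[simp] lemma el01 (c : R) : (el c).1 0 1 = 0 := rfl
@[simp] lemma el10 (c : R) : (el c).1 1 0 = c := rfl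
@[simp] lemma el11 (c : R) : (el c).1 1 1 = 1 := rfl
@[simp] lemma ed00 (a b : R) (h : a * b = 1) : (ed a b h).1 0 0 = a := rfl
@[simp] lemma ed01 (a b : R) (h : a * b = 1) : (ed a b h).1 0 1 = 0 := rfl
@[simp] lemma ed10 (a b : R) (h : a * b = 1) : (ed a b h).1 1 0 = 0 := rfl
@[simp] lemma ed11 (a b : R) (h : a * b = 1) : (ed a b h).1 1 1 = b := rfl

lemma mul00 (g g' : SL(2, R)) : (g * g').1 0 0 = g.1 0 0 * g'.1 0 0 + g.1 0 1 * g'.1 1 0 := by
  simp [Matrix.mul_apply, Fin.sum_univ_two]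
lemma mul01 (g g' : SL(2, R)) : (g * g').1 0 1 = g.1 0 0 * g'.1 0 1 + g.1 0 1 * g'.1 1 1 := by
  simp [Matrix.mul_apply, Fin.sum_univ_two]
lemma mul10 (g g' : SL(2, R)) : (g * g').1 1 0 = g.1 1 0 * g'.1 0 0 + g.1 1 1 * g'.1 1 0 := by
  simp [Matrix.mul_apply, Fin.sum_univ_two]
lemma mul11 (g g' : SL(2, R)) : (g * g').1 1 1 = g.1 1 0 * g'.1 0 1 + g.1 1 1 * g'.1 1 1 := by
  simp [Matrix.mul_apply, Fin.sum_univ_two]
lemma inv00 (g : SL(2, R)) : (g⁻¹).1 0 0 = g.1 1 1 := by
  simp [Matrix.SpecialLinearGroup.coe_inv, Matrix.adjugate_fin_two]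
lemma inv01 (g : SL(2, R)) : (g⁻¹).1 0 1 = - g.1 0 1 := by
  simp [Matrix.SpecialLinearGroup.coe_inv, Matrix.adjugate_fin_two]
lemma inv10 (g : SL(2, R)) : (g⁻¹).1 1 0 = - g.1 1 0 := by
  simp [Matrix.SpecialLinearGroup.coe_inv, Matrix.adjugate_fin_two]
lemma inv11 (g : SL(2, R)) : (g⁻¹).1 1 1 = g.1 0 0 := by
  simp [Matrix.SpecialLinearGroup.coe_inv, Matrix.adjugate_fin_two]
lemma one00 : (1 : SL(2, R)).1 0 0 = 1 := by simp
lemma one01 : (1 : SL(2, R)).1 0 1 = 0 := by simp
lemma one10 : (1 : SL(2, R)).1 1 0 = 0 := by simp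
lemma one11 : (1 : SL(2, R)).1 1 1 = 1 := by simp

lemma eu_mul (b b' : R) : eu b * eu b' = eu (b + b') := by
  apply sl2_ext <;> simp [mul00, mul01, mul10, mul11] <;> ring
lemma el_mul (c c' : R) : el c * el c' = el (c + c') := by
  apply sl2_ext <;> simp [mul00, mul01, mul10, mul11] <;> ring
lemma eu_zero : eu (0 : R) = 1 := by
  apply sl2_ext <;> simp
lemma el_zero : el (0 : R) = 1 := by
  apply sl2_ext <;> simp
lemma eu_inv (b : R) : (eu b)⁻¹ = eu (-b) := by
  apply inv_eq_of_mul_eq_one_right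
  rw [eu_mul, add_neg_cancel, eu_zero]
lemma el_inv (c : R) : (el c)⁻¹ = el (-c) := by
  apply inv_eq_of_mul_eq_one_right
  rw [el_mul, add_neg_cancel, el_zero]

lemma eu_injective : Function.Injective (eu : R → SL(2, R)) := by
  intro a b hab
  have := congrArg (fun g : SL(2, R) => g.1 0 1) hab
  simpa using this

lemma ed_eu_ed (a b : R) (h : a * b = 1) (z : R) :
    ed a b h * eu z * (ed a b h)⁻¹ = eu (a ^ 2 * z) := by
  apply sl2_ext <;> simp [mul00, mul01, mul10, mul11, inv00, inv01, inv10, inv11]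
  · exact h
  · ring
  · rw [mul_comm]; exact h

lemma ed_el_ed (a b : R) (h : a * b = 1) (z : R) :
    ed a b h * el z * (ed a b h)⁻¹ = el (b ^ 2 * z) := by
  apply sl2_ext <;> simp [mul00, mul01, mul10, mul11, inv00, inv01, inv10, inv11]
  · exact h
  · ring
  · rw [mul_comm]; exact h

/-- the underlying function of the involution `g ↦ D (gᵀ)⁻¹ D⁻¹`, `D = diag(1, λ)` -/
def thetaFun (lam mu : R) (h : lam * mu = 1) (g : SL(2, R)) : SL(2, R) :=
  ⟨!![g.1 1 1, -mu * g.1 1 0; -lam * g.1 0 1, g.1 0 0], by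
    rw [Matrix.det_fin_two_of]
    have hd := det_eq g
    linear_combination hd - g.1 0 1 * g.1 1 0 * h⟩

lemma thetaFun00 (lam mu : R) (h : lam * mu = 1) (g : SL(2, R)) :
    (thetaFun lam mu h g).1 0 0 = g.1 1 1 := rfl
lemma thetaFun01 (lam mu : R) (h : lam * mu = 1) (g : SL(2, R)) :
    (thetaFun lam mu h g).1 0 1 = -mu * g.1 1 0 := rfl
lemma thetaFun10 (lam mu : R) (h : lam * mu = 1) (g : SL(2, R)) :
    (thetaFun lam mu h g).1 1 0 = -lam * g.1 0 1 := rfl
lemma thetaFun11 (lam mu : R) (h : lam * mu = 1) (g : SL(2, R)) :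
    (thetaFun lam mu h g).1 1 1 = g.1 0 0 := rfl

/-- the involution `g ↦ D (gᵀ)⁻¹ D⁻¹`, `D = diag(1, λ)` -/
def theta (lam mu : R) (h : lam * mu = 1) : SL(2, R) →* SL(2, R) where
  toFun := thetaFun lam mu h
  map_one' := by
    apply sl2_ext <;> simp [thetaFun00, thetaFun01, thetaFun10, thetaFun11]
  map_mul' := by
    intro g g'
    apply sl2_ext <;>
      simp only [mul00, mul01, mul10, mul11, thetaFun00, thetaFun01, thetaFun10, thetaFun11]
    · linear_combination (-(g.1 1 0 * g'.1 0 1)) * h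
    · ring
    · ring
    · linear_combination (-(g.1 0 1 * g'.1 1 0)) * h

@[simp] lemma theta00 (lam mu : R) (h : lam * mu = 1) (g : SL(2, R)) :
    (theta lam mu h g).1 0 0 = g.1 1 1 := rfl
@[simp] lemma theta01 (lam mu : R) (h : lam * mu = 1) (g : SL(2, R)) :
    (theta lam mu h g).1 0 1 = -mu * g.1 1 0 := rfl
@[simp] lemma theta10 (lam mu : R) (h : lam * mu = 1) (g : SL(2, R)) :
    (theta lam mu h g).1 1 0 = -lam * g.1 0 1 := rfl
@[simp] lemma theta11 (lam mu : R) (h : lam * mu = 1) (g : SL(2, R)) :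
    (theta lam mu h g).1 1 1 = g.1 0 0 := rfl

lemma theta_theta (lam mu : R) (h : lam * mu = 1) (g : SL(2, R)) :
    theta lam mu h (theta lam mu h g) = g := by
  apply sl2_ext <;> simp
  · linear_combination (g.1 0 1) * h
  · linear_combination (g.1 1 0) * h

lemma theta_eu (lam mu : R) (h : lam * mu = 1) (x : R) :
    theta lam mu h (eu x) = el (-lam * x) := by
  apply sl2_ext <;> simp

lemma theta_el (lam mu : R) (h : lam * mu = 1) (y : R) :
    theta lam mu h (el y) = eu (-mu * y) := by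
  apply sl2_ext <;> simp

end basics

section HRdef
variable (k : Type*) [Field k] {R : Type*} [CommRing R] [Algebra k R]

/-- the subgroup generated by `eu c` and `el (c * lam)`, `c ∈ k` -/
def HR (lam : R) : Subgroup SL(2, R) :=
  Subgroup.closure ({g | ∃ c : k, g = eu (algebraMap k R c)} ∪
    {g | ∃ c : k, g = el (algebraMap k R c * lam)})

lemma eu_mem_HR (lam : R) (c : k) : eu (algebraMap k R c) ∈ HR k lam :=
  Subgroup.subset_closure (Or.inl ⟨c, rfl⟩)

lemma el_mem_HR (lam : R) (c : k) : el (algebraMap k R c * lam) ∈ HR k lam :=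
  Subgroup.subset_closure (Or.inr ⟨c, rfl⟩)

lemma eu_one_mem_HR (lam : R) : eu (1 : R) ∈ HR k lam := by
  have := eu_mem_HR k lam 1
  rwa [map_one] at this

lemma theta_mem (lam mu : R) (h : lam * mu = 1) {g : SL(2, R)} (hg : g ∈ HR k lam) :
    theta lam mu h g ∈ HR k lam := by
  have hle : HR k lam ≤ (HR k lam).comap (theta lam mu h) := by
    rw [HR, Subgroup.closure_le]
    rintro g (⟨c, rfl⟩ | ⟨c, rfl⟩)
    · show theta lam mu h (eu (algebraMap k R c)) ∈ Subgroup.closure _
      rw [theta_eu]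
      have e : -lam * algebraMap k R c = algebraMap k R (-c) * lam := by
        rw [map_neg]; ring
      rw [e]
      exact el_mem_HR k lam (-c)
    · show theta lam mu h (el (algebraMap k R c * lam)) ∈ Subgroup.closure _
      rw [theta_el]
      have e : -mu * (algebraMap k R c * lam) = algebraMap k R (-c) := by
        rw [map_neg]; linear_combination (-(algebraMap k R c)) * h
      rw [e]
      exact eu_mem_HR k lam (-c)
  exact hle hg

lemma theta_mem_iff (lam mu : R) (h : lam * mu = 1) {g : SL(2, R)} :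
    theta lam mu h g ∈ HR k lam ↔ g ∈ HR k lam := by
  constructor
  · intro hg
    have := theta_mem k lam mu h hg
    rwa [theta_theta] at this
  · exact theta_mem k lam mu h

lemma eu_neg_mem {lam : R} {x : R} (hx : eu x ∈ HR k lam) : eu (-x) ∈ HR k lam := by
  rw [← eu_inv]; exact inv_mem hx

lemma eu_add_mem {lam : R} {x y : R} (hx : eu x ∈ HR k lam) (hy : eu y ∈ HR k lam) :
    eu (x + y) ∈ HR k lam := by
  rw [← eu_mul]; exact mul_mem hx hy

lemma eu_sub_mem {lam : R} {x y : R} (hx : eu x ∈ HR k lam) (hy : eu y ∈ HR k lam) :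
    eu (x - y) ∈ HR k lam := by
  rw [sub_eq_add_neg]; exact eu_add_mem k hx (eu_neg_mem k hy)

lemma el_neg_mem {lam : R} {x : R} (hx : el x ∈ HR k lam) : el (-x) ∈ HR k lam := by
  rw [← el_inv]; exact inv_mem hx

lemma el_add_mem {lam : R} {x y : R} (hx : el x ∈ HR k lam) (hy : el y ∈ HR k lam) :
    el (x + y) ∈ HR k lam := by
  rw [← el_mul]; exact mul_mem hx hy

/-- `el (lam * x) ∈ HR ↔ eu x ∈ HR` -/
lemma el_mem_iff (lam mu : R) (h : lam * mu = 1) (x : R) :
    el (lam * x) ∈ HR k lam ↔ eu x ∈ HR k lam := by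
  have e : el (lam * x) = theta lam mu h (eu (-x)) := by
    rw [theta_eu]; congr 1; ring
  rw [e, theta_mem_iff]
  constructor
  · intro hx
    have := eu_neg_mem k hx
    rwa [neg_neg] at this
  · exact eu_neg_mem k

lemma el_mem_of_eu (lam mu : R) (h : lam * mu = 1) {y : R} (hy : eu (mu * y) ∈ HR k lam) :
    el y ∈ HR k lam := by
  have := (el_mem_iff k lam mu h (mu * y)).2 hy
  have e : lam * (mu * y) = y := by linear_combination y * h
  rwa [e] at this

/-- diagonal matrices over `k` normalize `HR` -/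
lemma norm_ed (lam : R) (c : k) (hc : c ≠ 0) {g : SL(2, R)} (hg : g ∈ HR k lam) :
    ed (algebraMap k R c) (algebraMap k R c⁻¹) (by rw [← map_mul, mul_inv_cancel₀ hc, map_one]) *
      g * (ed (algebraMap k R c) (algebraMap k R c⁻¹)
        (by rw [← map_mul, mul_inv_cancel₀ hc, map_one]))⁻¹ ∈ HR k lam := by
  have hle : HR k lam ≤ (HR k lam).comap (MulAut.conj (ed (algebraMap k R c) (algebraMap k R c⁻¹)
      (by rw [← map_mul, mul_inv_cancel₀ hc, map_one]))).toMonoidHom := by
    rw [HR, Subgroup.closure_le]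
    rintro g (⟨s, rfl⟩ | ⟨s, rfl⟩)
    · show (MulAut.conj _) (eu (algebraMap k R s)) ∈ Subgroup.closure _
      rw [MulAut.conj_apply, ed_eu_ed]
      have e : algebraMap k R c ^ 2 * algebraMap k R s = algebraMap k R (c ^ 2 * s) := by
        rw [map_mul, map_pow]
      rw [e]
      exact eu_mem_HR k lam _
    · show (MulAut.conj _) (el (algebraMap k R s * lam)) ∈ Subgroup.closure _
      rw [MulAut.conj_apply, ed_el_ed]
      have e : algebraMap k R c⁻¹ ^ 2 * (algebraMap k R s * lam) =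
          algebraMap k R (c⁻¹ ^ 2 * s) * lam := by
        rw [map_mul, map_pow]; ring
      rw [e]
      exact el_mem_HR k lam _
  exact hle hg

/-- `{x | eu x ∈ HR}` is stable under multiplication by `k` -/
lemma eu_smul_mem (h2 : (2 : k) ≠ 0) {lam : R} (c : k) {x : R} (hx : eu x ∈ HR k lam) :
    eu (algebraMap k R c * x) ∈ HR k lam := by
  have hsq : ∀ s : k, eu (algebraMap k R s ^ 2 * x) ∈ HR k lam := by
    intro s
    by_cases hs : s = 0
    · rw [hs, map_zero]
      have : (0 : R) ^ 2 * x = 0 := by ring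
      rw [this, eu_zero]; exact one_mem _
    · rw [← ed_eu_ed (algebraMap k R s) (algebraMap k R s⁻¹)
        (by rw [← map_mul, mul_inv_cancel₀ hs, map_one])]
      exact norm_ed k lam s hs hx
  have e : algebraMap k R c * x = algebraMap k R ((c + 1) / 2) ^ 2 * x -
      algebraMap k R ((c - 1) / 2) ^ 2 * x := by
    rw [← map_pow, ← map_pow, ← sub_mul, ← map_sub]
    congr 2
    field_simp
    ring
  rw [e]
  exact eu_sub_mem k (hsq _) (hsq _)

lemma el_smul_mem (h2 : (2 : k) ≠ 0) (lam mu : R) (h : lam * mu = 1) (c : k) {x : R}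
    (hx : el x ∈ HR k lam) : el (algebraMap k R c * x) ∈ HR k lam := by
  have h1 : eu (mu * x) ∈ HR k lam := by
    have := (el_mem_iff k lam mu h (mu * x)).1
    apply this
    have e : lam * (mu * x) = x := by linear_combination x * h
    rw [e]; exact hx
  have h2' := eu_smul_mem k h2 c h1
  apply el_mem_of_eu k lam mu h
  have e : mu * (algebraMap k R c * x) = algebraMap k R c * (mu * x) := by ring
  rw [e]; exact h2'

end HRdef

section functorial
variable (k : Type*) [Field k] {R S : Type*} [CommRing R] [Algebra k R] [CommRing S] [Algebra k S]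

lemma map_entry (φ : R →+* S) (g : SL(2, R)) (i j : Fin 2) :
    (Matrix.SpecialLinearGroup.map φ g).1 i j = φ (g.1 i j) := by
  simp [Matrix.SpecialLinearGroup.map_apply_coe]

lemma map_eu (φ : R →+* S) (x : R) : Matrix.SpecialLinearGroup.map φ (eu x) = eu (φ x) := by
  apply sl2_ext <;> rw [map_entry] <;> simp

lemma map_el (φ : R →+* S) (x : R) : Matrix.SpecialLinearGroup.map φ (el x) = el (φ x) := by
  apply sl2_ext <;> rw [map_entry] <;> simp

/-- every element of `HR k (φ lam)` lifts to `HR k lam` -/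
lemma exists_lift (φ : R →+* S) (hφ : ∀ c : k, φ (algebraMap k R c) = algebraMap k S c) (lam : R)
    {g' : SL(2, S)} (hg' : g' ∈ HR k (φ lam)) :
    ∃ g ∈ HR k lam, Matrix.SpecialLinearGroup.map φ g = g' := by
  have hle : HR k (φ lam) ≤ (HR k lam).map (Matrix.SpecialLinearGroup.map φ) := by
    rw [HR, Subgroup.closure_le]
    rintro g (⟨c, rfl⟩ | ⟨c, rfl⟩)
    · exact ⟨eu (algebraMap k R c), eu_mem_HR k lam c, by rw [map_eu, hφ]⟩
    · exact ⟨el (algebraMap k R c * lam), el_mem_HR k lam c, by rw [map_el, map_mul, hφ]⟩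
  obtain ⟨g, hg, rfl⟩ := hle hg'
  exact ⟨g, hg, rfl⟩

lemma map_mem (φ : R →+* S) (hφ : ∀ c : k, φ (algebraMap k R c) = algebraMap k S c) (lam : R)
    {g : SL(2, R)} (hg : g ∈ HR k lam) : Matrix.SpecialLinearGroup.map φ g ∈ HR k (φ lam) := by
  have hle : HR k lam ≤ (HR k (φ lam)).comap (Matrix.SpecialLinearGroup.map φ) := by
    rw [HR, Subgroup.closure_le]
    rintro g (⟨c, rfl⟩ | ⟨c, rfl⟩)
    · show Matrix.SpecialLinearGroup.map φ (eu (algebraMap k R c)) ∈ Subgroup.closure _
      rw [map_eu, hφ]; exact eu_mem_HR k _ c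
    · show Matrix.SpecialLinearGroup.map φ (el (algebraMap k R c * lam)) ∈ Subgroup.closure _
      rw [map_el, map_mul, hφ]; exact el_mem_HR k _ c
  exact hle hg

lemma map_eq_iff (I : Ideal R) (g g' : SL(2, R)) :
    Matrix.SpecialLinearGroup.map (Ideal.Quotient.mk I) g =
      Matrix.SpecialLinearGroup.map (Ideal.Quotient.mk I) g' ↔
    ∀ i j : Fin 2, g.1 i j - g'.1 i j ∈ I := by
  constructor
  · intro h i j
    have := congrArg (fun m : SL(2, R ⧸ I) => m.1 i j) h
    simp only [map_entry] at this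
    exact Ideal.Quotient.eq.1 this
  · intro h
    apply sl2_ext <;> simp only [map_entry] <;> exact Ideal.Quotient.eq.2 (h _ _)

end functorial

section field
variable (k : Type*) [Field k] {E : Type*} [Field E] [Algebra k E]

lemma eu_eq_u (x : E) : (eu x : SL(2, E)) = Cfsg.Agent.Lib.Helper98.SL2Sub.u x := rfl
lemma el_eq_l (x : E) : (el x : SL(2, E)) = Cfsg.Agent.Lib.Helper98.SL2Sub.l x := rfl

/-- `SL(2, E)` is generated by elementary matrices -/
lemma eq_top_of_eu_el (K : Subgroup SL(2, E)) (hu : ∀ z : E, eu z ∈ K) (hl : ∀ z : E, el z ∈ K) :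
    K = ⊤ :=
  Cfsg.Agent.Lib.Helper98.SL2Sub.eq_top_of_u_l K hu hl

/-- the field case of the generation theorem -/
theorem HR_eq_top_of_field [FiniteDimensional k E] (h2 : (2 : k) ≠ 0) (h3 : Nat.card k ≠ 3)
    (lam : E) (hlam : lam ≠ 0) (hgen : Algebra.adjoin k {lam} = ⊤) : HR k lam = ⊤ := by
  have hint : IsIntegral k lam := IsIntegral.of_finite k lam
  let pb0 := Algebra.adjoin.powerBasis hint
  let e : (Algebra.adjoin k ({lam} : Set E)) ≃ₐ[k] E :=
    (Subalgebra.equivOfEq _ _ hgen).trans Subalgebra.topEquiv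
  let pb := pb0.map e
  have hpb : pb.gen = lam := by
    show e pb0.gen = lam
    rfl
  have h2E : (2 : E) ≠ 0 := by
    intro h
    apply h2
    apply (algebraMap k E).injective
    rw [map_ofNat, h, map_zero]
  have htop := Cfsg.Agent.Lib.Helper83.SL2Ext.N_eq_top pb h2E h3 (by rw [hpb]; exact hlam)
  rw [hpb] at htop
  rw [eq_top_iff, ← htop, Cfsg.Agent.Lib.Helper98.SL2Sub.N, Subgroup.closure_le]
  rintro g (⟨a, ⟨c, rfl⟩, rfl⟩ | ⟨a, ⟨c, rfl⟩, rfl⟩)
  · exact eu_mem_HR k lam c
  · have := el_mem_HR k lam c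
    rw [mul_comm] at this
    exact this

end field

end Cfsg.Agent.Lib.Helper83.SL2Ring
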