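import Mathlib
import Cfsg.Agent.Lib.Helper83.SL2Ring

/-!
# The `SL(2, R)`-action attached to a hyperbolic pair of square-zero endomorphisms (helper83)

`a, b ∈ End V` with `a² = b² = 0`, `a b + b a = 1`, and a commutative algebra `R` acting on `V`
through `ι : R →ₐ[k] End V` commuting with `a` and `b`.  Then `a b, a, b, b a` are matrix units
over `R` and `PhiU : SL(2, R) →* (End V)ˣ` sends `eu x ↦ 1 + x a`, `el y ↦ 1 + y b`.
-/

set_option autoImplicit false
set_option linter.unusedVariables false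
set_option linter.unusedSectionVars false
set_option linter.unusedSimpArgs false
set_option linter.unnecessarySeqFocus false
set_option linter.unreachableTactic false
set_option linter.unusedTactic false
set_option linter.style.haveILetI false

namespace Cfsg.Agent.Lib.Helper83.QPRep

open Matrix MatrixGroups
open Cfsg.Agent.Lib.Helper83.SL2Ring

/-- hyperbolic pair data -/
structure HP (k V R : Type*) [Field k] [AddCommGroup V] [Module k V] [CommRing R]
    [Algebra k R] where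
  a : Module.End k V
  b : Module.End k V
  ι : R →ₐ[k] Module.End k V
  haa : a * a = 0
  hbb : b * b = 0
  hab : a * b + b * a = 1
  hca : ∀ r, ι r * a = a * ι r
  hcb : ∀ r, ι r * b = b * ι r

variable {k V R : Type*} [Field k] [AddCommGroup V] [Module k V] [CommRing R] [Algebra k R]
variable (D : HP k V R)

namespace HP

lemma aba : D.a * D.b * D.a = D.a := by
  have h : D.a * D.b * D.a = (D.a * D.b + D.b * D.a) * D.a - D.b * (D.a * D.a) := by
    noncomm_ring
  rw [h, D.hab, D.haa, mul_zero, sub_zero, one_mul]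

lemma bab : D.b * D.a * D.b = D.b := by
  have h : D.b * D.a * D.b = (D.a * D.b + D.b * D.a) * D.b - D.a * (D.b * D.b) := by
    noncomm_ring
  rw [h, D.hab, D.hbb, mul_zero, sub_zero, one_mul]

lemma p1 : (D.a * D.b) * (D.a * D.b) = D.a * D.b := by
  rw [← mul_assoc, D.aba]
lemma p2 : (D.a * D.b) * D.a = D.a := D.aba
lemma p3 : (D.a * D.b) * D.b = 0 := by rw [mul_assoc, D.hbb, mul_zero]
lemma p4 : (D.a * D.b) * (D.b * D.a) = 0 := by
  rw [mul_assoc, ← mul_assoc D.b, D.hbb, zero_mul, mul_zero]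
lemma p5 : D.a * (D.a * D.b) = 0 := by rw [← mul_assoc, D.haa, zero_mul]
lemma p6 : D.a * (D.b * D.a) = D.a := by rw [← mul_assoc, D.aba]
lemma p7 : D.b * (D.a * D.b) = D.b := by rw [← mul_assoc, D.bab]
lemma p8 : D.b * (D.b * D.a) = 0 := by rw [← mul_assoc, D.hbb, zero_mul]
lemma p9 : (D.b * D.a) * (D.a * D.b) = 0 := by
  rw [mul_assoc, ← mul_assoc D.a, D.haa, zero_mul, mul_zero]
lemma p10 : (D.b * D.a) * D.a = 0 := by rw [mul_assoc, D.haa, mul_zero]
lemma p11 : (D.b * D.a) * D.b = D.b := D.bab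
lemma p12 : (D.b * D.a) * (D.b * D.a) = D.b * D.a := by
  rw [← mul_assoc, D.bab]

lemma cab (r : R) : D.ι r * (D.a * D.b) = (D.a * D.b) * D.ι r := by
  rw [← mul_assoc, D.hca, mul_assoc, D.hcb, mul_assoc]
lemma cba (r : R) : D.ι r * (D.b * D.a) = (D.b * D.a) * D.ι r := by
  rw [← mul_assoc, D.hcb, mul_assoc, D.hca, mul_assoc]

lemma key (x y : R) (E E' : Module.End k V) (hE : D.ι y * E = E * D.ι y) :
    (D.ι x * E) * (D.ι y * E') = D.ι x * D.ι y * (E * E') := by
  calc (D.ι x * E) * (D.ι y * E') = D.ι x * (E * D.ι y) * E' := by simp only [mul_assoc]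
    _ = D.ι x * (D.ι y * E) * E' := by rw [hE]
    _ = D.ι x * D.ι y * (E * E') := by simp only [mul_assoc]

lemma key_ab (x y : R) (E' : Module.End k V) :
    (D.ι x * (D.a * D.b)) * (D.ι y * E') = D.ι x * D.ι y * ((D.a * D.b) * E') :=
  D.key x y _ _ (D.cab y)
lemma key_a (x y : R) (E' : Module.End k V) :
    (D.ι x * D.a) * (D.ι y * E') = D.ι x * D.ι y * (D.a * E') :=
  D.key x y _ _ (D.hca y)
lemma key_b (x y : R) (E' : Module.End k V) :
    (D.ι x * D.b) * (D.ι y * E') = D.ι x * D.ι y * (D.b * E') :=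
  D.key x y _ _ (D.hcb y)
lemma key_ba (x y : R) (E' : Module.End k V) :
    (D.ι x * (D.b * D.a)) * (D.ι y * E') = D.ι x * D.ι y * ((D.b * D.a) * E') :=
  D.key x y _ _ (D.cba y)

/-- the matrix-unit map -/
def PhiM (m : Matrix (Fin 2) (Fin 2) R) : Module.End k V :=
  D.ι (m 0 0) * (D.a * D.b) + D.ι (m 0 1) * D.a + D.ι (m 1 0) * D.b + D.ι (m 1 1) * (D.b * D.a)

lemma PhiM_one : D.PhiM 1 = 1 := by
  simp only [PhiM, Matrix.one_apply_eq, Matrix.one_apply_ne, ne_eq, zero_ne_one, one_ne_zero,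
    not_false_eq_true, map_one, map_zero, one_mul, zero_mul, add_zero]
  exact D.hab

lemma PhiM_mul (m m' : Matrix (Fin 2) (Fin 2) R) : D.PhiM (m * m') = D.PhiM m * D.PhiM m' := by
  simp only [PhiM, Matrix.mul_apply, Fin.sum_univ_two, map_add, map_mul, add_mul, mul_add,
    D.key_ab, D.key_a, D.key_b, D.key_ba, D.p1, D.p2, D.p3, D.p4, D.p5, D.p6, D.p7, D.p8, D.p9,
    D.p10, D.p11, D.p12, D.haa, D.hbb, mul_zero, add_zero, zero_add]
  abel

lemma PhiM_sub (m m' : Matrix (Fin 2) (Fin 2) R) : D.PhiM (m - m') = D.PhiM m - D.PhiM m' := by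
  simp only [PhiM, Matrix.sub_apply, map_sub, sub_mul]
  abel

/-- the monoid hom `SL(2, R) → End V` -/
def PhiH : SL(2, R) →* Module.End k V where
  toFun g := D.PhiM g.1
  map_one' := D.PhiM_one
  map_mul' g g' := by
    show D.PhiM (g * g').1 = _
    rw [Matrix.SpecialLinearGroup.coe_mul, PhiM_mul]

/-- the representation `SL(2, R) → GL(V)` -/
def PhiU : SL(2, R) →* (Module.End k V)ˣ := (D.PhiH).toHomUnits

lemma PhiU_val (g : SL(2, R)) : ((D.PhiU g : (Module.End k V)ˣ) : Module.End k V) = D.PhiM g.1 :=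
  rfl

lemma PhiU_eu (x : R) :
    ((D.PhiU (eu x) : (Module.End k V)ˣ) : Module.End k V) = 1 + D.ι x * D.a := by
  rw [PhiU_val]
  simp only [PhiM, eu00, eu01, eu10, eu11, map_one, map_zero, one_mul, zero_mul, add_zero]
  rw [← D.hab]; abel

lemma PhiU_el (y : R) :
    ((D.PhiU (el y) : (Module.End k V)ˣ) : Module.End k V) = 1 + D.ι y * D.b := by
  rw [PhiU_val]
  simp only [PhiM, el00, el01, el10, el11, map_one, map_zero, one_mul, zero_mul, add_zero]
  rw [← D.hab]; abel

lemma iota_a_zero (x : R) (h : D.ι x * D.a = 0) : D.ι x = 0 := by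
  have h1 : D.ι x = D.ι x * D.a * D.b + D.b * (D.ι x * D.a) := by
    have : D.ι x = D.ι x * (D.a * D.b + D.b * D.a) := by rw [D.hab, mul_one]
    rw [mul_add, ← mul_assoc, ← mul_assoc, D.hcb, mul_assoc D.b] at this
    exact this
  rw [h1, h, zero_mul, mul_zero, add_zero]

lemma iota_b_zero (x : R) (h : D.ι x * D.b = 0) : D.ι x = 0 := by
  have h1 : D.ι x = D.a * (D.ι x * D.b) + D.ι x * D.b * D.a := by
    have : D.ι x = D.ι x * (D.a * D.b + D.b * D.a) := by rw [D.hab, mul_one]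
    rw [mul_add, ← mul_assoc, ← mul_assoc, D.hca, mul_assoc D.a] at this
    exact this
  rw [h1, h, zero_mul, mul_zero, add_zero]

lemma cab' (r : R) (E : Module.End k V) :
    (D.a * D.b) * (D.ι r * E) = D.ι r * ((D.a * D.b) * E) := by
  rw [← mul_assoc, ← D.cab, mul_assoc]
lemma cba' (r : R) (E : Module.End k V) :
    (D.b * D.a) * (D.ι r * E) = D.ι r * ((D.b * D.a) * E) := by
  rw [← mul_assoc, ← D.cba, mul_assoc]

lemma PhiM_eq_zero (hι : Function.Injective D.ι) (m : Matrix (Fin 2) (Fin 2) R)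
    (h : D.PhiM m = 0) : m = 0 := by
  have h00 : (D.a * D.b) * D.PhiM m * (D.a * D.b) = D.ι (m 0 0) * (D.a * D.b) := by
    simp only [PhiM, mul_add, add_mul, D.cab', mul_assoc, D.p1, D.p2, D.p3, D.p4, D.p5, D.p6,
      D.p7, D.p8, D.p9, D.p10, D.p11, D.p12, D.haa, D.hbb, mul_zero, add_zero, zero_add]
  have h01 : (D.a * D.b) * D.PhiM m * (D.b * D.a) = D.ι (m 0 1) * D.a := by
    simp only [PhiM, mul_add, add_mul, D.cab', mul_assoc, D.p1, D.p2, D.p3, D.p4, D.p5, D.p6,
      D.p7, D.p8, D.p9, D.p10, D.p11, D.p12, D.haa, D.hbb, mul_zero, add_zero, zero_add]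
  have h10 : (D.b * D.a) * D.PhiM m * (D.a * D.b) = D.ι (m 1 0) * D.b := by
    simp only [PhiM, mul_add, add_mul, D.cba', mul_assoc, D.p1, D.p2, D.p3, D.p4, D.p5, D.p6,
      D.p7, D.p8, D.p9, D.p10, D.p11, D.p12, D.haa, D.hbb, mul_zero, add_zero, zero_add]
  have h11 : (D.b * D.a) * D.PhiM m * (D.b * D.a) = D.ι (m 1 1) * (D.b * D.a) := by
    simp only [PhiM, mul_add, add_mul, D.cba', mul_assoc, D.p1, D.p2, D.p3, D.p4, D.p5, D.p6,
      D.p7, D.p8, D.p9, D.p10, D.p11, D.p12, D.haa, D.hbb, mul_zero, add_zero, zero_add]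
  rw [h, mul_zero, zero_mul] at h00 h01 h10 h11
  have e00 : m 0 0 = 0 := by
    apply hι
    rw [map_zero]
    apply D.iota_a_zero
    have : D.ι (m 0 0) * D.a = D.ι (m 0 0) * (D.a * D.b) * D.a := by
      rw [mul_assoc, D.p2]
    rw [this, ← h00, zero_mul]
  have e01 : m 0 1 = 0 := by
    apply hι
    rw [map_zero]
    exact D.iota_a_zero _ h01.symm
  have e10 : m 1 0 = 0 := by
    apply hι
    rw [map_zero]
    exact D.iota_b_zero _ h10.symm
  have e11 : m 1 1 = 0 := by
    apply hι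
    rw [map_zero]
    apply D.iota_b_zero
    have : D.ι (m 1 1) * D.b = D.ι (m 1 1) * (D.b * D.a) * D.b := by
      rw [mul_assoc, D.p11]
    rw [this, ← h11, zero_mul]
  ext i j
  fin_cases i <;> fin_cases j
  · exact e00
  · exact e01
  · exact e10
  · exact e11

lemma PhiU_injective (hι : Function.Injective D.ι) : Function.Injective D.PhiU := by
  intro g g' h
  have h1 : D.PhiM g.1 = D.PhiM g'.1 := congrArg Units.val h
  have h2 : D.PhiM (g.1 - g'.1) = 0 := by rw [PhiM_sub, h1, sub_self]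
  have h3 := D.PhiM_eq_zero hι _ h2
  exact Subtype.ext (sub_eq_zero.1 h3)

lemma comm_a_apply (x : R) (v : V) : D.ι x (D.a v) = D.a (D.ι x v) :=
  LinearMap.congr_fun (D.hca x) v

lemma comm_b_apply (x : R) (v : V) : D.ι x (D.b v) = D.b (D.ι x v) :=
  LinearMap.congr_fun (D.hcb x) v

/-- an element of `R` that is injective on the range of `a` is injective -/
lemma inj_of_inj_on_range (x : R) (h : ∀ v, D.ι x (D.a v) = 0 → D.a v = 0) :
    ∀ v, D.ι x v = 0 → v = 0 := by
  intro v hv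
  have h1 : v = D.a (D.b v) + D.b (D.a v) := by
    have := LinearMap.congr_fun D.hab v
    simpa using this.symm
  have h2 : D.a (D.b v) = 0 := by
    apply h
    rw [comm_a_apply, comm_b_apply, hv, map_zero, map_zero]
  have h3 : D.a v = 0 := by
    apply h
    rw [comm_a_apply, hv, map_zero]
  rw [h1, h2, h3, map_zero, add_zero]

end HP

end Cfsg.Agent.Lib.Helper83.QPRep
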