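import Mathlib
import Cfsg.Agent.Lib.Helper83.SL2Ring

/-!
# Generation of elementary matrices over a finite-dimensional algebra generated by a unit (helper83)

`gen_all`: `k` a field of characteristic `≠ 2` with `|k| ≠ 3`, `R` a finite-dimensional commutative
`k`-algebra generated by a unit `lam`.  Then every `eu x` and `el x` (`x ∈ R`) lies in
`HR k lam = ⟨eu c, el (c * lam) | c ∈ k⟩`.

Proof: induction on `dim R` via a minimal ideal `I`; field case from `SL2Ext.N_eq_top`.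
-/

set_option autoImplicit false
set_option linter.unusedVariables false
set_option linter.unusedSectionVars false
set_option linter.unusedSimpArgs false
set_option linter.unnecessarySeqFocus false
set_option linter.unreachableTactic false
set_option linter.unusedTactic false
set_option linter.style.haveILetI false

namespace Cfsg.Agent.Lib.Helper83.SL2RingGen

open Matrix MatrixGroups
open Cfsg.Agent.Lib.Helper83.SL2Ring

section conj
variable {R : Type*} [CommRing R]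

lemma conj_eu00 (g : SL(2, R)) (s : R) :
    (g * eu s * g⁻¹).1 0 0 = 1 - g.1 0 0 * g.1 1 0 * s := by
  simp only [mul00, mul01, mul10, mul11, inv00, inv01, inv10, inv11, eu00, eu01, eu10, eu11]
  linear_combination det_eq g

lemma conj_eu01 (g : SL(2, R)) (s : R) :
    (g * eu s * g⁻¹).1 0 1 = g.1 0 0 ^ 2 * s := by
  simp only [mul00, mul01, mul10, mul11, inv00, inv01, inv10, inv11, eu00, eu01, eu10, eu11]
  ring

lemma conj_eu10 (g : SL(2, R)) (s : R) :
    (g * eu s * g⁻¹).1 1 0 = - g.1 1 0 ^ 2 * s := by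
  simp only [mul00, mul01, mul10, mul11, inv00, inv01, inv10, inv11, eu00, eu01, eu10, eu11]
  ring

lemma conj_eu11 (g : SL(2, R)) (s : R) :
    (g * eu s * g⁻¹).1 1 1 = 1 + g.1 0 0 * g.1 1 0 * s := by
  simp only [mul00, mul01, mul10, mul11, inv00, inv01, inv10, inv11, eu00, eu01, eu10, eu11]
  linear_combination det_eq g

lemma comm1_00 (g : SL(2, R)) :
    (g * eu 1 * g⁻¹ * (eu 1)⁻¹).1 0 0 = 1 - g.1 0 0 * g.1 1 0 := by
  rw [mul00, conj_eu00, conj_eu01, eu_inv, eu00, eu10]; ring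

lemma comm1_01 (g : SL(2, R)) :
    (g * eu 1 * g⁻¹ * (eu 1)⁻¹).1 0 1 = g.1 0 0 ^ 2 - 1 + g.1 0 0 * g.1 1 0 := by
  rw [mul01, conj_eu00, conj_eu01, eu_inv, eu01, eu11]; ring

lemma comm1_10 (g : SL(2, R)) :
    (g * eu 1 * g⁻¹ * (eu 1)⁻¹).1 1 0 = - g.1 1 0 ^ 2 := by
  rw [mul10, conj_eu10, conj_eu11, eu_inv, eu00, eu10]; ring

lemma comm1_11 (g : SL(2, R)) :
    (g * eu 1 * g⁻¹ * (eu 1)⁻¹).1 1 1 = 1 + g.1 0 0 * g.1 1 0 + g.1 1 0 ^ 2 := by
  rw [mul11, conj_eu10, conj_eu11, eu_inv, eu01, eu11]; ring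

lemma comm_ed00 (p q : R) (h : p * q = 1) (g : SL(2, R)) :
    (g⁻¹ * (ed p q h * g * (ed p q h)⁻¹)).1 0 0 =
      g.1 0 0 * g.1 1 1 - q ^ 2 * g.1 0 1 * g.1 1 0 := by
  simp only [mul00, mul01, mul10, mul11, inv00, inv01, inv10, inv11, ed00, ed01, ed10, ed11]
  linear_combination (g.1 0 0 * g.1 1 1) * h

lemma comm_ed01 (p q : R) (h : p * q = 1) (g : SL(2, R)) :
    (g⁻¹ * (ed p q h * g * (ed p q h)⁻¹)).1 0 1 = (p ^ 2 - 1) * g.1 0 1 * g.1 1 1 := by
  simp only [mul00, mul01, mul10, mul11, inv00, inv01, inv10, inv11, ed00, ed01, ed10, ed11]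
  linear_combination (-(g.1 0 1 * g.1 1 1)) * h

lemma comm_ed10 (p q : R) (h : p * q = 1) (g : SL(2, R)) :
    (g⁻¹ * (ed p q h * g * (ed p q h)⁻¹)).1 1 0 = (q ^ 2 - 1) * g.1 0 0 * g.1 1 0 := by
  simp only [mul00, mul01, mul10, mul11, inv00, inv01, inv10, inv11, ed00, ed01, ed10, ed11]
  linear_combination (-(g.1 0 0 * g.1 1 0)) * h

lemma comm_ed11 (p q : R) (h : p * q = 1) (g : SL(2, R)) :
    (g⁻¹ * (ed p q h * g * (ed p q h)⁻¹)).1 1 1 =
      g.1 0 0 * g.1 1 1 - p ^ 2 * g.1 0 1 * g.1 1 0 := by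
  simp only [mul00, mul01, mul10, mul11, inv00, inv01, inv10, inv11, ed00, ed01, ed10, ed11]
  linear_combination (g.1 0 0 * g.1 1 1) * h

/-- the Weyl element -/
def ew : SL(2, R) := eu 1 * el (-1) * eu 1

lemma ew00 : (ew : SL(2, R)).1 0 0 = 0 := by
  simp only [ew, mul00, mul01, mul10, mul11, eu00, eu01, eu10, eu11, el00, el01, el10, el11]; ring
lemma ew01 : (ew : SL(2, R)).1 0 1 = 1 := by
  simp only [ew, mul00, mul01, mul10, mul11, eu00, eu01, eu10, eu11, el00, el01, el10, el11]; ring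
lemma ew10 : (ew : SL(2, R)).1 1 0 = -1 := by
  simp only [ew, mul00, mul01, mul10, mul11, eu00, eu01, eu10, eu11, el00, el01, el10, el11]; ring
lemma ew11 : (ew : SL(2, R)).1 1 1 = 0 := by
  simp only [ew, mul00, mul01, mul10, mul11, eu00, eu01, eu10, eu11, el00, el01, el10, el11]; ring

lemma ew_conj01 (n : SL(2, R)) : (ew * n * ew⁻¹).1 0 1 = - n.1 1 0 := by
  simp only [mul00, mul01, mul10, mul11, inv00, inv01, inv10, inv11, ew00, ew01, ew10, ew11]; ring
lemma ew_conj10 (n : SL(2, R)) : (ew * n * ew⁻¹).1 1 0 = - n.1 0 1 := by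
  simp only [mul00, mul01, mul10, mul11, inv00, inv01, inv10, inv11, ew00, ew01, ew10, ew11]; ring

lemma ew_el (a : R) : ew * el a * ew⁻¹ = eu (-a) := by
  apply sl2_ext <;>
    simp only [mul00, mul01, mul10, mul11, inv00, inv01, inv10, inv11, ew00, ew01, ew10, ew11,
      el00, el01, el10, el11, eu00, eu01, eu10, eu11] <;> ring

lemma conjU00 (s : R) (n : SL(2, R)) :
    (eu s * n * (eu s)⁻¹).1 0 0 = n.1 0 0 + s * n.1 1 0 := by
  rw [eu_inv]
  simp only [mul00, mul01, mul10, mul11, eu00, eu01, eu10, eu11]; ring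
lemma conjU10 (s : R) (n : SL(2, R)) :
    (eu s * n * (eu s)⁻¹).1 1 0 = n.1 1 0 := by
  rw [eu_inv]
  simp only [mul00, mul01, mul10, mul11, eu00, eu01, eu10, eu11]; ring
lemma conjU11 (s : R) (n : SL(2, R)) :
    (eu s * n * (eu s)⁻¹).1 1 1 = n.1 1 1 - s * n.1 1 0 := by
  rw [eu_inv]
  simp only [mul00, mul01, mul10, mul11, eu00, eu01, eu10, eu11]; ring
lemma conjU01 (s : R) (n : SL(2, R)) :
    (eu s * n * (eu s)⁻¹).1 0 1 = n.1 0 1 + s * n.1 1 1 - s * (n.1 0 0 + s * n.1 1 0) := by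
  rw [eu_inv]
  simp only [mul00, mul01, mul10, mul11, eu00, eu01, eu10, eu11]; ring

lemma eta01 (a b : R) (h : a * b = 1) (κ : SL(2, R)) :
    (κ * (ed a b h * κ⁻¹ * (ed a b h)⁻¹)).1 0 1 = κ.1 0 0 * κ.1 0 1 * (a * b - a ^ 2) := by
  simp only [mul00, mul01, mul10, mul11, inv00, inv01, inv10, inv11, ed00, ed01, ed10, ed11]
  ring
lemma eta10 (a b : R) (h : a * b = 1) (κ : SL(2, R)) :
    (κ * (ed a b h * κ⁻¹ * (ed a b h)⁻¹)).1 1 0 = κ.1 1 0 * κ.1 1 1 * (a * b - b ^ 2) := by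
  simp only [mul00, mul01, mul10, mul11, inv00, inv01, inv10, inv11, ed00, ed01, ed10, ed11]
  ring

end conj

section NSL
variable {F : Type*} [Field F]

/-- a normal subgroup of `SL(2, F)` meeting the upper unitriangular group trivially is
diagonal (in fact central) -/
theorem nsl (h2 : (2 : F) ≠ 0) (hα : ∃ α : F, α ≠ 0 ∧ α ^ 2 ≠ 1) (N : Subgroup SL(2, F))
    (hN : N.Normal) (hu : ∀ f : F, eu f ∈ N → f = 0) :
    ∀ n ∈ N, n.1 0 1 = 0 ∧ n.1 1 0 = 0 := by
  -- Step A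
  have hA : ∀ n ∈ N, n.1 1 0 = 0 → n.1 0 1 = 0 := by
    intro n hn hc
    have hd := det_eq n
    have hT : n * eu 1 * n⁻¹ * (eu 1)⁻¹ ∈ N := by
      have h1 : eu 1 * n⁻¹ * (eu 1)⁻¹ ∈ N := hN.conj_mem _ (inv_mem hn) _
      have := mul_mem hn h1
      simpa [mul_assoc] using this
    have hT' : n * eu 1 * n⁻¹ * (eu 1)⁻¹ = eu (n.1 0 0 ^ 2 - 1) := by
      apply sl2_ext
      · rw [comm1_00, eu00, hc]; ring
      · rw [comm1_01, eu01, hc]; ring
      · rw [comm1_10, eu10, hc]; ring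
      · rw [comm1_11, eu11, hc]; ring
    rw [hT'] at hT
    have ha : n.1 0 0 ^ 2 - 1 = 0 := hu _ hT
    have hda : n.1 1 1 = n.1 0 0 := by
      linear_combination (-(n.1 1 1)) * ha + n.1 0 0 * hd + (n.1 0 0 * n.1 0 1) * hc
    have hsq : n * n = eu (2 * (n.1 0 0 * n.1 0 1)) := by
      apply sl2_ext <;> simp only [mul00, mul01, mul10, mul11, eu00, eu01, eu10, eu11]
      · rw [hc]; linear_combination ha
      · rw [hda]; ring
      · rw [hc]; ring
      · rw [hc, hda]; linear_combination ha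
    have h3 := hu _ (hsq ▸ mul_mem hn hn)
    have h4 : n.1 0 0 * n.1 0 1 = 0 := by
      rcases mul_eq_zero.1 h3 with h | h
      · exact absurd h h2
      · exact h
    linear_combination (-(n.1 0 1)) * ha + n.1 0 0 * h4
  have hA' : ∀ n ∈ N, n.1 0 1 = 0 → n.1 1 0 = 0 := by
    intro n hn hb
    have h1 : ew * n * ew⁻¹ ∈ N := hN.conj_mem _ hn _
    have h2' := hA _ h1 (by rw [ew_conj10, hb, neg_zero])
    rw [ew_conj01] at h2'
    exact neg_eq_zero.1 h2'
  obtain ⟨α, hα0, hα1⟩ := hα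
  have hκex : ∀ n ∈ N, n.1 1 0 ≠ 0 → ∃ κ ∈ N, κ.1 0 0 = 0 ∧ κ.1 1 0 = n.1 1 0 ∧
      κ.1 1 1 = n.1 0 0 + n.1 1 1 := by
    intro n hn hc
    refine ⟨eu (-(n.1 0 0) / n.1 1 0) * n * (eu (-(n.1 0 0) / n.1 1 0))⁻¹,
      hN.conj_mem _ hn _, ?_, conjU10 _ _, ?_⟩
    · rw [conjU00]; field_simp; ring
    · rw [conjU11]; field_simp; ring
  have hB1 : ∀ n ∈ N, n.1 1 0 ≠ 0 → n.1 0 0 + n.1 1 1 ≠ 0 → False := by
    intro n hn hc ht
    obtain ⟨κ, hκ, hκ00, hκ10, hκ11⟩ := hκex n hn hc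
    have hαβ : α * α⁻¹ = 1 := mul_inv_cancel₀ hα0
    have hη : κ * (ed α α⁻¹ hαβ * κ⁻¹ * (ed α α⁻¹ hαβ)⁻¹) ∈ N :=
      mul_mem hκ (hN.conj_mem _ (inv_mem hκ) _)
    have h1 := hA' _ hη (by rw [eta01, hκ00]; ring)
    rw [eta10, hκ10, hκ11, hαβ] at h1
    have h5 : (1 : F) - α⁻¹ ^ 2 ≠ 0 := by
      intro h
      apply hα1
      have h6 : α⁻¹ ^ 2 = 1 := by linear_combination -h
      have h7 : α ^ 2 * α⁻¹ ^ 2 = 1 := by
        rw [← mul_pow, hαβ, one_pow]
      rw [h6, mul_one] at h7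
      exact h7
    exact (mul_ne_zero (mul_ne_zero hc ht) h5) h1
  have hB2 : ∀ n ∈ N, n.1 1 0 = 0 := by
    intro n hn
    by_contra hc
    by_cases ht : n.1 0 0 + n.1 1 1 = 0
    · obtain ⟨κ, hκ, hκ00, hκ10, hκ11⟩ := hκex n hn hc
      rw [ht] at hκ11
      have hdκ := det_eq κ
      rw [hκ00, hκ10, hκ11] at hdκ
      -- choose s
      obtain ⟨s, hs0, hs2⟩ : ∃ s : F, s ≠ 0 ∧ s ^ 2 * n.1 1 0 ^ 2 ≠ -2 := by
        by_cases h3 : (3 : F) = 0
        · refine ⟨α / n.1 1 0, div_ne_zero hα0 hc, ?_⟩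
          have e : (α / n.1 1 0) ^ 2 * n.1 1 0 ^ 2 = α ^ 2 := by field_simp
          rw [e]
          intro h
          apply hα1
          linear_combination h - h3
        · refine ⟨1 / n.1 1 0, div_ne_zero one_ne_zero hc, ?_⟩
          have e : (1 / n.1 1 0) ^ 2 * n.1 1 0 ^ 2 = 1 := by field_simp
          rw [e]
          intro h
          apply h3
          linear_combination h
      have hκ' : κ * (eu s * κ * (eu s)⁻¹) ∈ N :=
        mul_mem hκ (hN.conj_mem _ hκ _)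
      refine hB1 _ hκ' ?_ ?_
      · rw [mul10, conjU00 s κ, conjU10 s κ, hκ00, hκ10, hκ11]
        have : n.1 1 0 * (0 + s * n.1 1 0) + 0 * n.1 1 0 = s * n.1 1 0 ^ 2 := by ring
        rw [this]
        exact mul_ne_zero hs0 (pow_ne_zero 2 hc)
      · rw [mul00, mul11, conjU00 s κ, conjU10 s κ, conjU01 s κ, conjU11 s κ, hκ00, hκ10, hκ11]
        intro h
        apply hs2
        linear_combination -h - 2 * hdκ
    · exact hB1 n hn hc ht
  intro n hn
  exact ⟨hA n hn (hB2 n hn), hB2 n hn⟩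

end NSL

section red
variable {R : Type*} [CommRing R]

/-- reduction modulo an ideal -/
abbrev red (I : Ideal R) : SL(2, R) →* SL(2, R ⧸ I) :=
  Matrix.SpecialLinearGroup.map (Ideal.Quotient.mk I)

lemma red_entry {I : Ideal R} {g g' : SL(2, R)} (h : red I g = red I g') (i j : Fin 2) :
    g.1 i j - g'.1 i j ∈ I := (map_eq_iff I g g').1 h i j

lemma red_eq {I : Ideal R} {g g' : SL(2, R)} (h00 : g.1 0 0 - g'.1 0 0 ∈ I)
    (h01 : g.1 0 1 - g'.1 0 1 ∈ I) (h10 : g.1 1 0 - g'.1 1 0 ∈ I)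
    (h11 : g.1 1 1 - g'.1 1 1 ∈ I) : red I g = red I g' := by
  apply sl2_ext <;> simp only [map_entry] <;> exact Ideal.Quotient.eq.2 ‹_›

lemma eq_of_red_eq (I J : Ideal R) (h : I ⊓ J = ⊥) {g g' : SL(2, R)}
    (h1 : red I g = red I g') (h2 : red J g = red J g') : g = g' := by
  have key : ∀ i j : Fin 2, g.1 i j = g'.1 i j := by
    intro i j
    have : g.1 i j - g'.1 i j ∈ I ⊓ J := ⟨red_entry h1 i j, red_entry h2 i j⟩
    rw [h] at this
    exact sub_eq_zero.1 this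
  exact sl2_ext g g' (key 0 0) (key 0 1) (key 1 0) (key 1 1)

end red

section steps
variable (k : Type*) [Field k] {R : Type*} [CommRing R] [Algebra k R]

lemma eq_zero_of_smul (c : k) (hc : c ≠ 0) {r : R} (h : algebraMap k R c * r = 0) : r = 0 := by
  have : algebraMap k R c⁻¹ * (algebraMap k R c * r) = r := by
    rw [← mul_assoc, ← map_mul, inv_mul_cancel₀ hc, map_one, one_mul]
  rw [← this, h, mul_zero]

/-- if lifts of upper unitriangular matrices are upper triangular with diagonal `±1`-like,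
then everything is generated -/
theorem step1core (h2 : (2 : k) ≠ 0) (ht : ∃ t : k, t ≠ 0 ∧ t ^ 2 ≠ 1) (lam mu : R)
    (hlm : lam * mu = 1) (hgen : Algebra.adjoin k ({lam} : Set R) = ⊤) (I : Ideal R)
    (hLL : ∀ g ∈ HR k lam, ∀ x : R, red I g = red I (eu x) → g.1 1 0 = 0 ∧ g.1 0 0 ^ 2 = 1)
    (hlift : ∀ x : R, ∃ g ∈ HR k lam, red I g = red I (eu x)) :
    ∀ x : R, eu x ∈ HR k lam := by
  obtain ⟨t, ht0, ht1⟩ := ht
  have hts : algebraMap k R t * algebraMap k R t⁻¹ = 1 := by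
    rw [← map_mul, mul_inv_cancel₀ ht0, map_one]
  have e1 : algebraMap k R (t ^ 2 - 1)⁻¹ * (algebraMap k R t ^ 2 - 1) = 1 := by
    have : algebraMap k R t ^ 2 - 1 = algebraMap k R (t ^ 2 - 1) := by simp
    rw [this, ← map_mul, inv_mul_cancel₀ (sub_ne_zero.2 ht1), map_one]
  -- (P4)
  have hP4 : ∀ x : R, ∃ y : R, eu y ∈ HR k lam ∧ y - x ∈ I := by
    intro x
    obtain ⟨g, hg, hgx⟩ := hlift x
    obtain ⟨hc, ha⟩ := hLL g hg x hgx
    have hd := det_eq g
    rw [hc, mul_zero, sub_zero] at hd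
    have hda : g.1 1 1 = g.1 0 0 := by
      linear_combination (-(g.1 1 1)) * ha + g.1 0 0 * hd
    have hC : g⁻¹ * (ed (algebraMap k R t) (algebraMap k R t⁻¹) hts * g *
        (ed (algebraMap k R t) (algebraMap k R t⁻¹) hts)⁻¹) ∈ HR k lam :=
      mul_mem (inv_mem hg) (norm_ed k lam t ht0 hg)
    have hC' : g⁻¹ * (ed (algebraMap k R t) (algebraMap k R t⁻¹) hts * g *
        (ed (algebraMap k R t) (algebraMap k R t⁻¹) hts)⁻¹) =
        eu ((algebraMap k R t ^ 2 - 1) * (g.1 0 0 * g.1 0 1)) := by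
      apply sl2_ext
      · rw [comm_ed00, eu00, hc]; linear_combination hd
      · rw [comm_ed01, eu01, hda]; ring
      · rw [comm_ed10, eu10, hc]; ring
      · rw [comm_ed11, eu11, hc]; linear_combination hd
    rw [hC'] at hC
    have h5 := eu_smul_mem k h2 ((t ^ 2 - 1)⁻¹) hC
    have e2 : algebraMap k R (t ^ 2 - 1)⁻¹ * ((algebraMap k R t ^ 2 - 1) * (g.1 0 0 * g.1 0 1)) =
        g.1 0 0 * g.1 0 1 := by rw [← mul_assoc, e1, one_mul]
    rw [e2] at h5
    refine ⟨g.1 0 0 * g.1 0 1, h5, ?_⟩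
    have h00 : g.1 0 0 - 1 ∈ I := red_entry hgx 0 0
    have h01 : g.1 0 1 - x ∈ I := red_entry hgx 0 1
    have : g.1 0 0 * g.1 0 1 - x = (g.1 0 0 - 1) * g.1 0 1 + (g.1 0 1 - x) := by ring
    rw [this]
    exact I.add_mem (I.mul_mem_right _ h00) h01
  -- (P5)
  have hLL' : ∀ g ∈ HR k lam, ∀ y : R, red I g = red I (el y) →
      g.1 0 1 = 0 ∧ g.1 1 1 ^ 2 = 1 := by
    intro g hg y hgy
    have h00 : g.1 0 0 - 1 ∈ I := red_entry hgy 0 0
    have h01 : g.1 0 1 ∈ I := by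
      have := red_entry hgy 0 1
      rwa [el01, sub_zero] at this
    have h10 : g.1 1 0 - y ∈ I := red_entry hgy 1 0
    have h11 : g.1 1 1 - 1 ∈ I := red_entry hgy 1 1
    have hθ := theta_mem k lam mu hlm hg
    have hred : red I (theta lam mu hlm g) = red I (eu (-mu * y)) := by
      apply red_eq
      · exact h11
      · show -mu * g.1 1 0 - (-mu * y) ∈ I
        have : -mu * g.1 1 0 - (-mu * y) = -mu * (g.1 1 0 - y) := by ring
        rw [this]; exact I.mul_mem_left _ h10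
      · show -lam * g.1 0 1 - 0 ∈ I
        rw [sub_zero]; exact I.mul_mem_left _ h01
      · exact h00
    obtain ⟨h1, h2'⟩ := hLL _ hθ _ hred
    constructor
    · have h1' : -lam * g.1 0 1 = 0 := h1
      linear_combination (-mu) * h1' + (-(g.1 0 1)) * hlm
    · exact h2'
  -- (P6)
  obtain ⟨y, hy, hyI⟩ := hP4 (-mu)
  have hzI : 1 + lam * y ∈ I := by
    have : 1 + lam * y = lam * (y - -mu) := by linear_combination (-1 : R) * hlm
    rw [this]; exact I.mul_mem_left _ hyI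
  have hlz : el (lam * y) ∈ HR k lam := (el_mem_iff k lam mu hlm y).2 hy
  generalize lam * y = z at hzI hlz
  have h1m := eu_one_mem_HR k lam
  have hgm : eu 1 * el z * eu 1 ∈ HR k lam := mul_mem (mul_mem h1m hlz) h1m
  have g00 : (eu 1 * el z * eu 1 : SL(2, R)).1 0 0 = 1 + z := by
    simp only [mul00, mul01, mul10, mul11, eu00, eu01, eu10, eu11, el00, el01, el10, el11]; ring
  have g01 : (eu 1 * el z * eu 1 : SL(2, R)).1 0 1 = 2 + z := by
    simp only [mul00, mul01, mul10, mul11, eu00, eu01, eu10, eu11, el00, el01, el10, el11]; ring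
  have g10 : (eu 1 * el z * eu 1 : SL(2, R)).1 1 0 = z := by
    simp only [mul00, mul01, mul10, mul11, eu00, eu01, eu10, eu11, el00, el01, el10, el11]; ring
  have g11 : (eu 1 * el z * eu 1 : SL(2, R)).1 1 1 = 1 + z := by
    simp only [mul00, mul01, mul10, mul11, eu00, eu01, eu10, eu11, el00, el01, el10, el11]; ring
  generalize eu 1 * el z * eu 1 = g at hgm g00 g01 g10 g11
  have hT : g * eu 1 * g⁻¹ ∈ HR k lam := mul_mem (mul_mem hgm h1m) (inv_mem hgm)
  have hTred : red I (g * eu 1 * g⁻¹) = red I (el (-1)) := by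
    apply red_eq
    · rw [conj_eu00, g00, g10, el00]
      have : 1 - (1 + z) * z * 1 - 1 = -z * (1 + z) := by ring
      rw [this]; exact I.mul_mem_left _ hzI
    · rw [conj_eu01, g00, el01]
      have : (1 + z) ^ 2 * 1 - 0 = (1 + z) * (1 + z) := by ring
      rw [this]; exact I.mul_mem_left _ hzI
    · rw [conj_eu10, g10, el10]
      have : -z ^ 2 * 1 - -1 = (1 - z) * (1 + z) := by ring
      rw [this]; exact I.mul_mem_left _ hzI
    · rw [conj_eu11, g00, g10, el11]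
      have : 1 + (1 + z) * z * 1 - 1 = z * (1 + z) := by ring
      rw [this]; exact I.mul_mem_left _ hzI
  have hi2 : (1 + z) ^ 2 = 0 := by
    have := (hLL' _ hT _ hTred).1
    rw [conj_eu01, g00] at this
    linear_combination this
  have hg4 : (g * g) * (g * g) ∈ HR k lam := mul_mem (mul_mem hgm hgm) (mul_mem hgm hgm)
  have G00 : (g * g).1 0 0 = 2 * (1 + z) ^ 2 - 1 := by rw [mul00, g00, g01, g10]; ring
  have G01 : (g * g).1 0 1 = 2 * (1 + z) ^ 2 + 2 * (1 + z) := by rw [mul01, g00, g01, g11]; ring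
  have G10 : (g * g).1 1 0 = 2 * (1 + z) ^ 2 - 2 * (1 + z) := by rw [mul10, g00, g10, g11]; ring
  have G11 : (g * g).1 1 1 = 2 * (1 + z) ^ 2 - 1 := by rw [mul11, g01, g10, g11]; ring
  have hred4 : red I ((g * g) * (g * g)) = red I (eu 0) := by
    apply red_eq
    · rw [mul00, G00, G01, G10, eu00]
      have : (2 * (1 + z) ^ 2 - 1) * (2 * (1 + z) ^ 2 - 1) +
          (2 * (1 + z) ^ 2 + 2 * (1 + z)) * (2 * (1 + z) ^ 2 - 2 * (1 + z)) - 1 =
          (8 * (1 + z) ^ 3 - 8 * (1 + z)) * (1 + z) := by ring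
      rw [this]; exact I.mul_mem_left _ hzI
    · rw [mul01, G00, G01, G11, eu01]
      have : (2 * (1 + z) ^ 2 - 1) * (2 * (1 + z) ^ 2 + 2 * (1 + z)) +
          (2 * (1 + z) ^ 2 + 2 * (1 + z)) * (2 * (1 + z) ^ 2 - 1) - 0 =
          (2 * (2 * (1 + z) ^ 2 - 1) * (2 * (1 + z) + 2)) * (1 + z) := by ring
      rw [this]; exact I.mul_mem_left _ hzI
    · rw [mul10, G00, G10, G11, eu10]
      have : (2 * (1 + z) ^ 2 - 2 * (1 + z)) * (2 * (1 + z) ^ 2 - 1) +
          (2 * (1 + z) ^ 2 - 1) * (2 * (1 + z) ^ 2 - 2 * (1 + z)) - 0 =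
          (2 * (2 * (1 + z) ^ 2 - 1) * (2 * (1 + z) - 2)) * (1 + z) := by ring
      rw [this]; exact I.mul_mem_left _ hzI
    · rw [mul11, G01, G10, G11, eu11]
      have : (2 * (1 + z) ^ 2 - 2 * (1 + z)) * (2 * (1 + z) ^ 2 + 2 * (1 + z)) +
          (2 * (1 + z) ^ 2 - 1) * (2 * (1 + z) ^ 2 - 1) - 1 =
          (8 * (1 + z) ^ 3 - 8 * (1 + z)) * (1 + z) := by ring
      rw [this]; exact I.mul_mem_left _ hzI
  have h4 := (hLL _ hg4 0 hred4).1
  rw [mul10, G00, G10, G11] at h4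
  have hi : 1 + z = 0 := by
    have h4' : algebraMap k R 4 * (1 + z) = 0 := by
      rw [map_ofNat]
      linear_combination h4 - (8 * (1 + z) ^ 2 - 8 * (1 + z) - 4) * hi2
    have h4ne : (4 : k) ≠ 0 := by
      have : (4 : k) = 2 * 2 := by norm_num
      rw [this]; exact mul_ne_zero h2 h2
    exact eq_zero_of_smul k 4 h4ne h4'
  have hz1 : z = -1 := by linear_combination hi
  rw [hz1] at hlz
  have hw : (ew : SL(2, R)) ∈ HR k lam := mul_mem (mul_mem h1m hlz) h1m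
  have hmul : ∀ x, eu x ∈ HR k lam → eu (lam * x) ∈ HR k lam := by
    intro x hx
    have h1 : el (lam * x) ∈ HR k lam := (el_mem_iff k lam mu hlm x).2 hx
    have h2' : ew * el (lam * x) * ew⁻¹ ∈ HR k lam := mul_mem (mul_mem hw h1) (inv_mem hw)
    rw [ew_el] at h2'
    have := eu_neg_mem k h2'
    rwa [neg_neg] at this
  intro x
  have hx : x ∈ Algebra.adjoin k ({lam} : Set R) := by rw [hgen]; trivial
  have key : ∀ y, eu y ∈ HR k lam → eu (x * y) ∈ HR k lam := by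
    refine Algebra.adjoin_induction
      (p := fun r _ => ∀ y, eu y ∈ HR k lam → eu (r * y) ∈ HR k lam) ?_ ?_ ?_ ?_ hx
    · intro r hr y hy
      rw [Set.mem_singleton_iff.1 hr]; exact hmul y hy
    · intro c y hy; exact eu_smul_mem k h2 c hy
    · intro r s _ _ hr hs y hy
      rw [add_mul]; exact eu_add_mem k (hr y hy) (hs y hy)
    · intro r s _ _ hr hs y hy
      rw [mul_assoc]; exact hr _ (hs y hy)
  have := key 1 h1m
  rwa [mul_one] at this

theorem LL_nil (h2 : (2 : k) ≠ 0) (lam : R) (I : Ideal R) (hI2 : ∀ i ∈ I, ∀ j ∈ I, i * j = 0)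
    (h0 : ∀ i ∈ I, eu i ∈ HR k lam → i = 0) :
    ∀ g ∈ HR k lam, ∀ x : R, red I g = red I (eu x) → g.1 1 0 = 0 ∧ g.1 0 0 ^ 2 = 1 := by
  intro g hg x hgx
  have ha : g.1 0 0 - 1 ∈ I := red_entry hgx 0 0
  have hc : g.1 1 0 ∈ I := by
    have := red_entry hgx 1 0
    rwa [eu10, sub_zero] at this
  have hcc : g.1 1 0 * g.1 1 0 = 0 := hI2 _ hc _ hc
  have hac : (g.1 0 0 - 1) * g.1 1 0 = 0 := hI2 _ ha _ hc
  have h1 := eu_one_mem_HR k lam
  have hT : g * eu 1 * g⁻¹ * (eu 1)⁻¹ ∈ HR k lam :=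
    mul_mem (mul_mem (mul_mem hg h1) (inv_mem hg)) (inv_mem h1)
  have T00 := comm1_00 g
  have T01 := comm1_01 g
  have T10 := comm1_10 g
  have T11 := comm1_11 g
  generalize g * eu 1 * g⁻¹ * (eu 1)⁻¹ = T at hT T00 T01 T10 T11
  have hT2 : T * eu 1 * T⁻¹ * (eu 1)⁻¹ ∈ HR k lam :=
    mul_mem (mul_mem (mul_mem hT h1) (inv_mem hT)) (inv_mem h1)
  have hT2' : T * eu 1 * T⁻¹ * (eu 1)⁻¹ = eu (-2 * g.1 1 0) := by
    apply sl2_ext
    · rw [comm1_00 T, T00, T10, eu00]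
      linear_combination (1 - g.1 0 0 * g.1 1 0) * hcc
    · rw [comm1_01 T, T00, T10, eu01]
      linear_combination (-2 : R) * hac + (g.1 0 0 ^ 2 - 1 + g.1 0 0 * g.1 1 0) * hcc
    · rw [comm1_10 T, T10, eu10]
      linear_combination (-(g.1 1 0 ^ 2)) * hcc
    · rw [comm1_11 T, T00, T10, eu11]
      linear_combination (-(1 - g.1 0 0 * g.1 1 0) + g.1 1 0 ^ 2) * hcc
  rw [hT2'] at hT2
  have hc0 : g.1 1 0 = 0 := by
    have h5 := h0 _ (I.mul_mem_left _ hc) hT2
    have h6 : algebraMap k R 2 * g.1 1 0 = 0 := by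
      rw [map_ofNat]; linear_combination (-1 : R) * h5
    exact eq_zero_of_smul k 2 h2 h6
  have hT' : T = eu (g.1 0 0 ^ 2 - 1) := by
    apply sl2_ext
    · rw [T00, eu00, hc0]; ring
    · rw [T01, eu01, hc0]; ring
    · rw [T10, eu10, hc0]; ring
    · rw [T11, eu11, hc0]; ring
  rw [hT'] at hT
  have ha2 : g.1 0 0 ^ 2 - 1 ∈ I := by
    have : g.1 0 0 ^ 2 - 1 = (g.1 0 0 - 1) * (g.1 0 0 + 1) := by ring
    rw [this]; exact I.mul_mem_right _ ha
  exact ⟨hc0, by linear_combination h0 _ ha2 hT⟩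

theorem LL_idem (h2 : (2 : k) ≠ 0) (ht : ∃ t : k, t ≠ 0 ∧ t ^ 2 ≠ 1) (lam : R) (I m : Ideal R)
    [hm : m.IsMaximal] (hIm : I ⊓ m = ⊥)
    (hsurj : ∀ g' : SL(2, R ⧸ m), ∃ g ∈ HR k lam, red m g = g')
    (h0 : ∀ i ∈ I, eu i ∈ HR k lam → i = 0) :
    ∀ g ∈ HR k lam, ∀ x : R, red I g = red I (eu x) → g.1 1 0 = 0 ∧ g.1 0 0 ^ 2 = 1 := by
  letI : Field (R ⧸ m) := Ideal.Quotient.field m
  have hbot : ∀ r : R, r ∈ I → r ∈ m → r = 0 := by
    intro r h1 h2'
    have : r ∈ I ⊓ m := ⟨h1, h2'⟩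
    rw [hIm] at this; exact this
  have hunit : ∀ c : k, c ≠ 0 → Ideal.Quotient.mk m (algebraMap k R c) ≠ 0 := by
    intro c hc h
    have h1 : algebraMap k R c ∈ m := Ideal.Quotient.eq_zero_iff_mem.1 h
    have h2' : (1 : R) ∈ m := by
      have := m.mul_mem_left (algebraMap k R c⁻¹) h1
      rwa [← map_mul, inv_mul_cancel₀ hc, map_one] at this
    exact hm.ne_top ((Ideal.eq_top_iff_one m).2 h2')
  let N : Subgroup SL(2, R ⧸ m) := (HR k lam ⊓ (red I).ker).map (red m)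
  have hN : N.Normal := by
    constructor
    intro n' hn' g'
    obtain ⟨n, hn, rfl⟩ := hn'
    obtain ⟨h, hh, rfl⟩ := hsurj g'
    have hn1 : n ∈ HR k lam := hn.1
    have hn2 : n ∈ (red I).ker := hn.2
    have hmem1 : h * n * h⁻¹ ∈ HR k lam := mul_mem (mul_mem hh hn1) (inv_mem hh)
    have hmem2 : h * n * h⁻¹ ∈ (red I).ker :=
      (MonoidHom.normal_ker (red I)).conj_mem _ hn2 _
    have hmem : h * n * h⁻¹ ∈ HR k lam ⊓ (red I).ker := Subgroup.mem_inf.2 ⟨hmem1, hmem2⟩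
    exact ⟨h * n * h⁻¹, hmem, by simp⟩
  have hu : ∀ f : R ⧸ m, eu f ∈ N → f = 0 := by
    intro f hf
    obtain ⟨n, ⟨hn1, hn2⟩, hnf⟩ := hf
    have hker : red I n = red I 1 := by rw [MonoidHom.mem_ker.1 hn2, map_one]
    have hent : ∀ i j : Fin 2, Ideal.Quotient.mk m (n.1 i j) = (eu f : SL(2, R ⧸ m)).1 i j := by
      intro i j
      rw [← hnf, map_entry]
    have e00 : n.1 0 0 = 1 := by
      have h1 : n.1 0 0 - 1 ∈ I := by
        have := red_entry hker 0 0
        rwa [one00] at this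
      have h2' : n.1 0 0 - 1 ∈ m := by
        apply Ideal.Quotient.eq.1
        rw [hent 0 0, eu00, map_one]
      exact sub_eq_zero.1 (hbot _ h1 h2')
    have e11 : n.1 1 1 = 1 := by
      have h1 : n.1 1 1 - 1 ∈ I := by
        have := red_entry hker 1 1
        rwa [one11] at this
      have h2' : n.1 1 1 - 1 ∈ m := by
        apply Ideal.Quotient.eq.1
        rw [hent 1 1, eu11, map_one]
      exact sub_eq_zero.1 (hbot _ h1 h2')
    have e10 : n.1 1 0 = 0 := by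
      have h1 : n.1 1 0 ∈ I := by
        have := red_entry hker 1 0
        rwa [one10, sub_zero] at this
      have h2' : n.1 1 0 ∈ m := by
        apply Ideal.Quotient.eq_zero_iff_mem.1
        rw [hent 1 0, eu10]
      exact hbot _ h1 h2'
    have h01 : n.1 0 1 ∈ I := by
      have := red_entry hker 0 1
      rwa [one01, sub_zero] at this
    have hn : n = eu (n.1 0 1) := by
      apply sl2_ext
      · rw [e00, eu00]
      · rw [eu01]
      · rw [e10, eu10]
      · rw [e11, eu11]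
    rw [hn] at hn1
    have := h0 _ h01 hn1
    rw [← eu01 f, ← hent 0 1, this, map_zero]
  have hαF : ∃ α : R ⧸ m, α ≠ 0 ∧ α ^ 2 ≠ 1 := by
    obtain ⟨t, ht0, ht1⟩ := ht
    refine ⟨Ideal.Quotient.mk m (algebraMap k R t), hunit t ht0, ?_⟩
    intro h
    have h5 := hunit (t ^ 2 - 1) (sub_ne_zero.2 ht1)
    apply h5
    rw [map_sub, map_sub, map_pow, map_pow, h, map_one, map_one, sub_self]
  have h2F : (2 : R ⧸ m) ≠ 0 := by
    have := hunit 2 h2
    rwa [map_ofNat, map_ofNat] at this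
  have hnsl := nsl h2F hαF N hN hu
  intro g hg x hgx
  have ha : g.1 0 0 - 1 ∈ I := red_entry hgx 0 0
  have hc : g.1 1 0 ∈ I := by
    have := red_entry hgx 1 0
    rwa [eu10, sub_zero] at this
  have h1 := eu_one_mem_HR k lam
  have hT : g * eu 1 * g⁻¹ * (eu 1)⁻¹ ∈ HR k lam :=
    mul_mem (mul_mem (mul_mem hg h1) (inv_mem hg)) (inv_mem h1)
  have hTker : g * eu 1 * g⁻¹ * (eu 1)⁻¹ ∈ (red I).ker := by
    rw [MonoidHom.mem_ker, map_mul, map_mul, map_mul, map_inv, map_inv, hgx]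
    rw [← map_inv, ← map_inv, ← map_mul, ← map_mul, ← map_mul]
    have : eu x * eu 1 * (eu x)⁻¹ * (eu 1)⁻¹ = (1 : SL(2, R)) := by
      rw [eu_inv, eu_inv, eu_mul, eu_mul, eu_mul]
      have : x + 1 + -x + -1 = (0 : R) := by ring
      rw [this, eu_zero]
    rw [this, map_one]
  obtain ⟨hn01, hn10⟩ := hnsl _ ⟨_, ⟨hT, hTker⟩, rfl⟩
  rw [map_entry, comm1_01] at hn01
  rw [map_entry, comm1_10] at hn10
  have hcm : g.1 1 0 ∈ m := by
    have h5 : -g.1 1 0 ^ 2 ∈ m := Ideal.Quotient.eq_zero_iff_mem.1 hn10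
    have h6 : g.1 1 0 ^ 2 ∈ m := by
      have := m.neg_mem h5
      rwa [neg_neg] at this
    exact hm.isPrime.mem_of_pow_mem 2 h6
  have hc0 : g.1 1 0 = 0 := hbot _ hc hcm
  have ham : g.1 0 0 ^ 2 - 1 ∈ m := by
    have h5 := Ideal.Quotient.eq_zero_iff_mem.1 hn01
    rw [hc0, mul_zero, add_zero] at h5
    exact h5
  have haI : g.1 0 0 ^ 2 - 1 ∈ I := by
    have : g.1 0 0 ^ 2 - 1 = (g.1 0 0 - 1) * (g.1 0 0 + 1) := by ring
    rw [this]; exact I.mul_mem_right _ ha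
  exact ⟨hc0, sub_eq_zero.1 (hbot _ haI ham)⟩

theorem step2 (h2 : (2 : k) ≠ 0) (lam : R) (I m : Ideal R)
    (hann : ∀ i ∈ I, ∀ r ∈ m, r * i = 0)
    (hspan : ∀ i₀ ∈ I, i₀ ≠ 0 → ∀ j ∈ I, ∃ r, j = r * i₀)
    (htorus : ∀ r : R, r ∉ m → ∃ g ∈ HR k lam, g.1 1 0 ∈ m ∧ g.1 0 0 - r ∈ m)
    (i₀ : R) (hi₀ : i₀ ∈ I) (hne : i₀ ≠ 0) (hmem : eu i₀ ∈ HR k lam) :
    ∀ i ∈ I, eu i ∈ HR k lam := by
  have hsq : ∀ r : R, eu (r ^ 2 * i₀) ∈ HR k lam := by
    intro r
    by_cases hr : r ∈ m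
    · have : r ^ 2 * i₀ = 0 := by rw [pow_two, mul_assoc, hann i₀ hi₀ r hr, mul_zero]
      rw [this, eu_zero]; exact one_mem _
    · obtain ⟨g, hg, hc, ha⟩ := htorus r hr
      have hci : g.1 1 0 * i₀ = 0 := hann i₀ hi₀ _ hc
      have hai : (g.1 0 0 - r) * i₀ = 0 := hann i₀ hi₀ _ ha
      have hconj : g * eu i₀ * g⁻¹ = eu (r ^ 2 * i₀) := by
        apply sl2_ext
        · rw [conj_eu00, eu00]; linear_combination (-(g.1 0 0)) * hci
        · rw [conj_eu01, eu01]; linear_combination (g.1 0 0 + r) * hai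
        · rw [conj_eu10, eu10]; linear_combination (-(g.1 1 0)) * hci
        · rw [conj_eu11, eu11]; linear_combination (g.1 0 0) * hci
      rw [← hconj]
      exact mul_mem (mul_mem hg hmem) (inv_mem hg)
  intro i hi
  obtain ⟨r, rfl⟩ := hspan i₀ hi₀ hne i hi
  have h4 : algebraMap k R 2⁻¹ * 2 = 1 := by
    rw [← map_ofNat (algebraMap k R) 2, ← map_mul, inv_mul_cancel₀ h2, map_one]
  have e : r * i₀ = (algebraMap k R 2⁻¹ * (r + 1)) ^ 2 * i₀ -
      (algebraMap k R 2⁻¹ * (r - 1)) ^ 2 * i₀ := by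
    linear_combination (-(r * i₀) * (1 + 2 * algebraMap k R 2⁻¹)) * h4
  rw [e]
  exact eu_sub_mem k (hsq _) (hsq _)

theorem step3_nil (h2 : (2 : k) ≠ 0) (ht : ∃ t : k, t ≠ 0 ∧ t ^ 2 ≠ 1) (lam mu : R)
    (hlm : lam * mu = 1) (I : Ideal R) (hI2 : ∀ i ∈ I, ∀ j ∈ I, i * j = 0)
    (hI : ∀ i ∈ I, eu i ∈ HR k lam)
    (hlift : ∀ x : R, ∃ g ∈ HR k lam, red I g = red I (eu x)) :
    ∀ x : R, eu x ∈ HR k lam := by
  obtain ⟨t, ht0, ht1⟩ := ht
  have hts : algebraMap k R t * algebraMap k R t⁻¹ = 1 := by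
    rw [← map_mul, mul_inv_cancel₀ ht0, map_one]
  have e1 : algebraMap k R (t ^ 2 - 1)⁻¹ * (algebraMap k R t ^ 2 - 1) = 1 := by
    have : algebraMap k R t ^ 2 - 1 = algebraMap k R (t ^ 2 - 1) := by simp
    rw [this, ← map_mul, inv_mul_cancel₀ (sub_ne_zero.2 ht1), map_one]
  intro x
  obtain ⟨g, hg, hgx⟩ := hlift x
  have ha : g.1 0 0 - 1 ∈ I := red_entry hgx 0 0
  have hb : g.1 0 1 - x ∈ I := red_entry hgx 0 1
  have hc : g.1 1 0 ∈ I := by
    have := red_entry hgx 1 0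
    rwa [eu10, sub_zero] at this
  have hd : g.1 1 1 - 1 ∈ I := red_entry hgx 1 1
  have hlc : el (-(g.1 1 0)) ∈ HR k lam :=
    el_mem_of_eu k lam mu hlm (hI _ (I.mul_mem_left _ (I.neg_mem hc)))
  have hg₁m : el (-(g.1 1 0)) * g ∈ HR k lam := mul_mem hlc hg
  have e00 : (el (-(g.1 1 0)) * g).1 0 0 = g.1 0 0 := by rw [mul00, el00, el01]; ring
  have e01 : (el (-(g.1 1 0)) * g).1 0 1 = g.1 0 1 := by rw [mul01, el00, el01]; ring
  have e10 : (el (-(g.1 1 0)) * g).1 1 0 = 0 := by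
    rw [mul10, el10, el11]
    have := hI2 _ hc _ ha
    linear_combination (-1 : R) * this
  have e11 : (el (-(g.1 1 0)) * g).1 1 1 = g.1 1 1 - g.1 1 0 * g.1 0 1 := by
    rw [mul11, el10, el11]; ring
  have hdet := det_eq (el (-(g.1 1 0)) * g)
  generalize el (-(g.1 1 0)) * g = g₁ at hg₁m e00 e01 e10 e11 hdet
  rw [e00, e10, mul_zero, sub_zero] at hdet
  have hC : g₁⁻¹ * (ed (algebraMap k R t) (algebraMap k R t⁻¹) hts * g₁ *
      (ed (algebraMap k R t) (algebraMap k R t⁻¹) hts)⁻¹) ∈ HR k lam :=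
    mul_mem (inv_mem hg₁m) (norm_ed k lam t ht0 hg₁m)
  have hC' : g₁⁻¹ * (ed (algebraMap k R t) (algebraMap k R t⁻¹) hts * g₁ *
      (ed (algebraMap k R t) (algebraMap k R t⁻¹) hts)⁻¹) =
      eu ((algebraMap k R t ^ 2 - 1) * (g.1 0 1 * g₁.1 1 1)) := by
    apply sl2_ext
    · rw [comm_ed00, eu00, e10, e00]; linear_combination hdet
    · rw [comm_ed01, eu01, e01]; ring
    · rw [comm_ed10, eu10, e10]; ring
    · rw [comm_ed11, eu11, e10, e00]; linear_combination hdet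
  rw [hC'] at hC
  have h5 := eu_smul_mem k h2 ((t ^ 2 - 1)⁻¹) hC
  have e2 : algebraMap k R (t ^ 2 - 1)⁻¹ * ((algebraMap k R t ^ 2 - 1) * (g.1 0 1 * g₁.1 1 1)) =
      g.1 0 1 * g₁.1 1 1 := by rw [← mul_assoc, e1, one_mul]
  rw [e2] at h5
  have h6 : g.1 0 1 * g₁.1 1 1 - x ∈ I := by
    rw [e11]
    have : g.1 0 1 * (g.1 1 1 - g.1 1 0 * g.1 0 1) - x =
        g.1 0 1 * (g.1 1 1 - 1) - g.1 0 1 * g.1 0 1 * g.1 1 0 + (g.1 0 1 - x) := by ring
    rw [this]
    exact I.add_mem (I.sub_mem (I.mul_mem_left _ hd) (I.mul_mem_left _ hc)) hb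
  have := eu_sub_mem k h5 (hI _ h6)
  rwa [sub_sub_cancel] at this

theorem step3_idem (lam mu : R) (hlm : lam * mu = 1) (I m : Ideal R) [hm : m.IsMaximal]
    (hIm : I ⊓ m = ⊥) (hsup : I ⊔ m = ⊤) (hI : ∀ i ∈ I, eu i ∈ HR k lam)
    (hlift : ∀ x : R, ∃ g ∈ HR k lam, red I g = red I (eu x)) :
    ∀ x : R, eu x ∈ HR k lam := by
  letI : Field (R ⧸ m) := Ideal.Quotient.field m
  let N : Subgroup SL(2, R ⧸ m) := (HR k lam ⊓ (red I).ker).map (red m)
  have hrep : ∀ f : R ⧸ m, ∃ i ∈ I, Ideal.Quotient.mk m i = f := by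
    intro f
    obtain ⟨r, rfl⟩ := Ideal.Quotient.mk_surjective f
    have : r ∈ I ⊔ m := by rw [hsup]; trivial
    obtain ⟨i, hi, j, hj, rfl⟩ := Submodule.mem_sup.1 this
    refine ⟨i, hi, ?_⟩
    rw [map_add, Ideal.Quotient.eq_zero_iff_mem.2 hj, add_zero]
  have hkerI : ∀ i ∈ I, eu i ∈ (red I).ker ∧ el i ∈ (red I).ker := by
    intro i hi
    have h0 : Ideal.Quotient.mk I i = 0 := Ideal.Quotient.eq_zero_iff_mem.2 hi
    constructor
    · rw [MonoidHom.mem_ker, map_eu, h0, eu_zero]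
    · rw [MonoidHom.mem_ker, map_el, h0, el_zero]
  have hNtop : N = ⊤ := by
    apply eq_top_of_eu_el
    · intro f
      obtain ⟨i, hi, rfl⟩ := hrep f
      exact ⟨eu i, ⟨hI i hi, (hkerI i hi).1⟩, map_eu _ _⟩
    · intro f
      obtain ⟨i, hi, rfl⟩ := hrep f
      exact ⟨el i, ⟨el_mem_of_eu k lam mu hlm (hI _ (I.mul_mem_left _ hi)), (hkerI i hi).2⟩,
        map_el _ _⟩
  intro x
  obtain ⟨g, hg, hgx⟩ := hlift x
  have hmem : (red m g)⁻¹ * red m (eu x) ∈ N := by rw [hNtop]; trivial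
  obtain ⟨n, ⟨hn1, hn2⟩, hn⟩ := hmem
  have hgn : g * n = eu x := by
    apply eq_of_red_eq I m hIm
    · rw [map_mul, MonoidHom.mem_ker.1 hn2, mul_one, hgx]
    · rw [map_mul, hn, mul_inv_cancel_left]
  rw [← hgn]; exact mul_mem hg hn1

end steps

section main

universe u v

lemma exists_t {k : Type v} [Field k] (h2 : (2 : k) ≠ 0) (h3 : Nat.card k ≠ 3) :
    ∃ t : k, t ≠ 0 ∧ t ^ 2 ≠ 1 := by
  classical
  by_contra hno
  push Not at hno
  have hall : ∀ c : k, c = 0 ∨ c = 1 ∨ c = -1 := by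
    intro c
    by_cases hc : c = 0
    · exact Or.inl hc
    · right
      have h' := hno c hc
      have h'' : (c - 1) * (c + 1) = 0 := by linear_combination h'
      rcases mul_eq_zero.1 h'' with h | h
      · left; linear_combination h
      · right; linear_combination h
  have hfin : Finite k := by
    have : (Set.univ : Set k) ⊆ {0, 1, -1} := by
      intro c _
      simpa using hall c
    exact Set.finite_univ_iff.1 ((Set.toFinite _).subset this)
  apply h3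
  haveI : Fintype k := Fintype.ofFinite k
  rw [Nat.card_eq_fintype_card, ← Finset.card_univ]
  have huniv : (Finset.univ : Finset k) = {0, 1, -1} := by
    ext c
    simp only [Finset.mem_univ, Finset.mem_insert, Finset.mem_singleton, true_iff]
    exact hall c
  rw [huniv]
  refine Finset.card_eq_three.2 ⟨0, 1, -1, zero_ne_one, ?_, ?_, rfl⟩
  · intro h
    have : (1 : k) = 0 := by linear_combination h
    exact one_ne_zero this
  · intro h
    apply h2
    linear_combination h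

variable {k : Type v} [Field k]

lemma HR_eq_top_of_isField {R : Type u} [CommRing R] [Algebra k R] [Module.Finite k R]
    (hF : IsField R) (h2 : (2 : k) ≠ 0) (h3 : Nat.card k ≠ 3) (lam : R) (hlam : lam ≠ 0)
    (hgen : Algebra.adjoin k ({lam} : Set R) = ⊤) : HR k lam = ⊤ := by
  letI := hF.toField
  exact HR_eq_top_of_field k h2 h3 lam hlam hgen

lemma adjoin_mk_eq_top {R : Type u} [CommRing R] [Algebra k R] (lam : R)
    (hgen : Algebra.adjoin k ({lam} : Set R) = ⊤) (K : Ideal R) :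
    Algebra.adjoin k ({Ideal.Quotient.mk K lam} : Set (R ⧸ K)) = ⊤ := by
  have h1 : (Algebra.adjoin k ({lam} : Set R)).map (Ideal.Quotient.mkₐ k K) =
      Algebra.adjoin k ((Ideal.Quotient.mkₐ k K) '' {lam}) := AlgHom.map_adjoin _ _
  rw [hgen, Set.image_singleton, Algebra.map_top] at h1
  rw [← show (Ideal.Quotient.mkₐ k K) lam = Ideal.Quotient.mk K lam from rfl, ← h1]
  exact (AlgHom.range_eq_top _).2 (Ideal.Quotient.mkₐ_surjective k K)

lemma surj_of_maximal {R : Type u} [CommRing R] [Algebra k R] [Module.Finite k R]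
    (h2 : (2 : k) ≠ 0) (h3 : Nat.card k ≠ 3) (lam mu : R) (hlm : lam * mu = 1)
    (hgen : Algebra.adjoin k ({lam} : Set R) = ⊤) (m : Ideal R) [hm : m.IsMaximal] :
    ∀ g' : SL(2, R ⧸ m), ∃ g ∈ HR k lam, red m g = g' := by
  letI : Field (R ⧸ m) := Ideal.Quotient.field m
  have hFtop : HR k (Ideal.Quotient.mk m lam) = ⊤ := by
    apply HR_eq_top_of_field k h2 h3 _ _ (adjoin_mk_eq_top lam hgen m)
    intro h
    have h5 : Ideal.Quotient.mk m lam * Ideal.Quotient.mk m mu = 1 := by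
      rw [← map_mul, hlm, map_one]
    rw [h, zero_mul] at h5
    exact zero_ne_one h5
  intro g'
  exact exists_lift k (Ideal.Quotient.mk m) (fun c => rfl) lam (by rw [hFtop]; trivial)

lemma torus_of_surj {R : Type u} [CommRing R] [Algebra k R] (lam : R) (m : Ideal R)
    [hm : m.IsMaximal] (hsurj : ∀ g' : SL(2, R ⧸ m), ∃ g ∈ HR k lam, red m g = g') :
    ∀ r : R, r ∉ m → ∃ g ∈ HR k lam, g.1 1 0 ∈ m ∧ g.1 0 0 - r ∈ m := by
  letI : Field (R ⧸ m) := Ideal.Quotient.field m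
  intro r hr
  have hr0 : Ideal.Quotient.mk m r ≠ 0 := fun h => hr (Ideal.Quotient.eq_zero_iff_mem.1 h)
  obtain ⟨g, hg, hgd⟩ := hsurj (ed (Ideal.Quotient.mk m r) (Ideal.Quotient.mk m r)⁻¹
    (mul_inv_cancel₀ hr0))
  refine ⟨g, hg, ?_, ?_⟩
  · have := congrArg (fun q : SL(2, R ⧸ m) => q.1 1 0) hgd
    simp only [map_entry, ed10] at this
    exact Ideal.Quotient.eq_zero_iff_mem.1 this
  · have := congrArg (fun q : SL(2, R ⧸ m) => q.1 0 0) hgd
    simp only [map_entry, ed00] at this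
    exact Ideal.Quotient.eq.1 this

theorem gen_aux (h2 : (2 : k) ≠ 0) (h3 : Nat.card k ≠ 3) :
    ∀ (n : ℕ) (R : Type u) [CommRing R] [Algebra k R] [Module.Finite k R] (lam mu : R),
      lam * mu = 1 → Algebra.adjoin k ({lam} : Set R) = ⊤ → Module.finrank k R = n →
      ∀ x : R, eu x ∈ HR k lam := by
  have ht := exists_t h2 h3
  intro n
  induction n using Nat.strong_induction_on with
  | _ n ih =>
  intro R _ _ _ lam mu hlm hgen hn x
  by_cases hsub : Subsingleton R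
  · have : x = algebraMap k R 0 := Subsingleton.elim _ _
    rw [this]; exact eu_mem_HR k lam 0
  haveI : Nontrivial R := not_subsingleton_iff_nontrivial.1 hsub
  have hlam0 : lam ≠ 0 := by
    intro h; rw [h, zero_mul] at hlm; exact zero_ne_one hlm
  by_cases hF : IsField R
  · rw [HR_eq_top_of_isField hF h2 h3 lam hlam0 hgen]; trivial
  · haveI : IsArtinianRing R := IsArtinianRing.of_finite k R
    obtain ⟨J, hJ0, hJ1⟩ := Ring.not_isField_iff_exists_ideal_bot_lt_and_lt_top.1 hF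
    obtain ⟨I, hIatom, hIJ⟩ := (eq_bot_or_exists_atom_le J).resolve_left hJ0.ne'
    have hIne : I ≠ ⊥ := hIatom.1
    obtain ⟨i₁, hi₁, hi₁0⟩ : ∃ i ∈ I, i ≠ 0 := by
      by_contra h
      push Not at h
      exact hIne ((Submodule.eq_bot_iff I).2 h)
    have hspan : ∀ i₀ ∈ I, i₀ ≠ 0 → ∀ j ∈ I, ∃ r, j = r * i₀ := by
      intro i₀ hi₀ hne j hj
      have hle : Ideal.span {i₀} ≤ I := (Ideal.span_singleton_le_iff_mem I).2 hi₀
      have hne' : Ideal.span {i₀} ≠ ⊥ := by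
        intro h; exact hne (Ideal.span_singleton_eq_bot.1 h)
      have heq : Ideal.span {i₀} = I := by
        by_contra hneq
        exact hne' (hIatom.2 _ (lt_of_le_of_ne hle hneq))
      rw [← heq] at hj
      obtain ⟨r, hr⟩ := Ideal.mem_span_singleton'.1 hj
      exact ⟨r, hr.symm⟩
    -- annihilator
    let m : Ideal R := Submodule.annihilator I
    have hmdef : ∀ r, r ∈ m ↔ ∀ i ∈ I, r * i = 0 := by
      intro r
      show r ∈ Submodule.annihilator I ↔ _
      rw [Submodule.mem_annihilator]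
      simp only [smul_eq_mul]
    have hann : ∀ i ∈ I, ∀ r ∈ m, r * i = 0 := fun i hi r hr => (hmdef r).1 hr i hi
    have hmem_m : ∀ r, r * i₁ = 0 → r ∈ m := by
      intro r hr
      rw [hmdef]
      intro i hi
      obtain ⟨s, rfl⟩ := hspan i₁ hi₁ hi₁0 i hi
      rw [← mul_assoc, mul_comm r s, mul_assoc, hr, mul_zero]
    have hmax : m.IsMaximal := by
      rw [Ideal.isMaximal_iff]
      refine ⟨?_, ?_⟩
      · intro h1
        have := hann i₁ hi₁ 1 h1
        rw [one_mul] at this; exact hi₁0 this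
      · intro J' r hle hr hrJ
        have hri : r * i₁ ≠ 0 := fun h => hr (hmem_m r h)
        obtain ⟨s, hs⟩ := hspan (r * i₁) (I.mul_mem_left _ hi₁) hri i₁ hi₁
        have h5 : (1 - s * r) * i₁ = 0 := by linear_combination hs
        have h6 : 1 - s * r ∈ J' := hle (hmem_m _ h5)
        have h7 : s * r ∈ J' := J'.mul_mem_left _ hrJ
        have := J'.add_mem h6 h7
        rwa [sub_add_cancel] at this
    haveI := hmax
    -- the quotient R ⧸ I
    have hfinQ : Module.finrank k (R ⧸ I) < n := by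
      have hsurjl : Function.Surjective (Ideal.Quotient.mkₐ k I).toLinearMap :=
        Ideal.Quotient.mk_surjective
      have h1 := LinearMap.finrank_range_add_finrank_ker (Ideal.Quotient.mkₐ k I).toLinearMap
      rw [LinearMap.range_eq_top.2 hsurjl, finrank_top, hn] at h1
      have h2' : 0 < Module.finrank k (LinearMap.ker (Ideal.Quotient.mkₐ k I).toLinearMap) := by
        rw [Module.finrank_pos_iff_exists_ne_zero]
        refine ⟨⟨i₁, ?_⟩, ?_⟩
        · show (Ideal.Quotient.mk I) i₁ = 0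
          exact Ideal.Quotient.eq_zero_iff_mem.2 hi₁
        · intro h; exact hi₁0 (congrArg Subtype.val h)
      omega
    have ihQ := ih _ hfinQ (R ⧸ I) (Ideal.Quotient.mk I lam) (Ideal.Quotient.mk I mu)
      (by rw [← map_mul, hlm, map_one]) (adjoin_mk_eq_top lam hgen I) rfl
    have hlift : ∀ x : R, ∃ g ∈ HR k lam, red I g = red I (eu x) := by
      intro x
      have h1 : eu (Ideal.Quotient.mk I x) ∈ HR k (Ideal.Quotient.mk I lam) := ihQ _
      obtain ⟨g, hg, hgx⟩ := exists_lift k (Ideal.Quotient.mk I) (fun c => rfl) lam h1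
      exact ⟨g, hg, by rw [hgx, map_eu]⟩
    have hsurj := surj_of_maximal h2 h3 lam mu hlm hgen m
    have htorus := torus_of_surj lam m hsurj
    have hdich : I ⊓ m = ⊥ ∨ I ≤ m := by
      rcases hIatom.le_iff.1 (inf_le_left : I ⊓ m ≤ I) with h | h
      · exact Or.inl h
      · exact Or.inr (inf_eq_left.1 h)
    by_cases h0 : ∃ i ∈ I, i ≠ 0 ∧ eu i ∈ HR k lam
    · obtain ⟨i₀, hi₀, hne, hmem⟩ := h0
      have hI := step2 k h2 lam I m hann hspan htorus i₀ hi₀ hne hmem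
      rcases hdich with h | h
      · have hsup : I ⊔ m = ⊤ := by
          by_contra hne'
          have h5 : m = I ⊔ m := hmax.eq_of_le hne' le_sup_right
          have h6 : I ≤ m := by rw [h5]; exact le_sup_left
          have h7 : I = ⊥ := by rw [← h]; exact (inf_eq_left.2 h6).symm
          exact hIne h7
        exact step3_idem k lam mu hlm I m h hsup hI hlift x
      · have hI2 : ∀ i ∈ I, ∀ j ∈ I, i * j = 0 := fun i hi j hj => hann j hj i (h hi)
        exact step3_nil k h2 ht lam mu hlm I hI2 hI hlift x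
    · have h0' : ∀ i ∈ I, eu i ∈ HR k lam → i = 0 := by
        intro i hi hmem
        by_contra hne
        exact h0 ⟨i, hi, hne, hmem⟩
      have hLL : ∀ g ∈ HR k lam, ∀ x : R, red I g = red I (eu x) →
          g.1 1 0 = 0 ∧ g.1 0 0 ^ 2 = 1 := by
        rcases hdich with h | h
        · exact LL_idem k h2 ht lam I m h hsurj h0'
        · exact LL_nil k h2 lam I (fun i hi j hj => hann j hj i (h hi)) h0'
      exact step1core k h2 ht lam mu hlm hgen I hLL hlift x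

/-- **Generation theorem** over a finite-dimensional commutative algebra generated by a unit. -/
theorem gen_all {R : Type u} [CommRing R] [Algebra k R] [Module.Finite k R] (h2 : (2 : k) ≠ 0)
    (h3 : Nat.card k ≠ 3) (lam mu : R) (hlm : lam * mu = 1)
    (hgen : Algebra.adjoin k ({lam} : Set R) = ⊤) :
    (∀ x : R, eu x ∈ HR k lam) ∧ (∀ x : R, el x ∈ HR k lam) := by
  have h := gen_aux (k := k) h2 h3 _ R lam mu hlm hgen rfl
  exact ⟨h, fun x => el_mem_of_eu k lam mu hlm (h _)⟩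

end main

end Cfsg.Agent.Lib.Helper83.SL2RingGen
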