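import Mathlib
import Cfsg.Agent.Lib.Helper83.SL2RingGen
import Cfsg.Agent.Lib.Helper83.QPRep

/-!
# Splitting off the `SL(2, R)`-part of a group generated by two square-zero scalar families (helper83)

`A, B ∈ End M` with `A² = B² = 0`; `H = ⟨1 + cA, 1 + cB | c ∈ k⟩ ≤ GL(M)`; `M = M₀ ⊕ M₁` with
`M₀` killed by all long words in `A, B` and `M₁` carrying a hyperbolic-pair datum `D` over a
commutative algebra `R` in which all elementary matrices lie in `HR k lam`.  Then the
representation `Φ : SL(2, R) → GL(M)` (trivial on `M₀`, `D.PhiU` on `M₁`) maps all elementary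
matrices into `H` (`exists_Phi`).
-/

set_option autoImplicit false
set_option linter.unusedVariables false
set_option linter.unusedSectionVars false
set_option linter.unusedSimpArgs false
set_option linter.unnecessarySeqFocus false
set_option linter.unreachableTactic false
set_option linter.unusedTactic false
set_option linter.style.haveILetI false

namespace Cfsg.Agent.Lib.Helper83.QPDepth

open Matrix MatrixGroups
open Cfsg.Agent.Lib.Helper83.SL2Ring Cfsg.Agent.Lib.Helper83.SL2RingGen
open Cfsg.Agent.Lib.Helper83.QPRep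

section filt
variable {k M : Type*} [Field k] [AddCommGroup M] [Module k M]

/-- vectors killed by all words of length `j` in `A`, `B` -/
def K (A B : Module.End k M) : ℕ → Submodule k M
  | 0 => ⊥
  | (j + 1) => (K A B j).comap A ⊓ (K A B j).comap B

lemma mem_K_succ (A B : Module.End k M) (j : ℕ) (m : M) :
    m ∈ K A B (j + 1) ↔ A m ∈ K A B j ∧ B m ∈ K A B j := Iff.rfl

lemma K_mono_succ (A B : Module.End k M) (j : ℕ) : K A B j ≤ K A B (j + 1) := by
  induction j with
  | zero => exact bot_le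
  | succ j ih =>
    intro m hm
    rw [mem_K_succ] at hm ⊢
    exact ⟨ih hm.1, ih hm.2⟩

lemma K_mono (A B : Module.End k M) {i j : ℕ} (h : i ≤ j) : K A B i ≤ K A B j :=
  monotone_nat_of_le_succ (K_mono_succ A B) h

lemma K_of_Z (A B : Module.End k M) (hAA : A * A = 0) (hBB : B * B = 0) (j : ℕ) (m : M)
    (h : (A * B + B * A) m ∈ K A B (j + 1)) : m ∈ K A B (j + 3) := by
  rw [mem_K_succ] at h
  obtain ⟨h1, h2⟩ := h
  have hA2 : ∀ x, A (A x) = 0 := fun x => LinearMap.congr_fun hAA x
  have hB2 : ∀ x, B (B x) = 0 := fun x => LinearMap.congr_fun hBB x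
  have eA : A ((A * B + B * A) m) = A (B (A m)) := by
    show A (A (B m) + B (A m)) = A (B (A m))
    rw [map_add, hA2, zero_add]
  have eB : B ((A * B + B * A) m) = B (A (B m)) := by
    show B (A (B m) + B (A m)) = B (A (B m))
    rw [map_add, hB2, add_zero]
  rw [eA] at h1
  rw [eB] at h2
  rw [mem_K_succ]
  constructor
  · rw [mem_K_succ]
    constructor
    · rw [hA2]; exact zero_mem _
    · rw [mem_K_succ]
      exact ⟨h1, by rw [hB2]; exact zero_mem _⟩
  · rw [mem_K_succ]
    constructor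
    · rw [mem_K_succ]
      exact ⟨by rw [hA2]; exact zero_mem _, h2⟩
    · rw [hB2]; exact zero_mem _

lemma ker_pow_le_K (A B : Module.End k M) (hAA : A * A = 0) (hBB : B * B = 0) (i : ℕ) :
    LinearMap.ker ((A * B + B * A) ^ i) ≤ K A B (2 * i + 1) := by
  induction i with
  | zero =>
    intro m hm
    rw [pow_zero, LinearMap.mem_ker] at hm
    have : m = 0 := hm
    rw [this]; exact zero_mem _
  | succ i ih =>
    intro m hm
    rw [LinearMap.mem_ker, pow_succ] at hm
    have h1 : (A * B + B * A) m ∈ LinearMap.ker ((A * B + B * A) ^ i) := hm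
    have h2 := K_of_Z A B hAA hBB (2 * i) m (ih h1)
    have e : 2 * (i + 1) + 1 = 2 * i + 3 := by ring
    rw [e]; exact h2

lemma stab_of_dep (A B : Module.End k M) (g : Module.End k M)
    (h : ∀ i, ∀ m ∈ K A B (i + 1), g m - m ∈ K A B i) : ∀ i, ∀ x ∈ K A B i, g x ∈ K A B i := by
  intro i x hx
  cases i with
  | zero =>
    have : x = 0 := hx
    rw [this, map_zero]; exact zero_mem _
  | succ i =>
    have h1 := K_mono_succ A B i (h i x hx)
    have := add_mem h1 hx
    rwa [sub_add_cancel] at this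

/-- the group of units acting trivially on the graded pieces of the filtration `K` -/
def T (A B : Module.End k M) : Subgroup (Module.End k M)ˣ where
  carrier := {h | (∀ i, ∀ m ∈ K A B (i + 1), (h : Module.End k M) m - m ∈ K A B i) ∧
    (∀ i, ∀ m ∈ K A B (i + 1), ((h⁻¹ : (Module.End k M)ˣ) : Module.End k M) m - m ∈ K A B i)}
  one_mem' := by
    constructor
    · intro i m hm
      simp
    · intro i m hm
      simp
  mul_mem' := by
    rintro h h' ⟨h1, h2⟩ ⟨h1', h2'⟩
    constructor
    · intro i m hm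
      have e : ((h * h' : (Module.End k M)ˣ) : Module.End k M) m - m =
          ((h : Module.End k M) ((h' : Module.End k M) m - m) -
            ((h' : Module.End k M) m - m)) + ((h' : Module.End k M) m - m) +
            ((h : Module.End k M) m - m) := by
        rw [Units.val_mul, Module.End.mul_apply, map_sub]; abel
      rw [e]
      have hx := h1' i m hm
      have hx' := K_mono_succ A B i hx
      have h3 := stab_of_dep A B _ h1 i _ hx
      exact add_mem (add_mem (sub_mem h3 hx) hx) (h1 i m hm)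
    · intro i m hm
      have e : (((h * h')⁻¹ : (Module.End k M)ˣ) : Module.End k M) m - m =
          (((h'⁻¹ : (Module.End k M)ˣ) : Module.End k M)
            (((h⁻¹ : (Module.End k M)ˣ) : Module.End k M) m - m) -
            (((h⁻¹ : (Module.End k M)ˣ) : Module.End k M) m - m)) +
            (((h⁻¹ : (Module.End k M)ˣ) : Module.End k M) m - m) +
            (((h'⁻¹ : (Module.End k M)ˣ) : Module.End k M) m - m) := by
        rw [_root_.mul_inv_rev, Units.val_mul, Module.End.mul_apply, map_sub]; abel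
      rw [e]
      have hx := h2 i m hm
      have h3 := stab_of_dep A B _ h2' i _ hx
      exact add_mem (add_mem (sub_mem h3 hx) hx) (h2' i m hm)
  inv_mem' := by
    rintro h ⟨h1, h2⟩
    exact ⟨h2, by rw [inv_inv]; exact h1⟩

/-- `1 + X` as a unit, for `X² = 0` -/
def sqUnit (X : Module.End k M) (h : X * X = 0) : (Module.End k M)ˣ where
  val := 1 + X
  inv := 1 - X
  val_inv := by
    have : (1 + X) * (1 - X) = 1 - X * X := by noncomm_ring
    rw [this, h, sub_zero]
  inv_val := by
    have : (1 - X) * (1 + X) = 1 - X * X := by noncomm_ring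
    rw [this, h, sub_zero]

lemma smul_sq (c : k) (X : Module.End k M) (h : X * X = 0) : (c • X) * (c • X) = 0 := by
  rw [smul_mul_smul_comm, h, smul_zero]

/-- the group generated by the two scalar families -/
def Hgrp (A B : Module.End k M) : Subgroup (Module.End k M)ˣ :=
  Subgroup.closure ({g | ∃ c : k, (g : Module.End k M) = 1 + c • A} ∪
    {g | ∃ c : k, (g : Module.End k M) = 1 + c • B})

lemma sqUnit_mem_T (A B X : Module.End k M) (h : X * X = 0)
    (hX : ∀ i, ∀ m ∈ K A B (i + 1), X m ∈ K A B i) : sqUnit X h ∈ T A B := by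
  constructor
  · intro i m hm
    have : ((sqUnit X h : (Module.End k M)ˣ) : Module.End k M) m - m = X m := by
      show (1 + X) m - m = X m
      simp
    rw [this]; exact hX i m hm
  · intro i m hm
    have : (((sqUnit X h)⁻¹ : (Module.End k M)ˣ) : Module.End k M) m - m = - X m := by
      show (1 - X) m - m = - X m
      simp
    rw [this]; exact neg_mem (hX i m hm)

lemma Hgrp_le_T (A B : Module.End k M) (hAA : A * A = 0) (hBB : B * B = 0) :
    Hgrp A B ≤ T A B := by
  rw [Hgrp, Subgroup.closure_le]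
  rintro g (⟨c, hc⟩ | ⟨c, hc⟩)
  · have : g = sqUnit (c • A) (smul_sq c A hAA) := Units.ext hc
    rw [this]
    apply sqUnit_mem_T
    intro i m hm
    rw [LinearMap.smul_apply]
    exact Submodule.smul_mem _ _ ((mem_K_succ A B i m).1 hm).1
  · have : g = sqUnit (c • B) (smul_sq c B hBB) := Units.ext hc
    rw [this]
    apply sqUnit_mem_T
    intro i m hm
    rw [LinearMap.smul_apply]
    exact Submodule.smul_mem _ _ ((mem_K_succ A B i m).1 hm).2

/-- products of `n` elements `g - 1`, `g ∈ T`, lower the filtration by `n` -/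
lemma prod_mem_K (A B : Module.End k M) (l : List (Module.End k M)ˣ)
    (hl : ∀ g ∈ l, g ∈ T A B) :
    ∀ j, ∀ m ∈ K A B (j + l.length),
      (l.map fun g => ((g : (Module.End k M)ˣ) : Module.End k M) - 1).prod m ∈ K A B j := by
  induction l with
  | nil =>
    intro j m hm
    simpa using hm
  | cons g l ih =>
    intro j m hm
    have hg := hl g (List.mem_cons_self)
    have hl' : ∀ g' ∈ l, g' ∈ T A B := fun g' hg' => hl g' (List.mem_cons_of_mem _ hg')
    rw [List.map_cons, List.prod_cons, Module.End.mul_apply]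
    have e : j + (g :: l).length = (j + 1) + l.length := by
      rw [List.length_cons]; ring
    rw [e] at hm
    have h1 := ih hl' (j + 1) m hm
    have h2 := hg.1 j _ h1
    simpa using h2

end filt

section ext
variable {k M : Type*} [Field k] [AddCommGroup M] [Module k M]
variable (M₀ M₁ : Submodule k M) (hc : IsCompl M₀ M₁)

/-- extend an endomorphism of `M₁` by the identity on `M₀` -/
noncomputable def extE (f : Module.End k M₁) : Module.End k M :=
  M₁.subtype ∘ₗ f ∘ₗ (M₁.projectionOnto M₀ hc.symm) + M₀.projection M₁ hc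

lemma extE_apply_one (f : Module.End k M₁) (v : M₁) :
    extE M₀ M₁ hc f (v : M) = (f v : M) := by
  simp only [extE, LinearMap.add_apply, LinearMap.comp_apply, Submodule.subtype_apply]
  rw [Submodule.projectionOnto_apply_left, Submodule.projection_apply_right, add_zero]

lemma extE_apply_zero (f : Module.End k M₁) (m : M) (hm : m ∈ M₀) :
    extE M₀ M₁ hc f m = m := by
  simp only [extE, LinearMap.add_apply, LinearMap.comp_apply, Submodule.subtype_apply]
  have h1 : M₁.projectionOnto M₀ hc.symm m = 0 :=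
    Submodule.projectionOnto_apply_of_mem_right hc.symm hm
  have h2 : M₀.projection M₁ hc m = m := Submodule.projection_apply_of_mem_left hc hm
  rw [h1, h2, map_zero, Submodule.coe_zero, zero_add]

include hc in
lemma ext_unique (g g' : Module.End k M) (h1 : ∀ v : M₁, g (v : M) = g' (v : M))
    (h0 : ∀ m ∈ M₀, g m = g' m) : g = g' := by
  apply LinearMap.ext
  intro x
  have hx := Submodule.projection_add_projection_eq_self hc x
  have e : M₁.projection M₀ hc.symm x = ((M₁.projectionOnto M₀ hc.symm x : M₁) : M) := rfl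
  rw [← hx, map_add, map_add, h0 _ (Submodule.projection_apply_mem hc x), e, h1]

lemma extE_one : extE M₀ M₁ hc 1 = 1 := by
  apply ext_unique M₀ M₁ hc
  · intro v
    rw [extE_apply_one]; rfl
  · intro m hm
    rw [extE_apply_zero _ _ _ _ _ hm]; rfl

lemma extE_mul (f f' : Module.End k M₁) :
    extE M₀ M₁ hc (f * f') = extE M₀ M₁ hc f * extE M₀ M₁ hc f' := by
  apply ext_unique M₀ M₁ hc
  · intro v
    rw [extE_apply_one, Module.End.mul_apply, Module.End.mul_apply, extE_apply_one,
      extE_apply_one]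
  · intro m hm
    rw [extE_apply_zero _ _ _ _ _ hm, Module.End.mul_apply, extE_apply_zero _ _ _ _ _ hm,
      extE_apply_zero _ _ _ _ _ hm]

/-- `extE` as a monoid hom -/
noncomputable def extH : Module.End k M₁ →* Module.End k M where
  toFun := extE M₀ M₁ hc
  map_one' := extE_one M₀ M₁ hc
  map_mul' := extE_mul M₀ M₁ hc

lemma extE_injective : Function.Injective (extE M₀ M₁ hc) := by
  intro f f' h
  apply LinearMap.ext
  intro v
  apply Subtype.ext
  rw [← extE_apply_one M₀ M₁ hc f v, ← extE_apply_one M₀ M₁ hc f' v, h]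

lemma extE_eq (f : Module.End k M₁) : extE M₀ M₁ hc f =
    1 + M₁.subtype ∘ₗ (f - 1) ∘ₗ (M₁.projectionOnto M₀ hc.symm) := by
  apply ext_unique M₀ M₁ hc
  · intro v
    rw [extE_apply_one]
    simp only [LinearMap.add_apply, Module.End.one_apply, LinearMap.comp_apply,
      Submodule.subtype_apply, Submodule.projectionOnto_apply_left, LinearMap.sub_apply,
      Submodule.coe_sub]
    abel
  · intro m hm
    rw [extE_apply_zero _ _ _ _ _ hm]
    have h1 : M₁.projectionOnto M₀ hc.symm m = 0 :=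
      Submodule.projectionOnto_apply_of_mem_right hc.symm hm
    simp only [LinearMap.add_apply, Module.End.one_apply, LinearMap.comp_apply, h1, map_zero,
      add_zero]

end ext

section main
variable {k M R : Type*} [Field k] [AddCommGroup M] [Module k M] [CommRing R] [Algebra k R]
variable (A B : Module.End k M) (M₀ M₁ : Submodule k M) (hc : IsCompl M₀ M₁)
  (D : HP k M₁ R) (lam : R)

/-- the representation of `SL(2, R)` on `M` -/
noncomputable def Phi : SL(2, R) →* (Module.End k M)ˣ := (Units.map (extH M₀ M₁ hc)).comp D.PhiU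

lemma Phi_val (γ : SL(2, R)) : ((Phi M₀ M₁ hc D γ : (Module.End k M)ˣ) : Module.End k M) =
    extE M₀ M₁ hc ((D.PhiU γ : (Module.End k M₁)ˣ) : Module.End k M₁) := rfl

lemma unit_inv_apply (x : (Module.End k M)ˣ) (m : M) :
    (x : Module.End k M) (((x⁻¹ : (Module.End k M)ˣ) : Module.End k M) m) = m := by
  rw [← Module.End.mul_apply, ← Units.val_mul, mul_inv_cancel]; rfl

lemma unit_inv_apply' (x : (Module.End k M)ˣ) (m : M) :
    ((x⁻¹ : (Module.End k M)ˣ) : Module.End k M) ((x : Module.End k M) m) = m := by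
  rw [← Module.End.mul_apply, ← Units.val_mul, inv_mul_cancel]; rfl

/-- compatible pairs -/
def relS : Subgroup ((Module.End k M)ˣ × SL(2, R)) where
  carrier := {p | ∀ v : M₁, (p.1 : Module.End k M) (v : M) =
    (((D.PhiU p.2 : (Module.End k M₁)ˣ) : Module.End k M₁) v : M)}
  one_mem' := by
    intro v
    simp
  mul_mem' := by
    rintro p q hp hq v
    show ((p.1 * q.1 : (Module.End k M)ˣ) : Module.End k M) (v : M) =
      (((D.PhiU (p.2 * q.2) : (Module.End k M₁)ˣ) : Module.End k M₁) v : M)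
    rw [Units.val_mul, Module.End.mul_apply, hq v, hp, map_mul, Units.val_mul,
      Module.End.mul_apply]
  inv_mem' := by
    rintro p hp v
    show ((p.1⁻¹ : (Module.End k M)ˣ) : Module.End k M) (v : M) =
      (((D.PhiU (p.2⁻¹) : (Module.End k M₁)ˣ) : Module.End k M₁) v : M)
    have h1 := hp (((D.PhiU (p.2⁻¹) : (Module.End k M₁)ˣ) : Module.End k M₁) v)
    have h2 : ((D.PhiU p.2 : (Module.End k M₁)ˣ) : Module.End k M₁)
        (((D.PhiU (p.2⁻¹) : (Module.End k M₁)ˣ) : Module.End k M₁) v) = v := by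
      rw [← Module.End.mul_apply, ← Units.val_mul, ← map_mul, mul_inv_cancel, map_one]; rfl
    rw [h2] at h1
    rw [← h1, unit_inv_apply']

/-- the subgroup generated by the pairs of corresponding generators -/
def pairS : Subgroup ((Module.End k M)ˣ × SL(2, R)) :=
  Subgroup.closure
    ({p | ∃ c : k, (p.1 : Module.End k M) = 1 + c • A ∧ p.2 = eu (algebraMap k R c)} ∪
    {p | ∃ c : k, (p.1 : Module.End k M) = 1 + c • B ∧ p.2 = el (algebraMap k R c * lam)})

lemma pairS_fst {p : (Module.End k M)ˣ × SL(2, R)} (hp : p ∈ pairS A B lam) :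
    p.1 ∈ Hgrp A B := by
  have hle : pairS A B lam ≤ (Hgrp A B).comap (MonoidHom.fst _ _) := by
    rw [pairS, Subgroup.closure_le]
    rintro p (⟨c, h1, h2⟩ | ⟨c, h1, h2⟩)
    · exact Subgroup.subset_closure (Or.inl ⟨c, h1⟩)
    · exact Subgroup.subset_closure (Or.inr ⟨c, h1⟩)
  exact hle hp

lemma pairS_rel (ha : ∀ v : M₁, ((D.a v : M₁) : M) = A (v : M))
    (hb : ∀ v : M₁, ((D.ι lam (D.b v) : M₁) : M) = B (v : M))
    {p : (Module.End k M)ˣ × SL(2, R)} (hp : p ∈ pairS A B lam) : p ∈ relS M₁ D := by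
  have hle : pairS A B lam ≤ relS M₁ D := by
    rw [pairS, Subgroup.closure_le]
    rintro p (⟨c, h1, h2⟩ | ⟨c, h1, h2⟩)
    · intro v
      rw [h1, h2, HP.PhiU_eu]
      simp only [LinearMap.add_apply, Module.End.one_apply, LinearMap.smul_apply,
        Module.End.mul_apply, Submodule.coe_add]
      rw [AlgHom.commutes, Module.algebraMap_end_apply, Submodule.coe_smul, ha]
    · intro v
      rw [h1, h2, HP.PhiU_el]
      simp only [LinearMap.add_apply, Module.End.one_apply, LinearMap.smul_apply,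
        Module.End.mul_apply, Submodule.coe_add]
      rw [map_mul, AlgHom.commutes, Module.End.mul_apply, Module.algebraMap_end_apply,
        Submodule.coe_smul, hb]
  exact hle hp

lemma pairS_snd (hAA : A * A = 0) (hBB : B * B = 0) {γ : SL(2, R)} (hγ : γ ∈ HR k lam) :
    ∃ h : (Module.End k M)ˣ, (h, γ) ∈ pairS A B lam := by
  have hle : HR k lam ≤ (pairS A B lam).map (MonoidHom.snd _ _) := by
    rw [HR, Subgroup.closure_le]
    rintro γ (⟨c, rfl⟩ | ⟨c, rfl⟩)
    · exact ⟨(sqUnit (c • A) (smul_sq c A hAA), eu (algebraMap k R c)),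
        Subgroup.subset_closure (Or.inl ⟨c, rfl, rfl⟩), rfl⟩
    · exact ⟨(sqUnit (c • B) (smul_sq c B hBB), el (algebraMap k R c * lam)),
        Subgroup.subset_closure (Or.inr ⟨c, rfl, rfl⟩), rfl⟩
  obtain ⟨p, hp, rfl⟩ := hle hγ
  exact ⟨p.1, hp⟩

/-- depth of an endomorphism with respect to the filtration `K` -/
def dep (j : ℕ) (g : Module.End k M) : Prop := ∀ i, ∀ m ∈ K A B (i + j), g m - m ∈ K A B i

lemma comm_dep (x y : (Module.End k M)ˣ) (hx : x ∈ T A B) (hy : y ∈ T A B) (j : ℕ)
    (hj : dep A B j (y : Module.End k M)) :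
    dep A B (j + 1) ((x * y * x⁻¹ * y⁻¹ : (Module.End k M)ˣ) : Module.End k M) := by
  intro i m hm
  have hyinv : ((y⁻¹ : (Module.End k M)ˣ) : Module.End k M) m ∈ K A B (i + (j + 1)) :=
    stab_of_dep A B _ hy.2 _ _ hm
  have hm'K : ((x⁻¹ : (Module.End k M)ˣ) : Module.End k M)
      (((y⁻¹ : (Module.End k M)ˣ) : Module.End k M) m) ∈ K A B (i + (j + 1)) :=
    stab_of_dep A B _ hx.2 _ _ hyinv
  have e1 : ((x * y * x⁻¹ * y⁻¹ : (Module.End k M)ˣ) : Module.End k M) m =
      (x : Module.End k M) ((y : Module.End k M) (((x⁻¹ : (Module.End k M)ˣ) : Module.End k M)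
      (((y⁻¹ : (Module.End k M)ˣ) : Module.End k M) m))) := by
    simp only [Units.val_mul, Module.End.mul_apply]
  have e2 : m = (y : Module.End k M) ((x : Module.End k M)
      (((x⁻¹ : (Module.End k M)ˣ) : Module.End k M)
      (((y⁻¹ : (Module.End k M)ˣ) : Module.End k M) m))) := by
    rw [unit_inv_apply, unit_inv_apply]
  generalize ((x⁻¹ : (Module.End k M)ˣ) : Module.End k M)
      (((y⁻¹ : (Module.End k M)ˣ) : Module.End k M) m) = m' at hm'K e1 e2
  have e3 : ((x * y * x⁻¹ * y⁻¹ : (Module.End k M)ˣ) : Module.End k M) m - m =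
      ((x : Module.End k M) ((y : Module.End k M) m' - m') - ((y : Module.End k M) m' - m')) -
      ((y : Module.End k M) ((x : Module.End k M) m' - m') - ((x : Module.End k M) m' - m')) := by
    rw [e1]
    conv_lhs => rw [e2]
    simp only [map_sub]; abel
  rw [e3]
  have h1 : (y : Module.End k M) m' - m' ∈ K A B (i + 1) := by
    apply hj (i + 1)
    rw [show i + 1 + j = i + (j + 1) by ring]; exact hm'K
  have h2 : (x : Module.End k M) m' - m' ∈ K A B (i + j) := hx.1 (i + j) m' hm'K
  exact sub_mem (hx.1 i _ h1) (hj i _ h2)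

lemma P_one (hAA : A * A = 0) (hBB : B * B = 0) {γ : SL(2, R)} (hγ : γ ∈ HR k lam) :
    ∃ y : (Module.End k M)ˣ, (y, γ) ∈ pairS A B lam ∧ dep A B 1 (y : Module.End k M) := by
  obtain ⟨y, hy⟩ := pairS_snd A B lam hAA hBB hγ
  exact ⟨y, hy, (Hgrp_le_T A B hAA hBB (pairS_fst A B lam hy)).1⟩

lemma P_step (hAA : A * A = 0) (hBB : B * B = 0) {d γ : SL(2, R)} (hd : d ∈ HR k lam) {j : ℕ}
    (h : ∃ y : (Module.End k M)ˣ, (y, γ) ∈ pairS A B lam ∧ dep A B j (y : Module.End k M)) :
    ∃ y : (Module.End k M)ˣ, (y, d * γ * d⁻¹ * γ⁻¹) ∈ pairS A B lam ∧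
      dep A B (j + 1) (y : Module.End k M) := by
  obtain ⟨x, hx⟩ := pairS_snd A B lam hAA hBB hd
  obtain ⟨y, hy, hj⟩ := h
  refine ⟨x * y * x⁻¹ * y⁻¹, ?_, comm_dep A B x y
    (Hgrp_le_T A B hAA hBB (pairS_fst A B lam hx))
    (Hgrp_le_T A B hAA hBB (pairS_fst A B lam hy)) j hj⟩
  have : ((x * y * x⁻¹ * y⁻¹, d * γ * d⁻¹ * γ⁻¹) : (Module.End k M)ˣ × SL(2, R)) =
      (x, d) * (y, γ) * (x, d)⁻¹ * (y, γ)⁻¹ := rfl
  rw [this]
  exact mul_mem (mul_mem (mul_mem hx hy) (inv_mem hx)) (inv_mem hy)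

lemma ed_eq (a b : R) (h : a * b = 1) : ed a b h = eu a * el (-b) * eu a * (ew)⁻¹ := by
  apply sl2_ext <;>
    simp only [mul00, mul01, mul10, mul11, inv00, inv01, inv10, inv11, ew00, ew01, ew10, ew11,
      el00, el01, el10, el11, eu00, eu01, eu10, eu11, ed00, ed01, ed10, ed11]
  · linear_combination a * h
  · linear_combination (-1 : R) * h
  · linear_combination h
  · ring

lemma ed_mem (hGS : ∀ x : R, eu x ∈ HR k lam ∧ el x ∈ HR k lam) (a b : R) (h : a * b = 1) :
    ed a b h ∈ HR k lam := by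
  rw [ed_eq]
  have hw : (ew : SL(2, R)) ∈ HR k lam :=
    mul_mem (mul_mem (hGS 1).1 (hGS (-1)).2) (hGS 1).1
  exact mul_mem (mul_mem (mul_mem (hGS a).1 (hGS (-b)).2) (hGS a).1) (inv_mem hw)

lemma P_eu (hAA : A * A = 0) (hBB : B * B = 0) (t : k) (ht0 : t ≠ 0) (ht1 : t ^ 2 ≠ 1)
    (hGS : ∀ x : R, eu x ∈ HR k lam ∧ el x ∈ HR k lam) :
    ∀ (j : ℕ) (f : R), ∃ y : (Module.End k M)ˣ, (y, eu f) ∈ pairS A B lam ∧
      dep A B (j + 1) (y : Module.End k M) := by
  have hts : algebraMap k R t * algebraMap k R t⁻¹ = 1 := by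
    rw [← map_mul, mul_inv_cancel₀ ht0, map_one]
  have e1 : (algebraMap k R t ^ 2 - 1) * algebraMap k R (t ^ 2 - 1)⁻¹ = 1 := by
    have : algebraMap k R t ^ 2 - 1 = algebraMap k R (t ^ 2 - 1) := by simp
    rw [this, ← map_mul, mul_inv_cancel₀ (sub_ne_zero.2 ht1), map_one]
  intro j
  induction j with
  | zero => intro f; exact P_one A B lam hAA hBB (hGS f).1
  | succ j ih =>
    intro f
    have h := P_step A B lam hAA hBB
      (ed_mem lam hGS (algebraMap k R t) (algebraMap k R t⁻¹) hts)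
      (ih (algebraMap k R (t ^ 2 - 1)⁻¹ * f))
    have e : ed (algebraMap k R t) (algebraMap k R t⁻¹) hts *
        eu (algebraMap k R (t ^ 2 - 1)⁻¹ * f) *
        (ed (algebraMap k R t) (algebraMap k R t⁻¹) hts)⁻¹ *
        (eu (algebraMap k R (t ^ 2 - 1)⁻¹ * f))⁻¹ = eu f := by
      rw [ed_eu_ed, eu_inv, eu_mul]
      congr 1
      linear_combination f * e1
    rw [e] at h
    exact h

lemma P_el (hAA : A * A = 0) (hBB : B * B = 0) (t : k) (ht0 : t ≠ 0) (ht1 : t ^ 2 ≠ 1)
    (hGS : ∀ x : R, eu x ∈ HR k lam ∧ el x ∈ HR k lam) :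
    ∀ (j : ℕ) (f : R), ∃ y : (Module.End k M)ˣ, (y, el f) ∈ pairS A B lam ∧
      dep A B (j + 1) (y : Module.End k M) := by
  have hts : algebraMap k R t * algebraMap k R t⁻¹ = 1 := by
    rw [← map_mul, mul_inv_cancel₀ ht0, map_one]
  have hne : (t⁻¹) ^ 2 - 1 ≠ 0 := by
    intro h
    apply ht1
    have h6 : t⁻¹ ^ 2 = 1 := by linear_combination h
    have h7 : t ^ 2 * t⁻¹ ^ 2 = 1 := by
      rw [← mul_pow, mul_inv_cancel₀ ht0, one_pow]
    rw [h6, mul_one] at h7
    exact h7
  have e1 : (algebraMap k R t⁻¹ ^ 2 - 1) * algebraMap k R ((t⁻¹) ^ 2 - 1)⁻¹ = 1 := by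
    have : algebraMap k R t⁻¹ ^ 2 - 1 = algebraMap k R ((t⁻¹) ^ 2 - 1) := by
      rw [map_sub, map_pow, map_one]
    rw [this, ← map_mul, mul_inv_cancel₀ hne, map_one]
  intro j
  induction j with
  | zero => intro f; exact P_one A B lam hAA hBB (hGS f).2
  | succ j ih =>
    intro f
    have h := P_step A B lam hAA hBB
      (ed_mem lam hGS (algebraMap k R t) (algebraMap k R t⁻¹) hts)
      (ih (algebraMap k R ((t⁻¹) ^ 2 - 1)⁻¹ * f))
    have e : ed (algebraMap k R t) (algebraMap k R t⁻¹) hts *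
        el (algebraMap k R ((t⁻¹) ^ 2 - 1)⁻¹ * f) *
        (ed (algebraMap k R t) (algebraMap k R t⁻¹) hts)⁻¹ *
        (el (algebraMap k R ((t⁻¹) ^ 2 - 1)⁻¹ * f))⁻¹ = el f := by
      rw [ed_el_ed, el_inv, el_mul]
      congr 1
      linear_combination f * e1
    rw [e] at h
    exact h

lemma Phi_eq_of_dep (ha : ∀ v : M₁, ((D.a v : M₁) : M) = A (v : M))
    (hb : ∀ v : M₁, ((D.ι lam (D.b v) : M₁) : M) = B (v : M)) (N : ℕ) (hN : M₀ ≤ K A B N)
    {γ : SL(2, R)} {y : (Module.End k M)ˣ} (hy : (y, γ) ∈ pairS A B lam)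
    (hd : dep A B N (y : Module.End k M)) : Phi M₀ M₁ hc D γ = y := by
  apply Units.ext
  rw [Phi_val]
  symm
  apply ext_unique M₀ M₁ hc
  · intro v
    rw [extE_apply_one]
    exact pairS_rel A B M₁ D lam ha hb hy v
  · intro m hm
    rw [extE_apply_zero _ _ _ _ _ hm]
    have h1 : (y : Module.End k M) m - m ∈ K A B 0 := by
      apply hd 0
      rw [zero_add]; exact hN hm
    exact sub_eq_zero.1 h1

/-- all elementary matrices are mapped into `H` -/
theorem Phi_mem (hAA : A * A = 0) (hBB : B * B = 0)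
    (ha : ∀ v : M₁, ((D.a v : M₁) : M) = A (v : M))
    (hb : ∀ v : M₁, ((D.ι lam (D.b v) : M₁) : M) = B (v : M)) (N : ℕ) (hN : M₀ ≤ K A B N)
    (t : k) (ht0 : t ≠ 0) (ht1 : t ^ 2 ≠ 1)
    (hGS : ∀ x : R, eu x ∈ HR k lam ∧ el x ∈ HR k lam) (x : R) :
    Phi M₀ M₁ hc D (eu x) ∈ Hgrp A B ∧ Phi M₀ M₁ hc D (el x) ∈ Hgrp A B := by
  have hN' : M₀ ≤ K A B (N + 1) := hN.trans (K_mono_succ A B N)
  constructor
  · obtain ⟨y, hy, hd⟩ := P_eu A B lam hAA hBB t ht0 ht1 hGS N x
    rw [Phi_eq_of_dep A B M₀ M₁ hc D lam ha hb (N + 1) hN' hy hd]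
    exact pairS_fst A B lam hy
  · obtain ⟨y, hy, hd⟩ := P_el A B lam hAA hBB t ht0 ht1 hGS N x
    rw [Phi_eq_of_dep A B M₀ M₁ hc D lam ha hb (N + 1) hN' hy hd]
    exact pairS_fst A B lam hy

end main

end Cfsg.Agent.Lib.Helper83.QPDepth
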