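import Mathlib
import Cfsg.Prelude.Def_RootSubgroups
import Cfsg.Agent.Lib.Helper83.SL2RingGen
import Cfsg.Agent.Lib.Helper83.QPRep
import Cfsg.Agent.Lib.Helper83.QPDepth

/-!
# Non-unipotent pairs of scalar families generate `SL(2, K)` (helper83)

`A = σ - 1`, `B = τ - 1` square-zero endomorphisms of a finite-dimensional space `M`, with
`σ, τ` of minimal commutator rank in a group `G` containing the scalar families.  Fitting
decomposition `M = M₀ ⊕ M₁` for `Z = A B + B A`; on `M₁` the algebra `R = k[Z]` acts, `A, B Z⁻¹`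
is a hyperbolic pair over `R`, and minimality forces `R` to be a field and `A = B = 0` on `M₀`.
-/

set_option autoImplicit false
set_option linter.unusedVariables false
set_option linter.unusedSectionVars false
set_option linter.unusedSimpArgs false
set_option linter.unnecessarySeqFocus false
set_option linter.unreachableTactic false
set_option linter.unusedTactic false
set_option linter.style.haveILetI false

namespace Cfsg.Agent.Lib.Helper83.QPMain

open Matrix MatrixGroups
open Cfsg.Agent.Lib.Helper83.SL2Ring Cfsg.Agent.Lib.Helper83.SL2RingGen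
open Cfsg.Agent.Lib.Helper83.QPRep Cfsg.Agent.Lib.Helper83.QPDepth
open scoped IsMulCommutative

section prelim
variable {k M : Type*} [Field k] [AddCommGroup M] [Module k M]

/-- the anticommutator -/
def Zc (A B : Module.End k M) : Module.End k M := A * B + B * A

/-- the subalgebra generated by one endomorphism -/
abbrev Sz (Z : Module.End k M) : Subalgebra k (Module.End k M) := Algebra.adjoin k {Z}

lemma A_Zc (A B : Module.End k M) (hAA : A * A = 0) : A * Zc A B = Zc A B * A := by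
  unfold Zc
  rw [mul_add, add_mul, ← mul_assoc A A, hAA, zero_mul, mul_assoc B A A, hAA, mul_zero, zero_add,
    add_zero, mul_assoc]

lemma B_Zc (A B : Module.End k M) (hBB : B * B = 0) : B * Zc A B = Zc A B * B := by
  unfold Zc
  rw [mul_add, add_mul, ← mul_assoc B B, hBB, zero_mul, mul_assoc A B B, hBB, mul_zero, add_zero,
    zero_add, mul_assoc]

lemma exists_fitting [FiniteDimensional k M] (Z : Module.End k M) :
    ∃ n, 1 ≤ n ∧ IsCompl (LinearMap.ker (Z ^ n)) (LinearMap.range (Z ^ n)) := by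
  have h1 := LinearMap.eventually_isCompl_ker_pow_range_pow Z
  have h2 := Filter.eventually_ge_atTop (1 : ℕ)
  obtain ⟨n, hn1, hn2⟩ := (h1.and h2).exists
  exact ⟨n, hn2, hn1⟩

lemma exists_inv_of_nzd {k R : Type*} [Field k] [CommRing R] [Algebra k R] [Module.Finite k R]
    (x : R) (hx : ∀ y, x * y = 0 → y = 0) : ∃ y, x * y = 1 := by
  haveI : IsArtinianRing R := IsArtinianRing.of_finite k R
  have hx' : x ∈ nonZeroDivisors R := by
    rw [mem_nonZeroDivisors_iff]
    refine ⟨fun y hy => hx y hy, fun y hy => hx y ?_⟩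
    rw [mul_comm]; exact hy
  obtain ⟨u, hu⟩ := IsArtinianRing.isUnit_of_mem_nonZeroDivisors hx'
  exact ⟨(u⁻¹ : Rˣ), by rw [← hu]; exact u.mul_inv⟩

end prelim

section data
universe u v
variable {k : Type v} [Field k] {M : Type u} [AddCommGroup M] [Module k M]
  [FiniteDimensional k M]

theorem exists_data (A B : Module.End k M) (hAA : A * A = 0) (hBB : B * B = 0)
    (M₁ : Submodule k M)
    (hA1 : ∀ m ∈ M₁, A m ∈ M₁) (hB1 : ∀ m ∈ M₁, B m ∈ M₁)
    (hZ : ∀ m ∈ M₁, Zc A B m = 0 → m = 0) (hne : M₁ ≠ ⊥) :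
    ∃ (R : Type u) (_ : CommRing R) (_ : Algebra k R) (_ : Module.Finite k R) (_ : Nontrivial R)
      (D : HP k M₁ R) (lam mu : R),
      lam * mu = 1 ∧ Algebra.adjoin k {lam} = ⊤ ∧ Function.Injective D.ι ∧
      (∀ v : M₁, ((D.a v : M₁) : M) = A v) ∧
      (∀ v : M₁, ((D.ι lam (D.b v) : M₁) : M) = B v) := by
  classical
  let A₁ : Module.End k M₁ := A.restrict hA1
  let B₁ : Module.End k M₁ := B.restrict hB1
  have hA₁ : ∀ v : M₁, ((A₁ v : M₁) : M) = A v := fun v => rfl
  have hB₁ : ∀ v : M₁, ((B₁ v : M₁) : M) = B v := fun v => rfl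
  have hA₁A₁ : A₁ * A₁ = 0 := by
    apply LinearMap.ext; intro v; apply Subtype.ext
    rw [Module.End.mul_apply, hA₁, hA₁]
    exact LinearMap.congr_fun hAA v
  have hB₁B₁ : B₁ * B₁ = 0 := by
    apply LinearMap.ext; intro v; apply Subtype.ext
    rw [Module.End.mul_apply, hB₁, hB₁]
    exact LinearMap.congr_fun hBB v
  let Z₁ : Module.End k M₁ := Zc A₁ B₁
  have hZ₁ : ∀ v : M₁, ((Z₁ v : M₁) : M) = Zc A B v := by
    intro v
    show ((A₁ (B₁ v) + B₁ (A₁ v) : M₁) : M) = _
    rw [Submodule.coe_add, hA₁, hB₁, hB₁, hA₁]; rfl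
  have hZ₁inj : ∀ v : M₁, Z₁ v = 0 → v = 0 := by
    intro v hv
    apply Subtype.ext
    apply hZ _ v.2
    rw [← hZ₁, hv]; rfl
  have hAZ : A₁ * Z₁ = Z₁ * A₁ := A_Zc A₁ B₁ hA₁A₁
  have hBZ : B₁ * Z₁ = Z₁ * B₁ := B_Zc A₁ B₁ hB₁B₁
  have hSA : ∀ r : Sz Z₁, (r : Module.End k M₁) * A₁ = A₁ * (r : Module.End k M₁) := by
    have : Sz Z₁ ≤ Subalgebra.centralizer k {A₁} := by
      apply Algebra.adjoin_le
      intro z hz
      rw [Set.mem_singleton_iff] at hz
      rw [hz, SetLike.mem_coe, Subalgebra.mem_centralizer_iff]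
      intro g hg
      rw [Set.mem_singleton_iff] at hg
      rw [hg]; exact hAZ
    intro r
    have h := this r.2
    rw [Subalgebra.mem_centralizer_iff] at h
    exact (h A₁ rfl).symm
  have hSB : ∀ r : Sz Z₁, (r : Module.End k M₁) * B₁ = B₁ * (r : Module.End k M₁) := by
    have : Sz Z₁ ≤ Subalgebra.centralizer k {B₁} := by
      apply Algebra.adjoin_le
      intro z hz
      rw [Set.mem_singleton_iff] at hz
      rw [hz, SetLike.mem_coe, Subalgebra.mem_centralizer_iff]
      intro g hg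
      rw [Set.mem_singleton_iff] at hg
      rw [hg]; exact hBZ
    intro r
    have h := this r.2
    rw [Subalgebra.mem_centralizer_iff] at h
    exact (h B₁ rfl).symm
  let lam : Sz Z₁ := ⟨Z₁, Algebra.subset_adjoin (Set.mem_singleton Z₁)⟩
  have hmu : ∃ mu : Sz Z₁, lam * mu = 1 := by
    refine exists_inv_of_nzd (k := k) (R := ↥(Sz Z₁)) lam ?_
    intro r hr
    apply Subtype.ext
    apply LinearMap.ext; intro v
    apply hZ₁inj
    have h2 := congrArg Subtype.val hr
    exact LinearMap.congr_fun h2 v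
  obtain ⟨mu, hmu⟩ := hmu
  have hmu' : Z₁ * (mu : Module.End k M₁) = 1 := congrArg Subtype.val hmu
  have hmu'' : (mu : Module.End k M₁) * Z₁ = 1 := congrArg Subtype.val ((mul_comm mu lam).trans hmu)
  have hnt : Nontrivial (Sz Z₁) := by
    obtain ⟨v, hv, hv0⟩ := (Submodule.ne_bot_iff M₁).1 hne
    refine ⟨⟨0, 1, ?_⟩⟩
    intro h01
    have h2 : (0 : Module.End k M₁) = 1 := congrArg Subtype.val h01
    have h3 := LinearMap.congr_fun h2 ⟨v, hv⟩
    apply hv0
    have h4 := congrArg Subtype.val h3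
    exact h4.symm
  refine ⟨Sz Z₁, inferInstance, inferInstance, inferInstance, hnt,
    { a := A₁, b := B₁ * (mu : Module.End k M₁), ι := (Sz Z₁).val, haa := hA₁A₁, hbb := ?_, hab := ?_,
      hca := hSA, hcb := ?_ }, lam, mu, hmu, ?_, ?_, ?_, ?_⟩
  · rw [mul_assoc, ← mul_assoc _ B₁, hSB, mul_assoc, ← mul_assoc B₁ B₁, hB₁B₁, zero_mul]
  · have e : A₁ * (B₁ * (mu : Module.End k M₁)) + B₁ * (mu : Module.End k M₁) * A₁ =
        Z₁ * (mu : Module.End k M₁) := by
      show _ = (A₁ * B₁ + B₁ * A₁) * _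
      rw [add_mul, mul_assoc B₁ _ A₁, hSA, mul_assoc, mul_assoc]
    rw [e, hmu']
  · intro r
    show (r : Module.End k M₁) * (B₁ * (mu : Module.End k M₁)) =
      B₁ * (mu : Module.End k M₁) * (r : Module.End k M₁)
    have hc : (r : Module.End k M₁) * (mu : Module.End k M₁) =
        (mu : Module.End k M₁) * (r : Module.End k M₁) := congrArg Subtype.val (mul_comm r mu)
    rw [← mul_assoc, hSB, mul_assoc, hc, mul_assoc]
  · have := Algebra.adjoin_adjoin_coe_preimage (R := k) (s := ({Z₁} : Set (Module.End k M₁)))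
    have e : ({lam} : Set ↥(Sz Z₁)) = (Subtype.val ⁻¹' ({Z₁} : Set (Module.End k M₁))) := by
      ext x
      simp [Subtype.ext_iff, lam]
    rw [e]
    exact this
  · exact Subtype.val_injective
  · intro v; rfl
  · intro v
    show ((Z₁ (B₁ ((mu : Module.End k M₁) v)) : M₁) : M) = B v
    have h1 : Z₁ (B₁ ((mu : Module.End k M₁) v)) = B₁ v := by
      have h2 : Z₁ * B₁ * (mu : Module.End k M₁) = B₁ := by
        rw [← hBZ, mul_assoc, hmu', mul_one]
      exact LinearMap.congr_fun h2 v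
    rw [h1]; rfl

end data

section emb
variable {k M : Type*} [Field k] [AddCommGroup M] [Module k M]
variable (M₀ M₁ : Submodule k M) (hc : IsCompl M₀ M₁)

/-- an endomorphism of `M₁` extended by zero on `M₀` -/
noncomputable def emb (N : Module.End k M₁) : Module.End k M :=
  M₁.subtype ∘ₗ N ∘ₗ (M₁.projectionOnto M₀ hc.symm)

lemma emb_apply_one (N : Module.End k M₁) (v : M₁) :
    emb M₀ M₁ hc N (v : M) = (N v : M) := by
  simp only [emb, LinearMap.comp_apply, Submodule.subtype_apply]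
  rw [Submodule.projectionOnto_apply_left]

lemma emb_apply_zero (N : Module.End k M₁) (m : M) (hm : m ∈ M₀) :
    emb M₀ M₁ hc N m = 0 := by
  simp only [emb, LinearMap.comp_apply, Submodule.subtype_apply]
  have h1 : M₁.projectionOnto M₀ hc.symm m = 0 :=
    Submodule.projectionOnto_apply_of_mem_right hc.symm hm
  rw [h1, map_zero, Submodule.coe_zero]

lemma emb_mul (N N' : Module.End k M₁) :
    emb M₀ M₁ hc (N * N') = emb M₀ M₁ hc N * emb M₀ M₁ hc N' := by
  apply ext_unique M₀ M₁ hc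
  · intro v
    rw [emb_apply_one, Module.End.mul_apply, Module.End.mul_apply, emb_apply_one, emb_apply_one]
  · intro m hm
    rw [emb_apply_zero _ _ _ _ _ hm, Module.End.mul_apply, emb_apply_zero _ _ _ _ _ hm, map_zero]

lemma emb_zero : emb M₀ M₁ hc 0 = 0 := by
  simp [emb]

lemma emb_smul (c : k) (N : Module.End k M₁) :
    emb M₀ M₁ hc (c • N) = c • emb M₀ M₁ hc N := by
  apply LinearMap.ext
  intro m
  simp [emb]

lemma emb_injective : Function.Injective (emb M₀ M₁ hc) := by
  intro f f' h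
  apply LinearMap.ext
  intro v
  apply Subtype.ext
  rw [← emb_apply_one M₀ M₁ hc f v, ← emb_apply_one M₀ M₁ hc f' v, h]

lemma emb_range (N : Module.End k M₁) :
    LinearMap.range (emb M₀ M₁ hc N) = (LinearMap.range N).map M₁.subtype := by
  unfold emb
  rw [LinearMap.range_comp, LinearMap.range_comp,
    LinearMap.range_eq_top.2 (Submodule.projectionOnto_surjective hc.symm), Submodule.map_top]

lemma emb_finrank (N : Module.End k M₁) :
    Module.finrank k (LinearMap.range (emb M₀ M₁ hc N)) = Module.finrank k (LinearMap.range N) := by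
  rw [emb_range, Submodule.finrank_map_subtype_eq]

lemma extE_eq_emb (f : Module.End k M₁) :
    extE M₀ M₁ hc f = 1 + emb M₀ M₁ hc (f - 1) := extE_eq M₀ M₁ hc f

lemma quad_of_emb (G : Subgroup (LinearMap.GeneralLinearGroup k M)) (N : Module.End k M₁)
    (hNN : N * N = 0) (hN : N ≠ 0) (g : LinearMap.GeneralLinearGroup k M)
    (hg : (g : M →ₗ[k] M) = 1 + emb M₀ M₁ hc N)
    (hfam : ∀ c : k, ∀ g' : LinearMap.GeneralLinearGroup k M,
      (g' : M →ₗ[k] M) = 1 + emb M₀ M₁ hc (c • N) → g' ∈ G) :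
    g ∈ Cfsg.quadraticElements G := by
  have hg1 : (g : M →ₗ[k] M) - 1 = emb M₀ M₁ hc N := by rw [hg, add_sub_cancel_left]
  refine ⟨?_, ⟨?_, ?_⟩, ?_⟩
  · apply hfam 1; rw [one_smul]; exact hg
  · rw [hg1, ← emb_mul, hNN, emb_zero]
  · rw [hg1]; intro h; apply hN; apply emb_injective M₀ M₁ hc; rw [h, emb_zero]
  · rintro g' ⟨c, hc'⟩
    apply hfam c
    rw [hc', hg1, emb_smul]

lemma rank_of_emb (N : Module.End k M₁) (g : LinearMap.GeneralLinearGroup k M)
    (hg : (g : M →ₗ[k] M) = 1 + emb M₀ M₁ hc N) :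
    Cfsg.commutatorRank g = Module.finrank k (LinearMap.range N) := by
  unfold Cfsg.commutatorRank
  rw [hg, add_sub_cancel_left, emb_finrank]

include hc in
lemma vanish_of_rank [FiniteDimensional k M] (A : Module.End k M) (N : Module.End k M₁)
    (hN : ∀ v : M₁, ((N v : M₁) : M) = A v) (hA0 : ∀ m ∈ M₀, A m ∈ M₀)
    (hr : Module.finrank k (LinearMap.range A) ≤ Module.finrank k (LinearMap.range N)) :
    ∀ m ∈ M₀, A m = 0 := by
  have hle : (LinearMap.range N).map M₁.subtype ≤ LinearMap.range A := by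
    rintro _ ⟨_, ⟨v, rfl⟩, rfl⟩
    exact ⟨(v : M), (hN v).symm⟩
  have hd : Module.finrank k (LinearMap.range A) ≤
      Module.finrank k ((LinearMap.range N).map M₁.subtype) := by
    rw [Submodule.finrank_map_subtype_eq]; exact hr
  have heq := Submodule.eq_of_le_of_finrank_le hle hd
  intro m hm
  have h1 : A m ∈ (LinearMap.range N).map M₁.subtype := by rw [heq]; exact ⟨m, rfl⟩
  obtain ⟨w, _, hw⟩ := h1
  have h2 : A m ∈ M₁ := by rw [← hw]; exact w.2
  have h3 := hA0 m hm
  exact (Submodule.disjoint_def.1 hc.disjoint) _ h3 h2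

lemma rank_le_of_restrict [FiniteDimensional k M] (A : Module.End k M) (N : Module.End k M₁)
    (hN : ∀ v : M₁, ((N v : M₁) : M) = A v) :
    Module.finrank k (LinearMap.range N) ≤ Module.finrank k (LinearMap.range A) := by
  have hle : (LinearMap.range N).map M₁.subtype ≤ LinearMap.range A := by
    rintro _ ⟨_, ⟨v, rfl⟩, rfl⟩
    exact ⟨(v : M), (hN v).symm⟩
  rw [← Submodule.finrank_map_subtype_eq]
  exact Submodule.finrank_mono hle

end emb

section fld
variable {k V R : Type*} [Field k] [AddCommGroup V] [Module k V] [FiniteDimensional k V]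
  [CommRing R] [Algebra k R] [Module.Finite k R]
variable (D : HP k V R)

lemma inj_on_range_of_rank (f g : Module.End k V)
    (h : Module.finrank k (LinearMap.range g) ≤ Module.finrank k (LinearMap.range (f * g))) :
    ∀ v, f (g v) = 0 → g v = 0 := by
  intro v hv
  let f' : LinearMap.range g →ₗ[k] V := f.domRestrict (LinearMap.range g)
  have hr : LinearMap.range f' = LinearMap.range (f * g) := by
    ext w
    constructor
    · rintro ⟨⟨_, ⟨u, rfl⟩⟩, rfl⟩
      exact ⟨u, rfl⟩
    · rintro ⟨u, rfl⟩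
      exact ⟨⟨g u, ⟨u, rfl⟩⟩, rfl⟩
  have hrn := LinearMap.finrank_range_add_finrank_ker f'
  rw [hr] at hrn
  have hk : Module.finrank k (LinearMap.ker f') = 0 := by omega
  have hk' : LinearMap.ker f' = ⊥ := Submodule.finrank_eq_zero.1 hk
  have hmem : (⟨g v, ⟨v, rfl⟩⟩ : LinearMap.range g) ∈ LinearMap.ker f' := hv
  rw [hk'] at hmem
  exact congrArg Subtype.val ((Submodule.mem_bot k).1 hmem)

lemma isField_of_rank [Nontrivial R] (hι : Function.Injective D.ι)
    (hrk : ∀ x : R, x ≠ 0 → Module.finrank k (LinearMap.range D.a) ≤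
      Module.finrank k (LinearMap.range (D.ι x * D.a))) :
    IsField R := by
  refine ⟨exists_pair_ne R, mul_comm, ?_⟩
  intro x hx
  apply exists_inv_of_nzd (k := k)
  intro y hy
  apply hι
  rw [map_zero]
  apply LinearMap.ext
  intro v
  have h1 := D.inj_of_inj_on_range x (inj_on_range_of_rank (D.ι x) D.a (hrk x hx))
  apply h1
  rw [← Module.End.mul_apply, ← map_mul, hy, map_zero]; rfl

end fld

section main
variable {k M R : Type*} [Field k] [AddCommGroup M] [Module k M] [FiniteDimensional k M]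
  [CommRing R] [Algebra k R] [Module.Finite k R] [Nontrivial R]
variable (M₀ M₁ : Submodule k M) (hc : IsCompl M₀ M₁) (D : HP k M₁ R) (lam : R)

lemma Phi_eu_val (x : R) :
    ((Phi M₀ M₁ hc D (eu x) : (Module.End k M)ˣ) : Module.End k M) =
      1 + emb M₀ M₁ hc (D.ι x * D.a) := by
  rw [Phi_val, extE_eq_emb, D.PhiU_eu, add_sub_cancel_left]

lemma Phi_el_val (y : R) :
    ((Phi M₀ M₁ hc D (el y) : (Module.End k M)ˣ) : Module.End k M) =
      1 + emb M₀ M₁ hc (D.ι y * D.b) := by
  rw [Phi_val, extE_eq_emb, D.PhiU_el, add_sub_cancel_left]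

include hc in
theorem main_iso (h2 : (2 : k) ≠ 0) (h3 : Nat.card k ≠ 3)
    (G : Subgroup (LinearMap.GeneralLinearGroup k M))
    (σ τ : LinearMap.GeneralLinearGroup k M)
    (hσ : σ ∈ Cfsg.minimalQuadraticElements G) (hτ : τ ∈ Cfsg.minimalQuadraticElements G)
    (hA0 : ∀ m ∈ M₀, ((σ : M →ₗ[k] M) - 1) m ∈ M₀)
    (hB0 : ∀ m ∈ M₀, ((τ : M →ₗ[k] M) - 1) m ∈ M₀)
    (N : ℕ) (hN : M₀ ≤ K ((σ : M →ₗ[k] M) - 1) ((τ : M →ₗ[k] M) - 1) N)
    (mu : R) (hlm : lam * mu = 1) (hgen : Algebra.adjoin k ({lam} : Set R) = ⊤)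
    (hι : Function.Injective D.ι)
    (ha : ∀ v : M₁, ((D.a v : M₁) : M) = ((σ : M →ₗ[k] M) - 1) v)
    (hb : ∀ v : M₁, ((D.ι lam (D.b v) : M₁) : M) = ((τ : M →ₗ[k] M) - 1) v) :
    IsField R ∧
      Nonempty (↥(Subgroup.closure (Cfsg.scalarFamily σ ∪ Cfsg.scalarFamily τ)) ≃* SL(2, R)) := by
  set A : Module.End k M := (σ : M →ₗ[k] M) - 1 with hA
  set B : Module.End k M := (τ : M →ₗ[k] M) - 1 with hB
  have hAA : A * A = 0 := hσ.1.2.1.1
  have hBB : B * B = 0 := hτ.1.2.1.1
  obtain ⟨t, ht0, ht1⟩ := exists_t h2 h3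
  have hGS0 := gen_all h2 h3 lam mu hlm hgen
  have hGS : ∀ x : R, eu x ∈ HR k lam ∧ el x ∈ HR k lam := fun x => ⟨hGS0.1 x, hGS0.2 x⟩
  have hΦ := Phi_mem A B M₀ M₁ hc D lam hAA hBB ha hb N hN t ht0 ht1 hGS
  have hHdef : Subgroup.closure (Cfsg.scalarFamily σ ∪ Cfsg.scalarFamily τ) = Hgrp A B := rfl
  have hHG : Hgrp A B ≤ G := by
    rw [Hgrp, Subgroup.closure_le]
    rintro g (hg | hg)
    · exact hσ.1.2.2 hg
    · exact hτ.1.2.2 hg
  have h10 : (1 : R) ≠ 0 := one_ne_zero
  have hlam0 : lam ≠ 0 := by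
    intro h; rw [h, zero_mul] at hlm; exact h10 hlm.symm
  have hQeu : ∀ x : R, x ≠ 0 → Phi M₀ M₁ hc D (eu x) ∈ Cfsg.quadraticElements G := by
    intro x hx
    apply quad_of_emb M₀ M₁ hc G (D.ι x * D.a) _ _ _ (Phi_eu_val M₀ M₁ hc D x)
    · intro c g' hg'
      have : g' = Phi M₀ M₁ hc D (eu (c • x)) := by
        apply Units.ext
        rw [hg', Phi_eu_val, map_smul, smul_mul_assoc]
      rw [this]
      exact hHG (hΦ _).1
    · rw [D.key_a, D.haa, mul_zero]
    · intro h
      apply hx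
      apply hι
      rw [map_zero]
      exact D.iota_a_zero x h
  have hQel : Phi M₀ M₁ hc D (el lam) ∈ Cfsg.quadraticElements G := by
    apply quad_of_emb M₀ M₁ hc G (D.ι lam * D.b) _ _ _ (Phi_el_val M₀ M₁ hc D lam)
    · intro c g' hg'
      have : g' = Phi M₀ M₁ hc D (el (c • lam)) := by
        apply Units.ext
        rw [hg', Phi_el_val, map_smul, smul_mul_assoc]
      rw [this]
      exact hHG (hΦ _).2
    · rw [D.key_b, D.hbb, mul_zero]
    · intro h
      apply hlam0
      apply hι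
      rw [map_zero]
      exact D.iota_b_zero lam h
  have hrkσ : ∀ x : R, x ≠ 0 → Module.finrank k (LinearMap.range A) ≤
      Module.finrank k (LinearMap.range (D.ι x * D.a)) := by
    intro x hx
    have := hσ.2 _ (hQeu x hx)
    rw [rank_of_emb M₀ M₁ hc _ _ (Phi_eu_val M₀ M₁ hc D x)] at this
    exact this
  have hrkτ : Module.finrank k (LinearMap.range B) ≤
      Module.finrank k (LinearMap.range (D.ι lam * D.b)) := by
    have := hτ.2 _ hQel
    rw [rank_of_emb M₀ M₁ hc _ _ (Phi_el_val M₀ M₁ hc D lam)] at this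
    exact this
  have hAv : ∀ m ∈ M₀, A m = 0 := by
    apply vanish_of_rank M₀ M₁ hc A D.a ha hA0
    have := hrkσ 1 h10
    rwa [map_one, one_mul] at this
  have hBv : ∀ m ∈ M₀, B m = 0 :=
    vanish_of_rank M₀ M₁ hc B (D.ι lam * D.b) hb hB0 hrkτ
  have hF : IsField R := by
    apply isField_of_rank D hι
    intro x hx
    exact (rank_le_of_restrict M₁ A D.a ha).trans (hrkσ x hx)
  refine ⟨hF, ?_⟩
  have hHR : HR k lam = ⊤ := HR_eq_top_of_isField hF h2 h3 lam hlam0 hgen
  have hσfam : ∀ g : (Module.End k M)ˣ, (∃ c : k, (g : Module.End k M) = 1 + c • A) →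
      ∃ γ, Phi M₀ M₁ hc D γ = g := by
    rintro g ⟨c, hg⟩
    refine ⟨eu (algebraMap k R c), ?_⟩
    apply Units.ext
    rw [Phi_eu_val, hg]
    congr 1
    apply ext_unique M₀ M₁ hc
    · intro v
      rw [emb_apply_one, Module.End.mul_apply, AlgHom.commutes, Module.algebraMap_end_apply,
        Submodule.coe_smul, ha, LinearMap.smul_apply]
    · intro m hm
      rw [emb_apply_zero _ _ _ _ _ hm, LinearMap.smul_apply, hAv m hm, smul_zero]
  have hτfam : ∀ g : (Module.End k M)ˣ, (∃ c : k, (g : Module.End k M) = 1 + c • B) →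
      ∃ γ, Phi M₀ M₁ hc D γ = g := by
    rintro g ⟨c, hg⟩
    refine ⟨el (algebraMap k R c * lam), ?_⟩
    apply Units.ext
    rw [Phi_el_val, hg]
    congr 1
    apply ext_unique M₀ M₁ hc
    · intro v
      rw [emb_apply_one, map_mul, mul_assoc, Module.End.mul_apply, AlgHom.commutes,
        Module.algebraMap_end_apply, Submodule.coe_smul, Module.End.mul_apply, hb,
        LinearMap.smul_apply]
    · intro m hm
      rw [emb_apply_zero _ _ _ _ _ hm, LinearMap.smul_apply, hBv m hm, smul_zero]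
  have hrange : Hgrp A B = (Phi M₀ M₁ hc D).range := by
    apply le_antisymm
    · rw [Hgrp, Subgroup.closure_le]
      rintro g (hg | hg)
      · exact hσfam g hg
      · exact hτfam g hg
    · rintro _ ⟨γ, rfl⟩
      have hγ : γ ∈ HR k lam := by rw [hHR]; trivial
      have hle : HR k lam ≤ (Hgrp A B).comap (Phi M₀ M₁ hc D) := by
        rw [HR, Subgroup.closure_le]
        rintro _ (⟨c, rfl⟩ | ⟨c, rfl⟩)
        · exact (hΦ _).1
        · exact (hΦ _).2
      exact hle hγ
  have hinj : Function.Injective (Phi M₀ M₁ hc D) := by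
    unfold Phi
    exact (Units.map_injective (extE_injective M₀ M₁ hc)).comp (D.PhiU_injective hι)
  exact ⟨(MulEquiv.subgroupCongr hrange).trans (MonoidHom.ofInjective hinj).symm⟩

end main

section pack
universe u

lemma final_pack {k : Type u} [Field k] {R : Type u} [CommRing R] [Algebra k R]
    [Module.Finite k R] (hF : IsField R) (lam : R)
    (hgen : Algebra.adjoin k ({lam} : Set R) = ⊤) {G : Type*} [Group G] (e : G ≃* SL(2, R)) :
    ∃ (K : Type u) (_ : Field K) (_ : Algebra k K) (lam : K), IsAlgebraic k lam ∧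
      IntermediateField.adjoin k ({lam} : Set K) = ⊤ ∧
      Nonempty (G ≃* Matrix.SpecialLinearGroup (Fin 2) K) := by
  letI := hF.toField
  refine ⟨R, hF.toField, ‹Algebra k R›, lam, ?_, ?_, ⟨e⟩⟩
  · exact IsAlgebraic.of_finite k lam
  · have hint : IsAlgebraic k lam := IsAlgebraic.of_finite k lam
    apply IntermediateField.toSubalgebra_injective
    rw [IntermediateField.adjoin_simple_toSubalgebra_of_isAlgebraic hint, hgen,
      IntermediateField.top_toSubalgebra]

end pack

end Cfsg.Agent.Lib.Helper83.QPMain
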