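import Mathlib
import Cfsg.Prelude.Def_RootSubgroups
import Cfsg.Agent.Lib.Helper83.QPDepth

/-!
# Quadratic pairs: the subgroups `E(σ)` (helper83)

For `σ` a quadratic element of minimal commutator rank in `G ≤ GL(M)`, the subgroup `E(σ)`
generated by the class `E_σ` equals `E_σ ∪ {1}`; it is abelian and `g ↦ g - 1` is additive on it.
Conjugation lemmas for the classes.
-/

set_option autoImplicit false
set_option linter.unusedVariables false
set_option linter.unusedSectionVars false
set_option linter.unusedSimpArgs false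
set_option linter.unnecessarySeqFocus false
set_option linter.unreachableTactic false
set_option linter.unusedTactic false
set_option linter.style.haveILetI false

namespace Cfsg.Agent.Lib.Helper83.QPRoot

open Cfsg
open Cfsg.Agent.Lib.Helper83.QPDepth

section basic
variable {k : Type*} [Field k] {M : Type*} [AddCommGroup M] [Module k M]

/-- `g - 1` -/
def nn (g : LinearMap.GeneralLinearGroup k M) : Module.End k M := (g : M →ₗ[k] M) - 1

lemma val_eq (g : LinearMap.GeneralLinearGroup k M) : (g : Module.End k M) = 1 + nn g := by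
  unfold nn; abel

lemma nn_one : nn (1 : LinearMap.GeneralLinearGroup k M) = 0 := by
  unfold nn; rw [Units.val_one, sub_self]

lemma nn_eq_zero {g : LinearMap.GeneralLinearGroup k M} : nn g = 0 ↔ g = 1 := by
  unfold nn
  rw [sub_eq_zero]
  constructor
  · intro h; exact Units.ext h
  · intro h; rw [h]; rfl

lemma nn_mul (g h : LinearMap.GeneralLinearGroup k M) :
    nn (g * h) = nn g + nn h + nn g * nn h := by
  unfold nn
  rw [Units.val_mul]
  noncomm_ring

lemma nn_sqUnit (X : Module.End k M) (h : X * X = 0) : nn (sqUnit X h) = X := by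
  unfold nn; show (1 + X) - 1 = X; abel

lemma eq_sqUnit (g : LinearMap.GeneralLinearGroup k M) (h : nn g * nn g = 0) :
    g = sqUnit (nn g) h := by
  apply Units.ext; exact val_eq g

lemma sqUnit_congr {X Y : Module.End k M} (hX : X * X = 0) (hY : Y * Y = 0) (h : X = Y) :
    sqUnit X hX = sqUnit Y hY := by
  subst h; rfl

lemma nn_inv (g : LinearMap.GeneralLinearGroup k M) (h : nn g * nn g = 0) :
    nn g⁻¹ = - nn g := by
  have e : g⁻¹ = (sqUnit (nn g) h)⁻¹ := by rw [← eq_sqUnit]
  rw [e]
  unfold nn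
  show (1 - ((g : M →ₗ[k] M) - 1)) - 1 = _
  abel

lemma nn_conj (g h : LinearMap.GeneralLinearGroup k M) :
    nn (g * h * g⁻¹) = (g : Module.End k M) * nn h *
      ((g⁻¹ : LinearMap.GeneralLinearGroup k M) : Module.End k M) := by
  unfold nn
  rw [Units.val_mul, Units.val_mul, mul_sub, sub_mul, mul_one, Units.mul_inv]

lemma range_le_ker (X : Module.End k M) (h : X * X = 0) : LinearMap.range X ≤ LinearMap.ker X := by
  rintro _ ⟨m, rfl⟩
  rw [LinearMap.mem_ker, ← Module.End.mul_apply, h]; rfl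

lemma mul_eq_zero_of_range_le_ker (X Y : Module.End k M)
    (h : LinearMap.range Y ≤ LinearMap.ker X) : X * Y = 0 := by
  apply LinearMap.ext
  intro m
  have : Y m ∈ LinearMap.ker X := h ⟨m, rfl⟩
  rw [Module.End.mul_apply]; exact this

lemma sqUnit_zero : sqUnit (0 : Module.End k M) (mul_zero 0) = 1 := by
  apply Units.ext
  show (1 : Module.End k M) + 0 = 1
  rw [add_zero]

lemma sqUnit_mul (X Y : Module.End k M) (hX : X * X = 0) (hY : Y * Y = 0) (hXY : X * Y = 0)
    (hS : (X + Y) * (X + Y) = 0) : sqUnit X hX * sqUnit Y hY = sqUnit (X + Y) hS := by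
  apply Units.ext
  show (1 + X) * (1 + Y) = 1 + (X + Y)
  have : (1 + X) * (1 + Y) = 1 + (X + Y) + X * Y := by noncomm_ring
  rw [this, hXY, add_zero]

lemma sqUnit_inv (X : Module.End k M) (hX : X * X = 0) (hX' : (-X) * (-X) = 0) :
    (sqUnit X hX)⁻¹ = sqUnit (-X) hX' := by
  apply Units.ext
  show (1 - X : Module.End k M) = 1 + -X
  abel

end basic

section mq
variable {k : Type*} [Field k] {M : Type*} [AddCommGroup M] [Module k M] [FiniteDimensional k M]
variable {G : Subgroup (LinearMap.GeneralLinearGroup k M)}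

/-- `1 + X` is a quadratic element of `G` -/
lemma sqUnit_mem_quad (X : Module.End k M) (h : X * X = 0) (h0 : X ≠ 0)
    (hG : ∀ c : k, sqUnit (c • X) (smul_sq c X h) ∈ G) : sqUnit X h ∈ quadraticElements G := by
  have e1 : ((sqUnit X h : LinearMap.GeneralLinearGroup k M) : M →ₗ[k] M) - 1 = X := nn_sqUnit X h
  refine ⟨?_, ⟨?_, ?_⟩, ?_⟩
  · have e : sqUnit X h = sqUnit ((1 : k) • X) (smul_sq 1 X h) :=
      sqUnit_congr _ _ (one_smul k X).symm
    rw [e]; exact hG 1
  · rw [e1]; exact h
  · rw [e1]; exact h0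
  · rintro g ⟨c, hc⟩
    have : g = sqUnit (c • X) (smul_sq c X h) := by
      apply Units.ext
      rw [hc, e1]; rfl
    rw [this]; exact hG c

lemma fam_mem {g : LinearMap.GeneralLinearGroup k M} (hg : g ∈ quadraticElements G) (c : k) :
    sqUnit (c • nn g) (smul_sq c (nn g) hg.2.1.1) ∈ G :=
  hg.2.2 ⟨c, rfl⟩

/-- a square-zero endomorphism squeezed between the spaces of `σ` gives a member of the class -/
lemma class_of_le {σ : LinearMap.GeneralLinearGroup k M} (hσ : σ ∈ minimalQuadraticElements G)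
    (X : Module.End k M) (h : X * X = 0) (h0 : X ≠ 0)
    (hG : ∀ c : k, sqUnit (c • X) (smul_sq c X h) ∈ G)
    (hr : LinearMap.range X ≤ LinearMap.range (nn σ))
    (hk : LinearMap.ker (nn σ) ≤ LinearMap.ker X) :
    sqUnit X h ∈ sameActionClass G σ := by
  have e1 : ((sqUnit X h : LinearMap.GeneralLinearGroup k M) : M →ₗ[k] M) - 1 = X := nn_sqUnit X h
  have hq := sqUnit_mem_quad X h h0 hG
  have hrank : Module.finrank k (LinearMap.range (nn σ)) ≤ Module.finrank k (LinearMap.range X) := by
    have := hσ.2 _ hq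
    unfold commutatorRank at this
    rwa [e1] at this
  have hreq : LinearMap.range X = LinearMap.range (nn σ) :=
    Submodule.eq_of_le_of_finrank_le hr hrank
  have hkeq : LinearMap.ker (nn σ) = LinearMap.ker X := by
    apply Submodule.eq_of_le_of_finrank_le hk
    have h1 := LinearMap.finrank_range_add_finrank_ker X
    have h2 := LinearMap.finrank_range_add_finrank_ker (nn σ)
    rw [hreq] at h1
    omega
  refine ⟨⟨hq, ?_⟩, ?_, ?_⟩
  · intro π hπ
    have := hσ.2 π hπ
    unfold commutatorRank at this ⊢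
    rw [e1, hreq]; exact this
  · rw [e1]; exact hkeq.symm
  · rw [e1]; exact hreq

lemma class_sq {σ g : LinearMap.GeneralLinearGroup k M} (hg : g ∈ sameActionClass G σ) :
    nn g * nn g = 0 := hg.1.1.2.1.1

lemma class_mul_zero {σ g h : LinearMap.GeneralLinearGroup k M}
    (hσ : σ ∈ minimalQuadraticElements G)
    (hg : g ∈ sameActionClass G σ) (hh : h ∈ sameActionClass G σ) : nn g * nn h = 0 := by
  apply mul_eq_zero_of_range_le_ker
  have h1 : LinearMap.range (nn h) = LinearMap.range (nn σ) := hh.2.2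
  have h2 : LinearMap.ker (nn g) = LinearMap.ker (nn σ) := hg.2.1
  rw [h1, h2]
  exact range_le_ker _ hσ.1.2.1.1

lemma class_mul {σ g h : LinearMap.GeneralLinearGroup k M} (hσ : σ ∈ minimalQuadraticElements G)
    (hg : g ∈ sameActionClass G σ) (hh : h ∈ sameActionClass G σ) :
    g * h = 1 ∨ g * h ∈ sameActionClass G σ := by
  have hgg := class_sq hg
  have hhh := class_sq hh
  have hgh := class_mul_zero hσ hg hh
  have hhg := class_mul_zero hσ hh hg
  have hS : (nn g + nn h) * (nn g + nn h) = 0 := by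
    rw [add_mul, mul_add, mul_add, hgg, hhh, hgh, hhg]; simp
  have e : g * h = sqUnit (nn g + nn h) hS := by
    apply Units.ext
    rw [val_eq (g * h), nn_mul, hgh, add_zero]; rfl
  by_cases h0 : nn g + nn h = 0
  · left
    rw [e, sqUnit_congr hS (mul_zero 0) h0, sqUnit_zero]
  · right
    rw [e]
    apply class_of_le hσ _ hS h0
    · intro c
      have hS' : (c • nn g + c • nn h) * (c • nn g + c • nn h) = 0 := by
        rw [← smul_add]; exact smul_sq c _ hS
      have e2 : sqUnit (c • (nn g + nn h)) (smul_sq c _ hS) =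
          sqUnit (c • nn g) (smul_sq c _ hgg) * sqUnit (c • nn h) (smul_sq c _ hhh) := by
        rw [sqUnit_mul _ _ _ _ (by rw [smul_mul_smul_comm, hgh, smul_zero]) hS']
        apply sqUnit_congr
        rw [smul_add]
      rw [e2]
      exact G.mul_mem (fam_mem hg.1.1 c) (fam_mem hh.1.1 c)
    · rintro _ ⟨m, rfl⟩
      rw [LinearMap.add_apply]
      have h1 : nn g m ∈ LinearMap.range (nn σ) := by
        have : LinearMap.range (nn g) = LinearMap.range (nn σ) := hg.2.2
        rw [← this]; exact ⟨m, rfl⟩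
      have h2 : nn h m ∈ LinearMap.range (nn σ) := by
        have : LinearMap.range (nn h) = LinearMap.range (nn σ) := hh.2.2
        rw [← this]; exact ⟨m, rfl⟩
      exact add_mem h1 h2
    · intro m hm
      have h1 : m ∈ LinearMap.ker (nn g) := by
        have : LinearMap.ker (nn g) = LinearMap.ker (nn σ) := hg.2.1
        rw [this]; exact hm
      have h2 : m ∈ LinearMap.ker (nn h) := by
        have : LinearMap.ker (nn h) = LinearMap.ker (nn σ) := hh.2.1
        rw [this]; exact hm
      rw [LinearMap.mem_ker] at h1 h2 ⊢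
      rw [LinearMap.add_apply, h1, h2, add_zero]

lemma class_inv {σ g : LinearMap.GeneralLinearGroup k M} (hσ : σ ∈ minimalQuadraticElements G)
    (hg : g ∈ sameActionClass G σ) : g⁻¹ ∈ sameActionClass G σ := by
  have hgg := class_sq hg
  have hS : (- nn g) * (- nn g) = 0 := by rw [neg_mul_neg]; exact hgg
  have e : g⁻¹ = sqUnit (- nn g) hS := by
    rw [← sqUnit_inv _ hgg, ← eq_sqUnit]
  rw [e]
  apply class_of_le hσ _ hS
  · intro h0
    have : nn g = 0 := neg_eq_zero.1 h0
    exact hg.1.1.2.1.2 this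
  · intro c
    have e2 : sqUnit (c • - nn g) (smul_sq c _ hS) = sqUnit ((-c) • nn g) (smul_sq (-c) _ hgg) := by
      apply sqUnit_congr
      rw [smul_neg, neg_smul]
    rw [e2]
    exact fam_mem hg.1.1 (-c)
  · rw [LinearMap.range_neg]
    exact le_of_eq hg.2.2
  · rw [LinearMap.ker_neg]
    exact le_of_eq hg.2.1.symm

/-- `E(σ) = E_σ ∪ {1}` -/
lemma mem_E_iff {σ : LinearMap.GeneralLinearGroup k M} (hσ : σ ∈ minimalQuadraticElements G)
    (g : LinearMap.GeneralLinearGroup k M) :
    g ∈ sameActionSubgroup G σ ↔ g = 1 ∨ g ∈ sameActionClass G σ := by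
  constructor
  · intro hg
    refine Subgroup.closure_induction (p := fun g _ => g = 1 ∨ g ∈ sameActionClass G σ)
      ?_ ?_ ?_ ?_ hg
    · intro x hx; exact Or.inr hx
    · exact Or.inl rfl
    · intro x y _ _ hx hy
      rcases hx with rfl | hx
      · rw [one_mul]; exact hy
      · rcases hy with rfl | hy
        · rw [mul_one]; exact Or.inr hx
        · exact class_mul hσ hx hy
    · intro x _ hx
      rcases hx with rfl | hx
      · left; exact inv_one
      · right; exact class_inv hσ hx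
  · rintro (rfl | hg)
    · exact Subgroup.one_mem _
    · exact Subgroup.subset_closure hg

lemma self_mem_class {σ : LinearMap.GeneralLinearGroup k M}
    (hσ : σ ∈ minimalQuadraticElements G) : σ ∈ sameActionClass G σ := ⟨hσ, rfl, rfl⟩

lemma self_mem_E {σ : LinearMap.GeneralLinearGroup k M}
    (hσ : σ ∈ minimalQuadraticElements G) : σ ∈ sameActionSubgroup G σ :=
  Subgroup.subset_closure (self_mem_class hσ)

lemma E_class_of_ne {σ g : LinearMap.GeneralLinearGroup k M}
    (hσ : σ ∈ minimalQuadraticElements G) (hg : g ∈ sameActionSubgroup G σ) (h1 : g ≠ 1) :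
    g ∈ sameActionClass G σ := by
  rcases (mem_E_iff hσ g).1 hg with h | h
  · exact absurd h h1
  · exact h

lemma E_mem_G {σ g : LinearMap.GeneralLinearGroup k M}
    (hσ : σ ∈ minimalQuadraticElements G) (hg : g ∈ sameActionSubgroup G σ) : g ∈ G := by
  rcases (mem_E_iff hσ g).1 hg with rfl | h
  · exact G.one_mem
  · exact h.1.1.1

lemma E_range_le {σ g : LinearMap.GeneralLinearGroup k M}
    (hσ : σ ∈ minimalQuadraticElements G) (hg : g ∈ sameActionSubgroup G σ) :
    LinearMap.range (nn g) ≤ LinearMap.range (nn σ) := by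
  rcases (mem_E_iff hσ g).1 hg with rfl | h
  · rw [nn_one, LinearMap.range_zero]; exact bot_le
  · exact le_of_eq h.2.2

lemma E_le_ker {σ g : LinearMap.GeneralLinearGroup k M}
    (hσ : σ ∈ minimalQuadraticElements G) (hg : g ∈ sameActionSubgroup G σ) :
    LinearMap.ker (nn σ) ≤ LinearMap.ker (nn g) := by
  rcases (mem_E_iff hσ g).1 hg with rfl | h
  · rw [nn_one, LinearMap.ker_zero]; exact le_top
  · exact le_of_eq h.2.1.symm

lemma E_mul_zero {σ g h : LinearMap.GeneralLinearGroup k M}
    (hσ : σ ∈ minimalQuadraticElements G) (hg : g ∈ sameActionSubgroup G σ)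
    (hh : h ∈ sameActionSubgroup G σ) : nn g * nn h = 0 := by
  apply mul_eq_zero_of_range_le_ker
  exact (E_range_le hσ hh).trans ((range_le_ker _ hσ.1.2.1.1).trans (E_le_ker hσ hg))

lemma E_sq {σ g : LinearMap.GeneralLinearGroup k M}
    (hσ : σ ∈ minimalQuadraticElements G) (hg : g ∈ sameActionSubgroup G σ) :
    nn g * nn g = 0 := E_mul_zero hσ hg hg

lemma E_nn_mul {σ g h : LinearMap.GeneralLinearGroup k M}
    (hσ : σ ∈ minimalQuadraticElements G) (hg : g ∈ sameActionSubgroup G σ)
    (hh : h ∈ sameActionSubgroup G σ) : nn (g * h) = nn g + nn h := by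
  rw [nn_mul, E_mul_zero hσ hg hh, add_zero]

lemma E_nn_inv {σ g : LinearMap.GeneralLinearGroup k M}
    (hσ : σ ∈ minimalQuadraticElements G) (hg : g ∈ sameActionSubgroup G σ) :
    nn g⁻¹ = - nn g := nn_inv g (E_sq hσ hg)

lemma E_comm {σ g h : LinearMap.GeneralLinearGroup k M}
    (hσ : σ ∈ minimalQuadraticElements G) (hg : g ∈ sameActionSubgroup G σ)
    (hh : h ∈ sameActionSubgroup G σ) : g * h = h * g := by
  apply Units.ext
  rw [val_eq (g * h), val_eq (h * g), E_nn_mul hσ hg hh, E_nn_mul hσ hh hg, add_comm (nn g)]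

lemma E_fam {σ g : LinearMap.GeneralLinearGroup k M}
    (hσ : σ ∈ minimalQuadraticElements G) (hg : g ∈ sameActionSubgroup G σ) (c : k) :
    sqUnit (c • nn g) (smul_sq c _ (E_sq hσ hg)) ∈ G := by
  rcases (mem_E_iff hσ g).1 hg with rfl | h
  · have : sqUnit (c • nn (1 : LinearMap.GeneralLinearGroup k M))
        (smul_sq c _ (E_sq hσ hg)) = 1 := by
      apply Units.ext
      show (1 : Module.End k M) + c • nn (1 : LinearMap.GeneralLinearGroup k M) = 1
      rw [nn_one, smul_zero, add_zero]
    rw [this]; exact G.one_mem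
  · exact fam_mem h.1.1 c

/-- membership in `E(σ)` from the spaces -/
lemma E_of_nn {σ : LinearMap.GeneralLinearGroup k M} (hσ : σ ∈ minimalQuadraticElements G)
    (X : Module.End k M) (h : X * X = 0)
    (hG : ∀ c : k, sqUnit (c • X) (smul_sq c X h) ∈ G)
    (hr : LinearMap.range X ≤ LinearMap.range (nn σ))
    (hk : LinearMap.ker (nn σ) ≤ LinearMap.ker X) :
    sqUnit X h ∈ sameActionSubgroup G σ := by
  by_cases h0 : X = 0
  · rw [sqUnit_congr h (mul_zero 0) h0, sqUnit_zero]; exact Subgroup.one_mem _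
  · exact Subgroup.subset_closure (class_of_le hσ X h h0 hG hr hk)

lemma E_smul {σ g : LinearMap.GeneralLinearGroup k M}
    (hσ : σ ∈ minimalQuadraticElements G) (hg : g ∈ sameActionSubgroup G σ) (c : k) :
    sqUnit (c • nn g) (smul_sq c _ (E_sq hσ hg)) ∈ sameActionSubgroup G σ := by
  apply E_of_nn hσ
  · intro c'
    have : sqUnit (c' • c • nn g) (smul_sq c' _ (smul_sq c _ (E_sq hσ hg))) =
        sqUnit ((c' * c) • nn g) (smul_sq (c' * c) _ (E_sq hσ hg)) := by
      apply sqUnit_congr
      rw [smul_smul]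
    rw [this]; exact E_fam hσ hg _
  · rintro _ ⟨m, rfl⟩
    rw [LinearMap.smul_apply]
    exact Submodule.smul_mem _ _ (E_range_le hσ hg ⟨m, rfl⟩)
  · intro m hm
    have := E_le_ker hσ hg hm
    rw [LinearMap.mem_ker] at this ⊢
    rw [LinearMap.smul_apply, this, smul_zero]

lemma class_congr {σ ρ : LinearMap.GeneralLinearGroup k M} (hρ : ρ ∈ sameActionClass G σ) :
    sameActionSubgroup G ρ = sameActionSubgroup G σ := by
  have : sameActionClass G ρ = sameActionClass G σ := by
    ext π
    constructor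
    · rintro ⟨h1, h2, h3⟩
      exact ⟨h1, h2.trans hρ.2.1, h3.trans hρ.2.2⟩
    · rintro ⟨h1, h2, h3⟩
      exact ⟨h1, h2.trans hρ.2.1.symm, h3.trans hρ.2.2.symm⟩
  unfold sameActionSubgroup
  rw [this]

end mq

section conj
variable {k : Type*} [Field k] {M : Type*} [AddCommGroup M] [Module k M] [FiniteDimensional k M]
variable {G : Subgroup (LinearMap.GeneralLinearGroup k M)}

lemma range_nn_conj (g h : LinearMap.GeneralLinearGroup k M) :
    LinearMap.range (nn (g * h * g⁻¹)) = (LinearMap.range (nn h)).map (g : Module.End k M) := by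
  rw [nn_conj]
  ext m
  constructor
  · rintro ⟨x, rfl⟩
    exact ⟨nn h (((g⁻¹ : LinearMap.GeneralLinearGroup k M) : Module.End k M) x), ⟨_, rfl⟩, rfl⟩
  · rintro ⟨_, ⟨x, rfl⟩, rfl⟩
    refine ⟨(g : Module.End k M) x, ?_⟩
    rw [Module.End.mul_apply, Module.End.mul_apply, unit_inv_apply']

lemma ker_nn_conj (g h : LinearMap.GeneralLinearGroup k M) :
    LinearMap.ker (nn (g * h * g⁻¹)) = (LinearMap.ker (nn h)).map (g : Module.End k M) := by
  rw [nn_conj]
  ext m
  constructor
  · intro hm
    rw [LinearMap.mem_ker, Module.End.mul_apply, Module.End.mul_apply] at hm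
    refine ⟨((g⁻¹ : LinearMap.GeneralLinearGroup k M) : Module.End k M) m, ?_, unit_inv_apply g m⟩
    show nn h (((g⁻¹ : LinearMap.GeneralLinearGroup k M) : Module.End k M) m) = 0
    have := congrArg ((g⁻¹ : LinearMap.GeneralLinearGroup k M) : Module.End k M) hm
    rwa [unit_inv_apply', map_zero] at this
  · rintro ⟨x, hx, rfl⟩
    have hx' : nn h x = 0 := hx
    rw [LinearMap.mem_ker]
    rw [Module.End.mul_apply, Module.End.mul_apply, unit_inv_apply', hx', map_zero]

lemma conj_quad {g ρ : LinearMap.GeneralLinearGroup k M} (hg : g ∈ G)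
    (hρ : ρ ∈ quadraticElements G) : g * ρ * g⁻¹ ∈ quadraticElements G := by
  have hn := nn_conj g ρ
  refine ⟨G.mul_mem (G.mul_mem hg hρ.1) (G.inv_mem hg), ⟨?_, ?_⟩, ?_⟩
  · show nn (g * ρ * g⁻¹) * nn (g * ρ * g⁻¹) = 0
    rw [hn]
    have : (g : Module.End k M) * nn ρ * ((g⁻¹ : LinearMap.GeneralLinearGroup k M) : Module.End k M) *
        ((g : Module.End k M) * nn ρ * ((g⁻¹ : LinearMap.GeneralLinearGroup k M) : Module.End k M)) =
        (g : Module.End k M) * (nn ρ * (((g⁻¹ : LinearMap.GeneralLinearGroup k M) : Module.End k M) *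
          (g : Module.End k M)) * nn ρ) *
          ((g⁻¹ : LinearMap.GeneralLinearGroup k M) : Module.End k M) := by
      simp only [mul_assoc]
    rw [this, Units.inv_mul, mul_one]
    have h0 : nn ρ * nn ρ = 0 := hρ.2.1.1
    rw [h0, mul_zero, zero_mul]
  · show nn (g * ρ * g⁻¹) ≠ 0
    rw [Ne, nn_eq_zero]
    intro h
    apply hρ.2.1.2
    show nn ρ = 0
    rw [nn_eq_zero]
    have e : ρ = g⁻¹ * (g * ρ * g⁻¹) * g := by group
    rw [e, h]; group
  · rintro π ⟨c, hc⟩
    have : π = g * sqUnit (c • nn ρ) (smul_sq c _ hρ.2.1.1) * g⁻¹ := by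
      apply Units.ext
      rw [hc, Units.val_mul, Units.val_mul]
      show 1 + c • nn (g * ρ * g⁻¹) = (g : Module.End k M) * (1 + c • nn ρ) *
        ((g⁻¹ : LinearMap.GeneralLinearGroup k M) : Module.End k M)
      rw [hn, mul_add, add_mul, mul_one, Units.mul_inv, mul_smul_comm, smul_mul_assoc]
    rw [this]
    exact G.mul_mem (G.mul_mem hg (fam_mem hρ c)) (G.inv_mem hg)

lemma rank_conj (g ρ : LinearMap.GeneralLinearGroup k M) :
    commutatorRank (g * ρ * g⁻¹) = commutatorRank ρ := by
  unfold commutatorRank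
  have := range_nn_conj g ρ
  show Module.finrank k (LinearMap.range (nn (g * ρ * g⁻¹))) =
    Module.finrank k (LinearMap.range (nn ρ))
  rw [this]
  exact LinearEquiv.finrank_map_eq (LinearMap.GeneralLinearGroup.toLinearEquiv g) _

lemma conj_mq {g ρ : LinearMap.GeneralLinearGroup k M} (hg : g ∈ G)
    (hρ : ρ ∈ minimalQuadraticElements G) : g * ρ * g⁻¹ ∈ minimalQuadraticElements G :=
  ⟨conj_quad hg hρ.1, fun π hπ => by rw [rank_conj]; exact hρ.2 π hπ⟩

lemma conj_class {g σ ρ : LinearMap.GeneralLinearGroup k M} (hg : g ∈ G)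
    (hρ : ρ ∈ sameActionClass G σ) : g * ρ * g⁻¹ ∈ sameActionClass G (g * σ * g⁻¹) := by
  refine ⟨conj_mq hg hρ.1, ?_, ?_⟩
  · show LinearMap.ker (nn (g * ρ * g⁻¹)) = LinearMap.ker (nn (g * σ * g⁻¹))
    rw [ker_nn_conj, ker_nn_conj]
    have : LinearMap.ker (nn ρ) = LinearMap.ker (nn σ) := hρ.2.1
    rw [this]
  · show LinearMap.range (nn (g * ρ * g⁻¹)) = LinearMap.range (nn (g * σ * g⁻¹))
    rw [range_nn_conj, range_nn_conj]
    have : LinearMap.range (nn ρ) = LinearMap.range (nn σ) := hρ.2.2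
    rw [this]

lemma conj_E {g : LinearMap.GeneralLinearGroup k M} (σ : LinearMap.GeneralLinearGroup k M)
    (hg : g ∈ G) :
    conjBy (sameActionSubgroup G σ) g = sameActionSubgroup G (g * σ * g⁻¹) := by
  unfold sameActionSubgroup
  show Subgroup.map (MulAut.conj g).toMonoidHom (Subgroup.closure (sameActionClass G σ)) = _
  rw [MonoidHom.map_closure]
  congr 1
  ext π
  constructor
  · rintro ⟨ρ, hρ, rfl⟩
    exact conj_class hg hρ
  · intro hπ
    refine ⟨g⁻¹ * π * g, ?_, ?_⟩
    · have := conj_class (G.inv_mem hg) hπ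
      have e : g⁻¹ * (g * σ * g⁻¹) * g⁻¹⁻¹ = σ := by group
      rw [e, inv_inv] at this; exact this
    · show g * (g⁻¹ * π * g) * g⁻¹ = π
      group

/-- an element of `E(σ)` commuting with a non-identity element of `E(τ)` normalizes `E(τ)` -/
lemma comm_normalizes {σ τ e f : LinearMap.GeneralLinearGroup k M}
    (hσ : σ ∈ minimalQuadraticElements G) (hτ : τ ∈ minimalQuadraticElements G)
    (he : e ∈ sameActionSubgroup G σ) (hf : f ∈ sameActionSubgroup G τ) (hf1 : f ≠ 1)
    (hc : e * f = f * e) :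
    e ∈ Subgroup.normalizer
      ((sameActionSubgroup G τ : Subgroup (LinearMap.GeneralLinearGroup k M)) :
        Set (LinearMap.GeneralLinearGroup k M)) := by
  have hfc := E_class_of_ne hτ hf hf1
  have heG := E_mem_G hσ he
  have h1 := conj_E f heG
  have e1 : e * f * e⁻¹ = f := by rw [hc, mul_inv_cancel_right]
  rw [e1, class_congr hfc] at h1
  exact Subgroup.mem_normalizer_iff_map_conj_eq.2 h1

end conj

section norm
variable {k : Type*} [Field k] {M : Type*} [AddCommGroup M] [Module k M] [FiniteDimensional k M]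
variable {G : Subgroup (LinearMap.GeneralLinearGroup k M)}

lemma add_self_eq_zero_iff (h2 : (2 : k) ≠ 0) (X : Module.End k M) : X + X = 0 ↔ X = 0 := by
  constructor
  · intro h
    have : (2 : k) • X = 0 := by rw [two_smul]; exact h
    rcases smul_eq_zero.1 this with h' | h'
    · exact absurd h' h2
    · exact h'
  · intro h; rw [h, add_zero]

/-- two members of the minimal class with nested spaces have the same class -/
lemma E_eq_of_le {σ τ : LinearMap.GeneralLinearGroup k M}
    (hσ : σ ∈ minimalQuadraticElements G) (hτ : τ ∈ minimalQuadraticElements G)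
    (hr : LinearMap.range (nn τ) ≤ LinearMap.range (nn σ))
    (hk : LinearMap.ker (nn σ) ≤ LinearMap.ker (nn τ)) :
    sameActionSubgroup G σ = sameActionSubgroup G τ := by
  have hd : Module.finrank k (LinearMap.range (nn σ)) ≤ Module.finrank k (LinearMap.range (nn τ)) :=
    hσ.2 τ hτ.1
  have hreq : LinearMap.range (nn τ) = LinearMap.range (nn σ) :=
    Submodule.eq_of_le_of_finrank_le hr hd
  have hkeq : LinearMap.ker (nn σ) = LinearMap.ker (nn τ) := by
    apply Submodule.eq_of_le_of_finrank_le hk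
    have h1 := LinearMap.finrank_range_add_finrank_ker (nn σ)
    have h2 := LinearMap.finrank_range_add_finrank_ker (nn τ)
    rw [hreq] at h2
    omega
  have : σ ∈ sameActionClass G τ := ⟨hσ, hkeq, hreq.symm⟩
  exact class_congr this

/-- a non-identity element of `E(σ)` normalizing `E(τ)` centralizes it, unless `E(σ) = E(τ)` -/
lemma norm_comm {σ τ e : LinearMap.GeneralLinearGroup k M} (h2 : (2 : k) ≠ 0)
    (hσ : σ ∈ minimalQuadraticElements G) (hτ : τ ∈ minimalQuadraticElements G)
    (he : e ∈ sameActionSubgroup G σ) (he1 : e ≠ 1)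
    (hn : e ∈ Subgroup.normalizer
      ((sameActionSubgroup G τ : Subgroup (LinearMap.GeneralLinearGroup k M)) :
        Set (LinearMap.GeneralLinearGroup k M))) :
    sameActionSubgroup G σ = sameActionSubgroup G τ ∨
      ∀ f ∈ sameActionSubgroup G τ, e * f = f * e := by
  have hec := E_class_of_ne hσ he he1
  have hNN : nn e * nn e = 0 := E_sq hσ he
  have hNr : LinearMap.range (nn e) = LinearMap.range (nn σ) := hec.2.2
  have hNk : LinearMap.ker (nn e) = LinearMap.ker (nn σ) := hec.2.1
  have heinv : nn e⁻¹ = - nn e := E_nn_inv hσ he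
  have key : ∀ f ∈ sameActionSubgroup G τ,
      (∃ h₁ ∈ sameActionSubgroup G τ, nn h₁ = -(nn e * nn f * nn e + nn e * nn f * nn e)) ∧
      (∃ h₂ ∈ sameActionSubgroup G τ,
        nn h₂ = (nn e * nn f - nn f * nn e) + (nn e * nn f - nn f * nn e)) := by
    intro f hf
    have hf1 : e * f * e⁻¹ ∈ sameActionSubgroup G τ := (Subgroup.mem_set_normalizer_iff.1 hn f).1 hf
    have hf2 : e⁻¹ * f * e ∈ sameActionSubgroup G τ :=
      (Subgroup.mem_set_normalizer_iff''.1 hn f).1 hf
    have n1 : nn (e * f * e⁻¹) = (1 + nn e) * nn f * (1 - nn e) := by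
      rw [nn_conj, val_eq e, val_eq e⁻¹, heinv, sub_eq_add_neg]
    have n2 : nn (e⁻¹ * f * e) = (1 - nn e) * nn f * (1 + nn e) := by
      have h := nn_conj e⁻¹ f
      rw [inv_inv] at h
      rw [h, val_eq e, val_eq e⁻¹, heinv, sub_eq_add_neg]
    have hfi := Subgroup.inv_mem _ hf
    constructor
    · refine ⟨(e * f * e⁻¹) * (e⁻¹ * f * e) * f⁻¹ * f⁻¹,
        Subgroup.mul_mem _ (Subgroup.mul_mem _ (Subgroup.mul_mem _ hf1 hf2) hfi) hfi, ?_⟩
      rw [E_nn_mul hτ (Subgroup.mul_mem _ (Subgroup.mul_mem _ hf1 hf2) hfi) hfi,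
        E_nn_mul hτ (Subgroup.mul_mem _ hf1 hf2) hfi, E_nn_mul hτ hf1 hf2, E_nn_inv hτ hf, n1, n2]
      noncomm_ring
    · refine ⟨(e * f * e⁻¹) * (e⁻¹ * f * e)⁻¹,
        Subgroup.mul_mem _ hf1 (Subgroup.inv_mem _ hf2), ?_⟩
      rw [E_nn_mul hτ hf1 (Subgroup.inv_mem _ hf2), E_nn_inv hτ hf2, n1, n2]
      noncomm_ring
  by_cases hW : ∃ f ∈ sameActionSubgroup G τ, nn e * nn f * nn e ≠ 0
  · left
    obtain ⟨f, hf, hW⟩ := hW
    obtain ⟨⟨h₁, hh₁, hn₁⟩, -⟩ := key f hf
    have hh₁1 : h₁ ≠ 1 := by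
      intro h
      rw [h, nn_one] at hn₁
      have : nn e * nn f * nn e + nn e * nn f * nn e = 0 := neg_eq_zero.1 hn₁.symm
      exact hW ((add_self_eq_zero_iff h2 _).1 this)
    have hc₁ := E_class_of_ne hτ hh₁ hh₁1
    have hc₁r : LinearMap.range (nn h₁) = LinearMap.range (nn τ) := hc₁.2.2
    have hc₁k : LinearMap.ker (nn h₁) = LinearMap.ker (nn τ) := hc₁.2.1
    apply E_eq_of_le hσ hτ
    · rw [← hc₁r, hn₁, ← hNr]
      rintro _ ⟨m, rfl⟩
      refine ⟨-(nn f (nn e m) + nn f (nn e m)), ?_⟩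
      simp only [map_neg, map_add, LinearMap.neg_apply, LinearMap.add_apply, Module.End.mul_apply]
    · rw [← hc₁k, hn₁, ← hNk]
      intro m hm
      rw [LinearMap.mem_ker] at hm ⊢
      simp only [LinearMap.neg_apply, LinearMap.add_apply, Module.End.mul_apply, hm, map_zero,
        add_zero, neg_zero]
  · right
    push Not at hW
    intro f hf
    obtain ⟨-, ⟨h₂, hh₂, hn₂⟩⟩ := key f hf
    have hL : nn e * nn f - nn f * nn e = 0 := by
      by_contra hL0
      have hh₂1 : h₂ ≠ 1 := by
        intro h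
        rw [h, nn_one] at hn₂
        exact hL0 ((add_self_eq_zero_iff h2 _).1 hn₂.symm)
      have hc₂ := E_class_of_ne hτ hh₂ hh₂1
      have hc₂r : LinearMap.range (nn h₂) = LinearMap.range (nn τ) := hc₂.2.2
      have hc₂k : LinearMap.ker (nn h₂) = LinearMap.ker (nn τ) := hc₂.2.1
      have hWf := hW f hf
      have e1 : nn h₂ * nn e = 0 := by
        rw [hn₂]
        have : (nn e * nn f - nn f * nn e + (nn e * nn f - nn f * nn e)) * nn e =
            (nn e * nn f * nn e + nn e * nn f * nn e) - (nn f * (nn e * nn e) + nn f * (nn e * nn e)) := by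
          noncomm_ring
        rw [this, hWf, hNN, mul_zero, add_zero, sub_zero]
      have e2 : nn e * nn h₂ = 0 := by
        rw [hn₂]
        have : nn e * (nn e * nn f - nn f * nn e + (nn e * nn f - nn f * nn e)) =
            (nn e * nn e * nn f + nn e * nn e * nn f) - (nn e * nn f * nn e + nn e * nn f * nn e) := by
          noncomm_ring
        rw [this, hWf, hNN, zero_mul, add_zero, sub_zero]
      have hV1 : LinearMap.range (nn e) ≤ LinearMap.ker (nn τ) := by
        rw [← hc₂k]
        rintro _ ⟨m, rfl⟩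
        rw [LinearMap.mem_ker, ← Module.End.mul_apply, e1]; rfl
      have hV2 : LinearMap.range (nn τ) ≤ LinearMap.ker (nn e) := by
        rw [← hc₂r]
        rintro _ ⟨m, rfl⟩
        rw [LinearMap.mem_ker, ← Module.End.mul_apply, e2]; rfl
      have z1 : nn e * nn f = 0 :=
        mul_eq_zero_of_range_le_ker _ _ ((E_range_le hτ hf).trans hV2)
      have z2 : nn f * nn e = 0 :=
        mul_eq_zero_of_range_le_ker _ _ (hV1.trans (E_le_ker hτ hf))
      apply hL0
      rw [z1, z2, sub_zero]
    apply Units.ext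
    rw [val_eq (e * f), val_eq (f * e), nn_mul, nn_mul, sub_eq_zero.1 hL]
    abel

/-- **Commuting criterion** for the subgroups `E(σ)`, `E(τ)` -/
theorem root_comm {σ τ : LinearMap.GeneralLinearGroup k M} (h2 : (2 : k) ≠ 0)
    (hσ : σ ∈ minimalQuadraticElements G) (hτ : τ ∈ minimalQuadraticElements G)
    (h : (∃ e ∈ sameActionSubgroup G σ, e ≠ 1 ∧ ∃ f ∈ sameActionSubgroup G τ, f ≠ 1 ∧ e * f = f * e) ∨
      sameActionSubgroup G σ ⊓ Subgroup.normalizer
        ((sameActionSubgroup G τ : Subgroup (LinearMap.GeneralLinearGroup k M)) :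
          Set (LinearMap.GeneralLinearGroup k M)) ≠ ⊥) :
    ⁅sameActionSubgroup G σ, sameActionSubgroup G τ⁆ = ⊥ := by
  have hex : ∃ e ∈ sameActionSubgroup G σ, e ≠ 1 ∧ e ∈ Subgroup.normalizer
      ((sameActionSubgroup G τ : Subgroup (LinearMap.GeneralLinearGroup k M)) :
        Set (LinearMap.GeneralLinearGroup k M)) := by
    rcases h with ⟨e, he, he1, f, hf, hf1, hc⟩ | h
    · exact ⟨e, he, he1, comm_normalizes hσ hτ he hf hf1 hc⟩
    · obtain ⟨e, he1⟩ := (Subgroup.ne_bot_iff_exists_ne_one).1 h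
      have he' := e.2
      rw [Subgroup.mem_inf] at he'
      refine ⟨e.1, he'.1, ?_, he'.2⟩
      intro h1
      apply he1
      exact Subtype.ext h1
  obtain ⟨e, he, he1, hn⟩ := hex
  rw [Subgroup.commutator_eq_bot_iff_le_centralizer]
  intro g hg
  rw [Subgroup.mem_centralizer_iff]
  intro f hf
  rcases norm_comm h2 hσ hτ he he1 hn with hEF | hcomm
  · rw [← hEF] at hf
    exact E_comm hσ hf hg
  · by_cases hf1 : f = 1
    · rw [hf1, one_mul, mul_one]
    · have hfn := comm_normalizes hτ hσ hf he he1 (hcomm f hf).symm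
      rcases norm_comm h2 hτ hσ hf hf1 hfn with hFE | hcomm'
      · rw [hFE] at hf
        exact E_comm hσ hf hg
      · exact hcomm' g hg

end norm

end Cfsg.Agent.Lib.Helper83.QPRoot
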