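import Mathlib
import Cfsg.Prelude.Def_RootSubgroups
import Cfsg.Agent.Lib.Helper83.SL2RingGen
import Cfsg.Agent.Lib.Helper83.QPRep
import Cfsg.Agent.Lib.Helper83.QPDepth
import Cfsg.Agent.Lib.Helper83.QPMain
import Cfsg.Agent.Lib.Helper83.QPRoot

/-!
# Quadratic pairs: hyperbolic pairs (helper83)

`σ, τ` quadratic of minimal commutator rank with `Z = (σ-1)(τ-1) + (τ-1)(σ-1)` not nilpotent.
Then there is `P` with `1 + P` in the class of `τ`, `N P N = N` and `P N P = P` (`N = σ - 1`).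
-/

set_option autoImplicit false
set_option linter.unusedVariables false
set_option linter.unusedSectionVars false
set_option linter.unusedSimpArgs false
set_option linter.unnecessarySeqFocus false
set_option linter.unreachableTactic false
set_option linter.unusedTactic false
set_option linter.style.haveILetI false

namespace Cfsg.Agent.Lib.Helper83.QPHyp

open Matrix MatrixGroups
open Cfsg
open Cfsg.Agent.Lib.Helper83.SL2Ring Cfsg.Agent.Lib.Helper83.SL2RingGen
open Cfsg.Agent.Lib.Helper83.QPRep Cfsg.Agent.Lib.Helper83.QPDepth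
open Cfsg.Agent.Lib.Helper83.QPMain Cfsg.Agent.Lib.Helper83.QPRoot

universe u v

section aux
variable {k M R : Type*} [Field k] [AddCommGroup M] [Module k M] [FiniteDimensional k M]
  [CommRing R] [Algebra k R] [Module.Finite k R] [Nontrivial R]
variable (M₀ M₁ : Submodule k M) (hc : IsCompl M₀ M₁) (D : HP k M₁ R) (lam : R)

include hc in
/-- the partner `P` from the matrix-unit data -/
theorem hyp_aux (h2 : (2 : k) ≠ 0) (h3 : Nat.card k ≠ 3)
    (G : Subgroup (LinearMap.GeneralLinearGroup k M))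
    (σ τ : LinearMap.GeneralLinearGroup k M)
    (hσ : σ ∈ minimalQuadraticElements G) (hτ : τ ∈ minimalQuadraticElements G)
    (hA0 : ∀ m ∈ M₀, (nn σ) m ∈ M₀)
    (hB0 : ∀ m ∈ M₀, (nn τ) m ∈ M₀)
    (N : ℕ) (hN : M₀ ≤ K (nn σ) (nn τ) N)
    (mu : R) (hlm : lam * mu = 1) (hgen : Algebra.adjoin k ({lam} : Set R) = ⊤)
    (hι : Function.Injective D.ι)
    (ha : ∀ v : M₁, ((D.a v : M₁) : M) = (nn σ) v)
    (hb : ∀ v : M₁, ((D.ι lam (D.b v) : M₁) : M) = (nn τ) v) :
    ∃ (P : Module.End k M) (hPP : P * P = 0), sqUnit P hPP ∈ sameActionClass G τ ∧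
      nn σ * P * nn σ = nn σ ∧ P * nn σ * P = P := by
  have hAA : nn σ * nn σ = 0 := hσ.1.2.1.1
  have hBB : nn τ * nn τ = 0 := hτ.1.2.1.1
  obtain ⟨t, ht0, ht1⟩ := exists_t h2 h3
  have hGS0 := gen_all h2 h3 lam mu hlm hgen
  have hGS : ∀ x : R, eu x ∈ HR k lam ∧ el x ∈ HR k lam := fun x => ⟨hGS0.1 x, hGS0.2 x⟩
  have hΦ := Phi_mem (nn σ) (nn τ) M₀ M₁ hc D lam hAA hBB ha hb N hN t ht0 ht1 hGS
  have hHG : Hgrp (nn σ) (nn τ) ≤ G := by
    rw [Hgrp, Subgroup.closure_le]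
    rintro g (hg | hg)
    · exact hσ.1.2.2 hg
    · exact hτ.1.2.2 hg
  have h10 : (1 : R) ≠ 0 := one_ne_zero
  have hlam0 : lam ≠ 0 := by
    intro h; rw [h, zero_mul] at hlm; exact h10 hlm.symm
  have hQeu : ∀ x : R, x ≠ 0 → Phi M₀ M₁ hc D (eu x) ∈ Cfsg.quadraticElements G := by
    intro x hx
    apply quad_of_emb M₀ M₁ hc G (D.ι x * D.a) _ _ _ (Phi_eu_val M₀ M₁ hc D x)
    · intro c g' hg'
      have : g' = Phi M₀ M₁ hc D (eu (c • x)) := by
        apply Units.ext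
        rw [hg', Phi_eu_val, map_smul, smul_mul_assoc]
      rw [this]
      exact hHG (hΦ _).1
    · rw [D.key_a, D.haa, mul_zero]
    · intro h
      apply hx
      apply hι
      rw [map_zero]
      exact D.iota_a_zero x h
  have hQel : Phi M₀ M₁ hc D (el lam) ∈ Cfsg.quadraticElements G := by
    apply quad_of_emb M₀ M₁ hc G (D.ι lam * D.b) _ _ _ (Phi_el_val M₀ M₁ hc D lam)
    · intro c g' hg'
      have : g' = Phi M₀ M₁ hc D (el (c • lam)) := by
        apply Units.ext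
        rw [hg', Phi_el_val, map_smul, smul_mul_assoc]
      rw [this]
      exact hHG (hΦ _).2
    · rw [D.key_b, D.hbb, mul_zero]
    · intro h
      apply hlam0
      apply hι
      rw [map_zero]
      exact D.iota_b_zero lam h
  have hrkσ : ∀ x : R, x ≠ 0 → Module.finrank k (LinearMap.range (nn σ)) ≤
      Module.finrank k (LinearMap.range (D.ι x * D.a)) := by
    intro x hx
    have := hσ.2 _ (hQeu x hx)
    rw [rank_of_emb M₀ M₁ hc _ _ (Phi_eu_val M₀ M₁ hc D x)] at this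
    exact this
  have hrkτ : Module.finrank k (LinearMap.range (nn τ)) ≤
      Module.finrank k (LinearMap.range (D.ι lam * D.b)) := by
    have := hτ.2 _ hQel
    rw [rank_of_emb M₀ M₁ hc _ _ (Phi_el_val M₀ M₁ hc D lam)] at this
    exact this
  have hAv : ∀ m ∈ M₀, (nn σ) m = 0 := by
    apply vanish_of_rank M₀ M₁ hc (nn σ) D.a ha hA0
    have := hrkσ 1 h10
    rwa [map_one, one_mul] at this
  have hBv : ∀ m ∈ M₀, (nn τ) m = 0 :=
    vanish_of_rank M₀ M₁ hc (nn τ) (D.ι lam * D.b) hb hB0 hrkτ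
  have hPP : emb M₀ M₁ hc D.b * emb M₀ M₁ hc D.b = 0 := by rw [← emb_mul, D.hbb, emb_zero]
  have hAemb : nn σ = emb M₀ M₁ hc D.a := by
    apply ext_unique M₀ M₁ hc
    · intro v; rw [emb_apply_one]; exact (ha v).symm
    · intro m hm; rw [emb_apply_zero _ _ _ _ _ hm]; exact hAv m hm
  have hBemb : nn τ = emb M₀ M₁ hc (D.ι lam * D.b) := by
    apply ext_unique M₀ M₁ hc
    · intro v; rw [emb_apply_one]; exact (hb v).symm
    · intro m hm; rw [emb_apply_zero _ _ _ _ _ hm]; exact hBv m hm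
  have hmul : mu * lam = 1 := by rw [mul_comm]; exact hlm
  have hb1 : D.b = D.ι mu * (D.ι lam * D.b) := by
    rw [← mul_assoc, ← map_mul, hmul, map_one, one_mul]
  have hb2 : D.b = (D.ι lam * D.b) * D.ι mu := by
    rw [D.hcb lam, mul_assoc, ← map_mul, hlm, map_one, mul_one]
  have hP1 : emb M₀ M₁ hc D.b = emb M₀ M₁ hc (D.ι mu) * nn τ := by
    rw [hBemb, ← emb_mul, ← hb1]
  have hP2 : emb M₀ M₁ hc D.b = nn τ * emb M₀ M₁ hc (D.ι mu) := by
    rw [hBemb, ← emb_mul, ← hb2]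
  refine ⟨emb M₀ M₁ hc D.b, hPP, ?_, ?_, ?_⟩
  · apply class_of_le hτ _ hPP
    · intro h0
      have hb0 : D.b = 0 := emb_injective M₀ M₁ hc (by rw [emb_zero]; exact h0)
      have h1 : (1 : Module.End k M₁) = 0 := by
        rw [← D.hab, hb0, mul_zero, zero_mul, add_zero]
      exact h10 (hι (by rw [map_one, map_zero]; exact h1))
    · intro c
      have : sqUnit (c • emb M₀ M₁ hc D.b) (smul_sq c _ hPP) =
          Phi M₀ M₁ hc D (el (c • (1 : R))) := by
        apply Units.ext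
        rw [Phi_el_val, map_smul, map_one, smul_mul_assoc, one_mul, emb_smul]; rfl
      rw [this]; exact hHG (hΦ _).2
    · rw [hP2]
      rintro _ ⟨m, rfl⟩
      exact ⟨_, rfl⟩
    · rw [hP1]
      intro m hm
      rw [LinearMap.mem_ker] at hm ⊢
      rw [Module.End.mul_apply, hm, map_zero]
  · rw [hAemb, ← emb_mul, ← emb_mul, D.aba]
  · rw [hAemb, ← emb_mul, ← emb_mul, D.bab]

end aux

section main
variable {k : Type v} [Field k] {M : Type u} [AddCommGroup M] [Module k M]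
  [FiniteDimensional k M]
variable {G : Subgroup (LinearMap.GeneralLinearGroup k M)}

/-- a non-nilpotent pair has a partner `P` -/
theorem hyp_P (h2 : (2 : k) ≠ 0) (h3 : Nat.card k ≠ 3)
    {σ τ : LinearMap.GeneralLinearGroup k M}
    (hσ : σ ∈ minimalQuadraticElements G) (hτ : τ ∈ minimalQuadraticElements G)
    (hZ : ∀ r : ℕ, (Zc (nn σ) (nn τ)) ^ r ≠ 0) :
    ∃ (P : Module.End k M) (hPP : P * P = 0), sqUnit P hPP ∈ sameActionClass G τ ∧
      nn σ * P * nn σ = nn σ ∧ P * nn σ * P = P := by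
  have hAA : nn σ * nn σ = 0 := hσ.1.2.1.1
  have hBB : nn τ * nn τ = 0 := hτ.1.2.1.1
  generalize hA : nn σ = A at hAA
  generalize hB : nn τ = B at hBB
  obtain ⟨n, hn1, hc⟩ := exists_fitting (Zc A B)
  have hAZn : A * Zc A B ^ n = Zc A B ^ n * A :=
    (Commute.pow_right (show Commute A (Zc A B) from A_Zc A B hAA) n)
  have hBZn : B * Zc A B ^ n = Zc A B ^ n * B :=
    (Commute.pow_right (show Commute B (Zc A B) from B_Zc A B hBB) n)
  have hA0 : ∀ m ∈ LinearMap.ker (Zc A B ^ n), A m ∈ LinearMap.ker (Zc A B ^ n) := by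
    intro m hm
    rw [LinearMap.mem_ker] at hm ⊢
    rw [← Module.End.mul_apply, ← hAZn, Module.End.mul_apply, hm, map_zero]
  have hB0 : ∀ m ∈ LinearMap.ker (Zc A B ^ n), B m ∈ LinearMap.ker (Zc A B ^ n) := by
    intro m hm
    rw [LinearMap.mem_ker] at hm ⊢
    rw [← Module.End.mul_apply, ← hBZn, Module.End.mul_apply, hm, map_zero]
  have hA1 : ∀ m ∈ LinearMap.range (Zc A B ^ n), A m ∈ LinearMap.range (Zc A B ^ n) := by
    rintro _ ⟨w, rfl⟩
    exact ⟨A w, by rw [← Module.End.mul_apply, ← hAZn]; rfl⟩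
  have hB1 : ∀ m ∈ LinearMap.range (Zc A B ^ n), B m ∈ LinearMap.range (Zc A B ^ n) := by
    rintro _ ⟨w, rfl⟩
    exact ⟨B w, by rw [← Module.End.mul_apply, ← hBZn]; rfl⟩
  have hZinj : ∀ m ∈ LinearMap.range (Zc A B ^ n), Zc A B m = 0 → m = 0 := by
    intro m hm hz
    have hk : m ∈ LinearMap.ker (Zc A B ^ n) := by
      rw [LinearMap.mem_ker]
      obtain ⟨j, rfl⟩ : ∃ j, n = j + 1 := ⟨n - 1, by omega⟩
      rw [pow_succ, Module.End.mul_apply, hz, map_zero]
    exact (Submodule.disjoint_def.1 hc.disjoint) m hk hm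
  have hKn : LinearMap.ker (Zc A B ^ n) ≤ K A B (2 * n + 1) := ker_pow_le_K A B hAA hBB n
  have hne : LinearMap.range (Zc A B ^ n) ≠ ⊥ := by
    intro hbot
    apply hZ n
    rw [hA, hB]
    exact LinearMap.range_eq_bot.1 hbot
  obtain ⟨R, _, _, _, _, D, lam, mu, hlm, hgen, hι, ha, hb⟩ :=
    exists_data A B hAA hBB _ hA1 hB1 hZinj hne
  subst hA hB
  exact hyp_aux _ _ hc D lam h2 h3 G σ τ hσ hτ hA0 hB0 (2 * n + 1) hKn mu hlm hgen hι ha hb

end main

end Cfsg.Agent.Lib.Helper83.QPHyp
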