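import Mathlib
import Cfsg.Prelude.Def_RootSubgroups
import Cfsg.Agent.Lib.Helper83.QPDepth
import Cfsg.Agent.Lib.Helper83.QPMain
import Cfsg.Agent.Lib.Helper83.QPRoot

/-!
# Quadratic pairs: the key lemma for nilpotent pairs (helper83)

`ρ, π` quadratic of minimal commutator rank in `G`, `A = ρ - 1`, `B = π - 1`.  If `A B + B A` is
nilpotent then `A B A = 0 = B A B`.  Proof: induction on the nilpotency index (the pair
`(π, π^ρ)` has anticommutator `-(A B + B A)²`), which kills the words of length five, and then an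
explicit group word shows that `1 + t B A B ∈ G` for all `t`, contradicting minimality of the
rank.
-/

set_option autoImplicit false
set_option linter.unusedVariables false
set_option linter.unusedSectionVars false
set_option linter.unusedSimpArgs false
set_option linter.unnecessarySeqFocus false
set_option linter.unreachableTactic false
set_option linter.unusedTactic false
set_option linter.style.haveILetI false

namespace Cfsg.Agent.Lib.Helper83.QPKey

open Cfsg
open Cfsg.Agent.Lib.Helper83.QPDepth Cfsg.Agent.Lib.Helper83.QPMain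
open Cfsg.Agent.Lib.Helper83.QPRoot

section ring
variable {R : Type*} [Ring R] (A B : R)

/-- `B A B` -/
def Wp : R := B * A * B
/-- `A B A - A B A B + B A B A` -/
def Uq : R := A * B * A - A * B * A * B + B * A * B * A

lemma Qid (hAA : A * A = 0) (hBB : B * B = 0) (h5 : B * A * B * A * B = 0)
    (h5' : A * B * A * B * A = 0) :
    (1 - A) * (1 + B) * (1 + A) * ((1 + A) * (1 + B) * (1 - A)) * ((1 - B) * (1 - B)) =
      1 + ((Wp A B + Wp A B) - (Uq A B + Uq A B)) := by
  have r1 : ∀ X : R, A * (A * X) = 0 := fun X => by rw [← mul_assoc, hAA, zero_mul]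
  have r2 : ∀ X : R, B * (B * X) = 0 := fun X => by rw [← mul_assoc, hBB, zero_mul]
  have r3 : B * (A * (B * (A * B))) = 0 := by rw [← h5]; simp only [mul_assoc]
  have r3' : ∀ X : R, B * (A * (B * (A * (B * X)))) = 0 := fun X => by
    have : B * (A * (B * (A * (B * X)))) = B * (A * (B * (A * B))) * X := by simp only [mul_assoc]
    rw [this, r3, zero_mul]
  have r4 : A * (B * (A * (B * A))) = 0 := by rw [← h5']; simp only [mul_assoc]
  have r4' : ∀ X : R, A * (B * (A * (B * (A * X)))) = 0 := fun X => by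
    have : A * (B * (A * (B * (A * X)))) = A * (B * (A * (B * A))) * X := by simp only [mul_assoc]
    rw [this, r4, zero_mul]
  unfold Wp Uq
  simp only [mul_add, add_mul, mul_sub, sub_mul, mul_one, one_mul, mul_assoc, hAA, hBB, r1, r2, r3,
    r3', r4, r4', mul_zero, zero_mul, add_zero, zero_add, sub_zero, zero_sub, mul_neg, neg_mul,
    neg_zero, neg_neg]
  abel

lemma WU_zero (hAA : A * A = 0) (hBB : B * B = 0) (h5 : B * A * B * A * B = 0)
    (h5' : A * B * A * B * A = 0) :
    Wp A B * Wp A B = 0 ∧ Wp A B * Uq A B = 0 ∧ Uq A B * Wp A B = 0 ∧ Uq A B * Uq A B = 0 := by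
  have r1 : ∀ X : R, A * (A * X) = 0 := fun X => by rw [← mul_assoc, hAA, zero_mul]
  have r2 : ∀ X : R, B * (B * X) = 0 := fun X => by rw [← mul_assoc, hBB, zero_mul]
  have r3 : B * (A * (B * (A * B))) = 0 := by rw [← h5]; simp only [mul_assoc]
  have r3' : ∀ X : R, B * (A * (B * (A * (B * X)))) = 0 := fun X => by
    have : B * (A * (B * (A * (B * X)))) = B * (A * (B * (A * B))) * X := by simp only [mul_assoc]
    rw [this, r3, zero_mul]
  have r4 : A * (B * (A * (B * A))) = 0 := by rw [← h5']; simp only [mul_assoc]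
  have r4' : ∀ X : R, A * (B * (A * (B * (A * X)))) = 0 := fun X => by
    have : A * (B * (A * (B * (A * X)))) = A * (B * (A * (B * A))) * X := by simp only [mul_assoc]
    rw [this, r4, zero_mul]
  unfold Wp Uq
  refine ⟨?_, ?_, ?_, ?_⟩ <;>
  simp only [mul_add, add_mul, mul_sub, sub_mul, mul_one, one_mul, mul_assoc, hAA, hBB, r1, r2, r3,
    r3', r4, r4', mul_zero, zero_mul, add_zero, zero_add, sub_zero, zero_sub, mul_neg, neg_mul,
    neg_zero, neg_neg, sub_self]

/-- the anticommutator of `B` with its conjugate -/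
lemma Z1 (hAA : A * A = 0) (hBB : B * B = 0) :
    ((1 - A) * B * (1 + A)) * B + B * ((1 - A) * B * (1 + A)) = -((A * B + B * A) ^ 2) := by
  have r1 : ∀ X : R, A * (A * X) = 0 := fun X => by rw [← mul_assoc, hAA, zero_mul]
  have r2 : ∀ X : R, B * (B * X) = 0 := fun X => by rw [← mul_assoc, hBB, zero_mul]
  rw [pow_two]
  simp only [mul_add, add_mul, mul_sub, sub_mul, mul_one, one_mul, mul_assoc, hAA, hBB, r1, r2,
    mul_zero, zero_mul, add_zero, zero_add, sub_zero, zero_sub, mul_neg, neg_mul,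
    neg_zero, neg_neg]
  abel

lemma Z2 (hBB : B * B = 0) :
    B * ((1 - A) * B * (1 + A)) * B = -(B * A * B * A * B) := by
  have r2 : ∀ X : R, B * (B * X) = 0 := fun X => by rw [← mul_assoc, hBB, zero_mul]
  simp only [mul_add, add_mul, mul_sub, sub_mul, mul_one, one_mul, mul_assoc, hBB, r2,
    mul_zero, zero_mul, add_zero, zero_add, sub_zero, zero_sub, mul_neg, neg_mul,
    neg_zero, neg_neg]

end ring

section grp
variable {k : Type*} [Field k] {M : Type*} [AddCommGroup M] [Module k M]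
variable (G : Subgroup (LinearMap.GeneralLinearGroup k M))

/-- `1 + Y` is (the value of) an element of `G` -/
def InG (Y : Module.End k M) : Prop := ∃ g ∈ G, (g : Module.End k M) = 1 + Y

lemma InG_add {Y₁ Y₂ : Module.End k M} (h1 : InG G Y₁) (h2 : InG G Y₂) (h : Y₁ * Y₂ = 0) :
    InG G (Y₁ + Y₂) := by
  obtain ⟨g₁, hg₁, e₁⟩ := h1
  obtain ⟨g₂, hg₂, e₂⟩ := h2
  refine ⟨g₁ * g₂, G.mul_mem hg₁ hg₂, ?_⟩
  rw [Units.val_mul, e₁, e₂]
  have : (1 + Y₁) * (1 + Y₂) = 1 + (Y₁ + Y₂) + Y₁ * Y₂ := by noncomm_ring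
  rw [this, h, add_zero]

lemma InG_neg {Y : Module.End k M} (h1 : InG G Y) (h : Y * Y = 0) : InG G (-Y) := by
  obtain ⟨g, hg, e⟩ := h1
  refine ⟨g⁻¹, G.inv_mem hg, ?_⟩
  have : g = sqUnit Y h := Units.ext e
  rw [this]
  show (1 - Y : Module.End k M) = 1 + -Y
  abel

lemma InG_sqUnit {Y : Module.End k M} (h1 : InG G Y) (h : Y * Y = 0) : sqUnit Y h ∈ G := by
  obtain ⟨g, hg, e⟩ := h1
  have : g = sqUnit Y h := Units.ext e
  rw [← this]; exact hg

/-- the explicit group word: `1 + t B A B ∈ G` -/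
theorem expl (h2 : (2 : k) ≠ 0) (A B : Module.End k M) (hAA : A * A = 0) (hBB : B * B = 0)
    (h5 : B * A * B * A * B = 0) (h5' : A * B * A * B * A = 0)
    (hA : ∀ c : k, sqUnit (c • A) (smul_sq c A hAA) ∈ G) (hB : sqUnit B hBB ∈ G) (t : k) :
    InG G (t • (B * A * B)) := by
  obtain ⟨hWW, hWU, hUW, hUU⟩ := WU_zero A B hAA hBB h5 h5'
  have hYY : ∀ s t s' t' : k, (s • Wp A B + t • Uq A B) * (s' • Wp A B + t' • Uq A B) = 0 := by
    intro s t s' t'
    simp only [add_mul, mul_add, smul_mul_smul_comm, hWW, hWU, hUW, hUU, smul_zero, add_zero]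
  have h4 : (4 : k) ≠ 0 := by
    have : (4 : k) = 2 * 2 := by norm_num
    rw [this]; exact mul_ne_zero h2 h2
  have hq : ∀ c : k, InG G ((2 * c) • Wp A B + (-(2 * c ^ 2)) • Uq A B) := by
    intro c
    have hXX : (c • A) * (c • A) = 0 := smul_sq c A hAA
    have h5X : B * (c • A) * B * (c • A) * B = 0 := by
      have : B * (c • A) * B * (c • A) * B = (c * c) • (B * A * B * A * B) := by
        simp only [smul_mul_assoc, mul_smul_comm, smul_smul]
      rw [this, h5, smul_zero]
    have h5X' : (c • A) * B * (c • A) * B * (c • A) = 0 := by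
      have : (c • A) * B * (c • A) * B * (c • A) = (c * (c * c)) • (A * B * A * B * A) := by
        simp only [smul_mul_assoc, mul_smul_comm, smul_smul]
      rw [this, h5', smul_zero]
    refine ⟨(sqUnit (c • A) hXX)⁻¹ * sqUnit B hBB * sqUnit (c • A) hXX *
      (sqUnit (c • A) hXX * sqUnit B hBB * (sqUnit (c • A) hXX)⁻¹) *
      ((sqUnit B hBB)⁻¹ * (sqUnit B hBB)⁻¹), ?_, ?_⟩
    · have ha := hA c
      exact G.mul_mem (G.mul_mem (G.mul_mem (G.mul_mem (G.inv_mem ha) hB) ha)
        (G.mul_mem (G.mul_mem ha hB) (G.inv_mem ha))) (G.mul_mem (G.inv_mem hB) (G.inv_mem hB))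
    · show (1 - c • A) * (1 + B) * (1 + c • A) * ((1 + c • A) * (1 + B) * (1 - c • A)) *
        ((1 - B) * (1 - B)) = _
      rw [Qid (c • A) B hXX hBB h5X h5X']
      congr 1
      have e1 : Wp (c • A) B = c • Wp A B := by
        unfold Wp; simp only [smul_mul_assoc, mul_smul_comm]
      have e2 : Uq (c • A) B = (c ^ 2) • Uq A B := by
        unfold Uq
        simp only [smul_mul_assoc, mul_smul_comm, smul_smul, smul_sub, smul_add]
        rw [pow_two]
      rw [e1, e2]
      module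
  have hU : ∀ c : k, InG G ((-(4 * c ^ 2)) • Uq A B) := by
    intro c
    have := InG_add G (hq c) (hq (-c)) (hYY _ _ _ _)
    have e : (2 * c) • Wp A B + (-(2 * c ^ 2)) • Uq A B +
        ((2 * -c) • Wp A B + (-(2 * (-c) ^ 2)) • Uq A B) = (-(4 * c ^ 2)) • Uq A B := by
      module
    rw [e] at this; exact this
  have hU' : ∀ c : k, InG G ((4 * c ^ 2) • Uq A B) := by
    intro c
    have h0 : ((-(4 * c ^ 2)) • Uq A B) * ((-(4 * c ^ 2)) • Uq A B) = 0 := by
      rw [smul_mul_smul_comm, hUU, smul_zero]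
    have := InG_neg G (hU c) h0
    rw [← neg_smul, neg_neg] at this; exact this
  have hUt : ∀ s : k, InG G (s • Uq A B) := by
    intro s
    have h0 : ((4 * ((s / 4 + 1) / 2) ^ 2) • Uq A B) * ((-(4 * ((s / 4 - 1) / 2) ^ 2)) • Uq A B) = 0 := by
      rw [smul_mul_smul_comm, hUU, smul_zero]
    have := InG_add G (hU' ((s / 4 + 1) / 2)) (hU ((s / 4 - 1) / 2)) h0
    have e : (4 * ((s / 4 + 1) / 2) ^ 2) • Uq A B + (-(4 * ((s / 4 - 1) / 2) ^ 2)) • Uq A B =
        s • Uq A B := by
      rw [← add_smul]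
      congr 1
      field_simp
      ring
    rw [e] at this; exact this
  have h0 : ((2 * (t / 2)) • Wp A B + (-(2 * (t / 2) ^ 2)) • Uq A B) *
      ((0 : k) • Wp A B + (2 * (t / 2) ^ 2) • Uq A B) = 0 := hYY _ _ _ _
  have h1 : InG G ((0 : k) • Wp A B + (2 * (t / 2) ^ 2) • Uq A B) := by
    rw [zero_smul, zero_add]; exact hUt _
  have := InG_add G (hq (t / 2)) h1 h0
  have e : (2 * (t / 2)) • Wp A B + (-(2 * (t / 2) ^ 2)) • Uq A B +
      ((0 : k) • Wp A B + (2 * (t / 2) ^ 2) • Uq A B) = t • (B * A * B) := by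
    have e3 : (2 * (t / 2)) = t := by field_simp
    rw [e3]
    show _ = t • Wp A B
    module
  rw [e] at this; exact this

end grp

section key
variable {k : Type*} [Field k] {M : Type*} [AddCommGroup M] [Module k M] [FiniteDimensional k M]
variable {G : Subgroup (LinearMap.GeneralLinearGroup k M)}

lemma rank_lt (A B : Module.End k M) (hB : B ≠ 0) (h5 : B * A * B * A * B = 0) :
    Module.finrank k (LinearMap.range (B * A * B)) < Module.finrank k (LinearMap.range B) := by
  by_contra hlt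
  push Not at hlt
  have hle : LinearMap.range (B * A * B) ≤ LinearMap.range B := by
    rintro _ ⟨m, rfl⟩
    exact ⟨A (B m), rfl⟩
  have heq := Submodule.eq_of_le_of_finrank_le hle hlt
  apply hB
  apply LinearMap.ext
  intro m
  have h1 : B m ∈ LinearMap.range (B * A * B) := by rw [heq]; exact ⟨m, rfl⟩
  obtain ⟨m', hm'⟩ := h1
  have h2 : B m' ∈ LinearMap.range (B * A * B) := by rw [heq]; exact ⟨m', rfl⟩
  obtain ⟨m'', hm''⟩ := h2
  rw [← hm']
  show B (A (B m')) = 0
  rw [← hm'']
  exact LinearMap.congr_fun h5 m''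

lemma nn_conj' (ρ π : LinearMap.GeneralLinearGroup k M) (h : nn ρ * nn ρ = 0) :
    nn (ρ⁻¹ * π * ρ) = (1 - nn ρ) * nn π * (1 + nn ρ) := by
  have h1 := nn_conj ρ⁻¹ π
  rw [inv_inv] at h1
  rw [h1, val_eq ρ, val_eq ρ⁻¹, nn_inv ρ h, sub_eq_add_neg]

/-- **Key lemma**, one half -/
theorem key_aux (h2 : (2 : k) ≠ 0) : ∀ r : ℕ, ∀ ρ π : LinearMap.GeneralLinearGroup k M,
    ρ ∈ minimalQuadraticElements G → π ∈ minimalQuadraticElements G →
    (Zc (nn ρ) (nn π)) ^ r = 0 → nn π * nn ρ * nn π = 0 := by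
  intro r
  induction r with
  | zero =>
    intro ρ π hρ hπ h
    rw [pow_zero] at h
    have : ∀ X : Module.End k M, X = 0 := fun X => by rw [← mul_one X, h, mul_zero]
    exact this _
  | succ r ih =>
    intro ρ π hρ hπ h
    have hAA : nn ρ * nn ρ = 0 := hρ.1.2.1.1
    have hBB : nn π * nn π = 0 := hπ.1.2.1.1
    rcases Nat.eq_zero_or_pos r with hr | hr
    · subst hr
      rw [zero_add, pow_one] at h
      have e : nn π * nn ρ * nn π = (nn ρ * nn π + nn π * nn ρ) * nn π - nn ρ * (nn π * nn π) := by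
        noncomm_ring
      rw [e, hBB, mul_zero, sub_zero]
      unfold Zc at h
      rw [h, zero_mul]
    · have hZ2 : (Zc (nn ρ) (nn π)) ^ (2 * r) = 0 := pow_eq_zero_of_le (by omega) h
      have hρG : ρ ∈ G := hρ.1.1
      have hπG : π ∈ G := hπ.1.1
      have hπ' : ρ⁻¹ * π * ρ ∈ minimalQuadraticElements G := by
        have := conj_mq (G.inv_mem hρG) hπ
        rwa [inv_inv] at this
      have hρ' : π⁻¹ * ρ * π ∈ minimalQuadraticElements G := by
        have := conj_mq (G.inv_mem hπG) hρ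
        rwa [inv_inv] at this
      have n' := nn_conj' ρ π hAA
      have n'' := nn_conj' π ρ hBB
      have z' : Zc (nn (ρ⁻¹ * π * ρ)) (nn π) = -((Zc (nn ρ) (nn π)) ^ 2) := by
        rw [n']
        exact Z1 (nn ρ) (nn π) hAA hBB
      have z'' : Zc (nn (π⁻¹ * ρ * π)) (nn ρ) = -((Zc (nn ρ) (nn π)) ^ 2) := by
        rw [n'']
        have := Z1 (nn π) (nn ρ) hBB hAA
        unfold Zc
        rw [this, add_comm]
      have p1 := ih (ρ⁻¹ * π * ρ) π hπ' hπ (by rw [z', neg_pow, ← pow_mul, hZ2, mul_zero])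
      have p2 := ih (π⁻¹ * ρ * π) ρ hρ' hρ (by rw [z'', neg_pow, ← pow_mul, hZ2, mul_zero])
      have h5 : nn π * nn ρ * nn π * nn ρ * nn π = 0 := by
        rw [n', Z2 (nn ρ) (nn π) hBB] at p1
        exact neg_eq_zero.1 p1
      have h5' : nn ρ * nn π * nn ρ * nn π * nn ρ = 0 := by
        rw [n'', Z2 (nn π) (nn ρ) hAA] at p2
        exact neg_eq_zero.1 p2
      have hBG : sqUnit (nn π) hBB ∈ G := by rw [← eq_sqUnit]; exact hπG
      have hex := expl G h2 (nn ρ) (nn π) hAA hBB h5 h5' (fun c => fam_mem hρ.1 c) hBG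
      by_contra hW
      have hWW : (nn π * nn ρ * nn π) * (nn π * nn ρ * nn π) = 0 :=
        (WU_zero (nn ρ) (nn π) hAA hBB h5 h5').1
      have hq : sqUnit (nn π * nn ρ * nn π) hWW ∈ quadraticElements G :=
        sqUnit_mem_quad _ hWW hW (fun c => InG_sqUnit G (hex c) _)
      have h3 := hπ.2 _ hq
      have hlt := rank_lt (nn ρ) (nn π) hπ.1.2.1.2 h5
      unfold commutatorRank at h3
      have e1 : ((sqUnit (nn π * nn ρ * nn π) hWW : LinearMap.GeneralLinearGroup k M) :
          M →ₗ[k] M) - 1 = nn π * nn ρ * nn π := nn_sqUnit _ hWW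
      rw [e1] at h3
      have h4 : Module.finrank k (LinearMap.range (nn π)) ≤
          Module.finrank k (LinearMap.range (nn π * nn ρ * nn π)) := h3
      omega

/-- **Key lemma**: a nilpotent pair has vanishing words of length three -/
theorem key (h2 : (2 : k) ≠ 0) {ρ π : LinearMap.GeneralLinearGroup k M}
    (hρ : ρ ∈ minimalQuadraticElements G) (hπ : π ∈ minimalQuadraticElements G) (r : ℕ)
    (h : (Zc (nn ρ) (nn π)) ^ r = 0) :
    nn π * nn ρ * nn π = 0 ∧ nn ρ * nn π * nn ρ = 0 := by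
  refine ⟨key_aux h2 r ρ π hρ hπ h, key_aux h2 r π ρ hπ hρ ?_⟩
  have : Zc (nn π) (nn ρ) = Zc (nn ρ) (nn π) := by unfold Zc; rw [add_comm]
  rw [this]; exact h

end key

end Cfsg.Agent.Lib.Helper83.QPKey
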