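import Mathlib
import Cfsg.Prelude.Def_RootSubgroups
import Cfsg.Agent.Lib.Helper83.RankOne

/-!
# A Baer-type theorem for unipotent linear groups

`main`: if `W` is a set of subgroups of `G ≤ GL(M)` (`M` finite-dimensional), invariant under
conjugation by `G`, any two members of which generate a unipotent subgroup, then the subgroup
generated by `W` is unipotent.

The proof uses nilpotent subalgebras of `End(M)` (submodules `s` with `s * s ≤ s`, `s ^ n = ⊥`).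
-/

set_option autoImplicit false

namespace Cfsg.Agent.Lib.Helper83.Unip

open Cfsg

variable {k : Type*} [Field k] {M : Type*} [AddCommGroup M] [Module k M]

/-- Unfolded form of `IsUnipotentOn` (the frozen definition coerces the list first). -/
theorem unip_iff (H : Subgroup (LinearMap.GeneralLinearGroup k M)) :
    IsUnipotentOn H ↔ ∃ n : ℕ, ∀ l : List (LinearMap.GeneralLinearGroup k M), (∀ g ∈ l, g ∈ H) →
      l.length = n →
      (l.map fun g : LinearMap.GeneralLinearGroup k M => (g : M →ₗ[k] M) - 1).prod = 0 := by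
  have e : ∀ l : List (LinearMap.GeneralLinearGroup k M),
      (List.map (fun g : M →ₗ[k] M => g - 1) (do let a ← l; pure (a : M →ₗ[k] M)))
        = l.map fun g : LinearMap.GeneralLinearGroup k M => (g : M →ₗ[k] M) - 1 := by
    intro l
    induction l with
    | nil => rfl
    | cons x l ih => simpa using ih
  unfold IsUnipotentOn
  simp only [e]

/-- The set of endomorphisms `g - 1`, `g ∈ U`. -/
def dset (U : Subgroup (LinearMap.GeneralLinearGroup k M)) : Set (M →ₗ[k] M) :=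
  (fun g : LinearMap.GeneralLinearGroup k M => (g : M →ₗ[k] M) - 1) '' (U : Set _)

theorem mem_dset {U : Subgroup (LinearMap.GeneralLinearGroup k M)}
    {g : LinearMap.GeneralLinearGroup k M} (hg : g ∈ U) : (g : M →ₗ[k] M) - 1 ∈ dset U :=
  ⟨g, hg, rfl⟩

theorem dset_mono {U U' : Subgroup (LinearMap.GeneralLinearGroup k M)} (h : U ≤ U') :
    dset U ⊆ dset U' := Set.image_mono h

/-- The linear span of `dset U`. -/
def salg (U : Subgroup (LinearMap.GeneralLinearGroup k M)) : Submodule k (M →ₗ[k] M) :=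
  Submodule.span k (dset U)

theorem dset_subset_salg (U : Subgroup (LinearMap.GeneralLinearGroup k M)) :
    dset U ⊆ salg U := Submodule.subset_span

/-- A nilpotent (non-unital) subalgebra of `End(M)`. -/
def NilAlg (s : Submodule k (M →ₗ[k] M)) : Prop := s * s ≤ s ∧ ∃ n : ℕ, s ^ n = ⊥

theorem nilAlg_bot : NilAlg (⊥ : Submodule k (M →ₗ[k] M)) :=
  ⟨by rw [Submodule.bot_mul], 1, pow_one _⟩

theorem nilAlg_salg {U : Subgroup (LinearMap.GeneralLinearGroup k M)} (h : IsUnipotentOn U) :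
    NilAlg (salg U) := by
  constructor
  · rw [salg, Submodule.span_mul_span, Submodule.span_le]
    rintro _ ⟨_, ⟨g, hg, rfl⟩, _, ⟨h', hh, rfl⟩, rfl⟩
    have e : ((g : M →ₗ[k] M) - 1) * ((h' : M →ₗ[k] M) - 1)
        = (((g * h' : LinearMap.GeneralLinearGroup k M) : M →ₗ[k] M) - 1) - ((g : M →ₗ[k] M) - 1)
          - ((h' : M →ₗ[k] M) - 1) := by
      rw [Units.val_mul]; noncomm_ring
    show ((g : M →ₗ[k] M) - 1) * ((h' : M →ₗ[k] M) - 1) ∈ Submodule.span k (dset U)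
    rw [e]
    exact Submodule.sub_mem _ (Submodule.sub_mem _
      (Submodule.subset_span (mem_dset (U.mul_mem hg hh)))
      (Submodule.subset_span (mem_dset hg))) (Submodule.subset_span (mem_dset hh))
  · obtain ⟨n, hn⟩ := (unip_iff U).mp h
    refine ⟨n, ?_⟩
    rw [salg, Submodule.span_pow, Submodule.span_eq_bot]
    intro x hx
    rw [Set.mem_pow] at hx
    obtain ⟨f, rfl⟩ := hx
    choose g hg hfg using fun i => (f i).2
    have h1 := hn (List.ofFn g) (by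
      intro x hx
      rw [List.mem_ofFn] at hx
      obtain ⟨i, rfl⟩ := hx
      exact hg i) (List.length_ofFn)
    rw [List.map_ofFn] at h1
    rw [← h1]
    congr 1
    congr 1
    funext i
    exact (hfg i).symm

/-- The group of units `g` with `g - 1`, `g⁻¹ - 1` in a multiplicatively closed submodule. -/
def unipGroup (s : Submodule k (M →ₗ[k] M)) (hs : s * s ≤ s) :
    Subgroup (LinearMap.GeneralLinearGroup k M) where
  carrier := {g | (g : M →ₗ[k] M) - 1 ∈ s ∧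
    ((g⁻¹ : LinearMap.GeneralLinearGroup k M) : M →ₗ[k] M) - 1 ∈ s}
  mul_mem' := by
    have key : ∀ g h : LinearMap.GeneralLinearGroup k M, (g : M →ₗ[k] M) - 1 ∈ s →
        (h : M →ₗ[k] M) - 1 ∈ s →
        ((g * h : LinearMap.GeneralLinearGroup k M) : M →ₗ[k] M) - 1 ∈ s := by
      intro g h hg hh
      have e : ((g * h : LinearMap.GeneralLinearGroup k M) : M →ₗ[k] M) - 1
          = ((g : M →ₗ[k] M) - 1) * ((h : M →ₗ[k] M) - 1) + ((g : M →ₗ[k] M) - 1)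
            + ((h : M →ₗ[k] M) - 1) := by
        rw [Units.val_mul]; noncomm_ring
      rw [e]
      exact s.add_mem (s.add_mem (hs (Submodule.mul_mem_mul hg hh)) hg) hh
    rintro g h ⟨hg, hg'⟩ ⟨hh, hh'⟩
    refine ⟨key g h hg hh, ?_⟩
    rw [mul_inv_rev]
    exact key _ _ hh' hg'
  one_mem' := by
    refine ⟨?_, ?_⟩
    · rw [Units.val_one, sub_self]; exact s.zero_mem
    · rw [inv_one, Units.val_one, sub_self]; exact s.zero_mem
  inv_mem' := by
    rintro g ⟨hg, hg'⟩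
    exact ⟨hg', by rwa [inv_inv]⟩

theorem list_prod_mem_pow (s : Submodule k (M →ₗ[k] M)) :
    ∀ l : List (M →ₗ[k] M), (∀ x ∈ l, x ∈ s) → l.prod ∈ s ^ l.length := by
  intro l
  induction l with
  | nil =>
    intro _
    rw [List.prod_nil, List.length_nil, pow_zero]
    exact Submodule.one_le.mp le_rfl
  | cons x l ih =>
    intro h
    rw [List.prod_cons, List.length_cons, pow_succ']
    exact Submodule.mul_mem_mul (h x List.mem_cons_self)
      (ih (fun y hy => h y (List.mem_cons_of_mem _ hy)))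

theorem isUnipotentOn_of_le {s : Submodule k (M →ₗ[k] M)} (hs : NilAlg s)
    {U : Subgroup (LinearMap.GeneralLinearGroup k M)} (hU : dset U ⊆ s) : IsUnipotentOn U := by
  obtain ⟨n, hn⟩ := hs.2
  rw [unip_iff]
  refine ⟨n, ?_⟩
  intro l hl hlen
  have h1 := list_prod_mem_pow s
    (l.map fun g : LinearMap.GeneralLinearGroup k M => (g : M →ₗ[k] M) - 1) (by
    intro x hx
    rw [List.mem_map] at hx
    obtain ⟨g, hg, rfl⟩ := hx
    exact hU (mem_dset (hl g hg)))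
  rw [List.length_map, hlen, hn] at h1
  exact (Submodule.mem_bot k).mp h1

section Fam

variable (W : Set (Subgroup (LinearMap.GeneralLinearGroup k M)))

/-- The members of `W` inside `1 + s`. -/
def X (s : Submodule k (M →ₗ[k] M)) : Set (Subgroup (LinearMap.GeneralLinearGroup k M)) :=
  {A | A ∈ W ∧ dset A ⊆ s}

/-- The subgroup generated by the members of `W` inside `1 + s`. -/
def gen (s : Submodule k (M →ₗ[k] M)) : Subgroup (LinearMap.GeneralLinearGroup k M) :=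
  ⨆ A ∈ X W s, A

/-- The subalgebra spanned by `gen W s`. -/
def core (s : Submodule k (M →ₗ[k] M)) : Submodule k (M →ₗ[k] M) := salg (gen W s)

variable {W}

theorem le_gen {s : Submodule k (M →ₗ[k] M)} {A : Subgroup (LinearMap.GeneralLinearGroup k M)}
    (hA : A ∈ X W s) : A ≤ gen W s := le_biSup (fun A => A) hA

theorem gen_le_unipGroup {s : Submodule k (M →ₗ[k] M)} (hs : s * s ≤ s) :
    gen W s ≤ unipGroup s hs :=
  iSup₂_le (fun A hA _ ha => ⟨hA.2 (mem_dset ha), hA.2 (mem_dset (A.inv_mem ha))⟩)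

theorem dset_gen_subset {s : Submodule k (M →ₗ[k] M)} (hs : s * s ≤ s) :
    dset (gen W s) ⊆ s := by
  rintro _ ⟨g, hg, rfl⟩
  exact (gen_le_unipGroup hs hg).1

theorem core_le {s : Submodule k (M →ₗ[k] M)} (hs : s * s ≤ s) : core W s ≤ s :=
  Submodule.span_le.mpr (dset_gen_subset hs)

theorem isUnipotentOn_gen {s : Submodule k (M →ₗ[k] M)} (hs : NilAlg s) :
    IsUnipotentOn (gen W s) := isUnipotentOn_of_le hs (dset_gen_subset hs.1)

theorem nilAlg_core {s : Submodule k (M →ₗ[k] M)} (hs : NilAlg s) : NilAlg (core W s) :=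
  nilAlg_salg (isUnipotentOn_gen hs)

theorem X_mono {s s' : Submodule k (M →ₗ[k] M)} (h : s ≤ s') : X W s ⊆ X W s' :=
  fun _ hA => ⟨hA.1, hA.2.trans h⟩

theorem gen_mono {s s' : Submodule k (M →ₗ[k] M)} (h : s ≤ s') : gen W s ≤ gen W s' :=
  iSup₂_le (fun _ hA => le_gen (X_mono h hA))

theorem core_mono {s s' : Submodule k (M →ₗ[k] M)} (h : s ≤ s') : core W s ≤ core W s' :=
  Submodule.span_mono (dset_mono (gen_mono h))

theorem X_core {s : Submodule k (M →ₗ[k] M)} (hs : s * s ≤ s) : X W (core W s) = X W s := by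
  ext A
  constructor
  · rintro ⟨hA, hd⟩
    exact ⟨hA, hd.trans (core_le hs)⟩
  · rintro ⟨hA, hd⟩
    exact ⟨hA, (dset_mono (le_gen ⟨hA, hd⟩)).trans (dset_subset_salg _)⟩

theorem core_core {s : Submodule k (M →ₗ[k] M)} (hs : s * s ≤ s) :
    core W (core W s) = core W s := by
  unfold core gen
  rw [show X W (salg (⨆ A ∈ X W s, A)) = X W s from X_core hs]

end Fam

section Alg

theorem mul_mono {u u' v v' : Submodule k (M →ₗ[k] M)} (h1 : u ≤ u') (h2 : v ≤ v') :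
    u * v ≤ u' * v' := mul_le_mul' h1 h2

theorem pow_mono (j : ℕ) {u v : Submodule k (M →ₗ[k] M)} (huv : u ≤ v) : u ^ j ≤ v ^ j := by
  induction j with
  | zero => rw [pow_zero, pow_zero]
  | succ j ih => rw [pow_succ, pow_succ]; exact mul_mono ih huv

/-- Powers of a multiplicatively closed submodule stay inside it. -/
theorem pow_succ_le {s : Submodule k (M →ₗ[k] M)} (hs : s * s ≤ s) (j : ℕ) : s ^ (j + 1) ≤ s := by
  induction j with
  | zero => rw [zero_add, pow_one]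
  | succ j ih =>
    rw [pow_succ]
    exact (mul_mono ih le_rfl).trans hs

/-- In a nilpotent algebra, a proper subalgebra is properly contained in its idealizer. -/
theorem exists_idealizer {s t : Submodule k (M →ₗ[k] M)} (hs : NilAlg s) (hts : t ≤ s)
    (hne : t ≠ s) : ∃ x ∈ s, x ∉ t ∧ ∀ y ∈ t, x * y ∈ t ∧ y * x ∈ t := by
  obtain ⟨n, hn⟩ := hs.2
  have hex : ∃ j, s ^ (j + 1) ≤ t := ⟨n, by rw [pow_succ, hn, Submodule.bot_mul]; exact bot_le⟩
  classical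
  have hspec := Nat.find_spec hex
  have hj0 : Nat.find hex ≠ 0 := by
    intro h0
    rw [h0, zero_add, pow_one] at hspec
    exact hne (le_antisymm hts hspec)
  obtain ⟨i, hi⟩ := Nat.exists_eq_succ_of_ne_zero hj0
  have hmin : ¬ s ^ (i + 1) ≤ t := Nat.find_min hex (by rw [hi]; exact Nat.lt_succ_self i)
  rw [hi] at hspec
  obtain ⟨x, hx, hxt⟩ := SetLike.not_le_iff_exists.mp hmin
  refine ⟨x, pow_succ_le hs.1 i hx, hxt, ?_⟩
  intro y hy
  constructor
  · apply hspec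
    rw [Nat.succ_eq_add_one, pow_succ]
    exact Submodule.mul_mem_mul hx (hts hy)
  · apply hspec
    rw [Nat.succ_eq_add_one, pow_succ']
    exact Submodule.mul_mem_mul (hts hy) hx

theorem sup_closed {t q : Submodule k (M →ₗ[k] M)} (htt : t * t ≤ t) (htq : t * q ≤ t)
    (hqt : q * t ≤ t) (hqq : q * q ≤ q) :
    (t ⊔ q) * (t ⊔ q) ≤ t ⊔ q ∧ ∀ j : ℕ, (t ⊔ q) ^ j ≤ t ⊔ q ^ j := by
  have hqpow : ∀ j : ℕ, q ^ j * t ≤ t := by
    intro j
    induction j with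
    | zero => rw [pow_zero, one_mul]
    | succ j ih =>
      rw [pow_succ, mul_assoc]
      exact (mul_mono le_rfl hqt).trans ih
  constructor
  · rw [Submodule.sup_mul, Submodule.mul_sup, Submodule.mul_sup]
    exact sup_le (sup_le (htt.trans le_sup_left) (htq.trans le_sup_left))
      (sup_le (hqt.trans le_sup_left) (hqq.trans le_sup_right))
  · intro j
    induction j with
    | zero => rw [pow_zero, pow_zero]; exact le_sup_right
    | succ j ih =>
      rw [pow_succ]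
      refine (mul_mono ih le_rfl).trans ?_
      rw [Submodule.sup_mul, Submodule.mul_sup, Submodule.mul_sup, ← pow_succ]
      exact sup_le (sup_le (htt.trans le_sup_left) (htq.trans le_sup_left))
        (sup_le ((hqpow j).trans le_sup_left) le_sup_right)

/-- Extension of a nilpotent algebra `d` by a nilpotent algebra `q` normalizing it. -/
theorem nilAlg_ext {d q : Submodule k (M →ₗ[k] M)} (hd : NilAlg d) (hq : NilAlg q)
    (hqd : q * d ≤ d ⊔ d * q) : NilAlg (d ⊔ d * q ⊔ q) := by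
  obtain ⟨hdd, a, ha⟩ := hd
  obtain ⟨hqq, b, hb⟩ := hq
  have hta : (d ⊔ d * q) * q ≤ d ⊔ d * q := by
    rw [Submodule.sup_mul, mul_assoc]
    exact sup_le le_sup_right ((mul_mono le_rfl hqq).trans le_sup_right)
  have htc : q * (d ⊔ d * q) ≤ d ⊔ d * q := by
    rw [Submodule.mul_sup, ← mul_assoc]
    exact sup_le hqd ((mul_mono hqd le_rfl).trans hta)
  have htb : ∀ j : ℕ, d ^ j * (d ⊔ d * q) ≤ d ^ (j + 1) ⊔ d ^ (j + 1) * q := by
    intro j
    rw [Submodule.mul_sup, ← mul_assoc, ← pow_succ]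
  have htd : (d ⊔ d * q) * (d ⊔ d * q) ≤ d ⊔ d * q := by
    have h1 : d * (d ⊔ d * q) ≤ d ⊔ d * q := by
      rw [Submodule.mul_sup, ← mul_assoc]
      exact sup_le (hdd.trans le_sup_left) ((mul_mono hdd le_rfl).trans le_sup_right)
    have h2 : (d ⊔ d * q) * (d ⊔ d * q) = d * (d ⊔ d * q) ⊔ d * (q * (d ⊔ d * q)) := by
      conv_lhs => rw [Submodule.sup_mul, mul_assoc]
    rw [h2]
    exact sup_le h1 ((mul_mono le_rfl htc).trans h1)
  have htpow : ∀ j : ℕ, (d ⊔ d * q) ^ j ≤ d ^ j ⊔ d ^ j * q := by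
    intro j
    induction j with
    | zero => rw [pow_zero, pow_zero]; exact le_sup_left
    | succ j ih =>
      rw [pow_succ]
      refine (mul_mono ih le_rfl).trans ?_
      rw [Submodule.sup_mul, mul_assoc]
      exact sup_le (htb j) ((mul_mono le_rfl htc).trans (htb j))
  obtain ⟨hRR, hRpow⟩ := sup_closed htd hta htc hqq
  refine ⟨hRR, b * a, ?_⟩
  have h1 : (d ⊔ d * q ⊔ q) ^ b ≤ d ⊔ d * q := by
    have := hRpow b
    rwa [hb, sup_bot_eq] at this
  have h2 : (d ⊔ d * q ⊔ q) ^ (b * a) ≤ (d ⊔ d * q) ^ a := by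
    rw [pow_mul]; exact pow_mono a h1
  have h3 := h2.trans (htpow a)
  rw [ha, Submodule.bot_mul, sup_bot_eq] at h3
  exact le_bot_iff.mp h3

end Alg

section Main

theorem nilAlg_inf {s₁ s₂ : Submodule k (M →ₗ[k] M)} (h1 : NilAlg s₁) (h2 : NilAlg s₂) :
    NilAlg (s₁ ⊓ s₂) := by
  refine ⟨le_inf ((mul_mono inf_le_left inf_le_left).trans h1.1)
    ((mul_mono inf_le_right inf_le_right).trans h2.1), ?_⟩
  obtain ⟨n, hn⟩ := h1.2
  exact ⟨n, le_bot_iff.mp (hn ▸ pow_mono n inf_le_left)⟩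

theorem conj_sub_one (a b : LinearMap.GeneralLinearGroup k M) :
    ((a * b * a⁻¹ : LinearMap.GeneralLinearGroup k M) : M →ₗ[k] M) - 1
      = (a : M →ₗ[k] M) * ((b : M →ₗ[k] M) - 1) *
        ((a⁻¹ : LinearMap.GeneralLinearGroup k M) : M →ₗ[k] M) := by
  rw [Units.val_mul, Units.val_mul, mul_sub, sub_mul, mul_one, Units.mul_inv]

variable [FiniteDimensional k M]
variable {G : Subgroup (LinearMap.GeneralLinearGroup k M)}
  {W : Set (Subgroup (LinearMap.GeneralLinearGroup k M))}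

/-- The normalizer step of the Baer argument. -/
theorem exists_normalizing (hWG : ∀ A ∈ W, A ≤ G) (hWconj : ∀ A ∈ W, ∀ g ∈ G, conjBy A g ∈ W)
    {d s : Submodule k (M →ₗ[k] M)} (hd : d * d ≤ d) (hdc : core W d = d) (hs : NilAlg s)
    (hds : d ≤ s) (hne : ∃ A ∈ X W s, A ∉ X W d) :
    ∃ A ∈ X W s, A ∉ X W d ∧ ∀ a ∈ A, ∀ x ∈ d,
      (a : M →ₗ[k] M) * x * ((a⁻¹ : LinearMap.GeneralLinearGroup k M) : M →ₗ[k] M) ∈ d := by
  let T : Set (Submodule k (M →ₗ[k] M)) := {t | d ≤ t ∧ t ≤ s ∧ t * t ≤ t ∧ X W t = X W d}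
  have hTne : T.Nonempty := ⟨d, le_rfl, hds, hd, rfl⟩
  obtain ⟨t, ⟨hdt, hts, htt, hXt⟩, hmax⟩ := wellFounded_gt.has_min T hTne
  have hts' : t ≠ s := by
    rintro rfl
    obtain ⟨A, hA, hA'⟩ := hne
    exact hA' (hXt ▸ hA)
  let J : Submodule k (M →ₗ[k] M) :=
    { carrier := {x | x ∈ s ∧ ∀ y ∈ t, x * y ∈ t ∧ y * x ∈ t}
      add_mem' := by
        rintro x x' ⟨hx, hx'⟩ ⟨hy, hy'⟩
        refine ⟨s.add_mem hx hy, fun y hyt => ⟨?_, ?_⟩⟩
        · rw [add_mul]; exact t.add_mem (hx' y hyt).1 (hy' y hyt).1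
        · rw [mul_add]; exact t.add_mem (hx' y hyt).2 (hy' y hyt).2
      zero_mem' := ⟨s.zero_mem, fun y _ => by rw [zero_mul, mul_zero]; exact ⟨t.zero_mem, t.zero_mem⟩⟩
      smul_mem' := by
        rintro c x ⟨hx, hx'⟩
        refine ⟨s.smul_mem c hx, fun y hyt => ⟨?_, ?_⟩⟩
        · rw [smul_mul_assoc]; exact t.smul_mem c (hx' y hyt).1
        · rw [mul_smul_comm]; exact t.smul_mem c (hx' y hyt).2 }
  have hJmem : ∀ x, x ∈ J ↔ (x ∈ s ∧ ∀ y ∈ t, x * y ∈ t ∧ y * x ∈ t) := fun x => Iff.rfl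
  have htJ : t ≤ J := fun x hx => (hJmem x).mpr ⟨hts hx, fun y hy =>
    ⟨htt (Submodule.mul_mem_mul hx hy), htt (Submodule.mul_mem_mul hy hx)⟩⟩
  have hJs : J ≤ s := fun x hx => ((hJmem x).mp hx).1
  have hJJ : J * J ≤ J := by
    rw [Submodule.mul_le]
    intro x hx x' hx'
    rw [hJmem] at hx hx' ⊢
    refine ⟨hs.1 (Submodule.mul_mem_mul hx.1 hx'.1), fun y hy => ⟨?_, ?_⟩⟩
    · rw [mul_assoc]; exact (hx.2 _ (hx'.2 y hy).1).1
    · rw [← mul_assoc]; exact (hx'.2 _ (hx.2 y hy).2).2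
  obtain ⟨x, hxs, hxt, hxn⟩ := exists_idealizer hs hts hts'
  have hxJ : x ∈ J := (hJmem x).mpr ⟨hxs, hxn⟩
  have hlt : t < J := lt_of_le_of_ne htJ (fun h => hxt (h ▸ hxJ))
  have hJT : J ∉ T := fun hJ => hmax J hJ hlt
  have hXJ : X W J ≠ X W d := fun h => hJT ⟨hdt.trans htJ, hJs, hJJ, h⟩
  have hsub : X W d ⊆ X W J := X_mono (hdt.trans htJ)
  obtain ⟨A, hAJ, hAd⟩ : ∃ A ∈ X W J, A ∉ X W d := by
    by_contra hcon
    push Not at hcon
    exact hXJ (Set.Subset.antisymm hcon hsub)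
  refine ⟨A, X_mono hJs hAJ, hAd, ?_⟩
  have hnt : ∀ a ∈ A, ∀ y ∈ t,
      (a : M →ₗ[k] M) * y * ((a⁻¹ : LinearMap.GeneralLinearGroup k M) : M →ₗ[k] M) ∈ t := by
    intro a ha y hy
    have h1 : (a : M →ₗ[k] M) - 1 ∈ J := hAJ.2 (mem_dset ha)
    have h2 : ((a⁻¹ : LinearMap.GeneralLinearGroup k M) : M →ₗ[k] M) - 1 ∈ J :=
      hAJ.2 (mem_dset (A.inv_mem ha))
    rw [hJmem] at h1 h2
    have e : (a : M →ₗ[k] M) * y * ((a⁻¹ : LinearMap.GeneralLinearGroup k M) : M →ₗ[k] M)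
        = (((a : M →ₗ[k] M) - 1) * y) *
            (((a⁻¹ : LinearMap.GeneralLinearGroup k M) : M →ₗ[k] M) - 1)
          + ((a : M →ₗ[k] M) - 1) * y
          + y * (((a⁻¹ : LinearMap.GeneralLinearGroup k M) : M →ₗ[k] M) - 1) + y := by
      noncomm_ring
    rw [e]
    have h3 := (h1.2 y hy).1
    exact t.add_mem (t.add_mem (t.add_mem (h2.2 _ h3).2 h3) (h2.2 y hy).2) hy
  have hperm : ∀ a ∈ A, ∀ B ∈ X W d, conjBy B a ∈ X W d := by
    intro a ha B hB
    rw [← hXt] at hB ⊢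
    refine ⟨hWconj B hB.1 a (hWG A hAJ.1 ha), ?_⟩
    rintro _ ⟨g, hg, rfl⟩
    obtain ⟨b, hb, rfl⟩ := hg
    have h1 : (((MulAut.conj a).toMonoidHom b : LinearMap.GeneralLinearGroup k M) : M →ₗ[k] M) - 1
        = (a : M →ₗ[k] M) * ((b : M →ₗ[k] M) - 1) *
          ((a⁻¹ : LinearMap.GeneralLinearGroup k M) : M →ₗ[k] M) := conj_sub_one a b
    show (((MulAut.conj a).toMonoidHom b : LinearMap.GeneralLinearGroup k M) : M →ₗ[k] M) - 1 ∈ t
    rw [h1]
    exact hnt a ha _ (hB.2 (mem_dset hb))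
  have hgen : ∀ a ∈ A, ∀ g ∈ gen W d, a * g * a⁻¹ ∈ gen W d := by
    intro a ha g hg
    have h1 : conjBy (gen W d) a ≤ gen W d := by
      unfold gen
      rw [conjBy, Subgroup.map_iSup]
      refine iSup_le (fun B => ?_)
      rw [Subgroup.map_iSup]
      exact iSup_le (fun hB => le_gen (hperm a ha B hB))
    exact h1 ⟨g, hg, rfl⟩
  intro a ha x hx
  rw [← hdc] at hx ⊢
  refine Submodule.span_induction (p := fun x _ => (a : M →ₗ[k] M) * x *
    ((a⁻¹ : LinearMap.GeneralLinearGroup k M) : M →ₗ[k] M) ∈ core W d) ?_ ?_ ?_ ?_ hx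
  · rintro _ ⟨g, hg, rfl⟩
    show (a : M →ₗ[k] M) * ((g : M →ₗ[k] M) - 1) *
      ((a⁻¹ : LinearMap.GeneralLinearGroup k M) : M →ₗ[k] M) ∈ core W d
    rw [← conj_sub_one]
    exact Submodule.subset_span (mem_dset (hgen a ha g hg))
  · rw [mul_zero, zero_mul]; exact Submodule.zero_mem _
  · intro x y _ _ hx hy
    rw [mul_add, add_mul]; exact Submodule.add_mem _ hx hy
  · intro c x _ hx
    rw [mul_smul_comm, smul_mul_assoc]; exact Submodule.smul_mem _ c hx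

/-- **Baer-type theorem for unipotent linear groups.** -/
theorem main (hWG : ∀ A ∈ W, A ≤ G) (hWW : ∀ A ∈ W, ∀ B ∈ W, IsUnipotentOn (A ⊔ B))
    (hWconj : ∀ A ∈ W, ∀ g ∈ G, conjBy A g ∈ W) : IsUnipotentOn (⨆ A ∈ W, A) := by
  let 𝒜 : Set (Submodule k (M →ₗ[k] M)) := {s | NilAlg s ∧ core W s = s}
  have hcoreA : ∀ s, NilAlg s → core W s ∈ 𝒜 := fun s hs => ⟨nilAlg_core hs, core_core hs.1⟩
  have hexmax : ∀ s ∈ 𝒜, ∃ s', (s' ∈ 𝒜 ∧ ∀ s'' ∈ 𝒜, s' ≤ s'' → s'' = s') ∧ s ≤ s' := by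
    intro s hs
    obtain ⟨s', ⟨hs'A, hss'⟩, hmax⟩ :=
      wellFounded_gt.has_min {s' | s' ∈ 𝒜 ∧ s ≤ s'} ⟨s, hs, le_rfl⟩
    refine ⟨s', ⟨hs'A, fun s'' hs'' hle => ?_⟩, hss'⟩
    by_contra hne
    exact hmax s'' ⟨hs'', hss'.trans hle⟩ (lt_of_le_of_ne hle (Ne.symm hne))
  have hle_of_X : ∀ s ∈ 𝒜, ∀ s' ∈ 𝒜, X W s ⊆ X W s' → s ≤ s' := by
    intro s hs s' hs' hX
    rw [← hs.2, ← hs'.2]
    exact Submodule.span_mono (dset_mono (iSup₂_le (fun A hA => le_gen (hX hA))))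
  have huniq : ∀ s₁ s₂, (s₁ ∈ 𝒜 ∧ ∀ s'' ∈ 𝒜, s₁ ≤ s'' → s'' = s₁) →
      (s₂ ∈ 𝒜 ∧ ∀ s'' ∈ 𝒜, s₂ ≤ s'' → s'' = s₂) → s₁ = s₂ := by
    by_contra hcon
    push Not at hcon
    let P : Set (Submodule k (M →ₗ[k] M)) := {d | ∃ s₁ s₂,
      (s₁ ∈ 𝒜 ∧ ∀ s'' ∈ 𝒜, s₁ ≤ s'' → s'' = s₁) ∧
      (s₂ ∈ 𝒜 ∧ ∀ s'' ∈ 𝒜, s₂ ≤ s'' → s'' = s₂) ∧ s₁ ≠ s₂ ∧ d = core W (s₁ ⊓ s₂)}
    have hPne : P.Nonempty := by
      obtain ⟨s₁, s₂, h1, h2, hne⟩ := hcon
      exact ⟨_, s₁, s₂, h1, h2, hne, rfl⟩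
    obtain ⟨d, ⟨s₁, s₂, hm1, hm2, hne, hd_def⟩, hmax⟩ := wellFounded_gt.has_min P hPne
    have hinf : NilAlg (s₁ ⊓ s₂) := nilAlg_inf hm1.1.1 hm2.1.1
    have hdA : d ∈ 𝒜 := hd_def ▸ hcoreA _ hinf
    have hXd : ∀ A, A ∈ X W d ↔ (A ∈ X W s₁ ∧ A ∈ X W s₂) := by
      intro A
      rw [hd_def, X_core hinf.1]
      constructor
      · rintro ⟨hA, hd⟩
        exact ⟨⟨hA, fun x hx => (hd hx).1⟩, ⟨hA, fun x hx => (hd hx).2⟩⟩
      · rintro ⟨⟨hA, h1⟩, ⟨-, h2⟩⟩
        exact ⟨hA, fun x hx => ⟨h1 hx, h2 hx⟩⟩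
    have hd1 : d ≤ s₁ := hd_def ▸ (core_le hinf.1).trans inf_le_left
    have hd2 : d ≤ s₂ := hd_def ▸ (core_le hinf.1).trans inf_le_right
    have hne1 : ∃ A ∈ X W s₁, A ∉ X W d := by
      by_contra h
      push Not at h
      have h1 : s₁ ≤ s₂ := hle_of_X s₁ hm1.1 s₂ hm2.1 (fun A hA => ((hXd A).mp (h A hA)).2)
      exact hne (hm1.2 s₂ hm2.1 h1).symm
    have hne2 : ∃ A ∈ X W s₂, A ∉ X W d := by
      by_contra h
      push Not at h
      have h1 : s₂ ≤ s₁ := hle_of_X s₂ hm2.1 s₁ hm1.1 (fun A hA => ((hXd A).mp (h A hA)).1)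
      exact hne (hm2.2 s₁ hm1.1 h1)
    obtain ⟨A₁, hA1, hA1d, hn1⟩ :=
      exists_normalizing hWG hWconj hdA.1.1 hdA.2 hm1.1.1 hd1 hne1
    obtain ⟨A₂, hA2, hA2d, hn2⟩ :=
      exists_normalizing hWG hWconj hdA.1.1 hdA.2 hm2.1.1 hd2 hne2
    have hQ : IsUnipotentOn (A₁ ⊔ A₂) := hWW A₁ hA1.1 A₂ hA2.1
    have hq : NilAlg (salg (A₁ ⊔ A₂)) := nilAlg_salg hQ
    have hnQ : ∀ g ∈ A₁ ⊔ A₂, ∀ x ∈ d,
        (g : M →ₗ[k] M) * x * ((g⁻¹ : LinearMap.GeneralLinearGroup k M) : M →ₗ[k] M) ∈ d := by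
      intro g hg
      refine Cfsg.Agent.Lib.Helper83.RankOne.sup_induction_gen
        (P := fun g : LinearMap.GeneralLinearGroup k M => ∀ x ∈ d,
          (g : M →ₗ[k] M) * x * ((g⁻¹ : LinearMap.GeneralLinearGroup k M) : M →ₗ[k] M) ∈ d)
        hn1 hn2 ?_ ?_ hg
      · intro x hx
        rw [inv_one, Units.val_one, one_mul, mul_one]; exact hx
      · intro g h hg hh x hx
        have h1 := hg _ (hh x hx)
        have e : ((g * h : LinearMap.GeneralLinearGroup k M) : M →ₗ[k] M) * x *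
            (((g * h)⁻¹ : LinearMap.GeneralLinearGroup k M) : M →ₗ[k] M)
            = (g : M →ₗ[k] M) * ((h : M →ₗ[k] M) * x *
              ((h⁻¹ : LinearMap.GeneralLinearGroup k M) : M →ₗ[k] M)) *
              ((g⁻¹ : LinearMap.GeneralLinearGroup k M) : M →ₗ[k] M) := by
          rw [mul_inv_rev, Units.val_mul, Units.val_mul]
          simp only [mul_assoc]
        rw [e]; exact h1
    have hqd : salg (A₁ ⊔ A₂) * d ≤ d ⊔ d * salg (A₁ ⊔ A₂) := by
      rw [Submodule.mul_le]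
      intro m hm x hx
      refine Submodule.span_induction (p := fun m _ => m * x ∈ d ⊔ d * salg (A₁ ⊔ A₂))
        ?_ ?_ ?_ ?_ hm
      · rintro _ ⟨g, hg, rfl⟩
        have h1 := hnQ g hg x hx
        have e : ((g : M →ₗ[k] M) - 1) * x
            = ((g : M →ₗ[k] M) * x *
                ((g⁻¹ : LinearMap.GeneralLinearGroup k M) : M →ₗ[k] M)) * ((g : M →ₗ[k] M) - 1)
              + ((g : M →ₗ[k] M) * x *
                ((g⁻¹ : LinearMap.GeneralLinearGroup k M) : M →ₗ[k] M) - x) := by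
          have h2 : ((g⁻¹ : LinearMap.GeneralLinearGroup k M) : M →ₗ[k] M) * (g : M →ₗ[k] M) = 1 :=
            Units.inv_mul g
          rw [mul_sub, mul_assoc ((g : M →ₗ[k] M) * x), h2]
          noncomm_ring
        show ((g : M →ₗ[k] M) - 1) * x ∈ d ⊔ d * salg (A₁ ⊔ A₂)
        rw [e]
        exact Submodule.add_mem _ (Submodule.mem_sup_right
          (Submodule.mul_mem_mul h1 (dset_subset_salg _ (mem_dset hg))))
          (Submodule.mem_sup_left (d.sub_mem h1 hx))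
      · rw [zero_mul]; exact Submodule.zero_mem _
      · intro m m' _ _ h h'
        rw [add_mul]; exact Submodule.add_mem _ h h'
      · intro c m _ h
        rw [smul_mul_assoc]; exact Submodule.smul_mem _ c h
    have hR : NilAlg (d ⊔ d * salg (A₁ ⊔ A₂) ⊔ salg (A₁ ⊔ A₂)) := nilAlg_ext hdA.1 hq hqd
    have hdR : d ≤ d ⊔ d * salg (A₁ ⊔ A₂) ⊔ salg (A₁ ⊔ A₂) := le_sup_left.trans le_sup_left
    have hqR : salg (A₁ ⊔ A₂) ≤ d ⊔ d * salg (A₁ ⊔ A₂) ⊔ salg (A₁ ⊔ A₂) := le_sup_right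
    obtain ⟨s₃, hm3, hr3⟩ := hexmax _ (hcoreA _ hR)
    have hd3 : d ≤ s₃ := by
      calc d = core W d := hdA.2.symm
        _ ≤ core W (d ⊔ d * salg (A₁ ⊔ A₂) ⊔ salg (A₁ ⊔ A₂)) := core_mono hdR
        _ ≤ s₃ := hr3
    have hA13 : A₁ ∈ X W s₃ := X_mono hr3 (by
      rw [X_core hR.1]
      exact ⟨hA1.1, (dset_mono le_sup_left).trans ((dset_subset_salg _).trans hqR)⟩)
    have hA23 : A₂ ∈ X W s₃ := X_mono hr3 (by
      rw [X_core hR.1]
      exact ⟨hA2.1, (dset_mono le_sup_right).trans ((dset_subset_salg _).trans hqR)⟩)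
    have key : ∀ s, (s ∈ 𝒜 ∧ ∀ s'' ∈ 𝒜, s ≤ s'' → s'' = s) → d ≤ s →
        (∃ A, A ∈ X W s ∧ A ∈ X W s₃ ∧ A ∉ X W d) → s₃ = s := by
      rintro s hm hds ⟨A, hAs, hA3, hAd⟩
      by_contra hne3
      have hinf' : NilAlg (s₃ ⊓ s) := nilAlg_inf hm3.1.1 hm.1.1
      have hP : core W (s₃ ⊓ s) ∈ P := ⟨s₃, s, hm3, hm, hne3, rfl⟩
      have hle : d ≤ core W (s₃ ⊓ s) := by
        calc d = core W d := hdA.2.symm
          _ ≤ core W (s₃ ⊓ s) := core_mono (le_inf hd3 hds)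
      have hAmem : A ∈ X W (core W (s₃ ⊓ s)) := by
        rw [X_core hinf'.1]
        exact ⟨hAs.1, fun x hx => ⟨hA3.2 hx, hAs.2 hx⟩⟩
      have hneq : d ≠ core W (s₃ ⊓ s) := fun h => hAd (h ▸ hAmem)
      exact hmax _ hP (lt_of_le_of_ne hle hneq)
    have e1 := key s₁ hm1 hd1 ⟨A₁, hA1, hA13, hA1d⟩
    have e2 := key s₂ hm2 hd2 ⟨A₂, hA2, hA23, hA2d⟩
    exact hne (e1.symm.trans e2)
  obtain ⟨s₀, hm0, -⟩ := hexmax _ (hcoreA ⊥ nilAlg_bot)
  have hall : ∀ A ∈ W, A ∈ X W s₀ := by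
    intro A hA
    have hAu : IsUnipotentOn A := by
      have := hWW A hA A hA
      rwa [sup_idem] at this
    have hsA := nilAlg_salg hAu
    obtain ⟨s', hm', hle⟩ := hexmax _ (hcoreA _ hsA)
    have h1 : A ∈ X W (core W (salg A)) := by
      rw [X_core hsA.1]; exact ⟨hA, dset_subset_salg A⟩
    rw [← huniq s' s₀ hm' hm0]
    exact X_mono hle h1
  exact isUnipotentOn_of_le hm0.1.1
    ((dset_mono (iSup₂_le fun A hA => le_gen (hall A hA))).trans (dset_gen_subset hm0.1.1.1))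

end Main

end Cfsg.Agent.Lib.Helper83.Unip
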