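import Mathlib
import Cfsg.Prelude.Def_RootSubgroups
import Cfsg.Agent.Lib.Helper83.RankOne
import Cfsg.Agent.Lib.Helper83.Unip
import Cfsg.Agent.Lib.Helper83.QPDepth
import Cfsg.Agent.Lib.Helper83.QPMain
import Cfsg.Agent.Lib.Helper83.QPRoot
import Cfsg.Agent.Lib.Helper83.QPKey
import Cfsg.Agent.Lib.Helper83.QPHyp

/-!
# Quadratic pairs: the dichotomy for `⟨E(σ), E(τ)⟩` (helper83)

Either `⟨E(σ), E(τ)⟩` is unipotent (words of length three in `E(σ) - 1`, `E(τ) - 1` vanish), or
`E(σ), E(τ)` form a special rank one pair, with central involution `-1` on `[M, X]`.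
-/

set_option autoImplicit false
set_option linter.unusedVariables false
set_option linter.unusedSectionVars false
set_option linter.unusedSimpArgs false
set_option linter.unnecessarySeqFocus false
set_option linter.unreachableTactic false
set_option linter.unusedTactic false
set_option linter.style.haveILetI false

namespace Cfsg.Agent.Lib.Helper83.QPPair

open Cfsg
open Cfsg.Agent.Lib.Helper83.RankOne
open Cfsg.Agent.Lib.Helper83.QPDepth Cfsg.Agent.Lib.Helper83.QPMain
open Cfsg.Agent.Lib.Helper83.QPRoot Cfsg.Agent.Lib.Helper83.QPKey Cfsg.Agent.Lib.Helper83.QPHyp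

universe u v

section ring
variable {R : Type*} [Ring R] (N P : R)

lemma W1 (hNN : N * N = 0) (h1 : N * P * N = N) :
    (1 + N) * (1 - P) * (1 + N) * N = -(P * N) := by
  have r1 : ∀ X : R, N * (N * X) = 0 := fun X => by rw [← mul_assoc, hNN, zero_mul]
  have r3 : N * (P * N) = N := by rw [← mul_assoc]; exact h1
  have r3' : ∀ X : R, N * (P * (N * X)) = N * X := fun X => by
    rw [← mul_assoc, ← mul_assoc, h1]
  simp only [mul_add, add_mul, mul_sub, sub_mul, mul_one, one_mul, mul_assoc, hNN, r1, r3,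
    r3', mul_zero, zero_mul, add_zero, zero_add, sub_zero, zero_sub, mul_neg, neg_mul,
    neg_zero, neg_neg]
  abel

lemma W2 (hNN : N * N = 0) (hPP : P * P = 0) (h2 : P * N * P = P) :
    P * ((1 + N) * (1 - P) * (1 + N)) = P * N := by
  have r1 : ∀ X : R, N * (N * X) = 0 := fun X => by rw [← mul_assoc, hNN, zero_mul]
  have r2 : ∀ X : R, P * (P * X) = 0 := fun X => by rw [← mul_assoc, hPP, zero_mul]
  have r4 : P * (N * P) = P := by rw [← mul_assoc]; exact h2
  have r4' : ∀ X : R, P * (N * (P * X)) = P * X := fun X => by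
    rw [← mul_assoc, ← mul_assoc, h2]
  simp only [mul_add, add_mul, mul_sub, sub_mul, mul_one, one_mul, mul_assoc, hNN, hPP, r1, r2,
    r4, r4', mul_zero, zero_mul, add_zero, zero_add, sub_zero, zero_sub, mul_neg, neg_mul,
    neg_zero, neg_neg]
  abel

lemma e_idem (hNN : N * N = 0) (hPP : P * P = 0) (h1 : N * P * N = N) (h2 : P * N * P = P) :
    (N * P + P * N) * (N * P + P * N) = N * P + P * N := by
  have : (N * P + P * N) * (N * P + P * N) =
      N * P * N * P + N * (P * P) * N + P * (N * N) * P + P * N * P * N := by noncomm_ring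
  rw [this, hNN, hPP, h1, h2]
  simp

lemma e_N (hNN : N * N = 0) (h1 : N * P * N = N) : (N * P + P * N) * N = N := by
  have : (N * P + P * N) * N = N * P * N + P * (N * N) := by noncomm_ring
  rw [this, hNN, h1, mul_zero, add_zero]

lemma N_e (hNN : N * N = 0) (h1 : N * P * N = N) : N * (N * P + P * N) = N := by
  have : N * (N * P + P * N) = N * N * P + N * P * N := by noncomm_ring
  rw [this, hNN, h1, zero_mul, zero_add]

lemma e_P (hPP : P * P = 0) (h2 : P * N * P = P) : (N * P + P * N) * P = P := by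
  have : (N * P + P * N) * P = N * (P * P) + P * N * P := by noncomm_ring
  rw [this, hPP, h2, mul_zero, zero_add]

lemma P_e (hPP : P * P = 0) (h2 : P * N * P = P) : P * (N * P + P * N) = P := by
  have : P * (N * P + P * N) = P * N * P + P * P * N := by noncomm_ring
  rw [this, hPP, h2, zero_mul, add_zero]

lemma W3 (hNN : N * N = 0) (hPP : P * P = 0) (h1 : N * P * N = N) (h2 : P * N * P = P) :
    ((1 + N) * (1 - P) * (1 + N)) * ((1 + N) * (1 - P) * (1 + N)) =
      1 - ((N * P + P * N) + (N * P + P * N)) := by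
  have r1 : ∀ X : R, N * (N * X) = 0 := fun X => by rw [← mul_assoc, hNN, zero_mul]
  have r2 : ∀ X : R, P * (P * X) = 0 := fun X => by rw [← mul_assoc, hPP, zero_mul]
  have r3 : N * (P * N) = N := by rw [← mul_assoc]; exact h1
  have r3' : ∀ X : R, N * (P * (N * X)) = N * X := fun X => by
    rw [← mul_assoc, ← mul_assoc, h1]
  have r4 : P * (N * P) = P := by rw [← mul_assoc]; exact h2
  have r4' : ∀ X : R, P * (N * (P * X)) = P * X := fun X => by
    rw [← mul_assoc, ← mul_assoc, h2]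
  simp only [mul_add, add_mul, mul_sub, sub_mul, mul_one, one_mul, mul_assoc, hNN, hPP, r1, r2, r3,
    r3', r4, r4', mul_zero, zero_mul, add_zero, zero_add, sub_zero, zero_sub, mul_neg, neg_mul,
    neg_zero, neg_neg]
  abel

lemma W4 (hNN : N * N = 0) (hPP : P * P = 0) (h1 : N * P * N = N) (h2 : P * N * P = P) :
    (1 - P) * (1 + N) * (1 + P) = (1 - N) * (1 - P) * (1 + N) := by
  have r1 : ∀ X : R, N * (N * X) = 0 := fun X => by rw [← mul_assoc, hNN, zero_mul]
  have r2 : ∀ X : R, P * (P * X) = 0 := fun X => by rw [← mul_assoc, hPP, zero_mul]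
  have r3 : N * (P * N) = N := by rw [← mul_assoc]; exact h1
  have r3' : ∀ X : R, N * (P * (N * X)) = N * X := fun X => by
    rw [← mul_assoc, ← mul_assoc, h1]
  have r4 : P * (N * P) = P := by rw [← mul_assoc]; exact h2
  have r4' : ∀ X : R, P * (N * (P * X)) = P * X := fun X => by
    rw [← mul_assoc, ← mul_assoc, h2]
  simp only [mul_add, add_mul, mul_sub, sub_mul, mul_one, one_mul, mul_assoc, hNN, hPP, r1, r2, r3,
    r3', r4, r4', mul_zero, zero_mul, add_zero, zero_add, sub_zero, zero_sub, mul_neg, neg_mul,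
    neg_zero, neg_neg]
  abel

lemma W5 (hNN : N * N = 0) : (1 + N) * (1 - P) * N = N - P * N - N * P * N := by
  have : (1 + N) * (1 - P) * N = N - P * N - N * P * N + N * N := by noncomm_ring
  rw [this, hNN, add_zero]

end ring

section spaces
variable {k : Type v} [Field k] {M : Type u} [AddCommGroup M] [Module k M]
  [FiniteDimensional k M]
variable {G : Subgroup (LinearMap.GeneralLinearGroup k M)}

/-- the hyperbolic condition on the spaces -/
def Hyp (σ τ : LinearMap.GeneralLinearGroup k M) : Prop :=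
  LinearMap.range (nn σ) ⊓ LinearMap.ker (nn τ) = ⊥ ∧
    LinearMap.range (nn τ) ⊓ LinearMap.ker (nn σ) = ⊥

lemma Hyp_symm {σ τ : LinearMap.GeneralLinearGroup k M} (h : Hyp σ τ) : Hyp τ σ := ⟨h.2, h.1⟩

lemma Hyp_congr {σ τ ρ π : LinearMap.GeneralLinearGroup k M} (hρ : ρ ∈ sameActionClass G σ)
    (hπ : π ∈ sameActionClass G τ) : Hyp ρ π ↔ Hyp σ τ := by
  unfold Hyp
  have h1 : LinearMap.range (nn ρ) = LinearMap.range (nn σ) := hρ.2.2
  have h2 : LinearMap.ker (nn ρ) = LinearMap.ker (nn σ) := hρ.2.1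
  have h3 : LinearMap.range (nn π) = LinearMap.range (nn τ) := hπ.2.2
  have h4 : LinearMap.ker (nn π) = LinearMap.ker (nn τ) := hπ.2.1
  rw [h1, h2, h3, h4]

lemma Z_pow_ne_zero {σ τ : LinearMap.GeneralLinearGroup k M}
    (hσ : σ ∈ minimalQuadraticElements G) (hτ : τ ∈ minimalQuadraticElements G) (h : Hyp σ τ)
    (r : ℕ) : (Zc (nn σ) (nn τ)) ^ r ≠ 0 := by
  have hNN : nn σ * nn σ = 0 := hσ.1.2.1.1
  have hN0 : nn σ ≠ 0 := hσ.1.2.1.2
  have hZ : ∀ v ∈ LinearMap.range (nn σ), Zc (nn σ) (nn τ) v ∈ LinearMap.range (nn σ) ∧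
      (Zc (nn σ) (nn τ) v = 0 → v = 0) := by
    intro v hv
    have hv0 : nn σ v = 0 := range_le_ker _ hNN hv
    have e : Zc (nn σ) (nn τ) v = nn σ (nn τ v) := by
      unfold Zc
      rw [LinearMap.add_apply, Module.End.mul_apply, Module.End.mul_apply, hv0, map_zero, add_zero]
    rw [e]
    refine ⟨⟨_, rfl⟩, fun h0 => ?_⟩
    have h1 : nn τ v ∈ LinearMap.range (nn τ) ⊓ LinearMap.ker (nn σ) := ⟨⟨v, rfl⟩, h0⟩
    rw [h.2] at h1
    have h2 : v ∈ LinearMap.range (nn σ) ⊓ LinearMap.ker (nn τ) :=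
      ⟨hv, (Submodule.mem_bot k).1 h1⟩
    rw [h.1] at h2
    exact (Submodule.mem_bot k).1 h2
  have hpow : ∀ r : ℕ, ∀ v ∈ LinearMap.range (nn σ), (Zc (nn σ) (nn τ) ^ r) v = 0 → v = 0 := by
    intro r
    induction r with
    | zero => intro v _ h0; simpa using h0
    | succ r ih =>
      intro v hv h0
      rw [pow_succ, Module.End.mul_apply] at h0
      exact (hZ v hv).2 (ih _ (hZ v hv).1 h0)
  intro h0
  apply hN0
  apply LinearMap.ext
  intro m
  apply hpow r _ ⟨m, rfl⟩
  rw [h0]; rfl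

lemma Hyp_of_P (N P : Module.End k M) (h1 : N * P * N = N) (h2 : P * N * P = P) :
    LinearMap.range N ⊓ LinearMap.ker P = ⊥ ∧ LinearMap.range P ⊓ LinearMap.ker N = ⊥ := by
  constructor
  · rw [eq_bot_iff]
    rintro _ ⟨⟨w, rfl⟩, hv⟩
    have hv' : P (N w) = 0 := hv
    have : N w = N (P (N w)) := (LinearMap.congr_fun h1 w).symm
    rw [Submodule.mem_bot, this, hv', map_zero]
  · rw [eq_bot_iff]
    rintro _ ⟨⟨w, rfl⟩, hv⟩
    have hv' : N (P w) = 0 := hv
    have : P w = P (N (P w)) := (LinearMap.congr_fun h2 w).symm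
    rw [Submodule.mem_bot, this, hv', map_zero]

lemma partner (h2 : (2 : k) ≠ 0) (h3 : Nat.card k ≠ 3) {σ τ ρ : LinearMap.GeneralLinearGroup k M}
    (hσ : σ ∈ minimalQuadraticElements G) (hτ : τ ∈ minimalQuadraticElements G) (hH : Hyp σ τ)
    (hρ : ρ ∈ sameActionClass G σ) :
    ∃ (P : Module.End k M) (hPP : P * P = 0), sqUnit P hPP ∈ sameActionClass G τ ∧
      nn ρ * P * nn ρ = nn ρ ∧ P * nn ρ * P = P := by
  have hH' : Hyp ρ τ := (Hyp_congr hρ (self_mem_class hτ)).2 hH
  exact hyp_P h2 h3 hρ.1 hτ (Z_pow_ne_zero hρ.1 hτ hH')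

lemma nilp_of_not_hyp (h2 : (2 : k) ≠ 0) (h3 : Nat.card k ≠ 3)
    {σ τ ρ π : LinearMap.GeneralLinearGroup k M} (hH : ¬ Hyp σ τ)
    (hρ : ρ ∈ sameActionClass G σ) (hπ : π ∈ sameActionClass G τ) :
    ∃ r : ℕ, (Zc (nn ρ) (nn π)) ^ r = 0 := by
  by_contra hno
  push Not at hno
  obtain ⟨P, hPP, hPc, e1, e2⟩ := hyp_P h2 h3 hρ.1 hπ.1 hno
  apply hH
  have hs := Hyp_of_P (nn ρ) P e1 e2
  have e : nn (sqUnit P hPP) = P := nn_sqUnit P hPP
  have hPr : LinearMap.range P = LinearMap.range (nn π) := by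
    have := hPc.2.2
    rw [← e]; exact this
  have hPk : LinearMap.ker P = LinearMap.ker (nn π) := by
    have := hPc.2.1
    rw [← e]; exact this
  rw [hPr, hPk] at hs
  exact (Hyp_congr hρ hπ).1 hs

/-- acting trivially on the factors of a flag `M ≥ F1 ≥ F2 ≥ 0` -/
def FlagP (F1 F2 : Submodule k M) (g : LinearMap.GeneralLinearGroup k M) : Prop :=
  (∀ m, nn g m ∈ F1) ∧ (∀ m ∈ F1, nn g m ∈ F2) ∧ (∀ m ∈ F2, nn g m = 0)

lemma FlagP_one (F1 F2 : Submodule k M) : FlagP F1 F2 1 := by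
  refine ⟨fun m => ?_, fun m hm => ?_, fun m hm => ?_⟩
  · rw [nn_one]; exact zero_mem _
  · rw [nn_one]; exact zero_mem _
  · rw [nn_one]; rfl

lemma FlagP_mul {F1 F2 : Submodule k M} {g h : LinearMap.GeneralLinearGroup k M}
    (hg : FlagP F1 F2 g) (hh : FlagP F1 F2 h) : FlagP F1 F2 (g * h) := by
  refine ⟨fun m => ?_, fun m hm => ?_, fun m hm => ?_⟩
  · rw [nn_mul]
    simp only [LinearMap.add_apply, Module.End.mul_apply]
    exact add_mem (add_mem (hg.1 m) (hh.1 m)) (hg.1 _)
  · rw [nn_mul]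
    simp only [LinearMap.add_apply, Module.End.mul_apply]
    rw [hg.2.2 _ (hh.2.1 m hm), add_zero]
    exact add_mem (hg.2.1 m hm) (hh.2.1 m hm)
  · rw [nn_mul]
    simp only [LinearMap.add_apply, Module.End.mul_apply]
    rw [hh.2.2 m hm, hg.2.2 m hm, map_zero, add_zero, add_zero]

lemma prod3 {F1 F2 : Submodule k M} {g₁ g₂ g₃ : LinearMap.GeneralLinearGroup k M}
    (h1 : FlagP F1 F2 g₁) (h2 : FlagP F1 F2 g₂) (h3 : FlagP F1 F2 g₃) :
    nn g₁ * nn g₂ * nn g₃ = 0 := by
  apply LinearMap.ext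
  intro m
  rw [Module.End.mul_apply, Module.End.mul_apply]
  exact h1.2.2 _ (h2.2.1 _ (h3.1 m))

/-- in the non-hyperbolic case, all words of length three vanish -/
lemma key_E (h2 : (2 : k) ≠ 0) (h3 : Nat.card k ≠ 3) {σ τ : LinearMap.GeneralLinearGroup k M}
    (hσ : σ ∈ minimalQuadraticElements G) (hτ : τ ∈ minimalQuadraticElements G)
    (hH : ¬ Hyp σ τ) :
    ∀ g ∈ sameActionSubgroup G σ, ∀ h ∈ sameActionSubgroup G τ,
      nn h * nn g * nn h = 0 ∧ nn g * nn h * nn g = 0 := by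
  intro g hg h hh
  rcases (mem_E_iff hσ g).1 hg with rfl | hgc
  · rw [nn_one]; simp
  · rcases (mem_E_iff hτ h).1 hh with rfl | hhc
    · rw [nn_one]; simp
    · obtain ⟨r, hr⟩ := nilp_of_not_hyp h2 h3 hH hgc hhc
      exact key h2 hgc.1 hhc.1 r hr

lemma flag_left {σ τ : LinearMap.GeneralLinearGroup k M}
    (hσ : σ ∈ minimalQuadraticElements G) (hτ : τ ∈ minimalQuadraticElements G)
    (hkey : ∀ g ∈ sameActionSubgroup G σ, nn τ * nn g * nn τ = 0) :
    ∀ g ∈ sameActionSubgroup G σ,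
      FlagP (LinearMap.range (nn σ) ⊔ LinearMap.range (nn τ))
        ((LinearMap.range (nn σ) ⊓ LinearMap.ker (nn τ)) ⊔
          (LinearMap.range (nn τ) ⊓ LinearMap.ker (nn σ))) g := by
  intro g hg
  refine ⟨fun m => ?_, fun m hm => ?_, fun m hm => ?_⟩
  · exact Submodule.mem_sup_left (E_range_le hσ hg ⟨m, rfl⟩)
  · obtain ⟨v₁, hv₁, v₂, hv₂, rfl⟩ := Submodule.mem_sup.1 hm
    have z1 : nn g v₁ = 0 := E_le_ker hσ hg (range_le_ker _ hσ.1.2.1.1 hv₁)
    rw [map_add, z1, zero_add]
    apply Submodule.mem_sup_left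
    refine ⟨E_range_le hσ hg ⟨v₂, rfl⟩, ?_⟩
    obtain ⟨w, rfl⟩ := hv₂
    exact LinearMap.congr_fun (hkey g hg) w
  · obtain ⟨u, hu, u', hu', rfl⟩ := Submodule.mem_sup.1 hm
    have z1 : nn g u = 0 := E_le_ker hσ hg (range_le_ker _ hσ.1.2.1.1 hu.1)
    have z2 : nn g u' = 0 := E_le_ker hσ hg hu'.2
    rw [map_add, z1, z2, add_zero]

/-- the unipotent alternative -/
theorem unip_of_not_hyp (h2 : (2 : k) ≠ 0) (h3 : Nat.card k ≠ 3)
    {σ τ : LinearMap.GeneralLinearGroup k M}
    (hσ : σ ∈ minimalQuadraticElements G) (hτ : τ ∈ minimalQuadraticElements G)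
    (hH : ¬ Hyp σ τ) :
    IsUnipotentOn (sameActionSubgroup G σ ⊔ sameActionSubgroup G τ) := by
  have hkey := key_E h2 h3 hσ hτ hH
  have hA := flag_left hσ hτ (fun g hg => (hkey g hg τ (self_mem_E hτ)).1)
  have hB := flag_left hτ hσ (fun h hh => (hkey σ (self_mem_E hσ) h hh).2)
  rw [sup_comm (LinearMap.range (nn τ)) (LinearMap.range (nn σ)),
    sup_comm (LinearMap.range (nn τ) ⊓ LinearMap.ker (nn σ))] at hB
  have hX : ∀ x ∈ sameActionSubgroup G σ ⊔ sameActionSubgroup G τ,
      FlagP (LinearMap.range (nn σ) ⊔ LinearMap.range (nn τ))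
        ((LinearMap.range (nn σ) ⊓ LinearMap.ker (nn τ)) ⊔
          (LinearMap.range (nn τ) ⊓ LinearMap.ker (nn σ))) x := by
    intro x hx
    exact sup_induction_gen hA hB (FlagP_one _ _) (fun _ _ => FlagP_mul) hx
  rw [Cfsg.Agent.Lib.Helper83.Unip.unip_iff]
  refine ⟨3, fun l hl hlen => ?_⟩
  obtain ⟨a, b, c, rfl⟩ := List.length_eq_three.1 hlen
  simp only [List.map_cons, List.map_nil, List.prod_cons, List.prod_nil, mul_one]
  have := prod3 (hX a (hl a (by simp))) (hX b (hl b (by simp))) (hX c (hl c (by simp)))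
  rw [← mul_assoc]
  exact this

end spaces

section hyp
variable {k : Type v} [Field k] {M : Type u} [AddCommGroup M] [Module k M]
  [FiniteDimensional k M]
variable {G : Subgroup (LinearMap.GeneralLinearGroup k M)}

lemma E_nilpotent {σ : LinearMap.GeneralLinearGroup k M} (hσ : σ ∈ minimalQuadraticElements G) :
    Group.IsNilpotent ↥(sameActionSubgroup G σ) := by
  letI : CommGroup ↥(sameActionSubgroup G σ) :=
    { (inferInstance : Group ↥(sameActionSubgroup G σ)) with
      mul_comm := fun a b => Subtype.ext (E_comm hσ a.2 b.2) }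
  exact CommGroup.isNilpotent

lemma class_ne_one {σ g : LinearMap.GeneralLinearGroup k M} (hg : g ∈ sameActionClass G σ) :
    g ≠ 1 := by
  intro h
  apply hg.1.1.2.1.2
  show nn g = 0
  rw [h, nn_one]

lemma class_P {τ : LinearMap.GeneralLinearGroup k M} {P : Module.End k M} {hPP : P * P = 0}
    (hPc : sqUnit P hPP ∈ sameActionClass G τ) :
    LinearMap.range P = LinearMap.range (nn τ) ∧ LinearMap.ker P = LinearMap.ker (nn τ) := by
  have e : nn (sqUnit P hPP) = P := nn_sqUnit P hPP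
  constructor
  · have := hPc.2.2
    rw [← e]; exact this
  · have := hPc.2.1
    rw [← e]; exact this

lemma E_ne {σ τ : LinearMap.GeneralLinearGroup k M}
    (hσ : σ ∈ minimalQuadraticElements G) (hτ : τ ∈ minimalQuadraticElements G) (hH : Hyp σ τ) :
    sameActionSubgroup G σ ≠ sameActionSubgroup G τ := by
  intro h
  have hτE : τ ∈ sameActionSubgroup G σ := by rw [h]; exact self_mem_E hτ
  have hτc := E_class_of_ne hσ hτE (class_ne_one (self_mem_class hτ))
  have hr : LinearMap.range (nn τ) = LinearMap.range (nn σ) := hτc.2.2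
  have h1 : LinearMap.range (nn σ) ≤ LinearMap.range (nn τ) ⊓ LinearMap.ker (nn σ) :=
    le_inf (le_of_eq hr.symm) (range_le_ker _ hσ.1.2.1.1)
  rw [hH.2] at h1
  apply hσ.1.2.1.2
  exact LinearMap.range_eq_bot.1 (le_bot_iff.1 h1)

lemma E_eq_of_le' {σ τ : LinearMap.GeneralLinearGroup k M}
    (hσ : σ ∈ minimalQuadraticElements G) (hτ : τ ∈ minimalQuadraticElements G)
    (hr : LinearMap.range (nn σ) ≤ LinearMap.range (nn τ))
    (hk : LinearMap.ker (nn σ) ≤ LinearMap.ker (nn τ)) :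
    sameActionSubgroup G σ = sameActionSubgroup G τ := by
  have hd : Module.finrank k (LinearMap.range (nn τ)) ≤ Module.finrank k (LinearMap.range (nn σ)) :=
    hτ.2 σ hσ.1
  have hreq : LinearMap.range (nn σ) = LinearMap.range (nn τ) :=
    Submodule.eq_of_le_of_finrank_le hr hd
  have hkeq : LinearMap.ker (nn σ) = LinearMap.ker (nn τ) := by
    apply Submodule.eq_of_le_of_finrank_le hk
    have h1 := LinearMap.finrank_range_add_finrank_ker (nn σ)
    have h2 := LinearMap.finrank_range_add_finrank_ker (nn τ)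
    rw [hreq] at h1
    omega
  exact class_congr ⟨hσ, hkeq, hreq⟩

lemma rank_one_cond (h2 : (2 : k) ≠ 0) (h3 : Nat.card k ≠ 3)
    {σ τ : LinearMap.GeneralLinearGroup k M}
    (hσ : σ ∈ minimalQuadraticElements G) (hτ : τ ∈ minimalQuadraticElements G) (hH : Hyp σ τ) :
    RankOneCondition (sameActionSubgroup G σ) (sameActionSubgroup G τ) := by
  intro a ha ha1
  have hac := E_class_of_ne hσ ha ha1
  obtain ⟨P, hPP, hPc, e1, e2⟩ := partner h2 h3 hσ hτ hH hac
  have hNN : nn a * nn a = 0 := hac.1.1.2.1.1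
  obtain ⟨ePr, ePk⟩ := class_P hPc
  refine ⟨sqUnit P hPP, Subgroup.subset_closure hPc, class_ne_one hPc, ?_⟩
  have haG : a ∈ G := hac.1.1.1
  have hbG : sqUnit P hPP ∈ G := hPc.1.1.1
  have hgG : a * (sqUnit P hPP)⁻¹ * a ∈ G := G.mul_mem (G.mul_mem haG (G.inv_mem hbG)) haG
  have hgval : ((a * (sqUnit P hPP)⁻¹ * a : LinearMap.GeneralLinearGroup k M) : Module.End k M) =
      (1 + nn a) * (1 - P) * (1 + nn a) := by
    rw [Units.val_mul, Units.val_mul, val_eq a]; rfl
  have hρ' : (a * (sqUnit P hPP)⁻¹ * a) * a * (a * (sqUnit P hPP)⁻¹ * a)⁻¹ ∈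
      minimalQuadraticElements G := conj_mq hgG hac.1
  have hE : sameActionSubgroup G ((a * (sqUnit P hPP)⁻¹ * a) * a * (a * (sqUnit P hPP)⁻¹ * a)⁻¹) =
      sameActionSubgroup G τ := by
    apply E_eq_of_le' hρ' hτ
    · rw [range_nn_conj, ← ePr, hgval]
      rintro _ ⟨_, ⟨m, rfl⟩, rfl⟩
      have := LinearMap.congr_fun (W1 (nn a) P hNN e1) m
      refine ⟨-(nn a m), ?_⟩
      rw [map_neg]
      exact this.symm
    · rw [ker_nn_conj, ← ePk, hgval]
      rintro _ ⟨m, hm, rfl⟩
      have hm' : nn a m = 0 := hm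
      have := LinearMap.congr_fun (W2 (nn a) P hNN hPP e2) m
      rw [LinearMap.mem_ker]
      have h4 : P (((1 + nn a) * (1 - P) * (1 + nn a)) m) = P (nn a m) := this
      rw [h4, hm', map_zero]
  have h1 := conj_E a hgG
  rw [class_congr hac, hE] at h1
  have h2' : conjBy (conjBy (conjBy (sameActionSubgroup G σ) a) (sqUnit P hPP)⁻¹) a =
      sameActionSubgroup G τ := by
    rw [conjBy_conjBy, conjBy_conjBy]; exact h1
  rw [conjBy_of_mem ha] at h2'
  exact conjBy_eq_iff.1 h2'

lemma special_half {σ τ a b : LinearMap.GeneralLinearGroup k M}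
    (hσ : σ ∈ minimalQuadraticElements G) (hτ : τ ∈ minimalQuadraticElements G)
    (hVV : LinearMap.range (nn σ) ⊓ LinearMap.range (nn τ) = ⊥)
    (ha : a ∈ sameActionSubgroup G σ) (hb : b ∈ sameActionSubgroup G τ)
    (hmem : a * (b⁻¹ * a * b) * a⁻¹ ∈ sameActionSubgroup G τ) :
    nn a * nn b * nn a = nn a := by
  have hNN := E_sq hσ ha
  have hQQ := E_sq hτ hb
  have e : a * (b⁻¹ * a * b) * a⁻¹ = (a * b⁻¹) * a * (a * b⁻¹)⁻¹ := by group
  rw [e] at hmem
  have hr := E_range_le hτ hmem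
  rw [range_nn_conj] at hr
  apply LinearMap.ext
  intro m
  have hx : ((a * b⁻¹ : LinearMap.GeneralLinearGroup k M) : Module.End k M) (nn a m) ∈
      LinearMap.range (nn τ) := hr ⟨_, ⟨m, rfl⟩, rfl⟩
  have hval : ((a * b⁻¹ : LinearMap.GeneralLinearGroup k M) : Module.End k M) =
      (1 + nn a) * (1 - nn b) := by
    rw [Units.val_mul, val_eq a, val_eq b⁻¹, nn_inv b hQQ, sub_eq_add_neg]
  have h5 := LinearMap.congr_fun (W5 (nn a) (nn b) hNN) m
  rw [hval] at hx
  have hx' : (nn a - nn b * nn a - nn a * nn b * nn a) m ∈ LinearMap.range (nn τ) := by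
    rw [← h5]; exact hx
  have h6 : nn a m - (nn a * nn b * nn a) m ∈ LinearMap.range (nn τ) := by
    have hq : nn b (nn a m) ∈ LinearMap.range (nn τ) := E_range_le hτ hb ⟨_, rfl⟩
    have := add_mem hx' hq
    convert this using 1
    simp only [LinearMap.sub_apply, Module.End.mul_apply]
    abel
  have h7 : nn a m - (nn a * nn b * nn a) m ∈ LinearMap.range (nn σ) := by
    apply sub_mem
    · exact E_range_le hσ ha ⟨m, rfl⟩
    · exact E_range_le hσ ha ⟨_, rfl⟩
  have h8 : nn a m - (nn a * nn b * nn a) m ∈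
      LinearMap.range (nn σ) ⊓ LinearMap.range (nn τ) := ⟨h7, h6⟩
  rw [hVV] at h8
  exact (sub_eq_zero.1 ((Submodule.mem_bot k).1 h8)).symm

lemma special {σ τ : LinearMap.GeneralLinearGroup k M}
    (hσ : σ ∈ minimalQuadraticElements G) (hτ : τ ∈ minimalQuadraticElements G) (hH : Hyp σ τ) :
    ∀ a ∈ sameActionSubgroup G σ, a ≠ 1 → ∀ b ∈ sameActionSubgroup G τ, b ≠ 1 →
      conjBy (sameActionSubgroup G σ) b⁻¹ = conjBy (sameActionSubgroup G τ) a⁻¹ →
      b⁻¹ * a * b = a⁻¹ * b⁻¹ * a := by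
  intro a ha ha1 b hb hb1 hc
  have hVV : LinearMap.range (nn σ) ⊓ LinearMap.range (nn τ) = ⊥ := by
    rw [eq_bot_iff, ← hH.1]
    exact inf_le_inf_left _ (range_le_ker _ hτ.1.2.1.1)
  have hVV' : LinearMap.range (nn τ) ⊓ LinearMap.range (nn σ) = ⊥ := by
    rw [inf_comm]; exact hVV
  have m1 : a * (b⁻¹ * a * b) * a⁻¹ ∈ sameActionSubgroup G τ := by
    have h1 : b⁻¹ * a * b ∈ conjBy (sameActionSubgroup G σ) b⁻¹ := by
      have := conj_mem_conjBy ha b⁻¹
      rwa [inv_inv] at this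
    rw [hc, mem_conjBy, inv_inv] at h1
    exact h1
  have m2 : b * (a⁻¹ * b * a) * b⁻¹ ∈ sameActionSubgroup G σ := by
    have h1 : a⁻¹ * b * a ∈ conjBy (sameActionSubgroup G τ) a⁻¹ := by
      have := conj_mem_conjBy hb a⁻¹
      rwa [inv_inv] at this
    rw [← hc, mem_conjBy, inv_inv] at h1
    exact h1
  have e1 := special_half hσ hτ hVV ha hb m1
  have e2 := special_half hτ hσ hVV' hb ha m2
  have hNN := E_sq hσ ha
  have hQQ := E_sq hτ hb
  apply Units.ext
  rw [Units.val_mul, Units.val_mul, Units.val_mul, Units.val_mul, val_eq a, val_eq b, val_eq a⁻¹,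
    val_eq b⁻¹, nn_inv a hNN, nn_inv b hQQ, ← sub_eq_add_neg, ← sub_eq_add_neg]
  exact W4 (nn a) (nn b) hNN hQQ e1 e2

end hyp

section invol
variable {k : Type v} [Field k] {M : Type u} [AddCommGroup M] [Module k M]
  [FiniteDimensional k M]
variable {G : Subgroup (LinearMap.GeneralLinearGroup k M)}

/-- the central involution and the decomposition `M = C_M(X) ⊕ [M, X]` -/
theorem inv_struct (h2 : (2 : k) ≠ 0) (h3 : Nat.card k ≠ 3)
    {σ τ : LinearMap.GeneralLinearGroup k M}
    (hσ : σ ∈ minimalQuadraticElements G) (hτ : τ ∈ minimalQuadraticElements G) (hH : Hyp σ τ) :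
    (∃! i : LinearMap.GeneralLinearGroup k M,
      i ∈ sameActionSubgroup G σ ⊔ sameActionSubgroup G τ ∧ i ≠ 1 ∧ i * i = 1 ∧
      (∀ x ∈ sameActionSubgroup G σ ⊔ sameActionSubgroup G τ, i * x = x * i) ∧
      (∀ m ∈ commutatorSubmodule (sameActionSubgroup G σ ⊔ sameActionSubgroup G τ),
        (i : M →ₗ[k] M) m = -m) ∧
      (∀ m ∈ fixedSubmodule (sameActionSubgroup G σ ⊔ sameActionSubgroup G τ),
        (i : M →ₗ[k] M) m = m)) ∧
    IsCompl (fixedSubmodule (sameActionSubgroup G σ ⊔ sameActionSubgroup G τ))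
      (commutatorSubmodule (sameActionSubgroup G σ ⊔ sameActionSubgroup G τ)) := by
  obtain ⟨P, hPP, hPc, e1, e2⟩ := partner h2 h3 hσ hτ hH (self_mem_class hσ)
  have hNN : nn σ * nn σ = 0 := hσ.1.2.1.1
  obtain ⟨ePr, ePk⟩ := class_P hPc
  have he : (nn σ * P + P * nn σ) * (nn σ * P + P * nn σ) = nn σ * P + P * nn σ :=
    e_idem (nn σ) P hNN hPP e1 e2
  have heN := e_N (nn σ) P hNN e1
  have hNe := N_e (nn σ) P hNN e1
  have heP := e_P (nn σ) P hPP e2
  have hPe := P_e (nn σ) P hPP e2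
  generalize hedef : nn σ * P + P * nn σ = e at he heN hNe heP hPe
  have hσX : σ ∈ sameActionSubgroup G σ ⊔ sameActionSubgroup G τ :=
    Subgroup.mem_sup_left (self_mem_E hσ)
  have hbX : sqUnit P hPP ∈ sameActionSubgroup G σ ⊔ sameActionSubgroup G τ :=
    Subgroup.mem_sup_right (Subgroup.subset_closure hPc)
  have hfixA : ∀ g ∈ sameActionSubgroup G σ ⊔ sameActionSubgroup G τ,
      ∀ m ∈ LinearMap.ker e, nn g m = 0 := by
    intro g hg
    refine sup_induction_gen (P := fun g => ∀ m ∈ LinearMap.ker e, nn g m = 0) ?_ ?_ ?_ ?_ hg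
    · intro a ha m hm
      have h0 : nn σ m = 0 := by
        have := LinearMap.congr_fun hNe m
        rw [Module.End.mul_apply, LinearMap.mem_ker.1 hm, map_zero] at this
        exact this.symm
      exact E_le_ker hσ ha h0
    · intro b hb m hm
      have h0 : P m = 0 := by
        have := LinearMap.congr_fun hPe m
        rw [Module.End.mul_apply, LinearMap.mem_ker.1 hm, map_zero] at this
        exact this.symm
      have h1 : m ∈ LinearMap.ker (nn τ) := by rw [← ePk]; exact h0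
      exact E_le_ker hτ hb h1
    · intro m hm; rw [nn_one]; rfl
    · intro x y hx hy m hm
      rw [nn_mul]
      simp only [LinearMap.add_apply, Module.End.mul_apply]
      rw [hy m hm, hx m hm, map_zero, add_zero, add_zero]
  have hrngA : ∀ g ∈ sameActionSubgroup G σ ⊔ sameActionSubgroup G τ,
      ∀ m, nn g m ∈ LinearMap.range e := by
    intro g hg
    refine sup_induction_gen (P := fun g => ∀ m, nn g m ∈ LinearMap.range e) ?_ ?_ ?_ ?_ hg
    · intro a ha m
      obtain ⟨w, hw⟩ := E_range_le hσ ha ⟨m, rfl⟩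
      exact ⟨nn σ w, by rw [← Module.End.mul_apply, heN]; exact hw⟩
    · intro b hb m
      have h0 : nn b m ∈ LinearMap.range P := by rw [ePr]; exact E_range_le hτ hb ⟨m, rfl⟩
      obtain ⟨w, hw⟩ := h0
      exact ⟨P w, by rw [← Module.End.mul_apply, heP]; exact hw⟩
    · intro m; rw [nn_one]; exact zero_mem _
    · intro x y hx hy m
      rw [nn_mul]
      simp only [LinearMap.add_apply, Module.End.mul_apply]
      exact add_mem (add_mem (hx m) (hy m)) (hx _)
  have hfix : fixedSubmodule (sameActionSubgroup G σ ⊔ sameActionSubgroup G τ) =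
      LinearMap.ker e := by
    apply le_antisymm
    · intro m hm
      unfold fixedSubmodule at hm
      rw [Submodule.mem_iInf] at hm
      have h1 := hm σ
      rw [Submodule.mem_iInf] at h1
      have h1' : nn σ m = 0 := h1 hσX
      have h2' := hm (sqUnit P hPP)
      rw [Submodule.mem_iInf] at h2'
      have h2'' : nn (sqUnit P hPP) m = 0 := h2' hbX
      rw [nn_sqUnit] at h2''
      rw [LinearMap.mem_ker, ← hedef, LinearMap.add_apply, Module.End.mul_apply,
        Module.End.mul_apply, h1', h2'', map_zero, map_zero, add_zero]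
    · intro m hm
      unfold fixedSubmodule
      rw [Submodule.mem_iInf]
      intro g
      rw [Submodule.mem_iInf]
      intro hg
      exact hfixA g hg m hm
  have hcomm : commutatorSubmodule (sameActionSubgroup G σ ⊔ sameActionSubgroup G τ) =
      LinearMap.range e := by
    apply le_antisymm
    · unfold commutatorSubmodule
      apply iSup_le
      intro g
      apply iSup_le
      intro hg
      rintro _ ⟨m, rfl⟩
      exact hrngA g hg m
    · rintro _ ⟨m, rfl⟩
      have m1 : nn σ (P m) ∈ commutatorSubmodule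
          (sameActionSubgroup G σ ⊔ sameActionSubgroup G τ) := by
        unfold commutatorSubmodule
        exact Submodule.mem_iSup_of_mem σ (Submodule.mem_iSup_of_mem hσX ⟨_, rfl⟩)
      have m2 : P (nn σ m) ∈ commutatorSubmodule
          (sameActionSubgroup G σ ⊔ sameActionSubgroup G τ) := by
        unfold commutatorSubmodule
        refine Submodule.mem_iSup_of_mem (sqUnit P hPP) (Submodule.mem_iSup_of_mem hbX ?_)
        have e0 : ((sqUnit P hPP : LinearMap.GeneralLinearGroup k M) : M →ₗ[k] M) - 1 = P :=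
          nn_sqUnit P hPP
        rw [e0]
        exact ⟨_, rfl⟩
      rw [← hedef, LinearMap.add_apply, Module.End.mul_apply, Module.End.mul_apply]
      exact add_mem m1 m2
  have hcompl : IsCompl (LinearMap.ker e) (LinearMap.range e) :=
    (LinearMap.IsIdempotentElem.isCompl he).symm
  refine ⟨?_, by rw [hfix, hcomm]; exact hcompl⟩
  have hgX : σ * (sqUnit P hPP)⁻¹ * σ ∈ sameActionSubgroup G σ ⊔ sameActionSubgroup G τ :=
    Subgroup.mul_mem _ (Subgroup.mul_mem _ hσX (Subgroup.inv_mem _ hbX)) hσX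
  have hgval : ((σ * (sqUnit P hPP)⁻¹ * σ : LinearMap.GeneralLinearGroup k M) : Module.End k M) =
      (1 + nn σ) * (1 - P) * (1 + nn σ) := by
    rw [Units.val_mul, Units.val_mul, val_eq σ]; rfl
  have hival : (((σ * (sqUnit P hPP)⁻¹ * σ) * (σ * (sqUnit P hPP)⁻¹ * σ) :
      LinearMap.GeneralLinearGroup k M) : Module.End k M) = 1 - (e + e) := by
    rw [Units.val_mul, hgval, ← hedef]
    exact W3 (nn σ) P hNN hPP e1 e2
  generalize σ * (sqUnit P hPP)⁻¹ * σ = g at hgX hival
  have hkmem : ∀ m, m - e m ∈ LinearMap.ker e := by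
    intro m
    rw [LinearMap.mem_ker, map_sub, ← Module.End.mul_apply, he, sub_self]
  have hi_fix : ∀ m ∈ LinearMap.ker e, ((g * g : LinearMap.GeneralLinearGroup k M) :
      Module.End k M) m = m := by
    intro m hm
    rw [hival]
    simp only [LinearMap.sub_apply, LinearMap.add_apply, Module.End.one_apply,
      LinearMap.mem_ker.1 hm, add_zero, sub_zero]
  have hi_comm : ∀ m ∈ LinearMap.range e, ((g * g : LinearMap.GeneralLinearGroup k M) :
      Module.End k M) m = -m := by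
    rintro _ ⟨w, rfl⟩
    rw [hival]
    have h0 : e (e w) = e w := LinearMap.congr_fun he w
    simp only [LinearMap.sub_apply, LinearMap.add_apply, Module.End.one_apply, h0]
    abel
  refine ⟨g * g, ⟨Subgroup.mul_mem _ hgX hgX, ?_, ?_, ?_, ?_, ?_⟩, ?_⟩
  · intro h1
    have h0 : (1 : Module.End k M) - (e + e) = 1 := by rw [← hival, h1]; rfl
    have h0' : e + e = 0 := sub_eq_self.1 h0
    have he0 : e = 0 := (add_self_eq_zero_iff h2 e).1 h0'
    apply hσ.1.2.1.2
    show nn σ = 0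
    rw [← heN, he0, zero_mul]
  · apply Units.ext
    rw [Units.val_mul, hival]
    have h0 : (1 - (e + e)) * (1 - (e + e)) = 1 - 4 • e + 4 • (e * e) := by noncomm_ring
    rw [h0, he]
    show _ = (1 : Module.End k M)
    abel
  · intro x hx
    apply Units.ext
    rw [Units.val_mul (g * g) x, Units.val_mul x (g * g), hival, val_eq x]
    have en : e * nn x = nn x := by
      apply LinearMap.ext
      intro m
      obtain ⟨w, hw⟩ := hrngA x hx m
      rw [Module.End.mul_apply, ← hw, ← Module.End.mul_apply, he]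
    have ne : nn x * e = nn x := by
      apply LinearMap.ext
      intro m
      have h0 := hfixA x hx _ (hkmem m)
      rw [map_sub, sub_eq_zero] at h0
      rw [Module.End.mul_apply]; exact h0.symm
    have h1 : (1 - (e + e)) * (1 + nn x) = 1 + nn x - (e + e) - (e * nn x + e * nn x) := by
      noncomm_ring
    have h2' : (1 + nn x) * (1 - (e + e)) = 1 + nn x - (e + e) - (nn x * e + nn x * e) := by
      noncomm_ring
    rw [h1, h2', en, ne]
  · intro m hm
    rw [hcomm] at hm
    exact hi_comm m hm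
  · intro m hm
    rw [hfix] at hm
    exact hi_fix m hm
  · rintro i' ⟨hi'X, -, -, -, hi'c, hi'f⟩
    apply Units.ext
    apply LinearMap.ext
    intro m
    have hk := hkmem m
    have hr : e m ∈ LinearMap.range e := ⟨m, rfl⟩
    have hm : m = (m - e m) + e m := by abel
    rw [hm, map_add, map_add, hi'f _ (by rw [hfix]; exact hk), hi'c _ (by rw [hcomm]; exact hr),
      hi_fix _ hk, hi_comm _ hr]

/-- **Dichotomy** for the subgroup generated by two members of `Σ` -/
theorem pair_dichotomy (h2 : (2 : k) ≠ 0) (h3 : Nat.card k ≠ 3)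
    {σ τ : LinearMap.GeneralLinearGroup k M}
    (hσ : σ ∈ minimalQuadraticElements G) (hτ : τ ∈ minimalQuadraticElements G) :
    IsUnipotentOn (sameActionSubgroup G σ ⊔ sameActionSubgroup G τ) ∨
    (IsSpecialRankOnePair (sameActionSubgroup G σ) (sameActionSubgroup G τ) ∧
      (∃! i : LinearMap.GeneralLinearGroup k M,
        i ∈ sameActionSubgroup G σ ⊔ sameActionSubgroup G τ ∧ i ≠ 1 ∧ i * i = 1 ∧
        (∀ x ∈ sameActionSubgroup G σ ⊔ sameActionSubgroup G τ, i * x = x * i) ∧
        (∀ m ∈ commutatorSubmodule (sameActionSubgroup G σ ⊔ sameActionSubgroup G τ),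
          (i : M →ₗ[k] M) m = -m) ∧
        (∀ m ∈ fixedSubmodule (sameActionSubgroup G σ ⊔ sameActionSubgroup G τ),
          (i : M →ₗ[k] M) m = m)) ∧
      IsCompl (fixedSubmodule (sameActionSubgroup G σ ⊔ sameActionSubgroup G τ))
        (commutatorSubmodule (sameActionSubgroup G σ ⊔ sameActionSubgroup G τ))) := by
  by_cases hH : Hyp σ τ
  · right
    obtain ⟨hi, hcompl⟩ := inv_struct h2 h3 hσ hτ hH
    refine ⟨⟨⟨E_ne hσ hτ hH, E_nilpotent hσ, E_nilpotent hτ, rank_one_cond h2 h3 hσ hτ hH,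
      rank_one_cond h2 h3 hτ hσ (Hyp_symm hH)⟩, special hσ hτ hH⟩, hi, hcompl⟩
  · left
    exact unip_of_not_hyp h2 h3 hσ hτ hH

end invol

end Cfsg.Agent.Lib.Helper83.QPPair
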