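import Mathlib
import Cfsg.Prelude.Def_RootSubgroups
import Cfsg.Agent.Lib.Helper83.QPDepth
import Cfsg.Agent.Lib.Helper83.QPMain
import Cfsg.Agent.Lib.Helper83.QPRoot
import Cfsg.Agent.Lib.Helper83.QPKey
import Cfsg.Agent.Lib.Helper83.QPHyp
import Cfsg.Agent.Lib.Helper83.QPPair

/-!
# Quadratic pairs: commutators of non-hyperbolic pairs (helper83)

For `σ, τ ∈ 𝒬_d` non-hyperbolic with `[σ - 1, τ - 1] ≠ 0`: the commutator `ρ = [σ, τ]` lies in `𝒬_d`,
all commutators `[g, h]`, `g ∈ E(σ)`, `h ∈ E(τ)` lie in `E(ρ)`, the range of `ρ - 1` is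
`U ⊕ U'` and its kernel is `(V₁ + C₂) ∩ (V₂ + C₁)`; `E(σ), E(τ)` act trivially on the factors of
the flag `M ≥ ker ≥ range ≥ 0`.
-/

set_option autoImplicit false
set_option linter.unusedVariables false
set_option linter.unusedSectionVars false
set_option linter.unusedSimpArgs false
set_option linter.unnecessarySeqFocus false
set_option linter.unreachableTactic false
set_option linter.unusedTactic false
set_option linter.style.haveILetI false

namespace Cfsg.Agent.Lib.Helper83.QPComm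

open Cfsg
open Cfsg.Agent.Lib.Helper83.QPDepth Cfsg.Agent.Lib.Helper83.QPMain
open Cfsg.Agent.Lib.Helper83.QPRoot Cfsg.Agent.Lib.Helper83.QPKey Cfsg.Agent.Lib.Helper83.QPHyp
open Cfsg.Agent.Lib.Helper83.QPPair Cfsg.Agent.Lib.Helper83.RankOne

universe u v

section ring
variable {R : Type*} [Ring R] (A B : R)

lemma comm_ring (hAA : A * A = 0) (hBB : B * B = 0) (h1 : A * B * A = 0) (h2 : B * A * B = 0) :
    (1 + A) * (1 + B) * (1 - A) * (1 - B) = 1 + (A * B - B * A) := by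
  have r1 : ∀ X : R, A * (A * X) = 0 := fun X => by rw [← mul_assoc, hAA, zero_mul]
  have r2 : ∀ X : R, B * (B * X) = 0 := fun X => by rw [← mul_assoc, hBB, zero_mul]
  have r3 : A * (B * A) = 0 := by rw [← mul_assoc]; exact h1
  have r3' : ∀ X : R, A * (B * (A * X)) = 0 := fun X => by
    rw [← mul_assoc, ← mul_assoc, h1, zero_mul]
  have r4 : B * (A * B) = 0 := by rw [← mul_assoc]; exact h2
  have r4' : ∀ X : R, B * (A * (B * X)) = 0 := fun X => by
    rw [← mul_assoc, ← mul_assoc, h2, zero_mul]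
  simp only [mul_add, add_mul, mul_sub, sub_mul, mul_one, one_mul, mul_assoc, hAA, hBB, r1, r2,
    r3, r3', r4, r4', mul_zero, zero_mul, add_zero, zero_add, sub_zero, zero_sub, mul_neg,
    neg_mul, neg_zero, neg_neg]
  abel

lemma comm_sq_ring (hAA : A * A = 0) (hBB : B * B = 0) (h1 : A * B * A = 0)
    (h2 : B * A * B = 0) : (A * B - B * A) * (A * B - B * A) = 0 := by
  have r1 : ∀ X : R, A * (A * X) = 0 := fun X => by rw [← mul_assoc, hAA, zero_mul]
  have r2 : ∀ X : R, B * (B * X) = 0 := fun X => by rw [← mul_assoc, hBB, zero_mul]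
  have r3 : A * (B * A) = 0 := by rw [← mul_assoc]; exact h1
  have r3' : ∀ X : R, A * (B * (A * X)) = 0 := fun X => by
    rw [← mul_assoc, ← mul_assoc, h1, zero_mul]
  have r4 : B * (A * B) = 0 := by rw [← mul_assoc]; exact h2
  have r4' : ∀ X : R, B * (A * (B * X)) = 0 := fun X => by
    rw [← mul_assoc, ← mul_assoc, h2, zero_mul]
  simp only [mul_add, add_mul, mul_sub, sub_mul, mul_one, one_mul, mul_assoc, hAA, hBB, r1, r2,
    r3, r3', r4, r4', mul_zero, zero_mul, add_zero, zero_add, sub_zero, zero_sub, mul_neg,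
    neg_mul, neg_zero, neg_neg]

end ring

section lin
variable {k : Type v} [Field k] {M : Type u} [AddCommGroup M] [Module k M]
  [FiniteDimensional k M]

lemma finrank_map_add (f : Module.End k M) (p : Submodule k M) :
    Module.finrank k (p.map f) + Module.finrank k ↥(p ⊓ LinearMap.ker f) = Module.finrank k p := by
  have h := LinearMap.finrank_range_add_finrank_ker (f.domRestrict p)
  have e1 : LinearMap.range (f.domRestrict p) = p.map f := by
    ext x
    simp [LinearMap.domRestrict]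
  have e2 : Module.finrank k (LinearMap.ker (f.domRestrict p)) =
      Module.finrank k ↥(p ⊓ LinearMap.ker f) := by
    have : LinearMap.ker (f.domRestrict p) = (p ⊓ LinearMap.ker f).comap p.subtype := by
      ext x
      simp [LinearMap.domRestrict]
    rw [this]
    exact (Submodule.comapSubtypeEquivOfLe (inf_le_left : p ⊓ LinearMap.ker f ≤ p)).finrank_eq
  rw [e1, e2] at h
  exact h

/-- the commutator of two quadratic elements whose words of length three vanish -/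
lemma comm_eq {g h : LinearMap.GeneralLinearGroup k M} (hA : nn g * nn g = 0)
    (hB : nn h * nn h = 0) (h1 : nn g * nn h * nn g = 0) (h2 : nn h * nn g * nn h = 0) :
    nn (g * h * g⁻¹ * h⁻¹) = nn g * nn h - nn h * nn g := by
  have e1 : ((g⁻¹ : LinearMap.GeneralLinearGroup k M) : Module.End k M) = 1 - nn g := by
    rw [val_eq, nn_inv g hA]; abel
  have e2 : ((h⁻¹ : LinearMap.GeneralLinearGroup k M) : Module.End k M) = 1 - nn h := by
    rw [val_eq, nn_inv h hB]; abel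
  show ((g * h * g⁻¹ * h⁻¹ : LinearMap.GeneralLinearGroup k M) : Module.End k M) - 1 = _
  rw [Units.val_mul, Units.val_mul, Units.val_mul, e1, e2, val_eq g, val_eq h,
    comm_ring _ _ hA hB h1 h2]
  abel

/-- `U`: the part of `[M, σ]` fixed by `τ` -/
def Usp (σ τ : LinearMap.GeneralLinearGroup k M) : Submodule k M :=
  LinearMap.range (nn σ) ⊓ LinearMap.ker (nn τ)

/-- the commutator space of the commutator -/
def Rsp (σ τ : LinearMap.GeneralLinearGroup k M) : Submodule k M := Usp σ τ ⊔ Usp τ σ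

/-- the fixed space of the commutator -/
def Ksp (σ τ : LinearMap.GeneralLinearGroup k M) : Submodule k M :=
  (LinearMap.range (nn σ) ⊔ LinearMap.ker (nn τ)) ⊓ (LinearMap.range (nn τ) ⊔ LinearMap.ker (nn σ))

lemma Rsp_comm (σ τ : LinearMap.GeneralLinearGroup k M) : Rsp σ τ = Rsp τ σ := sup_comm _ _

lemma Ksp_comm (σ τ : LinearMap.GeneralLinearGroup k M) : Ksp σ τ = Ksp τ σ := inf_comm _ _

variable {G : Subgroup (LinearMap.GeneralLinearGroup k M)}

/-- a non-hyperbolic, non-commuting pair of minimal quadratic elements -/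
structure NH (G : Subgroup (LinearMap.GeneralLinearGroup k M))
    (σ τ : LinearMap.GeneralLinearGroup k M) : Prop where
  hσ : σ ∈ minimalQuadraticElements G
  hτ : τ ∈ minimalQuadraticElements G
  key : ∀ g ∈ sameActionSubgroup G σ, ∀ h ∈ sameActionSubgroup G τ,
      nn h * nn g * nn h = 0 ∧ nn g * nn h * nn g = 0
  ne : nn σ * nn τ - nn τ * nn σ ≠ 0

variable {σ τ : LinearMap.GeneralLinearGroup k M}

lemma NH.symm (H : NH G σ τ) : NH G τ σ :=
  ⟨H.hτ, H.hσ, fun g hg h hh => (H.key h hh g hg).symm,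
    fun e => H.ne (by rw [← neg_sub, e, neg_zero])⟩

lemma NH.of_not_hyp (h2 : (2 : k) ≠ 0) (h3 : Nat.card k ≠ 3)
    (hσ : σ ∈ minimalQuadraticElements G) (hτ : τ ∈ minimalQuadraticElements G)
    (hH : ¬ Hyp σ τ) (hne : nn σ * nn τ - nn τ * nn σ ≠ 0) : NH G σ τ :=
  ⟨hσ, hτ, key_E h2 h3 hσ hτ hH, hne⟩

lemma NH.comm_nn (H : NH G σ τ) {g h : LinearMap.GeneralLinearGroup k M}
    (hg : g ∈ sameActionSubgroup G σ) (hh : h ∈ sameActionSubgroup G τ) :
    nn (g * h * g⁻¹ * h⁻¹) = nn g * nn h - nn h * nn g :=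
  comm_eq (E_sq H.hσ hg) (E_sq H.hτ hh) (H.key g hg h hh).2 (H.key g hg h hh).1

lemma NH.comm_sq (H : NH G σ τ) {g h : LinearMap.GeneralLinearGroup k M}
    (hg : g ∈ sameActionSubgroup G σ) (hh : h ∈ sameActionSubgroup G τ) :
    (nn g * nn h - nn h * nn g) * (nn g * nn h - nn h * nn g) = 0 :=
  comm_sq_ring _ _ (E_sq H.hσ hg) (E_sq H.hτ hh) (H.key g hg h hh).2 (H.key g hg h hh).1

lemma NH.comm_unit (H : NH G σ τ) {g h : LinearMap.GeneralLinearGroup k M}
    (hg : g ∈ sameActionSubgroup G σ) (hh : h ∈ sameActionSubgroup G τ) :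
    g * h * g⁻¹ * h⁻¹ = sqUnit (nn g * nn h - nn h * nn g) (H.comm_sq hg hh) := by
  have e := H.comm_nn hg hh
  have hs : nn (g * h * g⁻¹ * h⁻¹) * nn (g * h * g⁻¹ * h⁻¹) = 0 := by
    rw [e]; exact H.comm_sq hg hh
  rw [eq_sqUnit (g * h * g⁻¹ * h⁻¹) hs]
  exact sqUnit_congr _ _ e

lemma NH.comm_fam (H : NH G σ τ) {g h : LinearMap.GeneralLinearGroup k M}
    (hg : g ∈ sameActionSubgroup G σ) (hh : h ∈ sameActionSubgroup G τ) (c : k) :
    sqUnit (c • (nn g * nn h - nn h * nn g)) (smul_sq c _ (H.comm_sq hg hh)) ∈ G := by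
  have hgc := E_smul H.hσ hg c
  have e := H.comm_unit hgc hh
  have hmem : sqUnit (c • nn g) (smul_sq c _ (E_sq H.hσ hg)) * h *
      (sqUnit (c • nn g) (smul_sq c _ (E_sq H.hσ hg)))⁻¹ * h⁻¹ ∈ G :=
    G.mul_mem (G.mul_mem (G.mul_mem (E_mem_G H.hσ hgc) (E_mem_G H.hτ hh))
      (G.inv_mem (E_mem_G H.hσ hgc))) (G.inv_mem (E_mem_G H.hτ hh))
  rw [e] at hmem
  have e2 : sqUnit (nn (sqUnit (c • nn g) (smul_sq c _ (E_sq H.hσ hg))) * nn h -
      nn h * nn (sqUnit (c • nn g) (smul_sq c _ (E_sq H.hσ hg)))) (H.comm_sq hgc hh) =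
      sqUnit (c • (nn g * nn h - nn h * nn g)) (smul_sq c _ (H.comm_sq hg hh)) := by
    apply sqUnit_congr
    rw [nn_sqUnit, smul_sub, smul_mul_assoc, mul_smul_comm]
  rw [e2] at hmem
  exact hmem

/-- the commutator of `σ` and `τ` -/
def rho (σ τ : LinearMap.GeneralLinearGroup k M) : LinearMap.GeneralLinearGroup k M :=
  σ * τ * σ⁻¹ * τ⁻¹

lemma NH.nn_rho (H : NH G σ τ) : nn (rho σ τ) = nn σ * nn τ - nn τ * nn σ :=
  H.comm_nn (self_mem_E H.hσ) (self_mem_E H.hτ)

lemma NH.comm_quad (H : NH G σ τ) {g h : LinearMap.GeneralLinearGroup k M}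
    (hg : g ∈ sameActionSubgroup G σ) (hh : h ∈ sameActionSubgroup G τ)
    (hne : nn g * nn h - nn h * nn g ≠ 0) : g * h * g⁻¹ * h⁻¹ ∈ quadraticElements G := by
  rw [H.comm_unit hg hh]
  exact sqUnit_mem_quad _ (H.comm_sq hg hh) hne (H.comm_fam hg hh)

lemma NH.rho_quad (H : NH G σ τ) : rho σ τ ∈ quadraticElements G :=
  H.comm_quad (self_mem_E H.hσ) (self_mem_E H.hτ) H.ne

lemma NH.map_le (H : NH G σ τ) {g : LinearMap.GeneralLinearGroup k M}
    (hg : g ∈ sameActionSubgroup G σ) :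
    (LinearMap.range (nn τ)).map (nn g) ≤ Usp σ τ := by
  rintro _ ⟨_, ⟨w, rfl⟩, rfl⟩
  refine ⟨E_range_le H.hσ hg ⟨_, rfl⟩, ?_⟩
  exact LinearMap.congr_fun (H.key g hg τ (self_mem_E H.hτ)).1 w

lemma NH.rank_eq (H : NH G σ τ) :
    Module.finrank k (LinearMap.range (nn τ)) = Module.finrank k (LinearMap.range (nn σ)) :=
  le_antisymm (H.hτ.2 σ H.hσ.1) (H.hσ.2 τ H.hτ.1)

lemma NH.dims (H : NH G σ τ) :
    Usp σ τ ⊓ Usp τ σ = ⊥ ∧
    (∀ g ∈ sameActionClass G σ, (LinearMap.range (nn τ)).map (nn g) = Usp σ τ) ∧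
    (∀ h ∈ sameActionClass G τ, (LinearMap.range (nn σ)).map (nn h) = Usp τ σ) ∧
    LinearMap.range (nn σ * nn τ - nn τ * nn σ) = Rsp σ τ := by
  have hd' : Module.finrank k (LinearMap.range (nn τ)) =
      Module.finrank k (LinearMap.range (nn σ)) := H.rank_eq
  have f1 : ∀ g ∈ sameActionClass G σ,
      Module.finrank k ((LinearMap.range (nn τ)).map (nn g)) + Module.finrank k (Usp τ σ) =
        Module.finrank k (LinearMap.range (nn σ)) := by
    intro g hg
    have := finrank_map_add (nn g) (LinearMap.range (nn τ))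
    have hk : LinearMap.ker (nn g) = LinearMap.ker (nn σ) := hg.2.1
    rw [hk, hd'] at this
    exact this
  have f2 : ∀ h ∈ sameActionClass G τ,
      Module.finrank k ((LinearMap.range (nn σ)).map (nn h)) + Module.finrank k (Usp σ τ) =
        Module.finrank k (LinearMap.range (nn σ)) := by
    intro h hh
    have := finrank_map_add (nn h) (LinearMap.range (nn σ))
    have hk : LinearMap.ker (nn h) = LinearMap.ker (nn τ) := hh.2.1
    rw [hk] at this
    exact this
  have l1 : ∀ g ∈ sameActionClass G σ,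
      Module.finrank k ((LinearMap.range (nn τ)).map (nn g)) ≤ Module.finrank k (Usp σ τ) :=
    fun g hg => Submodule.finrank_mono (H.map_le (Subgroup.subset_closure hg))
  have l2 : ∀ h ∈ sameActionClass G τ,
      Module.finrank k ((LinearMap.range (nn σ)).map (nn h)) ≤ Module.finrank k (Usp τ σ) :=
    fun h hh => Submodule.finrank_mono (H.symm.map_le (Subgroup.subset_closure hh))
  have hX : Module.finrank k (LinearMap.range (nn σ)) ≤
      Module.finrank k (LinearMap.range (nn σ * nn τ - nn τ * nn σ)) := by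
    have h1 := H.hσ.2 (rho σ τ) H.rho_quad
    have e : nn (rho σ τ) = nn σ * nn τ - nn τ * nn σ := H.nn_rho
    rw [← e]
    exact h1
  have hle : LinearMap.range (nn σ * nn τ - nn τ * nn σ) ≤
      (LinearMap.range (nn τ)).map (nn σ) ⊔ (LinearMap.range (nn σ)).map (nn τ) := by
    rintro _ ⟨m, rfl⟩
    rw [LinearMap.sub_apply, Module.End.mul_apply, Module.End.mul_apply, sub_eq_add_neg]
    exact Submodule.add_mem_sup ⟨_, ⟨m, rfl⟩, rfl⟩ (Submodule.neg_mem _ ⟨_, ⟨m, rfl⟩, rfl⟩)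
  have hsum := Submodule.finrank_add_le_finrank_add_finrank
    ((LinearMap.range (nn τ)).map (nn σ)) ((LinearMap.range (nn σ)).map (nn τ))
  have hle' := Submodule.finrank_mono hle
  have hσc := self_mem_class H.hσ
  have hτc := self_mem_class H.hτ
  have a1 := f1 σ hσc
  have a2 := f2 τ hτc
  have a3 := l1 σ hσc
  have a4 := l2 τ hτc
  have hab : Module.finrank k (Usp σ τ) + Module.finrank k (Usp τ σ) =
      Module.finrank k (LinearMap.range (nn σ)) := by omega
  have hle2 : LinearMap.range (nn σ * nn τ - nn τ * nn σ) ≤ Rsp σ τ :=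
    hle.trans (sup_le_sup (H.map_le (self_mem_E H.hσ)) (H.symm.map_le (self_mem_E H.hτ)))
  have hle2' := Submodule.finrank_mono hle2
  have hsi := Submodule.finrank_sup_add_finrank_inf_eq (Usp σ τ) (Usp τ σ)
  have hR : Module.finrank k (Rsp σ τ) = Module.finrank k ↥(Usp σ τ ⊔ Usp τ σ) := rfl
  refine ⟨?_, ?_, ?_, ?_⟩
  · apply Submodule.finrank_eq_zero.1
    omega
  · intro g hg
    apply Submodule.eq_of_le_of_finrank_eq (H.map_le (Subgroup.subset_closure hg))
    have := f1 g hg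
    omega
  · intro h hh
    apply Submodule.eq_of_le_of_finrank_eq (H.symm.map_le (Subgroup.subset_closure hh))
    have := f2 h hh
    omega
  · apply Submodule.eq_of_le_of_finrank_eq hle2
    omega

lemma NH.ker_eq (H : NH G σ τ) :
    LinearMap.ker (nn σ * nn τ - nn τ * nn σ) = Ksp σ τ := by
  obtain ⟨d1, d2, d3, d4⟩ := H.dims
  have hσc := self_mem_class H.hσ
  have hτc := self_mem_class H.hτ
  have hUC : ∀ u ∈ Usp σ τ, nn τ u = 0 := fun u hu => hu.2
  have hUC' : ∀ u ∈ Usp τ σ, nn σ u = 0 := fun u hu => hu.2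
  apply le_antisymm
  · intro x hx
    have hx' : nn σ (nn τ x) - nn τ (nn σ x) = 0 := hx
    have m1 : nn σ (nn τ x) ∈ Usp σ τ := H.map_le (self_mem_E H.hσ) ⟨_, ⟨x, rfl⟩, rfl⟩
    have m2 : nn τ (nn σ x) ∈ Usp τ σ := H.symm.map_le (self_mem_E H.hτ) ⟨_, ⟨x, rfl⟩, rfl⟩
    have e : nn σ (nn τ x) = nn τ (nn σ x) := sub_eq_zero.1 hx'
    have z1 : nn σ (nn τ x) = 0 := by
      have : nn σ (nn τ x) ∈ Usp σ τ ⊓ Usp τ σ := ⟨m1, by rw [e]; exact m2⟩
      rw [d1] at this
      exact (Submodule.mem_bot k).1 this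
    have z2 : nn τ (nn σ x) = 0 := by rw [← e]; exact z1
    constructor
    · -- nn τ x ∈ U' = map (nn τ) V₁
      have hm : nn τ x ∈ Usp τ σ := ⟨⟨x, rfl⟩, z1⟩
      rw [← d3 τ hτc] at hm
      obtain ⟨v, hv, hvx⟩ := hm
      have : x = v + (x - v) := by abel
      rw [this]
      refine Submodule.add_mem_sup hv ?_
      show nn τ (x - v) = 0
      rw [map_sub, hvx, sub_self]
    · have hm : nn σ x ∈ Usp σ τ := ⟨⟨x, rfl⟩, z2⟩
      rw [← d2 σ hσc] at hm
      obtain ⟨v, hv, hvx⟩ := hm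
      have : x = v + (x - v) := by abel
      rw [this]
      refine Submodule.add_mem_sup hv ?_
      show nn σ (x - v) = 0
      rw [map_sub, hvx, sub_self]
  · rintro x ⟨hx1, hx2⟩
    obtain ⟨v₁, hv₁, c₂, hc₂, rfl⟩ := Submodule.mem_sup.1 hx1
    obtain ⟨v₂, hv₂, c₁, hc₁, e⟩ := Submodule.mem_sup.1 hx2
    show (nn σ * nn τ - nn τ * nn σ) (v₁ + c₂) = 0
    have hc₂' : nn τ c₂ = 0 := hc₂
    have hc₁' : nn σ c₁ = 0 := hc₁
    have t1 : nn σ (nn τ (v₁ + c₂)) = 0 := by
      rw [map_add, hc₂', add_zero]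
      exact hUC' _ (H.symm.map_le (self_mem_E H.hτ) ⟨_, hv₁, rfl⟩)
    have t2 : nn τ (nn σ (v₁ + c₂)) = 0 := by
      rw [← e, map_add, hc₁', add_zero]
      exact hUC _ (H.map_le (self_mem_E H.hσ) ⟨_, hv₂, rfl⟩)
    rw [LinearMap.sub_apply, Module.End.mul_apply, Module.End.mul_apply, t1, t2, sub_zero]

lemma NH.range_eq (H : NH G σ τ) :
    LinearMap.range (nn σ * nn τ - nn τ * nn σ) = Rsp σ τ := H.dims.2.2.2

lemma NH.rho_mq (H : NH G σ τ) : rho σ τ ∈ minimalQuadraticElements G := by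
  refine ⟨H.rho_quad, fun π hπ => le_trans ?_ (H.hσ.2 π hπ)⟩
  show Module.finrank k (LinearMap.range (nn (rho σ τ))) ≤
    Module.finrank k (LinearMap.range (nn σ))
  rw [H.nn_rho, H.range_eq]
  obtain ⟨d1, d2, d3, d4⟩ := H.dims
  have hsi := Submodule.finrank_sup_add_finrank_inf_eq (Usp σ τ) (Usp τ σ)
  have f1 := finrank_map_add (nn σ) (LinearMap.range (nn τ))
  have f2 := finrank_map_add (nn τ) (LinearMap.range (nn σ))
  rw [d2 σ (self_mem_class H.hσ)] at f1
  rw [d3 τ (self_mem_class H.hτ)] at f2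
  have hd' := H.rank_eq
  have e1 : Module.finrank k ↥(LinearMap.range (nn τ) ⊓ LinearMap.ker (nn σ)) =
      Module.finrank k (Usp τ σ) := rfl
  have e2 : Module.finrank k ↥(LinearMap.range (nn σ) ⊓ LinearMap.ker (nn τ)) =
      Module.finrank k (Usp σ τ) := rfl
  have hR : Module.finrank k (Rsp σ τ) = Module.finrank k ↥(Usp σ τ ⊔ Usp τ σ) := rfl
  omega

lemma NH.comm_mem (H : NH G σ τ) {g h : LinearMap.GeneralLinearGroup k M}
    (hg : g ∈ sameActionSubgroup G σ) (hh : h ∈ sameActionSubgroup G τ) :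
    g * h * g⁻¹ * h⁻¹ ∈ sameActionSubgroup G (rho σ τ) := by
  rw [H.comm_unit hg hh]
  apply E_of_nn H.rho_mq _ _ (H.comm_fam hg hh)
  · rw [H.nn_rho, H.range_eq]
    rintro _ ⟨m, rfl⟩
    rw [LinearMap.sub_apply, Module.End.mul_apply, Module.End.mul_apply, sub_eq_add_neg]
    refine Submodule.add_mem_sup ?_ (Submodule.neg_mem _ ?_)
    · exact H.map_le hg ⟨_, E_range_le H.hτ hh ⟨m, rfl⟩, rfl⟩
    · exact H.symm.map_le hh ⟨_, E_range_le H.hσ hg ⟨m, rfl⟩, rfl⟩
  · rw [H.nn_rho, H.ker_eq]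
    rintro x ⟨hx1, hx2⟩
    obtain ⟨v₁, hv₁, c₂, hc₂, rfl⟩ := Submodule.mem_sup.1 hx1
    obtain ⟨v₂, hv₂, c₁, hc₁, e⟩ := Submodule.mem_sup.1 hx2
    show (nn g * nn h - nn h * nn g) (v₁ + c₂) = 0
    have hc₂' : nn h c₂ = 0 := E_le_ker H.hτ hh hc₂
    have hc₁' : nn g c₁ = 0 := E_le_ker H.hσ hg hc₁
    have t1 : nn g (nn h (v₁ + c₂)) = 0 := by
      rw [map_add, hc₂', add_zero]
      exact E_le_ker H.hσ hg (H.symm.map_le hh ⟨_, hv₁, rfl⟩).2
    have t2 : nn h (nn g (v₁ + c₂)) = 0 := by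
      rw [← e, map_add, hc₁', add_zero]
      exact E_le_ker H.hτ hh (H.map_le hg ⟨_, hv₂, rfl⟩).2
    rw [LinearMap.sub_apply, Module.End.mul_apply, Module.End.mul_apply, t1, t2, sub_zero]

lemma NH.comm_ne (H : NH G σ τ) {g h : LinearMap.GeneralLinearGroup k M}
    (hg : g ∈ sameActionClass G σ) (hh : h ∈ sameActionClass G τ) :
    nn g * nn h - nn h * nn g ≠ 0 := by
  intro h0
  obtain ⟨d1, d2, d3, d4⟩ := H.dims
  have hgE : g ∈ sameActionSubgroup G σ := Subgroup.subset_closure hg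
  have hhE : h ∈ sameActionSubgroup G τ := Subgroup.subset_closure hh
  have he : ∀ m, nn g (nn h m) = nn h (nn g m) := by
    intro m
    have := LinearMap.congr_fun h0 m
    rw [LinearMap.sub_apply, Module.End.mul_apply, Module.End.mul_apply] at this
    exact sub_eq_zero.1 this
  have z1 : ∀ m, nn g (nn h m) = 0 := by
    intro m
    have m1 : nn g (nn h m) ∈ Usp σ τ := H.map_le hgE ⟨_, E_range_le H.hτ hhE ⟨m, rfl⟩, rfl⟩
    have m2 : nn h (nn g m) ∈ Usp τ σ :=
      H.symm.map_le hhE ⟨_, E_range_le H.hσ hgE ⟨m, rfl⟩, rfl⟩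
    have : nn g (nn h m) ∈ Usp σ τ ⊓ Usp τ σ := ⟨m1, by rw [he m]; exact m2⟩
    rw [d1] at this
    exact (Submodule.mem_bot k).1 this
  have z2 : ∀ m, nn h (nn g m) = 0 := fun m => by rw [← he m]; exact z1 m
  have u1 : Usp σ τ = ⊥ := by
    rw [← d2 g hg, eq_bot_iff]
    rintro _ ⟨x, hx, rfl⟩
    have hr : LinearMap.range (nn h) = LinearMap.range (nn τ) := hh.2.2
    rw [← hr] at hx
    obtain ⟨w', rfl⟩ := hx
    rw [z1]; exact zero_mem _
  have u2 : Usp τ σ = ⊥ := by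
    rw [← d3 h hh, eq_bot_iff]
    rintro _ ⟨x, hx, rfl⟩
    have hr : LinearMap.range (nn g) = LinearMap.range (nn σ) := hg.2.2
    rw [← hr] at hx
    obtain ⟨w', rfl⟩ := hx
    rw [z2]; exact zero_mem _
  apply H.ne
  have := H.range_eq
  unfold Rsp at this
  rw [u1, u2, bot_sup_eq] at this
  exact LinearMap.range_eq_bot.1 this

lemma NH.flag_left (H : NH G σ τ) {g : LinearMap.GeneralLinearGroup k M}
    (hg : g ∈ sameActionSubgroup G σ) : FlagP (Ksp σ τ) (Rsp σ τ) g := by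
  have hV : LinearMap.range (nn σ) ≤ LinearMap.ker (nn σ) := range_le_ker _ H.hσ.1.2.1.1
  refine ⟨fun m => ?_, fun m hm => ?_, fun m hm => ?_⟩
  · have : nn g m ∈ LinearMap.range (nn σ) := E_range_le H.hσ hg ⟨m, rfl⟩
    exact ⟨Submodule.mem_sup_left this, Submodule.mem_sup_right (hV this)⟩
  · obtain ⟨v₂, hv₂, c₁, hc₁, rfl⟩ := Submodule.mem_sup.1 hm.2
    have z : nn g c₁ = 0 := E_le_ker H.hσ hg hc₁
    rw [map_add, z, add_zero]
    exact Submodule.mem_sup_left (H.map_le hg ⟨_, hv₂, rfl⟩)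
  · obtain ⟨u, hu, u', hu', rfl⟩ := Submodule.mem_sup.1 hm
    have z1 : nn g u = 0 := E_le_ker H.hσ hg (hV hu.1)
    have z2 : nn g u' = 0 := E_le_ker H.hσ hg hu'.2
    rw [map_add, z1, z2, add_zero]

lemma NH.flag_right (H : NH G σ τ) {h : LinearMap.GeneralLinearGroup k M}
    (hh : h ∈ sameActionSubgroup G τ) : FlagP (Ksp σ τ) (Rsp σ τ) h := by
  rw [Ksp_comm, Rsp_comm]; exact H.symm.flag_left hh

lemma NH.flag_sup (H : NH G σ τ) {x : LinearMap.GeneralLinearGroup k M}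
    (hx : x ∈ sameActionSubgroup G σ ⊔ sameActionSubgroup G τ) : FlagP (Ksp σ τ) (Rsp σ τ) x :=
  sup_induction_gen (fun g hg => H.flag_left hg) (fun h hh => H.flag_right hh) (FlagP_one _ _)
    (fun _ _ => FlagP_mul) hx

lemma NH.rho_range (H : NH G σ τ) {x : LinearMap.GeneralLinearGroup k M}
    (hx : x ∈ sameActionSubgroup G (rho σ τ)) : LinearMap.range (nn x) ≤ Rsp σ τ := by
  have := E_range_le H.rho_mq hx
  rwa [H.nn_rho, H.range_eq] at this

lemma NH.rho_ker (H : NH G σ τ) {x : LinearMap.GeneralLinearGroup k M}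
    (hx : x ∈ sameActionSubgroup G (rho σ τ)) : Ksp σ τ ≤ LinearMap.ker (nn x) := by
  have := E_le_ker H.rho_mq hx
  rwa [H.nn_rho, H.ker_eq] at this

lemma NH.mul_rho (H : NH G σ τ) {y x : LinearMap.GeneralLinearGroup k M}
    (hy : FlagP (Ksp σ τ) (Rsp σ τ) y) (hx : x ∈ sameActionSubgroup G (rho σ τ)) :
    nn y * nn x = 0 ∧ nn x * nn y = 0 := by
  constructor
  · apply LinearMap.ext; intro m
    rw [Module.End.mul_apply]; exact hy.2.2 _ (H.rho_range hx ⟨m, rfl⟩)
  · apply LinearMap.ext; intro m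
    rw [Module.End.mul_apply]; exact H.rho_ker hx (hy.1 m)

lemma NH.congr (H : NH G σ τ) {g h : LinearMap.GeneralLinearGroup k M}
    (hg : g ∈ sameActionClass G σ) (hh : h ∈ sameActionClass G τ) : NH G g h := by
  refine ⟨hg.1, hh.1, ?_, H.comm_ne hg hh⟩
  rw [class_congr hg, class_congr hh]
  exact H.key

lemma NH.rho_congr (H : NH G σ τ) {g h : LinearMap.GeneralLinearGroup k M}
    (hg : g ∈ sameActionClass G σ) (hh : h ∈ sameActionClass G τ) :
    sameActionSubgroup G (rho g h) = sameActionSubgroup G (rho σ τ) := by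
  apply class_congr
  apply E_class_of_ne H.rho_mq
    (H.comm_mem (Subgroup.subset_closure hg) (Subgroup.subset_closure hh))
  intro e
  have h1 := (H.congr hg hh).nn_rho
  have h2 : nn (rho g h) = 0 := by
    rw [show rho g h = 1 from e, nn_one]
  rw [h2] at h1
  exact H.comm_ne hg hh h1.symm

end lin

end Cfsg.Agent.Lib.Helper83.QPComm
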