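import Mathlib
import Cfsg.Prelude.Def_RootSubgroups
import Cfsg.Agent.Lib.Helper83.RankOne
import Cfsg.Agent.Lib.Helper83.Unip
import Cfsg.Agent.Lib.Helper83.QPDepth
import Cfsg.Agent.Lib.Helper83.QPMain
import Cfsg.Agent.Lib.Helper83.QPRoot
import Cfsg.Agent.Lib.Helper83.QPKey
import Cfsg.Agent.Lib.Helper83.QPHyp
import Cfsg.Agent.Lib.Helper83.QPPair

/-!
# Quadratic pairs: every minimal quadratic element has an opposite (helper83)

In a quadratic pair, for every `ρ ∈ 𝒬_d` there is `μ ∈ 𝒬_d` (a conjugate of `ρ`) such that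
`(ρ, μ)` is a hyperbolic pair.  (Baer-type argument: otherwise the conjugates of `E(ρ)` generate
a normal unipotent subgroup, whose fixed space is a proper nonzero invariant subspace.)
-/

set_option autoImplicit false
set_option linter.unusedVariables false
set_option linter.unusedSectionVars false
set_option linter.unusedSimpArgs false
set_option linter.unnecessarySeqFocus false
set_option linter.unreachableTactic false
set_option linter.unusedTactic false
set_option linter.style.haveILetI false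

namespace Cfsg.Agent.Lib.Helper83.QPOpp

open Cfsg
open Cfsg.Agent.Lib.Helper83.RankOne
open Cfsg.Agent.Lib.Helper83.QPDepth Cfsg.Agent.Lib.Helper83.QPMain
open Cfsg.Agent.Lib.Helper83.QPRoot Cfsg.Agent.Lib.Helper83.QPKey Cfsg.Agent.Lib.Helper83.QPHyp
open Cfsg.Agent.Lib.Helper83.QPPair

universe u v

section opp
variable {k : Type v} [Field k] {M : Type u} [AddCommGroup M] [Module k M]
  [FiniteDimensional k M]
variable {G : Subgroup (LinearMap.GeneralLinearGroup k M)}

lemma unit_inj (g : LinearMap.GeneralLinearGroup k M) :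
    Function.Injective (g : Module.End k M) := by
  intro x y hxy
  have h1 : ((g⁻¹ : LinearMap.GeneralLinearGroup k M) : Module.End k M) ((g : Module.End k M) x) = x := by
    rw [← Module.End.mul_apply, ← Units.val_mul, inv_mul_cancel]; rfl
  have h2 : ((g⁻¹ : LinearMap.GeneralLinearGroup k M) : Module.End k M) ((g : Module.End k M) y) = y := by
    rw [← Module.End.mul_apply, ← Units.val_mul, inv_mul_cancel]; rfl
  rw [← h1, ← h2, hxy]

lemma Hyp_conj (g σ τ : LinearMap.GeneralLinearGroup k M) :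
    Hyp (g * σ * g⁻¹) (g * τ * g⁻¹) ↔ Hyp σ τ := by
  unfold Hyp
  rw [range_nn_conj, ker_nn_conj, range_nn_conj, ker_nn_conj,
    ← Submodule.map_inf _ (unit_inj g), ← Submodule.map_inf _ (unit_inj g)]
  have hb : ∀ p : Submodule k M, p.map (g : Module.End k M) = ⊥ ↔ p = ⊥ := by
    intro p
    constructor
    · intro h
      rw [eq_bot_iff]
      intro x hx
      have : (g : Module.End k M) x ∈ p.map (g : Module.End k M) := ⟨x, hx, rfl⟩
      rw [h] at this
      have h0 : (g : Module.End k M) x = 0 := (Submodule.mem_bot k).1 this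
      rw [Submodule.mem_bot]
      apply unit_inj g
      rw [h0, map_zero]
    · intro h; rw [h, Submodule.map_bot]
  rw [hb, hb]

lemma exists_fixed {U₀ : Subgroup (LinearMap.GeneralLinearGroup k M)} (hU : IsUnipotentOn U₀)
    (hM : ∃ m : M, m ≠ 0) : fixedSubmodule U₀ ≠ ⊥ := by
  classical
  rw [Cfsg.Agent.Lib.Helper83.Unip.unip_iff] at hU
  have hsp := Nat.find_spec hU
  have hmin := fun m => Nat.find_min hU (m := m)
  rcases Nat.eq_zero_or_pos (Nat.find hU) with h0 | hpos
  · exfalso
    rw [h0] at hsp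
    have := hsp [] (by simp) rfl
    simp only [List.map_nil, List.prod_nil] at this
    obtain ⟨m, hm⟩ := hM
    apply hm
    have h1 := LinearMap.congr_fun this m
    simpa using h1
  · obtain ⟨n', hn'⟩ : ∃ n', Nat.find hU = n' + 1 := ⟨Nat.find hU - 1, by omega⟩
    have hnot := hmin n' (by omega)
    push Not at hnot
    obtain ⟨l, hl, hlen, hX⟩ := hnot
    have hkill : ∀ u ∈ U₀, ((u : Module.End k M) - 1) *
        (l.map fun g : LinearMap.GeneralLinearGroup k M => (g : M →ₗ[k] M) - 1).prod = 0 := by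
      intro u hu
      have := hsp (u :: l) (by
        intro g hg
        rcases List.mem_cons.1 hg with rfl | hg
        · exact hu
        · exact hl g hg) (by rw [List.length_cons, hlen, hn'])
      simpa using this
    obtain ⟨m, hm⟩ : ∃ m, (l.map fun g : LinearMap.GeneralLinearGroup k M =>
        (g : M →ₗ[k] M) - 1).prod m ≠ 0 := by
      by_contra hc
      push Not at hc
      exact hX (LinearMap.ext hc)
    intro hbot
    apply hm
    have hmem : (l.map fun g : LinearMap.GeneralLinearGroup k M =>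
        (g : M →ₗ[k] M) - 1).prod m ∈ fixedSubmodule U₀ := by
      unfold fixedSubmodule
      rw [Submodule.mem_iInf]
      intro u
      rw [Submodule.mem_iInf]
      intro hu
      have := LinearMap.congr_fun (hkill u hu) m
      exact this
    rw [hbot] at hmem
    exact (Submodule.mem_bot k).1 hmem

lemma mem_fixed {U₀ : Subgroup (LinearMap.GeneralLinearGroup k M)} {w : M} :
    w ∈ fixedSubmodule U₀ ↔ ∀ u ∈ U₀, (u : Module.End k M) w = w := by
  unfold fixedSubmodule
  rw [Submodule.mem_iInf]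
  constructor
  · intro h u hu
    have := h u
    rw [Submodule.mem_iInf] at this
    have h1 : ((u : Module.End k M) - 1) w = 0 := this hu
    rw [LinearMap.sub_apply, sub_eq_zero] at h1
    exact h1
  · intro h u
    rw [Submodule.mem_iInf]
    intro hu
    show ((u : Module.End k M) - 1) w = 0
    rw [LinearMap.sub_apply, sub_eq_zero]
    exact h u hu

/-- every minimal quadratic element has an opposite -/
theorem exists_opp (h2 : (2 : k) ≠ 0) (h3 : Nat.card k ≠ 3) (hG : IsQuadraticPair G)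
    {ρ : LinearMap.GeneralLinearGroup k M} (hρ : ρ ∈ minimalQuadraticElements G) :
    ∃ μ ∈ minimalQuadraticElements G, Hyp ρ μ := by
  by_contra hno
  push Not at hno
  set W : Set (Subgroup (LinearMap.GeneralLinearGroup k M)) :=
    {A | ∃ g ∈ G, A = sameActionSubgroup G (g * ρ * g⁻¹)} with hW
  have hWG : ∀ A ∈ W, A ≤ G := by
    rintro A ⟨g, hg, rfl⟩ x hx
    exact E_mem_G (conj_mq hg hρ) hx
  have hWW : ∀ A ∈ W, ∀ B ∈ W, IsUnipotentOn (A ⊔ B) := by
    rintro A ⟨g₁, hg₁, rfl⟩ B ⟨g₂, hg₂, rfl⟩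
    apply unip_of_not_hyp h2 h3 (conj_mq hg₁ hρ) (conj_mq hg₂ hρ)
    have e : g₂ * ρ * g₂⁻¹ = g₁ * ((g₁⁻¹ * g₂) * ρ * (g₁⁻¹ * g₂)⁻¹) * g₁⁻¹ := by group
    rw [e, Hyp_conj]
    exact hno _ (conj_mq (G.mul_mem (G.inv_mem hg₁) hg₂) hρ)
  have hWconj : ∀ A ∈ W, ∀ g ∈ G, conjBy A g ∈ W := by
    rintro A ⟨g₁, hg₁, rfl⟩ g hg
    refine ⟨g * g₁, G.mul_mem hg hg₁, ?_⟩
    rw [conj_E _ hg]
    have e : g * (g₁ * ρ * g₁⁻¹) * g⁻¹ = g * g₁ * ρ * (g * g₁)⁻¹ := by
      rw [mul_inv_rev]; simp only [mul_assoc]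
    rw [e]
  have hU : IsUnipotentOn (⨆ A ∈ W, A) := Cfsg.Agent.Lib.Helper83.Unip.main hWG hWW hWconj
  have key : ∀ g ∈ G, conjBy (⨆ A ∈ W, A) g ≤ ⨆ A ∈ W, A := by
    intro g hg
    rw [Cfsg.conjBy, Subgroup.map_iSup]
    refine iSup_le (fun B => ?_)
    rw [Subgroup.map_iSup]
    exact iSup_le (fun hB => le_biSup (fun A => A) (hWconj B hB g hg))
  have hF := exists_fixed hU hG.1.1
  have hinv : ∀ g ∈ G, ∀ w ∈ fixedSubmodule (⨆ A ∈ W, A),
      (g : M →ₗ[k] M) w ∈ fixedSubmodule (⨆ A ∈ W, A) := by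
    intro g hg w hw
    rw [mem_fixed] at hw ⊢
    intro u hu
    have hc : g⁻¹ * u * g⁻¹⁻¹ ∈ ⨆ A ∈ W, A :=
      key g⁻¹ (G.inv_mem hg) ⟨u, hu, rfl⟩
    have h1 := hw _ hc
    have e : (u : Module.End k M) ((g : Module.End k M) w) =
        (g : Module.End k M) (((g⁻¹ * u * g⁻¹⁻¹ : LinearMap.GeneralLinearGroup k M) :
          Module.End k M) w) := by
      rw [← Module.End.mul_apply, ← Module.End.mul_apply, ← Units.val_mul, ← Units.val_mul]
      congr 2
      group
    rw [e, h1]
  rcases hG.1.2 _ hinv with hbot | htop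
  · exact hF hbot
  · have hρU : ρ ∈ ⨆ A ∈ W, A := by
      have hmem : sameActionSubgroup G ρ ∈ W := ⟨1, G.one_mem, by simp⟩
      exact (le_biSup (fun A => A) hmem) (self_mem_E hρ)
    apply hρ.1.2.1.2
    apply LinearMap.ext
    intro m
    have hm : m ∈ fixedSubmodule (⨆ A ∈ W, A) := by rw [htop]; trivial
    rw [mem_fixed] at hm
    have := hm ρ hρU
    show ((ρ : Module.End k M) - 1) m = 0
    rw [LinearMap.sub_apply, sub_eq_zero]
    exact this

end opp

end Cfsg.Agent.Lib.Helper83.QPOpp
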