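import Mathlib
import Cfsg.Prelude.Def_RootSubgroups
import Cfsg.Agent.Lib.Helper83.QPDepth
import Cfsg.Agent.Lib.Helper83.QPMain
import Cfsg.Agent.Lib.Helper83.QPRoot
import Cfsg.Agent.Lib.Helper83.QPKey
import Cfsg.Agent.Lib.Helper83.QPHyp
import Cfsg.Agent.Lib.Helper83.QPPair
import Cfsg.Agent.Lib.Helper83.QPComm
import Cfsg.Agent.Lib.Helper83.QPOpp

/-!
# Quadratic pairs: commutators with a fixed element fill the commutator root subgroup (helper83)

For a non-hyperbolic non-commuting pair `σ, τ ∈ 𝒬_d` with commutator `ρ`: every element of `E(ρ)`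
is a commutator `[σ, h]`, `h ∈ E(τ)`.  The proof uses an opposite `μ` of `ρ`, the central
involution of `⟨ρ, μ⟩` (to split off the weight two component), and the derivation
`L ↦ [σ - 1, [P, L]]` with `P = [τ - 1, μ - 1]`, which is injective on `E(ρ) - 1`.
-/

set_option autoImplicit false
set_option linter.unusedVariables false
set_option linter.unusedSectionVars false
set_option linter.unusedSimpArgs false
set_option linter.unnecessarySeqFocus false
set_option linter.unreachableTactic false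
set_option linter.unusedTactic false
set_option linter.style.haveILetI false

namespace Cfsg.Agent.Lib.Helper83.QPSurj

open Cfsg
open Cfsg.Agent.Lib.Helper83.QPDepth Cfsg.Agent.Lib.Helper83.QPMain
open Cfsg.Agent.Lib.Helper83.QPRoot Cfsg.Agent.Lib.Helper83.QPKey Cfsg.Agent.Lib.Helper83.QPHyp
open Cfsg.Agent.Lib.Helper83.QPPair Cfsg.Agent.Lib.Helper83.RankOne
open Cfsg.Agent.Lib.Helper83.QPComm Cfsg.Agent.Lib.Helper83.QPOpp

universe u v

section ring
variable {R : Type*} [Ring R] (L Q X N N' : R)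

/-- conjugating by the central involution `1 - 2(LQ + QL)` negates the weight one part -/
lemma invol_ring (hLL : L * L = 0) (hQQ : Q * Q = 0) (h1 : L * Q * L = L) (h2 : Q * L * Q = Q)
    (hXX : X * X = 0) (hXL : X * L = 0) (hLX : L * X = 0)
    (hU : (1 - L * Q) * X * (1 - Q * L) = 0) :
    (1 - ((L * Q + Q * L) + (L * Q + Q * L))) * (1 + X) *
      (1 - ((L * Q + Q * L) + (L * Q + Q * L))) * (1 + X) =
      1 + (L * Q * X * Q * L + L * Q * X * Q * L) := by
  have hee : (L * Q + Q * L) * (L * Q + Q * L) = L * Q + Q * L := e_idem L Q hLL hQQ h1 h2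
  have hzz : (1 - ((L * Q + Q * L) + (L * Q + Q * L))) *
      (1 - ((L * Q + Q * L) + (L * Q + Q * L))) = 1 := by
    have : (1 - ((L * Q + Q * L) + (L * Q + Q * L))) *
        (1 - ((L * Q + Q * L) + (L * Q + Q * L))) =
        1 - ((L * Q + Q * L) + (L * Q + Q * L)) - ((L * Q + Q * L) + (L * Q + Q * L)) +
          ((L * Q + Q * L) * (L * Q + Q * L) + (L * Q + Q * L) * (L * Q + Q * L) +
            (L * Q + Q * L) * (L * Q + Q * L) + (L * Q + Q * L) * (L * Q + Q * L)) := by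
      noncomm_ring
    rw [this, hee]; abel
  have heX : (L * Q + Q * L) * X = L * Q * X := by
    rw [add_mul, mul_assoc Q L X, hLX, mul_zero, add_zero]
  have hXe : X * (L * Q + Q * L) = X * Q * L := by
    rw [mul_add, ← mul_assoc X L Q, hXL, zero_mul, zero_add, mul_assoc]
  have heXe : (L * Q + Q * L) * X * (L * Q + Q * L) = L * Q * X * Q * L := by
    rw [heX, mul_add, ← mul_assoc (L * Q * X) L Q, mul_assoc (L * Q) X L, hXL, mul_zero, zero_mul,
      zero_add, ← mul_assoc]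
  have hU' : L * Q * X + X * Q * L = X + L * Q * X * Q * L := by
    have : (1 - L * Q) * X * (1 - Q * L) = X - L * Q * X - X * Q * L + L * Q * X * Q * L := by
      noncomm_ring
    rw [hU] at this
    have h3 : X + L * Q * X * Q * L - (L * Q * X + X * Q * L) = 0 := by
      rw [this]; abel
    exact (sub_eq_zero.1 h3).symm
  have hzXz : (1 - ((L * Q + Q * L) + (L * Q + Q * L))) * X *
      (1 - ((L * Q + Q * L) + (L * Q + Q * L))) =
      -X + (L * Q * X * Q * L + L * Q * X * Q * L) := by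
    have : (1 - ((L * Q + Q * L) + (L * Q + Q * L))) * X *
        (1 - ((L * Q + Q * L) + (L * Q + Q * L))) =
        X - ((L * Q + Q * L) * X + (L * Q + Q * L) * X) -
          (X * (L * Q + Q * L) + X * (L * Q + Q * L)) +
          ((L * Q + Q * L) * X * (L * Q + Q * L) + (L * Q + Q * L) * X * (L * Q + Q * L) +
            (L * Q + Q * L) * X * (L * Q + Q * L) + (L * Q + Q * L) * X * (L * Q + Q * L)) := by
      noncomm_ring
    rw [this, heXe, heX, hXe]
    have h4 : X - (L * Q * X + L * Q * X) - (X * Q * L + X * Q * L) +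
        (L * Q * X * Q * L + L * Q * X * Q * L + L * Q * X * Q * L + L * Q * X * Q * L) =
        X - ((L * Q * X + X * Q * L) + (L * Q * X + X * Q * L)) +
        (L * Q * X * Q * L + L * Q * X * Q * L + L * Q * X * Q * L + L * Q * X * Q * L) := by
      abel
    rw [h4, hU']; abel
  have hCX : L * Q * X * Q * L * X = 0 := by
    rw [mul_assoc, hLX, mul_zero]
  have e : (1 - ((L * Q + Q * L) + (L * Q + Q * L))) * (1 + X) *
      (1 - ((L * Q + Q * L) + (L * Q + Q * L))) * (1 + X) =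
      ((1 - ((L * Q + Q * L) + (L * Q + Q * L))) * (1 - ((L * Q + Q * L) + (L * Q + Q * L))) +
        (1 - ((L * Q + Q * L) + (L * Q + Q * L))) * X *
          (1 - ((L * Q + Q * L) + (L * Q + Q * L)))) * (1 + X) := by
    noncomm_ring
  rw [e, hzz, hzXz]
  have e2 : (1 + (-X + (L * Q * X * Q * L + L * Q * X * Q * L))) * (1 + X) =
      1 + (L * Q * X * Q * L + L * Q * X * Q * L) - X * X +
        (L * Q * X * Q * L * X + L * Q * X * Q * L * X) := by
    noncomm_ring
  rw [e2, hXX, hCX]; abel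

/-- `[[N', Q], L] = N'` for `N'` of weight one -/
lemma comm_PL (hNL : N' * L = 0) (hLN : L * N' = 0) (hQNQ : Q * N' * Q = 0)
    (hU : (1 - L * Q) * N' * (1 - Q * L) = 0) :
    (N' * Q - Q * N') * L - L * (N' * Q - Q * N') = N' := by
  have hU' : N' = L * Q * N' + N' * Q * L := by
    have : (1 - L * Q) * N' * (1 - Q * L) = N' - L * Q * N' - N' * Q * L + L * (Q * N' * Q) * L := by
      noncomm_ring
    rw [hU, hQNQ, mul_zero, zero_mul, add_zero] at this
    have h3 : N' - (L * Q * N' + N' * Q * L) = 0 := by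
      rw [this]; abel
    exact sub_eq_zero.1 h3
  have : (N' * Q - Q * N') * L - L * (N' * Q - Q * N') =
      N' * Q * L - Q * (N' * L) - (L * N') * Q + L * Q * N' := by
    noncomm_ring
  rw [this, hNL, hLN, mul_zero, zero_mul, sub_zero, sub_zero, add_comm]
  exact hU'.symm

lemma PLQ (hNL : N' * L = 0) (h2 : Q * L * Q = Q) :
    (N' * Q - Q * N') * L * Q = N' * Q := by
  have : (N' * Q - Q * N') * L * Q = N' * (Q * L * Q) - Q * (N' * L) * Q := by noncomm_ring
  rw [this, hNL, h2, mul_zero, zero_mul, sub_zero]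

/-- the derivation `L' ↦ [N, [[N', Q], L']]` -/
lemma phi_formula (L' : R) (hNL : N * L' = 0) (hLN : L' * N = 0) (hN'L : N' * L' = 0)
    (hLN' : L' * N' = 0) :
    N * ((N' * Q - Q * N') * L' - L' * (N' * Q - Q * N')) -
      ((N' * Q - Q * N') * L' - L' * (N' * Q - Q * N')) * N =
      N * N' * Q * L' - L' * Q * N' * N := by
  have : N * ((N' * Q - Q * N') * L' - L' * (N' * Q - Q * N')) -
      ((N' * Q - Q * N') * L' - L' * (N' * Q - Q * N')) * N =
      N * N' * Q * L' - N * Q * (N' * L') - (N * L') * (N' * Q - Q * N') -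
        (N' * Q - Q * N') * (L' * N) + (L' * N') * Q * N - L' * Q * N' * N := by
    noncomm_ring
  rw [this, hNL, hLN, hN'L, hLN', mul_zero, mul_zero, zero_mul, zero_mul, zero_mul, sub_zero,
    sub_zero, sub_zero, add_zero]

lemma LQL_expand (hNQN : N' * Q * N' = 0)
    (h1 : (N * N' - N' * N) * Q * (N * N' - N' * N) = N * N' - N' * N) :
    N * N' * Q * (N * N') - N * N' = N' * (N * (Q * (N * N') - Q * (N' * N) - 1)) := by
  have e : N * N' * Q * (N * N') - N * N' - N' * (N * (Q * (N * N') - Q * (N' * N) - 1)) =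
      (N * N' - N' * N) * Q * (N * N' - N' * N) - (N * N' - N' * N) + N * (N' * Q * N') * N := by
    noncomm_ring
  rw [h1, hNQN, mul_zero, zero_mul, sub_self, add_zero] at e
  exact sub_eq_zero.1 e

lemma sub_sq_zero (C : R) (hNN : N * N = 0) (hNC : N * C = 0) (hCN : C * N = 0)
    (hCC : C * C = 0) : (N - C) * (N - C) = 0 := by
  have : (N - C) * (N - C) = N * N - N * C - C * N + C * C := by noncomm_ring
  rw [this, hNN, hNC, hCN, hCC]; simp

lemma conj_formula (Y B : R) (h : Y * B * Y = 0) :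
    (1 + Y) * B * (1 - Y) = B + (Y * B - B * Y) := by
  have : (1 + Y) * B * (1 - Y) = B + (Y * B - B * Y) - Y * B * Y := by noncomm_ring
  rw [this, h, sub_zero]

lemma Q_hom_Q (h2 : Q * L * Q = Q) : Q * (N - L * Q * N * Q * L) * Q = 0 := by
  have : Q * (N - L * Q * N * Q * L) * Q = Q * N * Q - (Q * L * Q) * N * (Q * L * Q) := by
    noncomm_ring
  rw [this, h2, sub_self]

lemma C_sq (hLL : L * L = 0) : (L * Q * X * Q * L) * (L * Q * X * Q * L) = 0 := by
  have : (L * Q * X * Q * L) * (L * Q * X * Q * L) =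
      L * Q * X * Q * (L * L) * (Q * X * Q * L) := by noncomm_ring
  rw [this, hLL, mul_zero, zero_mul]

end ring

section lin
variable {k : Type v} [Field k] {M : Type u} [AddCommGroup M] [Module k M]
  [FiniteDimensional k M]
variable {G : Subgroup (LinearMap.GeneralLinearGroup k M)}

lemma nn_inj {a b : LinearMap.GeneralLinearGroup k M} (h : nn a = nn b) : a = b :=
  Units.ext (by rw [val_eq a, val_eq b, h])

lemma rank_sub_le (N e f : Module.End k M) (h : (1 - e) * N * (1 - f) = 0) :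
    Module.finrank k (LinearMap.range (N - e * N * f)) ≤ Module.finrank k (LinearMap.range N) := by
  have hsum : N - e * N * f = N * (1 - f) + (1 - e) * N := by
    have h0 : (1 - e) * N * (1 - f) = N - e * N - N * f + e * N * f := by noncomm_ring
    rw [h] at h0
    have h3 : N - e * N * f - (N * (1 - f) + (1 - e) * N) =
        -(N - e * N - N * f + e * N * f) := by noncomm_ring
    rw [← h0, neg_zero] at h3
    exact sub_eq_zero.1 h3
  have h1 : LinearMap.range (N - e * N * f) ≤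
      LinearMap.range (N * (1 - f)) ⊔ LinearMap.range ((1 - e) * N) := by
    rw [hsum]
    rintro _ ⟨m, rfl⟩
    rw [LinearMap.add_apply]
    exact Submodule.add_mem_sup ⟨m, rfl⟩ ⟨m, rfl⟩
  have h2 := finrank_map_add (1 - e) (LinearMap.range N)
  have h3 : (LinearMap.range N).map (1 - e) = LinearMap.range ((1 - e) * N) := by
    ext x; constructor
    · rintro ⟨_, ⟨m, rfl⟩, rfl⟩; exact ⟨m, rfl⟩
    · rintro ⟨m, rfl⟩; exact ⟨_, ⟨m, rfl⟩, rfl⟩
  have h4 : LinearMap.range (N * (1 - f)) ≤ LinearMap.range N ⊓ LinearMap.ker (1 - e) := by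
    rintro _ ⟨m, rfl⟩
    refine ⟨⟨_, rfl⟩, ?_⟩
    exact LinearMap.congr_fun h m
  have h5 := Submodule.finrank_add_le_finrank_add_finrank
    (LinearMap.range (N * (1 - f))) (LinearMap.range ((1 - e) * N))
  have h6 := Submodule.finrank_mono h1
  have h7 := Submodule.finrank_mono h4
  rw [h3] at h2
  omega

lemma not_hyp_of_word (A B : Module.End k M) (h : B * A * B = 0) (hB : B ≠ 0) :
    ¬ (LinearMap.range A ⊓ LinearMap.ker B = ⊥ ∧ LinearMap.range B ⊓ LinearMap.ker A = ⊥) := by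
  rintro ⟨h1, h2⟩
  apply hB
  have hAB : ∀ x, A (B x) = 0 := by
    intro x
    have : A (B x) ∈ LinearMap.range A ⊓ LinearMap.ker B :=
      ⟨⟨_, rfl⟩, LinearMap.congr_fun h x⟩
    rw [h1] at this; exact (Submodule.mem_bot k).1 this
  apply LinearMap.ext; intro x
  have : B x ∈ LinearMap.range B ⊓ LinearMap.ker A := ⟨⟨x, rfl⟩, hAB x⟩
  rw [h2] at this; exact (Submodule.mem_bot k).1 this

lemma not_hyp_of_words (A B : Module.End k M) (h1 : A * B * A = 0) (h2 : B * A * B = 0)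
    (hne : A * B - B * A ≠ 0) :
    ¬ (LinearMap.range A ⊓ LinearMap.ker B = ⊥ ∧ LinearMap.range B ⊓ LinearMap.ker A = ⊥) := by
  rintro ⟨k1, k2⟩
  apply hne
  have hAB : A * B = 0 := by
    apply LinearMap.ext; intro x
    have : A (B x) ∈ LinearMap.range A ⊓ LinearMap.ker B :=
      ⟨⟨_, rfl⟩, LinearMap.congr_fun h2 x⟩
    rw [k1] at this; exact (Submodule.mem_bot k).1 this
  have hBA : B * A = 0 := by
    apply LinearMap.ext; intro x
    have : B (A x) ∈ LinearMap.range B ⊓ LinearMap.ker A :=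
      ⟨⟨_, rfl⟩, LinearMap.congr_fun h1 x⟩
    rw [k2] at this; exact (Submodule.mem_bot k).1 this
  rw [hAB, hBA, sub_zero]

lemma flag_hU (L Q : Module.End k M) {y : LinearMap.GeneralLinearGroup k M}
    (hy : FlagP (LinearMap.ker L) (LinearMap.range L) y) (e1 : L * Q * L = L) :
    (1 - L * Q) * nn y * (1 - Q * L) = 0 := by
  apply LinearMap.ext; intro m
  have hk : (1 - Q * L) m ∈ LinearMap.ker L := by
    show L ((1 - Q * L) m) = 0
    have h0 : L (Q (L m)) = L m := LinearMap.congr_fun e1 m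
    rw [LinearMap.sub_apply, Module.End.one_apply, Module.End.mul_apply, map_sub, h0, sub_self]
  obtain ⟨v, hv⟩ := hy.2.1 _ hk
  show (1 - L * Q) (nn y ((1 - Q * L) m)) = 0
  have h0 : L (Q (L v)) = L v := LinearMap.congr_fun e1 v
  rw [← hv, LinearMap.sub_apply, Module.End.one_apply, Module.End.mul_apply, h0, sub_self]

/-- the weight two component of a weight `≥ 1` element lies in `E(ρ)` -/
lemma hom_part (h2 : (2 : k) ≠ 0) {ρ : LinearMap.GeneralLinearGroup k M}
    (hρ : ρ ∈ minimalQuadraticElements G)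
    (Q : Module.End k M) (hQQ : Q * Q = 0) (hQG : sqUnit Q hQQ ∈ G)
    (e1 : nn ρ * Q * nn ρ = nn ρ) (e2 : Q * nn ρ * Q = Q)
    (X : Module.End k M) (hXX : X * X = 0) (hXG : ∀ c : k, sqUnit (c • X) (smul_sq c X hXX) ∈ G)
    (hXL : X * nn ρ = 0) (hLX : nn ρ * X = 0) (hU : (1 - nn ρ * Q) * X * (1 - Q * nn ρ) = 0)
    (hCC : (nn ρ * Q * X * Q * nn ρ) * (nn ρ * Q * X * Q * nn ρ) = 0) :
    sqUnit (nn ρ * Q * X * Q * nn ρ) hCC ∈ sameActionSubgroup G ρ := by
  have hLL : nn ρ * nn ρ = 0 := hρ.1.2.1.1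
  apply E_of_nn hρ
  · intro c
    have hwG : ρ * (sqUnit Q hQQ)⁻¹ * ρ ∈ G :=
      G.mul_mem (G.mul_mem hρ.1.1 (G.inv_mem hQG)) hρ.1.1
    have hwv : ((ρ * (sqUnit Q hQQ)⁻¹ * ρ : LinearMap.GeneralLinearGroup k M) :
        Module.End k M) = (1 + nn ρ) * (1 - Q) * (1 + nn ρ) := by
      rw [Units.val_mul, Units.val_mul, val_eq ρ]; rfl
    have hzv : (((ρ * (sqUnit Q hQQ)⁻¹ * ρ) * (ρ * (sqUnit Q hQQ)⁻¹ * ρ) :
        LinearMap.GeneralLinearGroup k M) : Module.End k M) =
        1 - ((nn ρ * Q + Q * nn ρ) + (nn ρ * Q + Q * nn ρ)) := by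
      rw [Units.val_mul, hwv]
      exact W3 (nn ρ) Q hLL hQQ e1 e2
    generalize ρ * (sqUnit Q hQQ)⁻¹ * ρ = w at hwG hzv
    have hxG := hXG (c / 2)
    have hyG : w * w * sqUnit ((c / 2) • X) (smul_sq (c / 2) X hXX) * (w * w) *
        sqUnit ((c / 2) • X) (smul_sq (c / 2) X hXX) ∈ G :=
      G.mul_mem (G.mul_mem (G.mul_mem (G.mul_mem hwG hwG) hxG) (G.mul_mem hwG hwG)) hxG
    have hval : ((w * w * sqUnit ((c / 2) • X) (smul_sq (c / 2) X hXX) * (w * w) *
        sqUnit ((c / 2) • X) (smul_sq (c / 2) X hXX) : LinearMap.GeneralLinearGroup k M) :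
        Module.End k M) = 1 + c • (nn ρ * Q * X * Q * nn ρ) := by
      rw [Units.val_mul, Units.val_mul, Units.val_mul, hzv]
      show (1 - ((nn ρ * Q + Q * nn ρ) + (nn ρ * Q + Q * nn ρ))) * (1 + (c / 2) • X) *
        (1 - ((nn ρ * Q + Q * nn ρ) + (nn ρ * Q + Q * nn ρ))) * (1 + (c / 2) • X) = _
      rw [invol_ring (nn ρ) Q ((c / 2) • X) hLL hQQ e1 e2 (smul_sq (c / 2) X hXX)
        (by rw [smul_mul_assoc, hXL, smul_zero]) (by rw [mul_smul_comm, hLX, smul_zero])
        (by rw [mul_smul_comm, smul_mul_assoc, hU, smul_zero])]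
      congr 1
      have e3 : nn ρ * Q * ((c / 2) • X) * Q * nn ρ = (c / 2) • (nn ρ * Q * X * Q * nn ρ) := by
        rw [mul_smul_comm, smul_mul_assoc, smul_mul_assoc]
      rw [e3, ← add_smul]
      congr 1
      field_simp
      ring
    have : sqUnit (c • (nn ρ * Q * X * Q * nn ρ)) (smul_sq c _ hCC) =
        w * w * sqUnit ((c / 2) • X) (smul_sq (c / 2) X hXX) * (w * w) *
          sqUnit ((c / 2) • X) (smul_sq (c / 2) X hXX) :=
      Units.ext (by rw [hval]; rfl)
    rw [this]; exact hyG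
  · rintro _ ⟨m, rfl⟩
    exact ⟨Q (X (Q (nn ρ m))), rfl⟩
  · intro m hm
    have h0 : nn ρ m = 0 := hm
    show (nn ρ * Q * X * Q * nn ρ) m = 0
    simp only [Module.End.mul_apply, h0, map_zero]

/-- the additive group `E(ρ) - 1` as a subspace of `End(M)` -/
def Nsp (G : Subgroup (LinearMap.GeneralLinearGroup k M)) (ρ : LinearMap.GeneralLinearGroup k M)
    (hρ : ρ ∈ minimalQuadraticElements G) : Submodule k (Module.End k M) where
  carrier := {L' | ∃ g ∈ sameActionSubgroup G ρ, nn g = L'}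
  add_mem' := by
    rintro _ _ ⟨g₁, hg₁, rfl⟩ ⟨g₂, hg₂, rfl⟩
    exact ⟨g₁ * g₂, Subgroup.mul_mem _ hg₁ hg₂, E_nn_mul hρ hg₁ hg₂⟩
  zero_mem' := ⟨1, Subgroup.one_mem _, nn_one⟩
  smul_mem' := by
    rintro c _ ⟨g, hg, rfl⟩
    exact ⟨_, E_smul hρ hg c, nn_sqUnit _ _⟩

lemma mem_Nsp {ρ : LinearMap.GeneralLinearGroup k M} (hρ : ρ ∈ minimalQuadraticElements G)
    (x : Module.End k M) : x ∈ Nsp G ρ hρ ↔ ∃ g ∈ sameActionSubgroup G ρ, nn g = x := Iff.rfl

/-- **Core**: with an opposite `μ` of `ρ = [σ, τ]` which is not opposite to `τ`, every element of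
`E(ρ)` is a commutator of `σ` with an element of `E(τ)`. -/
theorem core (h2 : (2 : k) ≠ 0) (h3 : Nat.card k ≠ 3) {σ τ μ : LinearMap.GeneralLinearGroup k M}
    (H : NH G σ τ) (hμ : μ ∈ minimalQuadraticElements G)
    (Q : Module.End k M) (hQQ : Q * Q = 0) (hQc : sqUnit Q hQQ ∈ sameActionClass G μ)
    (e1 : (nn σ * nn τ - nn τ * nn σ) * Q * (nn σ * nn τ - nn τ * nn σ) =
      nn σ * nn τ - nn τ * nn σ)
    (e2 : Q * (nn σ * nn τ - nn τ * nn σ) * Q = Q)
    (hnh : ¬ Hyp τ μ) :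
    ∀ g ∈ sameActionSubgroup G (rho σ τ), ∃ h ∈ sameActionSubgroup G τ,
      nn σ * nn h - nn h * nn σ = nn g := by
  have hρ := H.rho_mq
  have hnρ := H.nn_rho
  have hne := H.ne
  have hker := H.ker_eq
  have hrng := H.range_eq
  generalize hL : nn σ * nn τ - nn τ * nn σ = L at e1 e2 hnρ hne hker hrng
  have hσF := H.flag_left (self_mem_E H.hσ)
  have hτF := H.flag_right (self_mem_E H.hτ)
  have hρE := self_mem_E hρ
  have hNL : nn σ * L = 0 := by have := (H.mul_rho hσF hρE).1; rwa [hnρ] at this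
  have hLN : L * nn σ = 0 := by have := (H.mul_rho hσF hρE).2; rwa [hnρ] at this
  have hN'L : nn τ * L = 0 := by have := (H.mul_rho hτF hρE).1; rwa [hnρ] at this
  have hLN' : L * nn τ = 0 := by have := (H.mul_rho hτF hρE).2; rwa [hnρ] at this
  have hμ' : sqUnit Q hQQ ∈ minimalQuadraticElements G := hQc.1
  have hnh' : ¬ Hyp τ (sqUnit Q hQQ) :=
    fun h => hnh ((Hyp_congr (self_mem_class H.hτ) hQc).1 h)
  have hkey := key_E h2 h3 H.hτ hμ' hnh' τ (self_mem_E H.hτ) (sqUnit Q hQQ) (self_mem_E hμ')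
  rw [nn_sqUnit] at hkey
  have hτF' : FlagP (LinearMap.ker L) (LinearMap.range L) τ := by
    rw [hker, hrng]; exact hτF
  have hUτ := flag_hU L Q hτF' e1
  have hPL : (nn τ * Q - Q * nn τ) * L - L * (nn τ * Q - Q * nn τ) = nn τ :=
    comm_PL L Q (nn τ) hN'L hLN' hkey.1 hUτ
  have Hτμ : NH G τ (sqUnit Q hQQ) := NH.of_not_hyp h2 h3 H.hτ hμ' hnh' (by
    rw [nn_sqUnit]
    intro h0
    rw [h0, zero_mul, mul_zero, sub_zero] at hPL
    exact H.hτ.1.2.1.2 hPL.symm)
  have hπ := Hτμ.rho_mq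
  have hnπ := Hτμ.nn_rho
  rw [nn_sqUnit] at hnπ
  generalize hP : nn τ * Q - Q * nn τ = P at hPL hnπ
  have hPLQ : P * L * Q = nn τ * Q := by rw [← hP]; exact PLQ L Q (nn τ) hN'L e2
  have hnh2 : ¬ Hyp (rho τ (sqUnit Q hQQ)) (rho σ τ) := by
    rintro ⟨k1, k2⟩
    rw [hnπ, hnρ] at k1 k2
    have z1 : ∀ x, nn τ (Q x) = 0 := by
      intro x
      have : nn τ (Q x) ∈ LinearMap.range P ⊓ LinearMap.ker L := by
        refine ⟨⟨L (Q x), ?_⟩, ?_⟩
        · exact LinearMap.congr_fun hPLQ x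
        · exact LinearMap.congr_fun hLN' (Q x)
      rw [k1] at this; exact (Submodule.mem_bot k).1 this
    have z2 : ∀ x, L (Q x) = 0 := by
      intro x
      have : L (Q x) ∈ LinearMap.range L ⊓ LinearMap.ker P := by
        refine ⟨⟨_, rfl⟩, ?_⟩
        show P (L (Q x)) = 0
        have h0 : P (L (Q x)) = nn τ (Q x) := LinearMap.congr_fun hPLQ x
        rw [h0, z1]
      rw [k2] at this; exact (Submodule.mem_bot k).1 this
    apply hne
    rw [← e1]
    apply LinearMap.ext; intro x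
    show L (Q (L x)) = 0
    exact z2 _
  have Hπρ : NH G (rho τ (sqUnit Q hQQ)) (rho σ τ) := NH.of_not_hyp h2 h3 hπ hρ hnh2 (by
    rw [hnπ, hnρ, hPL]; exact H.hτ.1.2.1.2)
  have hττ : rho (rho τ (sqUnit Q hQQ)) (rho σ τ) = τ :=
    nn_inj (by rw [Hπρ.nn_rho, hnπ, hnρ, hPL])
  have hh : ∀ g ∈ sameActionSubgroup G (rho σ τ), ∃ h ∈ sameActionSubgroup G τ,
      nn h = P * nn g - nn g * P := by
    intro g hg
    refine ⟨rho τ (sqUnit Q hQQ) * g * (rho τ (sqUnit Q hQQ))⁻¹ * g⁻¹, ?_, ?_⟩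
    · have := Hπρ.comm_mem (self_mem_E hπ) hg
      rwa [show sameActionSubgroup G (rho (rho τ (sqUnit Q hQQ)) (rho σ τ)) =
        sameActionSubgroup G τ from by rw [hττ]] at this
    · rw [Hπρ.comm_nn (self_mem_E hπ) hg, hnπ]
  have hphi : ∀ g ∈ sameActionSubgroup G (rho σ τ), ∀ h ∈ sameActionSubgroup G τ,
      nn h = P * nn g - nn g * P →
      nn σ * nn h - nn h * nn σ = nn σ * nn τ * Q * nn g - nn g * Q * nn τ * nn σ := by
    intro g hg h hh' e
    rw [e, ← hP]
    exact phi_formula Q (nn σ) (nn τ) (nn g) (H.mul_rho hσF hg).1 (H.mul_rho hσF hg).2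
      (H.mul_rho hτF hg).1 (H.mul_rho hτF hg).2
  have hLQ : ∀ y ∈ LinearMap.range L, L (Q y) = y := by
    rintro _ ⟨v, rfl⟩; exact LinearMap.congr_fun e1 v
  have hinj : ∀ g ∈ sameActionSubgroup G (rho σ τ),
      nn σ * nn τ * Q * nn g - nn g * Q * nn τ * nn σ = 0 → nn g = 0 := by
    intro g hg h0
    by_contra hgne
    have hg1 : g ≠ 1 := fun e => hgne (by rw [e, nn_one])
    have hgc := E_class_of_ne hρ hg hg1
    have hkerg : LinearMap.ker (nn g) = LinearMap.ker L := by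
      have h' : LinearMap.ker (nn g) = LinearMap.ker (nn (rho σ τ)) := hgc.2.1
      rw [h', hnρ]
    have hrngg : LinearMap.range (nn g) = LinearMap.range L := by
      have h' : LinearMap.range (nn g) = LinearMap.range (nn (rho σ τ)) := hgc.2.2
      rw [h', hnρ]
    by_cases hN'N : nn τ * nn σ = 0
    · have hLe : nn σ * nn τ = L := by rw [← hL, hN'N, sub_zero]
      apply hgne
      apply LinearMap.ext; intro m
      have h1 := LinearMap.congr_fun h0 m
      have h2' : nn g * Q * nn τ * nn σ = 0 := by rw [mul_assoc, hN'N, mul_zero]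
      rw [hLe, h2', sub_zero] at h1
      have h3' : L (Q (nn g m)) = nn g m := hLQ _ (by rw [← hrngg]; exact ⟨m, rfl⟩)
      have h4 : (L * Q * nn g) m = L (Q (nn g m)) := rfl
      rw [h4, h3'] at h1
      exact h1
    · obtain ⟨y, hy⟩ : ∃ y, nn τ (nn σ y) ≠ 0 := by
        by_contra hc; push Not at hc; exact hN'N (LinearMap.ext hc)
      have hU'R : nn τ (nn σ y) ∈ LinearMap.range L := by
        rw [hrng]
        exact Submodule.mem_sup_right (H.symm.map_le (self_mem_E H.hτ) ⟨_, ⟨y, rfl⟩, rfl⟩)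
      have hLx : L (Q (nn τ (nn σ y))) = nn τ (nn σ y) := hLQ _ hU'R
      have hb : nn σ (nn τ (Q (nn τ (nn σ y)))) = 0 := by
        have h1 : nn τ (Q (nn τ (nn σ y))) = 0 := LinearMap.congr_fun hkey.2 (nn σ y)
        rw [h1, map_zero]
      have hc : nn τ (nn σ (Q (nn τ (nn σ y)))) = - nn τ (nn σ y) := by
        have h1 : L (Q (nn τ (nn σ y))) = nn σ (nn τ (Q (nn τ (nn σ y)))) -
            nn τ (nn σ (Q (nn τ (nn σ y)))) := by rw [← hL]; rfl
        rw [hb, zero_sub, hLx] at h1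
        exact (neg_eq_iff_eq_neg.2 h1).symm
      generalize hx : Q (nn τ (nn σ y)) = x at hLx hb hc
      have hd : nn g x = - (nn σ (nn τ (Q (nn g x)))) := by
        have h1 := LinearMap.congr_fun h0 x
        have h1' : nn σ (nn τ (Q (nn g x))) - nn g (Q (nn τ (nn σ x))) = 0 := h1
        rw [hc, map_neg, map_neg, hx, sub_neg_eq_add] at h1'
        exact eq_neg_of_add_eq_zero_right h1'
      have hNN : ∀ v, nn σ (nn τ (Q (nn σ (nn τ v)))) = nn σ (nn τ v) := by
        intro v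
        have e1' : (nn σ * nn τ - nn τ * nn σ) * Q * (nn σ * nn τ - nn τ * nn σ) =
            nn σ * nn τ - nn τ * nn σ := by rw [hL]; exact e1
        have hexp := LQL_expand Q (nn σ) (nn τ) hkey.2 e1'
        have h1 := LinearMap.congr_fun hexp v
        have m1 : (nn σ * nn τ * Q * (nn σ * nn τ) - nn σ * nn τ) v ∈ Usp σ τ := by
          rw [LinearMap.sub_apply]
          refine Submodule.sub_mem _ ?_ ?_
          · exact H.map_le (self_mem_E H.hσ) ⟨_, ⟨_, rfl⟩, rfl⟩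
          · exact H.map_le (self_mem_E H.hσ) ⟨_, ⟨v, rfl⟩, rfl⟩
        have m2 : (nn τ * (nn σ * (Q * (nn σ * nn τ) - Q * (nn τ * nn σ) - 1))) v ∈ Usp τ σ :=
          H.symm.map_le (self_mem_E H.hτ) ⟨_, ⟨_, rfl⟩, rfl⟩
        have : (nn σ * nn τ * Q * (nn σ * nn τ) - nn σ * nn τ) v ∈ Usp σ τ ⊓ Usp τ σ :=
          ⟨m1, by rw [h1]; exact m2⟩
        rw [H.dims.1] at this
        have h3' := (Submodule.mem_bot k).1 this
        rw [LinearMap.sub_apply, sub_eq_zero] at h3'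
        exact h3'
      have ha : nn σ (nn τ (Q (nn g x))) = - nn σ (nn τ (Q (nn g x))) := by
        have h1 := hNN (Q (nn g x))
        have h2' : nn σ (nn τ (Q (nn g x))) =
            - nn σ (nn τ (Q (nn σ (nn τ (Q (nn g x)))))) := by
          conv_lhs => rw [hd]
          rw [map_neg, map_neg, map_neg]
        rw [h1] at h2'
        exact h2'
      have ha0 : nn σ (nn τ (Q (nn g x))) = 0 := by
        have h1 : (2 : k) • nn σ (nn τ (Q (nn g x))) = 0 := by
          rw [two_smul]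
          nth_rewrite 2 [ha]
          exact add_neg_cancel _
        exact (smul_eq_zero.1 h1).resolve_left h2
      rw [ha0, neg_zero] at hd
      have hxk : x ∈ LinearMap.ker L := by rw [← hkerg]; exact hd
      have hLx0 : L x = 0 := hxk
      rw [hLx] at hLx0
      exact hy hLx0
  have hφS : ∀ x ∈ Nsp G (rho σ τ) hρ,
      (LinearMap.mulLeft k (nn σ * nn τ * Q) - LinearMap.mulRight k (Q * nn τ * nn σ)) x ∈
        Nsp G (rho σ τ) hρ := by
    rintro _ ⟨g, hg, rfl⟩
    obtain ⟨h, hhE, hhn⟩ := hh g hg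
    refine ⟨σ * h * σ⁻¹ * h⁻¹, H.comm_mem (self_mem_E H.hσ) hhE, ?_⟩
    rw [H.comm_nn (self_mem_E H.hσ) hhE, hphi g hg h hhE hhn]
    simp [mul_assoc]
  have hφinj : Function.Injective
      ((LinearMap.mulLeft k (nn σ * nn τ * Q) - LinearMap.mulRight k (Q * nn τ * nn σ)).restrict
        hφS) := by
    rw [injective_iff_map_eq_zero]
    rintro ⟨x, g, hg, rfl⟩ h0
    have h1 := congrArg Subtype.val h0
    rw [LinearMap.coe_restrict_apply] at h1
    apply Subtype.ext
    apply hinj g hg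
    simpa [mul_assoc] using h1
  have hφsurj := LinearMap.injective_iff_surjective.1 hφinj
  intro g hg
  obtain ⟨⟨x, g', hg', rfl⟩, hx⟩ := hφsurj ⟨nn g, g, hg, rfl⟩
  obtain ⟨h, hhE, hhn⟩ := hh g' hg'
  refine ⟨h, hhE, ?_⟩
  rw [hphi g' hg' h hhE hhn]
  have h1 := congrArg Subtype.val hx
  rw [LinearMap.coe_restrict_apply] at h1
  simpa [mul_assoc] using h1

lemma E_fam' {ρ : LinearMap.GeneralLinearGroup k M} (hρ : ρ ∈ minimalQuadraticElements G)
    {X : Module.End k M} {hXX : X * X = 0} (h : sqUnit X hXX ∈ sameActionSubgroup G ρ) (c : k) :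
    sqUnit (c • X) (smul_sq c X hXX) ∈ G := by
  have e := sqUnit_congr (smul_sq c _ (E_sq hρ h)) (smul_sq c X hXX)
    (by rw [nn_sqUnit])
  rw [← e]; exact E_fam hρ h c

/-- **Surjectivity**: in a quadratic pair, for a non-hyperbolic non-commuting pair `σ, τ ∈ 𝒬_d`
with commutator `ρ`, every element of `E(ρ)` is the commutator of `σ` with an element of `E(τ)`. -/
theorem surj (h2 : (2 : k) ≠ 0) (h3 : Nat.card k ≠ 3) (hG : IsQuadraticPair G)
    {σ τ : LinearMap.GeneralLinearGroup k M} (H : NH G σ τ) :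
    ∀ g ∈ sameActionSubgroup G (rho σ τ), ∃ h ∈ sameActionSubgroup G τ,
      nn σ * nn h - nn h * nn σ = nn g := by
  have hρ := H.rho_mq
  obtain ⟨μ, hμ, hHyp⟩ := exists_opp h2 h3 hG hρ
  obtain ⟨Q, hQQ, hQc, e1, e2⟩ := partner h2 h3 hρ hμ hHyp (self_mem_class hρ)
  have hLeq : nn (rho σ τ) = nn σ * nn τ - nn τ * nn σ := H.nn_rho
  have hLne : nn (rho σ τ) ≠ 0 := by rw [hLeq]; exact H.ne
  have hker : LinearMap.ker (nn (rho σ τ)) = Ksp σ τ := by rw [hLeq]; exact H.ker_eq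
  have hrng : LinearMap.range (nn (rho σ τ)) = Rsp σ τ := by rw [hLeq]; exact H.range_eq
  have hLL : nn (rho σ τ) * nn (rho σ τ) = 0 := hρ.1.2.1.1
  have hσF := H.flag_left (self_mem_E H.hσ)
  have hτF := H.flag_right (self_mem_E H.hτ)
  have hρE := self_mem_E hρ
  have hNL : nn σ * nn (rho σ τ) = 0 := (H.mul_rho hσF hρE).1
  have hLN : nn (rho σ τ) * nn σ = 0 := (H.mul_rho hσF hρE).2
  have hN'L : nn τ * nn (rho σ τ) = 0 := (H.mul_rho hτF hρE).1
  have hLN' : nn (rho σ τ) * nn τ = 0 := (H.mul_rho hτF hρE).2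
  have hσF' : FlagP (LinearMap.ker (nn (rho σ τ))) (LinearMap.range (nn (rho σ τ))) σ := by
    rw [hker, hrng]; exact hσF
  have hτF' : FlagP (LinearMap.ker (nn (rho σ τ))) (LinearMap.range (nn (rho σ τ))) τ := by
    rw [hker, hrng]; exact hτF
  have hUσ := flag_hU (nn (rho σ τ)) Q hσF' e1
  have hUτ := flag_hU (nn (rho σ τ)) Q hτF' e1
  have hNN : nn σ * nn σ = 0 := H.hσ.1.2.1.1
  have hN'N' : nn τ * nn τ = 0 := H.hτ.1.2.1.1
  have hQG : sqUnit Q hQQ ∈ G := hQc.1.1.1
  have hQne : Q ≠ 0 := by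
    intro h0
    apply hLne
    rw [← e1, h0, mul_zero, zero_mul]
  have hCC := C_sq (nn (rho σ τ)) Q (nn σ) hLL
  have hC'C' := C_sq (nn (rho σ τ)) Q (nn τ) hLL
  have hCE : sqUnit (nn (rho σ τ) * Q * nn σ * Q * nn (rho σ τ)) hCC ∈
      sameActionSubgroup G (rho σ τ) :=
    hom_part h2 hρ Q hQQ hQG e1 e2 (nn σ) hNN (fun c => fam_mem H.hσ.1 c) hNL hLN hUσ hCC
  have hC'E : sqUnit (nn (rho σ τ) * Q * nn τ * Q * nn (rho σ τ)) hC'C' ∈
      sameActionSubgroup G (rho σ τ) :=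
    hom_part h2 hρ Q hQQ hQG e1 e2 (nn τ) hN'N' (fun c => fam_mem H.hτ.1 c) hN'L hLN' hUτ hC'C'
  have hkeyστ := H.key σ (self_mem_E H.hσ) τ (self_mem_E H.hτ)
  generalize hLdef : nn (rho σ τ) = L at *
  generalize hCdef : L * Q * nn σ * Q * L = C at *
  generalize hC'def : L * Q * nn τ * Q * L = C' at *
  have hNC : nn σ * C = 0 := by
    rw [← hCdef, show L * Q * nn σ * Q * L = L * (Q * nn σ * Q * L) by noncomm_ring, ← mul_assoc,
      hNL, zero_mul]
  have hCN : C * nn σ = 0 := by rw [← hCdef, mul_assoc, hLN, mul_zero]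
  have hN'C : nn τ * C = 0 := by
    rw [← hCdef, show L * Q * nn σ * Q * L = L * (Q * nn σ * Q * L) by noncomm_ring, ← mul_assoc,
      hN'L, zero_mul]
  have hCN' : C * nn τ = 0 := by rw [← hCdef, mul_assoc, hLN', mul_zero]
  have hNC' : nn σ * C' = 0 := by
    rw [← hC'def, show L * Q * nn τ * Q * L = L * (Q * nn τ * Q * L) by noncomm_ring, ← mul_assoc,
      hNL, zero_mul]
  have hC'N : C' * nn σ = 0 := by rw [← hC'def, mul_assoc, hLN, mul_zero]
  have hN'C' : nn τ * C' = 0 := by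
    rw [← hC'def, show L * Q * nn τ * Q * L = L * (Q * nn τ * Q * L) by noncomm_ring, ← mul_assoc,
      hN'L, zero_mul]
  have hC'N' : C' * nn τ = 0 := by rw [← hC'def, mul_assoc, hLN', mul_zero]
  -- the homogeneous element `σ₁`
  have hN₁sq : (nn σ - C) * (nn σ - C) = 0 := sub_sq_zero (nn σ) C hNN hNC hCN hCC
  have hcomm₁ : nn τ * (nn σ - C) - (nn σ - C) * nn τ = -L := by
    have : nn τ * (nn σ - C) - (nn σ - C) * nn τ =
        -(nn σ * nn τ - nn τ * nn σ) - nn τ * C + C * nn τ := by noncomm_ring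
    rw [this, hN'C, hCN', ← hLeq]; simp
  have hN₁ne : nn σ - C ≠ 0 := by
    intro h0
    rw [h0] at hcomm₁
    apply hLne
    have : -L = 0 := by rw [← hcomm₁]; simp
    exact neg_eq_zero.1 this
  have hfam₁ : ∀ c : k, sqUnit (c • (nn σ - C)) (smul_sq c _ hN₁sq) ∈ G := by
    intro c
    have hX : (c • nn σ) * (c • nn σ) = 0 := smul_sq c _ hNN
    have hY : ((-c) • C) * ((-c) • C) = 0 := smul_sq (-c) _ hCC
    have hXY : (c • nn σ) * ((-c) • C) = 0 := by rw [smul_mul_smul_comm, hNC, smul_zero]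
    have hsum : c • nn σ + (-c) • C = c • (nn σ - C) := by
      rw [smul_sub, neg_smul, sub_eq_add_neg]
    have hS : (c • nn σ + (-c) • C) * (c • nn σ + (-c) • C) = 0 := by
      rw [hsum]; exact smul_sq c _ hN₁sq
    have e := sqUnit_mul (c • nn σ) ((-c) • C) hX hY hXY hS
    have e' := sqUnit_congr hS (smul_sq c _ hN₁sq) hsum
    rw [← e', ← e]
    exact G.mul_mem (fam_mem H.hσ.1 c) (E_fam' hρ hCE (-c))
  have hσ₁ : sqUnit (nn σ - C) hN₁sq ∈ minimalQuadraticElements G := by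
    refine ⟨sqUnit_mem_quad _ hN₁sq hN₁ne hfam₁, fun π hπ => le_trans ?_ (H.hσ.2 π hπ)⟩
    show Module.finrank k (LinearMap.range (nn (sqUnit (nn σ - C) hN₁sq))) ≤
      Module.finrank k (LinearMap.range (nn σ))
    rw [nn_sqUnit]
    have := rank_sub_le (nn σ) (L * Q) (Q * L) hUσ
    have e : L * Q * nn σ * (Q * L) = C := by rw [← hCdef]; noncomm_ring
    rw [e] at this
    exact this
  have hQN₁Q : Q * (nn σ - C) * Q = 0 := by rw [← hCdef]; exact Q_hom_Q L Q (nn σ) e2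
  have hnhσ₁μ : ¬ Hyp (sqUnit (nn σ - C) hN₁sq) μ := by
    intro h
    have h' := (Hyp_congr (self_mem_class hσ₁) hQc).2 h
    unfold Hyp at h'
    rw [nn_sqUnit, nn_sqUnit] at h'
    exact not_hyp_of_word (nn σ - C) Q hQN₁Q hQne h'
  have hnh₁ : ¬ Hyp τ (sqUnit (nn σ - C) hN₁sq) := by
    unfold Hyp
    rw [nn_sqUnit]
    apply not_hyp_of_words (nn τ) (nn σ - C)
    · have : nn τ * (nn σ - C) * nn τ = nn τ * nn σ * nn τ - (nn τ * C) * nn τ := by
        noncomm_ring
      rw [this, hkeyστ.1, hN'C]; simp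
    · have : (nn σ - C) * nn τ * (nn σ - C) =
          nn σ * nn τ * nn σ - nn σ * (nn τ * C) - (C * nn τ) * nn σ + (C * nn τ) * C := by
        noncomm_ring
      rw [this, hkeyστ.2, hN'C, hCN']; simp
    · rw [hcomm₁]; exact neg_ne_zero.2 hLne
  have H₁ : NH G τ (sqUnit (nn σ - C) hN₁sq) := NH.of_not_hyp h2 h3 H.hτ hσ₁ hnh₁ (by
    rw [nn_sqUnit, hcomm₁]; exact neg_ne_zero.2 hLne)
  have hnρinv : nn (rho σ τ)⁻¹ = -L := by rw [nn_inv _ (by rw [hLdef]; exact hLL), hLdef]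
  have hρ₁ : rho τ (sqUnit (nn σ - C) hN₁sq) = (rho σ τ)⁻¹ :=
    nn_inj (by rw [H₁.nn_rho, nn_sqUnit, hcomm₁, hnρinv])
  have hEinv : sameActionSubgroup G (rho σ τ)⁻¹ = sameActionSubgroup G (rho σ τ) :=
    class_congr (class_inv hρ (self_mem_class hρ))
  have hQQ' : (-Q) * (-Q) = 0 := by rw [neg_mul_neg]; exact hQQ
  have hQc' : sqUnit (-Q) hQQ' ∈ sameActionClass G μ := by
    rw [← sqUnit_inv Q hQQ hQQ']; exact class_inv hμ hQc
  have r₁ := core h2 h3 H₁ hμ (-Q) hQQ' hQc'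
    (by rw [nn_sqUnit, hcomm₁]
        have : -L * -Q * -L = -(L * Q * L) := by noncomm_ring
        rw [this, e1])
    (by rw [nn_sqUnit, hcomm₁]
        have : -Q * -L * -Q = -(Q * L * Q) := by noncomm_ring
        rw [this, e2])
    hnhσ₁μ
  obtain ⟨u, huE, hu⟩ := r₁ (sqUnit C' hC'C') (by rw [hρ₁, hEinv]; exact hC'E)
  rw [nn_sqUnit] at hu
  have huG : u ∈ G := E_mem_G hσ₁ huE
  have hu_inv : ((u⁻¹ : LinearMap.GeneralLinearGroup k M) : Module.End k M) = 1 - nn u := by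
    rw [val_eq, E_nn_inv hσ₁ huE]; abel
  have hconj : ∀ h ∈ sameActionSubgroup G τ,
      nn (u * h * u⁻¹) = nn h + (nn u * nn h - nn h * nn u) := by
    intro h hh
    rw [nn_conj, hu_inv, val_eq u]
    exact conj_formula (nn u) (nn h) (H₁.key h hh u huE).1
  -- the conjugate `τ'` of `τ`, homogeneous
  have hτ' : u * τ * u⁻¹ ∈ minimalQuadraticElements G := conj_mq huG H.hτ
  have hnτ' : nn (u * τ * u⁻¹) = nn τ - C' := by
    rw [hconj τ (self_mem_E H.hτ), ← hu]; abel
  have hnhτ'μ : ¬ Hyp (u * τ * u⁻¹) μ := by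
    intro h
    have h' := (Hyp_congr (self_mem_class hτ') hQc).2 h
    unfold Hyp at h'
    rw [nn_sqUnit, hnτ'] at h'
    have hQN'Q : Q * (nn τ - C') * Q = 0 := by rw [← hC'def]; exact Q_hom_Q L Q (nn τ) e2
    exact not_hyp_of_word (nn τ - C') Q hQN'Q hQne h'
  have hcomm' : nn σ * (nn τ - C') - (nn τ - C') * nn σ = L := by
    have : nn σ * (nn τ - C') - (nn τ - C') * nn σ =
        (nn σ * nn τ - nn τ * nn σ) - nn σ * C' + C' * nn σ := by noncomm_ring
    rw [this, hNC', hC'N, ← hLeq]; simp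
  have hnh' : ¬ Hyp σ (u * τ * u⁻¹) := by
    unfold Hyp
    rw [hnτ']
    apply not_hyp_of_words (nn σ) (nn τ - C')
    · have : nn σ * (nn τ - C') * nn σ = nn σ * nn τ * nn σ - (nn σ * C') * nn σ := by
        noncomm_ring
      rw [this, hkeyστ.2, hNC']; simp
    · have : (nn τ - C') * nn σ * (nn τ - C') =
          nn τ * nn σ * nn τ - nn τ * (nn σ * C') - (C' * nn σ) * nn τ + (C' * nn σ) * C' := by
        noncomm_ring
      rw [this, hkeyστ.1, hNC', hC'N]; simp
    · rw [hcomm']; exact hLne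
  have H' : NH G σ (u * τ * u⁻¹) := NH.of_not_hyp h2 h3 H.hσ hτ' hnh' (by
    rw [hnτ', hcomm']; exact hLne)
  have hρ' : rho σ (u * τ * u⁻¹) = rho σ τ :=
    nn_inj (by rw [H'.nn_rho, hnτ', hcomm', hLdef])
  have r₂ := core h2 h3 H' hμ Q hQQ hQc
    (by rw [hnτ', hcomm']; exact e1) (by rw [hnτ', hcomm']; exact e2) hnhτ'μ
  intro g hg
  obtain ⟨h', hh'E, hh'⟩ := r₂ g (by rw [hρ']; exact hg)
  rw [← conj_E τ huG] at hh'E
  obtain ⟨h, hhE, rfl⟩ := hh'E
  refine ⟨h, hhE, ?_⟩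
  have hc : (MulAut.conj u).toMonoidHom h = u * h * u⁻¹ := rfl
  rw [hc, hconj h hhE] at hh'
  have hxE : h * u * h⁻¹ * u⁻¹ ∈ sameActionSubgroup G (rho σ τ) := by
    have := H₁.comm_mem hhE huE
    rwa [hρ₁, hEinv] at this
  have hxn : nn (h * u * h⁻¹ * u⁻¹) = nn h * nn u - nn u * nn h := H₁.comm_nn hhE huE
  have hz := H.mul_rho hσF hxE
  rw [hxn] at hz
  rw [← hh']
  have : nn σ * (nn h + (nn u * nn h - nn h * nn u)) - (nn h + (nn u * nn h - nn h * nn u)) * nn σ =
      nn σ * nn h - nn h * nn σ - nn σ * (nn h * nn u - nn u * nn h) +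
        (nn h * nn u - nn u * nn h) * nn σ := by noncomm_ring
  rw [this, hz.1, hz.2]; simp

end lin

end Cfsg.Agent.Lib.Helper83.QPSurj
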