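import Mathlib
import Cfsg.Prelude.Def_RootSubgroups
import Cfsg.Agent.Lib.Helper83.RankOne
import Cfsg.Agent.Lib.Helper83.Unip
import Cfsg.Agent.Lib.Helper83.QPDepth
import Cfsg.Agent.Lib.Helper83.QPMain
import Cfsg.Agent.Lib.Helper83.QPRoot
import Cfsg.Agent.Lib.Helper83.QPKey
import Cfsg.Agent.Lib.Helper83.QPHyp
import Cfsg.Agent.Lib.Helper83.QPPair
import Cfsg.Agent.Lib.Helper83.QPComm
import Cfsg.Agent.Lib.Helper83.QPOpp
import Cfsg.Agent.Lib.Helper83.QPSurj

/-!
# Quadratic pairs: the class two case for two root subgroups (helper83)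

For `E = E(σ)`, `F = E(τ)` non-hyperbolic and not commuting: `[E, F] = [e, F] = [E, f] ∈ Σ`,
`⟨E, F⟩` has class two and lies in `U([E, F])`.
-/

set_option autoImplicit false
set_option linter.unusedVariables false
set_option linter.unusedSectionVars false
set_option linter.unusedSimpArgs false
set_option linter.unnecessarySeqFocus false
set_option linter.unreachableTactic false
set_option linter.unusedTactic false
set_option linter.style.haveILetI false

namespace Cfsg.Agent.Lib.Helper83.QPClass2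

open Cfsg
open Cfsg.Agent.Lib.Helper83.QPDepth Cfsg.Agent.Lib.Helper83.QPMain
open Cfsg.Agent.Lib.Helper83.QPRoot Cfsg.Agent.Lib.Helper83.QPKey Cfsg.Agent.Lib.Helper83.QPHyp
open Cfsg.Agent.Lib.Helper83.QPPair Cfsg.Agent.Lib.Helper83.RankOne
open Cfsg.Agent.Lib.Helper83.QPComm Cfsg.Agent.Lib.Helper83.QPOpp
open Cfsg.Agent.Lib.Helper83.QPSurj
open scoped commutatorElement

universe u v

section ring
variable {R : Type*} [Ring R] (N P : R)

lemma PLP (hNN : N * N = 0) (hPP : P * P = 0) (h1 : N * P * N = N) (h2 : P * N * P = P) :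
    P * ((1 + P) * (1 - N) * (1 - P) * (1 + N)) * P = P := by
  have r1 : ∀ X : R, N * (N * X) = 0 := fun X => by rw [← mul_assoc, hNN, zero_mul]
  have r2 : ∀ X : R, P * (P * X) = 0 := fun X => by rw [← mul_assoc, hPP, zero_mul]
  have r3 : N * (P * N) = N := by rw [← mul_assoc]; exact h1
  have r3' : ∀ X : R, N * (P * (N * X)) = N * X := fun X => by
    rw [← mul_assoc, ← mul_assoc, h1]
  have r4 : P * (N * P) = P := by rw [← mul_assoc]; exact h2
  have r4' : ∀ X : R, P * (N * (P * X)) = P * X := fun X => by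
    rw [← mul_assoc, ← mul_assoc, h2]
  simp only [mul_add, add_mul, mul_sub, sub_mul, mul_one, one_mul, mul_assoc, hNN, hPP, r1, r2,
    r3, r3', r4, r4', mul_zero, zero_mul, add_zero, zero_add, sub_zero, zero_sub, mul_neg,
    neg_mul, neg_zero, neg_neg]
  abel

lemma PRP (hNN : N * N = 0) (hPP : P * P = 0) (h1 : N * P * N = N) (h2 : P * N * P = P) :
    P * ((1 + N) * (1 + P) * (1 - N) * (1 - P)) * P = -P := by
  have r1 : ∀ X : R, N * (N * X) = 0 := fun X => by rw [← mul_assoc, hNN, zero_mul]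
  have r2 : ∀ X : R, P * (P * X) = 0 := fun X => by rw [← mul_assoc, hPP, zero_mul]
  have r3 : N * (P * N) = N := by rw [← mul_assoc]; exact h1
  have r3' : ∀ X : R, N * (P * (N * X)) = N * X := fun X => by
    rw [← mul_assoc, ← mul_assoc, h1]
  have r4 : P * (N * P) = P := by rw [← mul_assoc]; exact h2
  have r4' : ∀ X : R, P * (N * (P * X)) = P * X := fun X => by
    rw [← mul_assoc, ← mul_assoc, h2]
  simp only [mul_add, add_mul, mul_sub, sub_mul, mul_one, one_mul, mul_assoc, hNN, hPP, r1, r2,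
    r3, r3', r4, r4', mul_zero, zero_mul, add_zero, zero_add, sub_zero, zero_sub, mul_neg,
    neg_mul, neg_zero, neg_neg]
  abel

end ring

section lin
variable {k : Type v} [Field k] {M : Type u} [AddCommGroup M] [Module k M]
  [FiniteDimensional k M]
variable {G : Subgroup (LinearMap.GeneralLinearGroup k M)}

lemma fixed_E {ρ : LinearMap.GeneralLinearGroup k M} (hρ : ρ ∈ minimalQuadraticElements G) :
    fixedSubmodule (sameActionSubgroup G ρ) = LinearMap.ker (nn ρ) := by
  unfold fixedSubmodule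
  apply le_antisymm
  · exact iInf₂_le ρ (self_mem_E hρ)
  · exact le_iInf₂ (fun g hg => E_le_ker hρ hg)

lemma commSub_E {ρ : LinearMap.GeneralLinearGroup k M} (hρ : ρ ∈ minimalQuadraticElements G) :
    commutatorSubmodule (sameActionSubgroup G ρ) = LinearMap.range (nn ρ) := by
  unfold commutatorSubmodule
  apply le_antisymm
  · exact iSup₂_le (fun g hg => E_range_le hρ hg)
  · exact le_iSup₂ (f := fun (g : LinearMap.GeneralLinearGroup k M)
      (_ : g ∈ sameActionSubgroup G ρ) => LinearMap.range ((g : M →ₗ[k] M) - 1)) ρ (self_mem_E hρ)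

/-- an alternating list `a, b, a, …, a` of odd length -/
def altList (a b : LinearMap.GeneralLinearGroup k M) : ℕ → List (LinearMap.GeneralLinearGroup k M)
  | 0 => [a]
  | (j + 1) => a :: b :: altList a b j

lemma altList_length (a b : LinearMap.GeneralLinearGroup k M) (j : ℕ) :
    (altList a b j).length = 2 * j + 1 := by
  induction j with
  | zero => rfl
  | succ j ih => simp only [altList, List.length_cons, ih]; ring

lemma altList_mem (a b : LinearMap.GeneralLinearGroup k M) (j : ℕ) :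
    ∀ g ∈ altList a b j, g = a ∨ g = b := by
  induction j with
  | zero => intro g hg; simp only [altList, List.mem_singleton] at hg; exact Or.inl hg
  | succ j ih =>
    intro g hg
    simp only [altList, List.mem_cons] at hg
    rcases hg with h | h | h
    · exact Or.inl h
    · exact Or.inr h
    · exact ih g h

lemma altList_prod (a b : LinearMap.GeneralLinearGroup k M) (h : nn a * nn b * nn a = nn a)
    (j : ℕ) : ((altList a b j).map fun g : LinearMap.GeneralLinearGroup k M =>
      (g : M →ₗ[k] M) - 1).prod = nn a := by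
  induction j with
  | zero => simp only [altList, List.map_cons, List.map_nil, List.prod_cons, List.prod_nil, mul_one]; rfl
  | succ j ih =>
    simp only [altList, List.map_cons, List.prod_cons]
    rw [ih]
    show nn a * (nn b * nn a) = nn a
    rw [← mul_assoc]; exact h

/-- a hyperbolic pair does not generate a unipotent group -/
lemma not_hyp_of_unip (h2 : (2 : k) ≠ 0) (h3 : Nat.card k ≠ 3)
    {σ τ : LinearMap.GeneralLinearGroup k M}
    (hσ : σ ∈ minimalQuadraticElements G) (hτ : τ ∈ minimalQuadraticElements G)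
    (hu : IsUnipotentOn (sameActionSubgroup G σ ⊔ sameActionSubgroup G τ)) : ¬ Hyp σ τ := by
  intro hH
  obtain ⟨P, hPP, hPc, e1, e2⟩ := partner h2 h3 hσ hτ hH (self_mem_class hσ)
  rw [Cfsg.Agent.Lib.Helper83.Unip.unip_iff] at hu
  obtain ⟨n, hn⟩ := hu
  have hN0 : nn σ ≠ 0 := hσ.1.2.1.2
  have hpX : sqUnit P hPP ∈ sameActionSubgroup G σ ⊔ sameActionSubgroup G τ :=
    Subgroup.mem_sup_right (Subgroup.subset_closure hPc)
  have hσX : σ ∈ sameActionSubgroup G σ ⊔ sameActionSubgroup G τ :=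
    Subgroup.mem_sup_left (self_mem_E hσ)
  have hnnp : nn (sqUnit P hPP) = P := nn_sqUnit P hPP
  have hmem : ∀ j, ∀ g ∈ altList σ (sqUnit P hPP) j,
      g ∈ sameActionSubgroup G σ ⊔ sameActionSubgroup G τ := by
    intro j g hg
    rcases altList_mem _ _ j g hg with rfl | rfl
    · exact hσX
    · exact hpX
  have hprod : ∀ j, ((altList σ (sqUnit P hPP) j).map fun g : LinearMap.GeneralLinearGroup k M =>
      (g : M →ₗ[k] M) - 1).prod = nn σ :=
    altList_prod _ _ (by rw [hnnp]; exact e1)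
  rcases Nat.even_or_odd' n with ⟨j, rfl | rfl⟩
  · rcases j with _ | j
    · have h0 := hn [] (by simp) rfl
      simp only [List.map_nil, List.prod_nil] at h0
      apply hN0
      rw [← mul_one (nn σ), h0, mul_zero]
    · have h0 := hn (sqUnit P hPP :: altList σ (sqUnit P hPP) j) (by
        intro g hg
        rcases List.mem_cons.1 hg with rfl | hg
        · exact hpX
        · exact hmem j g hg) (by rw [List.length_cons, altList_length]; ring)
      rw [List.map_cons, List.prod_cons, hprod] at h0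
      have h' : P * nn σ = 0 := by rw [← hnnp]; exact h0
      apply hN0
      rw [← e1, mul_assoc, h', mul_zero]
  · have h0 := hn (altList σ (sqUnit P hPP) j) (hmem j) (altList_length _ _ j)
    rw [hprod] at h0
    exact hN0 h0

/-- a hyperbolic pair does not generate a group of class at most two -/
lemma not_hyp_of_class2 (h2 : (2 : k) ≠ 0) (h3 : Nat.card k ≠ 3)
    {σ τ : LinearMap.GeneralLinearGroup k M}
    (hσ : σ ∈ minimalQuadraticElements G) (hτ : τ ∈ minimalQuadraticElements G)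
    (hc : ⁅⁅sameActionSubgroup G σ ⊔ sameActionSubgroup G τ,
      sameActionSubgroup G σ ⊔ sameActionSubgroup G τ⁆,
      sameActionSubgroup G σ ⊔ sameActionSubgroup G τ⁆ = ⊥) : ¬ Hyp σ τ := by
  intro hH
  obtain ⟨P, hPP, hPc, e1, e2⟩ := partner h2 h3 hσ hτ hH (self_mem_class hσ)
  have hNN : nn σ * nn σ = 0 := hσ.1.2.1.1
  have hpX : sqUnit P hPP ∈ sameActionSubgroup G σ ⊔ sameActionSubgroup G τ :=
    Subgroup.mem_sup_right (Subgroup.subset_closure hPc)
  have hσX : σ ∈ sameActionSubgroup G σ ⊔ sameActionSubgroup G τ :=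
    Subgroup.mem_sup_left (self_mem_E hσ)
  have hcomm : ⁅⁅σ, sqUnit P hPP⁆, σ⁆ = 1 := by
    have : ⁅⁅σ, sqUnit P hPP⁆, σ⁆ ∈ ⁅⁅sameActionSubgroup G σ ⊔ sameActionSubgroup G τ,
        sameActionSubgroup G σ ⊔ sameActionSubgroup G τ⁆,
        sameActionSubgroup G σ ⊔ sameActionSubgroup G τ⁆ :=
      Subgroup.commutator_mem_commutator (Subgroup.commutator_mem_commutator hσX hpX) hσX
    rw [hc] at this; exact Subgroup.mem_bot.1 this
  have hcs := commutatorElement_eq_one_iff_mul_comm.1 hcomm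
  rw [commutatorElement_def] at hcs
  have hcs' : sqUnit P hPP * σ⁻¹ * (sqUnit P hPP)⁻¹ * σ =
      σ * sqUnit P hPP * σ⁻¹ * (sqUnit P hPP)⁻¹ := by
    have h0 := congrArg (fun x => σ⁻¹ * x) hcs
    simp only [mul_assoc, inv_mul_cancel_left] at h0
    simpa [mul_assoc] using h0
  have hv := congrArg (fun x : LinearMap.GeneralLinearGroup k M => (x : Module.End k M)) hcs'
  simp only [Units.val_mul] at hv
  have hσi : ((σ⁻¹ : LinearMap.GeneralLinearGroup k M) : Module.End k M) = 1 - nn σ := by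
    rw [val_eq, nn_inv σ hNN]; abel
  have hp : ((sqUnit P hPP : LinearMap.GeneralLinearGroup k M) : Module.End k M) = 1 + P := rfl
  have hpi : (((sqUnit P hPP)⁻¹ : LinearMap.GeneralLinearGroup k M) : Module.End k M) = 1 - P :=
    rfl
  rw [hσi, hp, hpi, val_eq σ] at hv
  have h4 : P * ((1 + P) * (1 - nn σ) * (1 - P) * (1 + nn σ)) * P =
      P * ((1 + nn σ) * (1 + P) * (1 - nn σ) * (1 - P)) * P := by rw [hv]
  rw [PLP (nn σ) P hNN hPP e1 e2, PRP (nn σ) P hNN hPP e1 e2] at h4
  have hP0 : P = 0 := by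
    have : P + P = 0 := by
      nth_rewrite 2 [h4]; exact add_neg_cancel P
    exact (add_self_eq_zero_iff h2 P).1 this
  apply hσ.1.2.1.2
  show nn σ = 0
  rw [← e1, hP0, mul_zero, zero_mul]

lemma comm_sup_bot {σ τ : LinearMap.GeneralLinearGroup k M}
    (hσ : σ ∈ minimalQuadraticElements G) (hτ : τ ∈ minimalQuadraticElements G)
    (h : ⁅sameActionSubgroup G σ, sameActionSubgroup G τ⁆ = ⊥) :
    ⁅sameActionSubgroup G σ ⊔ sameActionSubgroup G τ,
      sameActionSubgroup G σ ⊔ sameActionSubgroup G τ⁆ = ⊥ := by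
  rw [Subgroup.commutator_eq_bot_iff_le_centralizer] at h ⊢
  have hc : ∀ e ∈ sameActionSubgroup G σ, ∀ f ∈ sameActionSubgroup G τ, f * e = e * f :=
    fun e he f hf => Subgroup.mem_centralizer_iff.1 (h he) f hf
  apply sup_le
  · intro e he
    rw [Subgroup.mem_centralizer_iff]
    intro x hx
    exact sup_induction_gen (P := fun x => x * e = e * x) (fun a ha => E_comm hσ ha he)
      (fun b hb => hc e he b hb) (by simp)
      (fun x y hx hy => by rw [mul_assoc, hy, ← mul_assoc, hx, mul_assoc]) hx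
  · intro f hf
    rw [Subgroup.mem_centralizer_iff]
    intro x hx
    exact sup_induction_gen (P := fun x => x * f = f * x) (fun a ha => (hc a ha f hf).symm)
      (fun b hb => E_comm hτ hb hf) (by simp)
      (fun x y hx hy => by rw [mul_assoc, hy, ← mul_assoc, hx, mul_assoc]) hx

lemma comm_central {F1 F2 : Submodule k M} {a b : LinearMap.GeneralLinearGroup k M}
    (ha : FlagP F1 F2 a) (hb : FlagP F1 F2 b) (hba : FlagP F1 F2 (b * a))
    (hc : FlagP F1 F2 ⁅a, b⁆) :
    (∀ m, nn ⁅a, b⁆ m ∈ F2) ∧ (∀ m ∈ F1, nn ⁅a, b⁆ m = 0) := by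
  have e : ⁅a, b⁆ * (b * a) = a * b := by rw [commutatorElement_def]; group
  have e' : nn ⁅a, b⁆ + nn (b * a) + nn ⁅a, b⁆ * nn (b * a) = nn (a * b) := by
    rw [← nn_mul, e]
  have h3 : nn ⁅a, b⁆ = nn (a * b) - nn (b * a) - nn ⁅a, b⁆ * nn (b * a) := by
    rw [← e']; abel
  have h4 : nn (a * b) - nn (b * a) = nn a * nn b - nn b * nn a := by
    rw [nn_mul, nn_mul]; abel
  have e'' : nn ⁅a, b⁆ = nn a * nn b - nn b * nn a - nn ⁅a, b⁆ * nn (b * a) := by
    rw [← h4]; exact h3
  constructor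
  · intro m
    rw [e'']
    simp only [LinearMap.sub_apply, Module.End.mul_apply]
    exact sub_mem (sub_mem (ha.2.1 _ (hb.1 m)) (hb.2.1 _ (ha.1 m))) (hc.2.1 _ (hba.1 m))
  · intro m hm
    rw [e'']
    simp only [LinearMap.sub_apply, Module.End.mul_apply]
    rw [ha.2.2 _ (hb.2.1 m hm), hb.2.2 _ (ha.2.1 m hm), hc.2.2 _ (hba.2.1 m hm)]; simp

/-- **The class two case** for two members of `Σ` generating a unipotent, non-abelian group. -/
theorem class2 (h2 : (2 : k) ≠ 0) (h3 : Nat.card k ≠ 3) (hG : IsQuadraticPair G)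
    {σ τ : LinearMap.GeneralLinearGroup k M}
    (hσ : σ ∈ minimalQuadraticElements G) (hτ : τ ∈ minimalQuadraticElements G)
    (hH : ¬ Hyp σ τ)
    (hne : ⁅sameActionSubgroup G σ, sameActionSubgroup G τ⁆ ≠ ⊥) :
    ⁅sameActionSubgroup G σ, sameActionSubgroup G τ⁆ ∈ quadraticRootSubgroups G ∧
    (∀ e ∈ sameActionSubgroup G σ, e ≠ 1 →
      Subgroup.closure ((fun f : LinearMap.GeneralLinearGroup k M => e * f * e⁻¹ * f⁻¹) ''
        (sameActionSubgroup G τ : Set (LinearMap.GeneralLinearGroup k M))) =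
        ⁅sameActionSubgroup G σ, sameActionSubgroup G τ⁆) ∧
    (∀ f ∈ sameActionSubgroup G τ, f ≠ 1 →
      Subgroup.closure ((fun e : LinearMap.GeneralLinearGroup k M => e * f * e⁻¹ * f⁻¹) ''
        (sameActionSubgroup G σ : Set (LinearMap.GeneralLinearGroup k M))) =
        ⁅sameActionSubgroup G σ, sameActionSubgroup G τ⁆) ∧
    ⁅sameActionSubgroup G σ ⊔ sameActionSubgroup G τ,
      sameActionSubgroup G σ ⊔ sameActionSubgroup G τ⁆ ≠ ⊥ ∧
    ⁅⁅sameActionSubgroup G σ ⊔ sameActionSubgroup G τ,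
      sameActionSubgroup G σ ⊔ sameActionSubgroup G τ⁆,
      sameActionSubgroup G σ ⊔ sameActionSubgroup G τ⁆ = ⊥ ∧
    ((sameActionSubgroup G σ ⊔ sameActionSubgroup G τ :
      Subgroup (LinearMap.GeneralLinearGroup k M)) : Set (LinearMap.GeneralLinearGroup k M)) ⊆
      quadraticUnipotentCore G ⁅sameActionSubgroup G σ, sameActionSubgroup G τ⁆ := by
  have key := key_E h2 h3 hσ hτ hH
  obtain ⟨e₀, he₀, f₀, hf₀, hef⟩ : ∃ e₀ ∈ sameActionSubgroup G σ,
      ∃ f₀ ∈ sameActionSubgroup G τ, e₀ * f₀ * e₀⁻¹ * f₀⁻¹ ≠ 1 := by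
    by_contra hc
    push Not at hc
    apply hne
    rw [eq_bot_iff, Subgroup.commutator_le]
    intro g hg h hh
    rw [commutatorElement_def, hc g hg h hh]
    exact Subgroup.one_mem _
  have he₀1 : e₀ ≠ 1 := by
    rintro rfl; apply hef; group
  have hf₀1 : f₀ ≠ 1 := by
    rintro rfl; apply hef; group
  have he₀c := E_class_of_ne hσ he₀ he₀1
  have hf₀c := E_class_of_ne hτ hf₀ hf₀1
  have hne₀ : nn e₀ * nn f₀ - nn f₀ * nn e₀ ≠ 0 := by
    intro h0
    apply hef
    have h1 := comm_eq (E_sq hσ he₀) (E_sq hτ hf₀) (key e₀ he₀ f₀ hf₀).2 (key e₀ he₀ f₀ hf₀).1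
    rw [h0] at h1
    exact nn_eq_zero.1 h1
  have H₀ : NH G e₀ f₀ :=
    ⟨he₀c.1, hf₀c.1, by rw [class_congr he₀c, class_congr hf₀c]; exact key, hne₀⟩
  have H : NH G σ τ :=
    H₀.congr ⟨hσ, he₀c.2.1.symm, he₀c.2.2.symm⟩ ⟨hτ, hf₀c.2.1.symm, hf₀c.2.2.symm⟩
  have hρ := H.rho_mq
  have hsurj := surj h2 h3 hG H
  have hEq : ⁅sameActionSubgroup G σ, sameActionSubgroup G τ⁆ =
      sameActionSubgroup G (rho σ τ) := by
    apply le_antisymm
    · rw [Subgroup.commutator_le]
      intro g hg h hh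
      rw [commutatorElement_def]
      exact H.comm_mem hg hh
    · intro g hg
      obtain ⟨h, hh, e⟩ := hsurj g hg
      have : g = σ * h * σ⁻¹ * h⁻¹ := nn_inj (by rw [H.comm_nn (self_mem_E hσ) hh, e])
      rw [this, ← commutatorElement_def]
      exact Subgroup.commutator_mem_commutator (self_mem_E hσ) hh
  have hX : ∀ x ∈ sameActionSubgroup G σ ⊔ sameActionSubgroup G τ,
      FlagP (Ksp σ τ) (Rsp σ τ) x := fun x hx => H.flag_sup hx
  have hcentral : ∀ x ∈ sameActionSubgroup G σ ⊔ sameActionSubgroup G τ,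
      ∀ d ∈ sameActionSubgroup G (rho σ τ), x * d = d * x := by
    intro x hx d hd
    have hz := H.mul_rho (hX x hx) hd
    apply Units.ext
    rw [Units.val_mul, Units.val_mul, val_eq x, val_eq d]
    have e1 : (1 + nn x) * (1 + nn d) = 1 + nn x + nn d + nn x * nn d := by noncomm_ring
    have e2 : (1 + nn d) * (1 + nn x) = 1 + nn x + nn d + nn d * nn x := by noncomm_ring
    rw [e1, e2, hz.1, hz.2]
  refine ⟨?_, ?_, ?_, ?_, ?_, ?_⟩
  · exact ⟨rho σ τ, hρ, hEq⟩
  · intro e he he1
    rw [hEq]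
    have hec := E_class_of_ne hσ he he1
    have He : NH G e τ := H.congr hec (self_mem_class hτ)
    have hEe : sameActionSubgroup G (rho e τ) = sameActionSubgroup G (rho σ τ) :=
      H.rho_congr hec (self_mem_class hτ)
    apply le_antisymm
    · rw [Subgroup.closure_le]
      rintro _ ⟨f, hf, rfl⟩
      exact H.comm_mem he hf
    · intro g hg
      obtain ⟨h, hh, e'⟩ := surj h2 h3 hG He g (by rw [hEe]; exact hg)
      have : g = e * h * e⁻¹ * h⁻¹ := nn_inj (by rw [He.comm_nn (self_mem_E He.hσ) hh, e'])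
      rw [this]
      exact Subgroup.subset_closure ⟨h, hh, rfl⟩
  · intro f hf hf1
    rw [hEq]
    have hfc := E_class_of_ne hτ hf hf1
    have Hf : NH G σ f := H.congr (self_mem_class hσ) hfc
    have hEf : sameActionSubgroup G (rho σ f) = sameActionSubgroup G (rho σ τ) :=
      H.rho_congr (self_mem_class hσ) hfc
    have hinv : rho f σ = (rho σ f)⁻¹ := by unfold rho; group
    have hEf' : sameActionSubgroup G (rho f σ) = sameActionSubgroup G (rho σ τ) := by
      rw [hinv, class_congr (class_inv Hf.rho_mq (self_mem_class Hf.rho_mq)), hEf]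
    apply le_antisymm
    · rw [Subgroup.closure_le]
      rintro _ ⟨e, he, rfl⟩
      exact H.comm_mem he hf
    · intro g hg
      have hg' : g⁻¹ ∈ sameActionSubgroup G (rho f σ) := by
        rw [hEf']; exact Subgroup.inv_mem _ hg
      obtain ⟨e, he, e'⟩ := surj h2 h3 hG Hf.symm g⁻¹ hg'
      have h1 : g⁻¹ = f * e * f⁻¹ * e⁻¹ :=
        nn_inj (by rw [Hf.symm.comm_nn (self_mem_E Hf.symm.hσ) he, e'])
      have h2' : g = e * f * e⁻¹ * f⁻¹ := by
        rw [← inv_inv g, h1]; group
      rw [h2']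
      exact Subgroup.subset_closure ⟨e, he, rfl⟩
  · intro h0
    apply hne
    rw [eq_bot_iff, ← h0]
    exact Subgroup.commutator_mono le_sup_left le_sup_right
  · rw [Subgroup.commutator_eq_bot_iff_le_centralizer, Subgroup.commutator_le]
    intro a ha b hb
    rw [Subgroup.mem_centralizer_iff]
    intro x hx
    have hcX : ⁅a, b⁆ ∈ sameActionSubgroup G σ ⊔ sameActionSubgroup G τ := by
      rw [commutatorElement_def]
      exact mul_mem (mul_mem (mul_mem ha hb) (inv_mem ha)) (inv_mem hb)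
    obtain ⟨r1, r2⟩ := comm_central (hX a ha) (hX b hb) (hX _ (mul_mem hb ha)) (hX _ hcX)
    have hxF := hX x hx
    have z1 : nn x * nn ⁅a, b⁆ = 0 := LinearMap.ext fun m => hxF.2.2 _ (r1 m)
    have z2 : nn ⁅a, b⁆ * nn x = 0 := LinearMap.ext fun m => r2 _ (hxF.1 m)
    apply Units.ext
    rw [Units.val_mul, Units.val_mul, val_eq x, val_eq ⁅a, b⁆]
    have e1 : (1 + nn x) * (1 + nn ⁅a, b⁆) = 1 + nn x + nn ⁅a, b⁆ + nn x * nn ⁅a, b⁆ := by
      noncomm_ring
    have e2 : (1 + nn ⁅a, b⁆) * (1 + nn x) = 1 + nn x + nn ⁅a, b⁆ + nn ⁅a, b⁆ * nn x := by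
      noncomm_ring
    rw [e1, e2, z1, z2]
  · intro x hx
    have hxX : x ∈ sameActionSubgroup G σ ⊔ sameActionSubgroup G τ := hx
    rw [hEq]
    have hF := hX x hxX
    refine ⟨?_, ?_, ?_, ?_, ?_⟩
    · have hle : sameActionSubgroup G σ ⊔ sameActionSubgroup G τ ≤ G :=
        sup_le (fun g hg => E_mem_G hσ hg) (fun g hg => E_mem_G hτ hg)
      exact hle hxX
    · rw [Subgroup.mem_normalizer_iff]
      intro d
      constructor
      · intro hd
        have : x * d * x⁻¹ = d := by rw [hcentral x hxX d hd, mul_inv_cancel_right]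
        rw [this]; exact hd
      · intro hd
        have hx' : x⁻¹ ∈ sameActionSubgroup G σ ⊔ sameActionSubgroup G τ := inv_mem hxX
        have h1 : x⁻¹ * (x * d * x⁻¹) * x⁻¹⁻¹ = x * d * x⁻¹ := by
          rw [hcentral x⁻¹ hx' _ hd, mul_inv_cancel_right]
        have e : x⁻¹ * (x * d * x⁻¹) * x⁻¹⁻¹ = d := by group
        rw [e] at h1
        rw [h1]; exact hd
    · intro m
      rw [fixed_E hρ, H.nn_rho, H.ker_eq]
      have e : (x : M →ₗ[k] M) m - m = nn x m := by unfold nn; simp
      rw [e]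
      exact hF.1 m
    · intro m hm
      rw [fixed_E hρ, H.nn_rho, H.ker_eq] at hm
      rw [commSub_E hρ, H.nn_rho, H.range_eq]
      have e : (x : M →ₗ[k] M) m - m = nn x m := by unfold nn; simp
      rw [e]
      exact hF.2.1 m hm
    · intro m hm
      rw [commSub_E hρ, H.nn_rho, H.range_eq] at hm
      have h0 := hF.2.2 m hm
      have e : (x : M →ₗ[k] M) m - m = nn x m := by unfold nn; simp
      rw [← e] at h0
      exact sub_eq_zero.1 h0

end lin

end Cfsg.Agent.Lib.Helper83.QPClass2
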