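import Mathlib
import Cfsg.Prelude.Def_RootSubgroups
import Cfsg.Agent.Lib.Helper83.RankOne

/-!
# Transporting a set of abstract root subgroups to the subgroup it generates (helper83)

If a set `S` of subgroups of `Γ` satisfies the axioms of a set of abstract root subgroups except
for generation (with conjugation only by elements of `G₀ = ⟨S⟩`), then the restrictions
`A.subgroupOf G₀` form a set of abstract root subgroups of `G₀`.
-/

set_option autoImplicit false
set_option linter.unusedVariables false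
set_option linter.unusedSectionVars false
set_option linter.unusedSimpArgs false
set_option linter.unnecessarySeqFocus false
set_option linter.unreachableTactic false
set_option linter.unusedTactic false
set_option linter.style.haveILetI false

namespace Cfsg.Agent.Lib.Helper83.QPTrans

open Cfsg Cfsg.Agent.Lib.Helper83.RankOne
open scoped commutatorElement

variable {Γ : Type*} [Group Γ]

theorem isRankOnePair_subgroupOf {A B H : Subgroup Γ} (hA : A ≤ H) (hB : B ≤ H)
    (hp : IsRankOnePair A B) : IsRankOnePair (A.subgroupOf H) (B.subgroupOf H) := by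
  have cond : ∀ {A B : Subgroup Γ}, A ≤ H → B ≤ H → RankOneCondition A B →
      RankOneCondition (A.subgroupOf H) (B.subgroupOf H) := by
    intro A B hA hB hc a ha ha1
    rw [Subgroup.mem_subgroupOf] at ha
    have ha1' : (a : Γ) ≠ 1 := fun h => ha1 (Subtype.ext h)
    obtain ⟨b, hb, hb1, hab⟩ := hc (a : Γ) ha ha1'
    refine ⟨⟨b, hB hb⟩, Subgroup.mem_subgroupOf.mpr hb, fun h => hb1 (congrArg Subtype.val h), ?_⟩
    ext x
    rw [mem_conjBy, mem_conjBy, Subgroup.mem_subgroupOf, Subgroup.mem_subgroupOf]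
    have h1 : (x : Γ) ∈ conjBy A b⁻¹ ↔ (x : Γ) ∈ conjBy B (a : Γ)⁻¹ := by rw [hab]
    rw [mem_conjBy, mem_conjBy] at h1
    simpa using h1
  refine ⟨?_, ?_, ?_, ?_, ?_⟩
  · intro h
    rw [Subgroup.subgroupOf_inj, inf_eq_left.mpr hA, inf_eq_left.mpr hB] at h
    exact hp.ne h
  · have := hp.nilpotent_left
    exact Group.nilpotent_of_mulEquiv (Subgroup.subgroupOfEquivOfLe hA).symm
  · have := hp.nilpotent_right
    exact Group.nilpotent_of_mulEquiv (Subgroup.subgroupOfEquivOfLe hB).symm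
  · exact cond hA hB hp.cond_left
  · exact cond hB hA hp.cond_right

theorem commutator_subgroupOf {A B H : Subgroup Γ} (hA : A ≤ H) (hB : B ≤ H) :
    ⁅A.subgroupOf H, B.subgroupOf H⁆ = ⁅A, B⁆.subgroupOf H := by
  have h1 : (⁅A.subgroupOf H, B.subgroupOf H⁆).map H.subtype = ⁅A, B⁆ := by
    rw [Subgroup.map_commutator, Subgroup.map_subgroupOf_eq_of_le hA,
      Subgroup.map_subgroupOf_eq_of_le hB]
  rw [← h1]
  exact (Subgroup.comap_map_eq_self_of_injective H.subtype_injective _).symm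

theorem commCase_subgroupOf {S : Set (Subgroup Γ)} {A B H : Subgroup Γ} (hA : A ≤ H) (hB : B ≤ H)
    (h : RootCommutatorCase S A B) :
    RootCommutatorCase ((fun A : Subgroup Γ => A.subgroupOf H) '' S)
      (A.subgroupOf H) (B.subgroupOf H) := by
  obtain ⟨h1, h2, h3, h4⟩ := h
  have hAB : ⁅A, B⁆ ≤ H := by
    rw [Subgroup.commutator_le]
    intro a ha b hb
    rw [commutatorElement_def]
    exact H.mul_mem (H.mul_mem (H.mul_mem (hA ha) (hB hb)) (H.inv_mem (hA ha))) (H.inv_mem (hB hb))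
  have hmap : (⁅A, B⁆.subgroupOf H).map H.subtype = ⁅A, B⁆ :=
    Subgroup.map_subgroupOf_eq_of_le hAB
  refine ⟨?_, ?_, ?_, ?_⟩
  · rw [commutator_subgroupOf hA hB]
    exact ⟨_, h1, rfl⟩
  · intro c hc x hx
    rw [commutator_subgroupOf hA hB, Subgroup.mem_subgroupOf] at hc
    rw [← Subgroup.subgroupOf_sup hA hB, Subgroup.mem_subgroupOf] at hx
    exact Subtype.ext (h2 _ hc _ hx)
  · intro a ha ha1
    rw [Subgroup.mem_subgroupOf] at ha
    have ha1' : (a : Γ) ≠ 1 := fun h => ha1 (Subtype.ext h)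
    apply Subgroup.map_injective H.subtype_injective
    rw [commutator_subgroupOf hA hB, hmap, MonoidHom.map_closure, ← h3 _ ha ha1']
    congr 1
    ext y
    constructor
    · rintro ⟨_, ⟨b, hb, rfl⟩, rfl⟩
      exact ⟨b, Subgroup.mem_subgroupOf.1 hb, rfl⟩
    · rintro ⟨b, hb, rfl⟩
      exact ⟨_, ⟨⟨b, hB hb⟩, Subgroup.mem_subgroupOf.2 hb, rfl⟩, rfl⟩
  · intro b hb hb1
    rw [Subgroup.mem_subgroupOf] at hb
    have hb1' : (b : Γ) ≠ 1 := fun h => hb1 (Subtype.ext h)
    apply Subgroup.map_injective H.subtype_injective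
    rw [commutator_subgroupOf hA hB, hmap, MonoidHom.map_closure, ← h4 _ hb hb1']
    congr 1
    ext y
    constructor
    · rintro ⟨_, ⟨a, ha, rfl⟩, rfl⟩
      exact ⟨a, Subgroup.mem_subgroupOf.1 ha, rfl⟩
    · rintro ⟨a, ha, rfl⟩
      exact ⟨_, ⟨⟨a, hA ha⟩, Subgroup.mem_subgroupOf.2 ha, rfl⟩, rfl⟩

/-- the axioms of a set of abstract root subgroups, restricted to the subgroup generated -/
theorem rootSet_subgroupOf {S : Set (Subgroup Γ)}
    (hcomm : ∀ A ∈ S, ∀ a ∈ A, ∀ b ∈ A, a * b = b * a) (hne : ∀ A ∈ S, A ≠ ⊥)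
    (hconj : ∀ A ∈ S, ∀ g ∈ (⨆ B ∈ S, B), conjBy A g ∈ S)
    (hpair : ∀ A ∈ S, ∀ B ∈ S, ⁅A, B⁆ = ⊥ ∨ IsRankOnePair A B ∨ RootCommutatorCase S A B) :
    IsRootSubgroupSet ((fun A : Subgroup Γ => A.subgroupOf (⨆ B ∈ S, B)) '' S) where
  commutative := by
    rintro _ ⟨A, hA, rfl⟩
    rw [isMulCommutative_iff]
    rintro ⟨a, ha⟩ ⟨b, hb⟩
    apply Subtype.ext
    apply Subtype.ext
    exact hcomm A hA _ (Subgroup.mem_subgroupOf.1 ha) _ (Subgroup.mem_subgroupOf.1 hb)
  ne_bot := by
    rintro _ ⟨A, hA, rfl⟩ h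
    apply hne A hA
    rw [Subgroup.subgroupOf_eq_bot] at h
    have hle : A ≤ ⨆ B ∈ S, B := le_biSup (fun A => A) hA
    rw [eq_bot_iff]
    exact h le_rfl hle
  generates := by
    apply Subgroup.map_injective (⨆ B ∈ S, B).subtype_injective
    rw [iSup_image, Subgroup.map_iSup]
    have h1 : ∀ A : Subgroup Γ, Subgroup.map (⨆ B ∈ S, B).subtype
        (⨆ (_ : A ∈ S), A.subgroupOf (⨆ B ∈ S, B)) = ⨆ (_ : A ∈ S), A := by
      intro A
      rw [Subgroup.map_iSup]
      congr 1
      ext hA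
      rw [Subgroup.map_subgroupOf_eq_of_le (le_biSup (fun A => A) hA)]
    simp only [h1]
    rw [← MonoidHom.range_eq_map, Subgroup.range_subtype]
  conj_mem := by
    rintro _ ⟨A, hA, rfl⟩ g
    refine ⟨conjBy A g.1, hconj A hA g.1 g.2, ?_⟩
    ext x
    rw [mem_conjBy, Subgroup.mem_subgroupOf, Subgroup.mem_subgroupOf, mem_conjBy]
    rfl
  pair := by
    rintro _ ⟨A, hA, rfl⟩ _ ⟨B, hB, rfl⟩
    have hAle : A ≤ ⨆ B ∈ S, B := le_biSup (fun A => A) hA
    have hBle : B ≤ ⨆ B ∈ S, B := le_biSup (fun A => A) hB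
    rcases hpair A hA B hB with h | h | h
    · left
      rw [commutator_subgroupOf hAle hBle, h, Subgroup.bot_subgroupOf]
    · right; left
      exact isRankOnePair_subgroupOf hAle hBle h
    · right; right
      exact commCase_subgroupOf hAle hBle h

end Cfsg.Agent.Lib.Helper83.QPTrans
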