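import Mathlib
import Cfsg.Prelude.Def_RootSubgroups
import Cfsg.Agent.S5016
import Cfsg.Agent.Lib.Helper83.RankOne
import Cfsg.Agent.Lib.Helper83.SL2Pair
import Cfsg.Agent.Lib.Helper83.PtHyp
import Cfsg.Agent.Lib.Helper83.QPDepth
import Cfsg.Agent.Lib.Helper83.QPMain
import Cfsg.Agent.Lib.Helper83.QPRoot
import Cfsg.Agent.Lib.Helper83.QPKey
import Cfsg.Agent.Lib.Helper83.QPHyp
import Cfsg.Agent.Lib.Helper83.QPPair
import Cfsg.Agent.Lib.Helper83.QPComm
import Cfsg.Agent.Lib.Helper83.QPOpp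
import Cfsg.Agent.Lib.Helper83.QPSurj
import Cfsg.Agent.Lib.Helper83.QPClass2
import Cfsg.Agent.Lib.Helper83.QPTrans

/-!
# Quadratic pairs: `Σ` is a set of abstract root subgroups of `G₀ = ⟨Σ⟩` (helper83)
-/

set_option autoImplicit false
set_option linter.unusedVariables false
set_option linter.unusedSectionVars false
set_option linter.unusedSimpArgs false
set_option linter.unnecessarySeqFocus false
set_option linter.unreachableTactic false
set_option linter.unusedTactic false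
set_option linter.style.haveILetI false

namespace Cfsg.Agent.Lib.Helper83.QPSet

open Cfsg
open Cfsg.Agent.Lib.Helper83.QPDepth Cfsg.Agent.Lib.Helper83.QPMain
open Cfsg.Agent.Lib.Helper83.QPRoot Cfsg.Agent.Lib.Helper83.QPKey Cfsg.Agent.Lib.Helper83.QPHyp
open Cfsg.Agent.Lib.Helper83.QPPair Cfsg.Agent.Lib.Helper83.RankOne
open Cfsg.Agent.Lib.Helper83.QPComm Cfsg.Agent.Lib.Helper83.QPOpp
open Cfsg.Agent.Lib.Helper83.QPSurj Cfsg.Agent.Lib.Helper83.QPClass2
open Cfsg.Agent.Lib.Helper83.QPTrans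
open scoped commutatorElement

universe u v

section emb
variable {k : Type*} [Field k] {R : Type*} [Ring R] [Algebra k R] (N P : R)

/-- the image of a `2 × 2` matrix under the matrix units `NP, N, P, PN` -/
def emb2 (X : Matrix (Fin 2) (Fin 2) k) : R :=
  1 + (X 0 0 - 1) • (N * P) + X 0 1 • N + X 1 0 • P + (X 1 1 - 1) • (P * N)

theorem emb2_one : emb2 N P (1 : Matrix (Fin 2) (Fin 2) k) = 1 := by simp [emb2]

theorem emb2_mul (hNN : N * N = 0) (hPP : P * P = 0) (h1 : N * P * N = N) (h2 : P * N * P = P)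
    (X Y : Matrix (Fin 2) (Fin 2) k) : emb2 N P X * emb2 N P Y = emb2 N P (X * Y) := by
  have r1 : ∀ Z : R, N * (N * Z) = 0 := fun Z => by rw [← mul_assoc, hNN, zero_mul]
  have r2 : ∀ Z : R, P * (P * Z) = 0 := fun Z => by rw [← mul_assoc, hPP, zero_mul]
  have r3 : N * (P * N) = N := by rw [← mul_assoc]; exact h1
  have r3' : ∀ Z : R, N * (P * (N * Z)) = N * Z := fun Z => by
    rw [← mul_assoc, ← mul_assoc, h1]
  have r4 : P * (N * P) = P := by rw [← mul_assoc]; exact h2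
  have r4' : ∀ Z : R, P * (N * (P * Z)) = P * Z := fun Z => by
    rw [← mul_assoc, ← mul_assoc, h2]
  simp only [emb2, Matrix.mul_apply, Fin.sum_univ_two]
  simp only [add_mul, mul_add, one_mul, mul_one, smul_mul_assoc, mul_smul_comm, mul_assoc, hNN,
    hPP, r1, r2, r3, r3', r4, r4', smul_smul, smul_zero, add_zero, zero_add, mul_zero, zero_mul]
  module

theorem emb2_eq_one (hNN : N * N = 0) (hPP : P * P = 0) (h1 : N * P * N = N)
    (h2 : P * N * P = P) (hN0 : N ≠ 0) (X : Matrix (Fin 2) (Fin 2) k)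
    (h : emb2 N P X = 1) : X = 1 := by
  have r1 : ∀ Z : R, N * (N * Z) = 0 := fun Z => by rw [← mul_assoc, hNN, zero_mul]
  have r2 : ∀ Z : R, P * (P * Z) = 0 := fun Z => by rw [← mul_assoc, hPP, zero_mul]
  have r3 : N * (P * N) = N := by rw [← mul_assoc]; exact h1
  have r3' : ∀ Z : R, N * (P * (N * Z)) = N * Z := fun Z => by
    rw [← mul_assoc, ← mul_assoc, h1]
  have r4 : P * (N * P) = P := by rw [← mul_assoc]; exact h2
  have r4' : ∀ Z : R, P * (N * (P * Z)) = P * Z := fun Z => by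
    rw [← mul_assoc, ← mul_assoc, h2]
  have hP0 : P ≠ 0 := by
    intro h0; apply hN0; rw [← h1, h0, mul_zero, zero_mul]
  have h0 : (X 0 0 - 1) • (N * P) + X 0 1 • N + X 1 0 • P + (X 1 1 - 1) • (P * N) = 0 := by
    have : emb2 N P X - 1 = 0 := by rw [h, sub_self]
    rw [← this, emb2]; abel
  have ha := congrArg (fun Z => N * P * Z * N) h0
  have hb := congrArg (fun Z => N * P * Z * (P * N)) h0
  have hc := congrArg (fun Z => P * N * Z * (N * P)) h0
  have hd := congrArg (fun Z => P * N * Z * P) h0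
  simp only [add_mul, mul_add, one_mul, mul_one, smul_mul_assoc, mul_smul_comm, mul_assoc, hNN,
    hPP, r1, r2, r3, r3', r4, r4', smul_smul, smul_zero, add_zero, zero_add, mul_zero, zero_mul]
    at ha hb hc hd
  have ha' : X 0 0 - 1 = 0 := (smul_eq_zero.1 ha).resolve_right hN0
  have hb' : X 0 1 = 0 := (smul_eq_zero.1 hb).resolve_right hN0
  have hc' : X 1 0 = 0 := (smul_eq_zero.1 hc).resolve_right hP0
  have hd' : X 1 1 - 1 = 0 := (smul_eq_zero.1 hd).resolve_right hP0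
  ext i j
  fin_cases i <;> fin_cases j
  · simpa [sub_eq_zero] using ha'
  · simpa using hb'
  · simpa using hc'
  · simpa [sub_eq_zero] using hd'

end emb

section qp
variable {k : Type v} [Field k] {M : Type u} [AddCommGroup M] [Module k M]
  [FiniteDimensional k M]
variable {G : Subgroup (LinearMap.GeneralLinearGroup k M)}

/-- the homomorphism `SL₂(k) → GL(M)` attached to a normalized hyperbolic pair `N, P` -/
def Phi (N P : Module.End k M) (hNN : N * N = 0) (hPP : P * P = 0) (h1 : N * P * N = N)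
    (h2 : P * N * P = P) :
    Matrix.SpecialLinearGroup (Fin 2) k →* LinearMap.GeneralLinearGroup k M where
  toFun X := ⟨emb2 N P X.1, emb2 N P (X⁻¹).1,
    by
      rw [emb2_mul N P hNN hPP h1 h2]
      have : X.1 * (X⁻¹).1 = 1 := by
        have := congrArg Subtype.val (mul_inv_cancel X)
        exact this
      rw [this, emb2_one],
    by
      rw [emb2_mul N P hNN hPP h1 h2]
      have : (X⁻¹).1 * X.1 = 1 := by
        have := congrArg Subtype.val (inv_mul_cancel X)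
        exact this
      rw [this, emb2_one]⟩
  map_one' := Units.ext (emb2_one N P)
  map_mul' X Y := Units.ext (by
    show emb2 N P (X * Y).1 = emb2 N P X.1 * emb2 N P Y.1
    rw [emb2_mul N P hNN hPP h1 h2]; rfl)

theorem Phi_injective (N P : Module.End k M) (hNN : N * N = 0) (hPP : P * P = 0)
    (h1 : N * P * N = N) (h2 : P * N * P = P) (hN0 : N ≠ 0) :
    Function.Injective (Phi N P hNN hPP h1 h2) := by
  rw [injective_iff_map_eq_one]
  intro X hX
  apply Subtype.ext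
  exact emb2_eq_one N P hNN hPP h1 h2 hN0 X.1 (congrArg Units.val hX)

theorem Phi_U (N P : Module.End k M) (hNN : N * N = 0) (hPP : P * P = 0)
    (h1 : N * P * N = N) (h2 : P * N * P = P) (s : k) :
    Phi N P hNN hPP h1 h2 (Cfsg.Agent.S5016.U s) = sqUnit (s • N) (smul_sq s N hNN) :=
  Units.ext (by
    show emb2 N P (Cfsg.Agent.S5016.U s).1 = 1 + s • N
    simp [emb2, Cfsg.Agent.S5016.U])

theorem Phi_L (N P : Module.End k M) (hNN : N * N = 0) (hPP : P * P = 0)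
    (h1 : N * P * N = N) (h2 : P * N * P = P) (t : k) :
    Phi N P hNN hPP h1 h2 (Cfsg.Agent.S5016.L t) = sqUnit (t • P) (smul_sq t P hPP) :=
  Units.ext (by
    show emb2 N P (Cfsg.Agent.S5016.L t).1 = 1 + t • P
    simp [emb2, Cfsg.Agent.S5016.L])

/-- a hyperbolic pair contains an `SL₂(k)`-subpair -/
theorem psl2_sub (h2 : (2 : k) ≠ 0) (h3 : Nat.card k ≠ 3)
    {σ τ : LinearMap.GeneralLinearGroup k M}
    (hσ : σ ∈ minimalQuadraticElements G) (hτ : τ ∈ minimalQuadraticElements G) (hH : Hyp σ τ) :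
    ∃ A₀ B₀ : Subgroup (LinearMap.GeneralLinearGroup k M), A₀ ≤ sameActionSubgroup G σ ∧
      B₀ ≤ sameActionSubgroup G τ ∧ IsPSL2PairOver k A₀ B₀ := by
  obtain ⟨P, hPP, hPc, e1, e2⟩ := partner h2 h3 hσ hτ hH (self_mem_class hσ)
  have hNN : nn σ * nn σ = 0 := hσ.1.2.1.1
  refine ⟨(upperUnipotentSL2 k).map (Phi (nn σ) P hNN hPP e1 e2),
    (lowerUnipotentSL2 k).map (Phi (nn σ) P hNN hPP e1 e2), ?_, ?_,
    (Cfsg.Agent.Lib.Helper83.SL2Pair.of_injective _
      (Phi_injective (nn σ) P hNN hPP e1 e2 hσ.1.2.1.2) rfl rfl).2⟩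
  · rintro _ ⟨X, hX, rfl⟩
    obtain ⟨s, rfl⟩ := (Cfsg.Agent.S5016.mem_upper_iff' X).mp hX
    rw [Phi_U]; exact E_smul hσ (self_mem_E hσ) s
  · rintro _ ⟨X, hX, rfl⟩
    obtain ⟨t, rfl⟩ := (Cfsg.Agent.S5016.mem_lower_iff' X).mp hX
    rw [Phi_L]
    have hPE : sqUnit P hPP ∈ sameActionSubgroup G τ := Subgroup.subset_closure hPc
    have := E_smul hτ hPE t
    rwa [sqUnit_congr _ (smul_sq t P hPP) (by rw [nn_sqUnit])] at this

theorem rankOne_of_hyp (h2 : (2 : k) ≠ 0) (h3 : Nat.card k ≠ 3)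
    {σ τ : LinearMap.GeneralLinearGroup k M}
    (hσ : σ ∈ minimalQuadraticElements G) (hτ : τ ∈ minimalQuadraticElements G) (hH : Hyp σ τ) :
    IsRankOnePair (sameActionSubgroup G σ) (sameActionSubgroup G τ) :=
  ⟨E_ne hσ hτ hH, E_nilpotent hσ, E_nilpotent hτ, rank_one_cond h2 h3 hσ hτ hH,
    rank_one_cond h2 h3 hτ hσ (Hyp_symm hH)⟩

/-- a non-hyperbolic non-commuting pair is an `NH` pair -/
theorem NH_of_ne (h2 : (2 : k) ≠ 0) (h3 : Nat.card k ≠ 3)
    {σ τ : LinearMap.GeneralLinearGroup k M}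
    (hσ : σ ∈ minimalQuadraticElements G) (hτ : τ ∈ minimalQuadraticElements G)
    (hH : ¬ Hyp σ τ)
    (hne : ⁅sameActionSubgroup G σ, sameActionSubgroup G τ⁆ ≠ ⊥) : NH G σ τ := by
  have key := key_E h2 h3 hσ hτ hH
  obtain ⟨e₀, he₀, f₀, hf₀, hef⟩ : ∃ e₀ ∈ sameActionSubgroup G σ,
      ∃ f₀ ∈ sameActionSubgroup G τ, e₀ * f₀ * e₀⁻¹ * f₀⁻¹ ≠ 1 := by
    by_contra hc
    push Not at hc
    apply hne
    rw [eq_bot_iff, Subgroup.commutator_le]
    intro g hg h hh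
    rw [commutatorElement_def, hc g hg h hh]
    exact Subgroup.one_mem _
  have he₀1 : e₀ ≠ 1 := by
    rintro rfl; apply hef; group
  have hf₀1 : f₀ ≠ 1 := by
    rintro rfl; apply hef; group
  have he₀c := E_class_of_ne hσ he₀ he₀1
  have hf₀c := E_class_of_ne hτ hf₀ hf₀1
  have hne₀ : nn e₀ * nn f₀ - nn f₀ * nn e₀ ≠ 0 := by
    intro h0
    apply hef
    have h1 := comm_eq (E_sq hσ he₀) (E_sq hτ hf₀) (key e₀ he₀ f₀ hf₀).2 (key e₀ he₀ f₀ hf₀).1
    rw [h0] at h1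
    exact nn_eq_zero.1 h1
  have H₀ : NH G e₀ f₀ :=
    ⟨he₀c.1, hf₀c.1, by rw [class_congr he₀c, class_congr hf₀c]; exact key, hne₀⟩
  exact H₀.congr ⟨hσ, he₀c.2.1.symm, he₀c.2.2.symm⟩ ⟨hτ, hf₀c.2.1.symm, hf₀c.2.2.symm⟩

lemma conj_nn {u h : LinearMap.GeneralLinearGroup k M} (hu : nn u * nn u = 0)
    (hw : nn u * nn h * nn u = 0) :
    nn (u * h * u⁻¹) = nn h + (nn u * nn h - nn h * nn u) := by
  have hu_inv : ((u⁻¹ : LinearMap.GeneralLinearGroup k M) : Module.End k M) = 1 - nn u := by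
    rw [val_eq, nn_inv u hu]; abel
  rw [nn_conj, hu_inv, val_eq u]
  exact conj_formula (nn u) (nn h) hw

/-- a rank one pair in `Σ` is hyperbolic -/
theorem hyp_of_rankOne (h2 : (2 : k) ≠ 0) (h3 : Nat.card k ≠ 3)
    {σ τ : LinearMap.GeneralLinearGroup k M}
    (hσ : σ ∈ minimalQuadraticElements G) (hτ : τ ∈ minimalQuadraticElements G)
    (hp : IsRankOnePair (sameActionSubgroup G σ) (sameActionSubgroup G τ)) : Hyp σ τ := by
  by_contra hH
  have hσ1 : σ ≠ 1 := class_ne_one (self_mem_class hσ)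
  have hEne : sameActionSubgroup G σ ≠ ⊥ := by
    intro h
    have := self_mem_E hσ
    rw [h] at this
    exact hσ1 (Subgroup.mem_bot.1 this)
  by_cases hc : ⁅sameActionSubgroup G σ, sameActionSubgroup G τ⁆ = ⊥
  · exact Cfsg.Agent.Lib.Helper83.PtHyp.not_rankOne_of_comm hc hEne hp
  · have H := NH_of_ne h2 h3 hσ hτ hH hc
    obtain ⟨b, hb, hb1, hab⟩ := hp.cond_left σ (self_mem_E hσ) hσ1
    have hm : b⁻¹ * σ * b⁻¹⁻¹ ∈ conjBy (sameActionSubgroup G σ) b⁻¹ :=
      ⟨σ, self_mem_E hσ, rfl⟩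
    rw [hab] at hm
    obtain ⟨b', hb', hbb⟩ := hm
    have hbb' : σ⁻¹ * b' * σ⁻¹⁻¹ = b⁻¹ * σ * b⁻¹⁻¹ := hbb
    have hbi : b⁻¹ ∈ sameActionSubgroup G τ := Subgroup.inv_mem _ hb
    have hσi : σ⁻¹ ∈ sameActionSubgroup G σ := Subgroup.inv_mem _ (self_mem_E hσ)
    have hl := conj_nn (h := σ) (E_sq hτ hbi) (H.key σ (self_mem_E hσ) b⁻¹ hbi).1
    have hr := conj_nn (h := b') (E_sq hσ hσi) (H.key σ⁻¹ hσi b' hb').2
    rw [hbb', hl] at hr
    -- the two commutators lie in `E(ρ)`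
    have hx1 : σ⁻¹ * b' * σ⁻¹⁻¹ * b'⁻¹ ∈ sameActionSubgroup G (rho σ τ) := H.comm_mem hσi hb'
    have hx1n := H.comm_nn hσi hb'
    have hx2 : σ * b⁻¹ * σ⁻¹ * b⁻¹⁻¹ ∈ sameActionSubgroup G (rho σ τ) :=
      H.comm_mem (self_mem_E hσ) hbi
    have hx2n := H.comm_nn (self_mem_E hσ) hbi
    have hτF := H.flag_right (self_mem_E hτ)
    have z1 := H.mul_rho hτF hx1
    have z2 := H.mul_rho hτF hx2
    rw [hx1n] at z1
    rw [hx2n] at z2
    have hN : nn σ = nn b' + (nn σ⁻¹ * nn b' - nn b' * nn σ⁻¹) +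
        (nn σ * nn b⁻¹ - nn b⁻¹ * nn σ) := by
      rw [← hr]; abel
    apply H.ne
    have w1 : nn b' * nn τ = 0 := E_mul_zero hτ hb' (self_mem_E hτ)
    have w2 : nn τ * nn b' = 0 := E_mul_zero hτ (self_mem_E hτ) hb'
    have : nn σ * nn τ - nn τ * nn σ =
        (nn b' + (nn σ⁻¹ * nn b' - nn b' * nn σ⁻¹) + (nn σ * nn b⁻¹ - nn b⁻¹ * nn σ)) * nn τ -
        nn τ * (nn b' + (nn σ⁻¹ * nn b' - nn b' * nn σ⁻¹) +
          (nn σ * nn b⁻¹ - nn b⁻¹ * nn σ)) := by
      rw [← hN]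
    rw [this, add_mul, add_mul, mul_add, mul_add, w1, w2, z1.1, z1.2, z2.1, z2.2]
    simp

theorem pair_cases (h2 : (2 : k) ≠ 0) (h3 : Nat.card k ≠ 3) (hG : IsQuadraticPair G)
    {σ τ : LinearMap.GeneralLinearGroup k M}
    (hσ : σ ∈ minimalQuadraticElements G) (hτ : τ ∈ minimalQuadraticElements G) :
    ⁅sameActionSubgroup G σ, sameActionSubgroup G τ⁆ = ⊥ ∨
      IsRankOnePair (sameActionSubgroup G σ) (sameActionSubgroup G τ) ∨
      RootCommutatorCase (quadraticRootSubgroups G) (sameActionSubgroup G σ)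
        (sameActionSubgroup G τ) := by
  by_cases hH : Hyp σ τ
  · right; left; exact rankOne_of_hyp h2 h3 hσ hτ hH
  · by_cases hc : ⁅sameActionSubgroup G σ, sameActionSubgroup G τ⁆ = ⊥
    · left; exact hc
    · right; right
      obtain ⟨c1, c2, c3, c4, c5, c6⟩ := class2 h2 h3 hG hσ hτ hH hc
      refine ⟨c1, ?_, c2, c3⟩
      intro c hc' x hx
      have : ⁅c, x⁆ ∈ ⁅⁅sameActionSubgroup G σ ⊔ sameActionSubgroup G τ,
          sameActionSubgroup G σ ⊔ sameActionSubgroup G τ⁆,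
          sameActionSubgroup G σ ⊔ sameActionSubgroup G τ⁆ :=
        Subgroup.commutator_mem_commutator
          (Subgroup.commutator_mono le_sup_left le_sup_right hc') hx
      rw [c5] at this
      exact commutatorElement_eq_one_iff_mul_comm.1 (Subgroup.mem_bot.1 this)

/-- `Σ` is a set of abstract root subgroups of `G₀ = ⟨Σ⟩` -/
theorem rootSet (h2 : (2 : k) ≠ 0) (h3 : Nat.card k ≠ 3) (hG : IsQuadraticPair G) :
    IsRootSubgroupSet ((fun A : Subgroup (LinearMap.GeneralLinearGroup k M) =>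
      A.subgroupOf (⨆ B ∈ quadraticRootSubgroups G, B)) '' quadraticRootSubgroups G) := by
  apply rootSet_subgroupOf
  · rintro A ⟨σ, hσ, rfl⟩ a ha b hb
    exact E_comm hσ ha hb
  · rintro A ⟨σ, hσ, rfl⟩ h
    have := self_mem_E hσ
    rw [h] at this
    exact class_ne_one (self_mem_class hσ) (Subgroup.mem_bot.1 this)
  · rintro A ⟨σ, hσ, rfl⟩ g hg
    have hle : (⨆ B ∈ quadraticRootSubgroups G, B) ≤ G := by
      apply iSup₂_le
      rintro B ⟨τ, hτ, rfl⟩ x hx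
      exact E_mem_G hτ hx
    have hgG : g ∈ G := hle hg
    exact ⟨g * σ * g⁻¹, conj_mq hgG hσ, conj_E σ hgG⟩
  · rintro A ⟨σ, hσ, rfl⟩ B ⟨τ, hτ, rfl⟩
    exact pair_cases h2 h3 hG hσ hτ

theorem not_isolated (h2 : (2 : k) ≠ 0) (h3 : Nat.card k ≠ 3) (hG : IsQuadraticPair G) :
    ∀ A ∈ quadraticRootSubgroups G,
      ¬ IsIsolatedIn (FAdj (quadraticRootSubgroups G)) (quadraticRootSubgroups G) A := by
  rintro A ⟨σ, hσ, rfl⟩ ⟨_, hiso⟩
  obtain ⟨μ, hμ, hH⟩ := exists_opp h2 h3 hG hσ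
  exact (hiso (sameActionSubgroup G μ)).1
    ⟨⟨σ, hσ, rfl⟩, ⟨μ, hμ, rfl⟩, rankOne_of_hyp h2 h3 hσ hμ hH⟩

theorem psl2_partners (h2 : (2 : k) ≠ 0) (h3 : Nat.card k ≠ 3) (hG : IsQuadraticPair G) :
    ∀ A ∈ quadraticRootSubgroups G, ∀ B ∈ rankOnePartners (quadraticRootSubgroups G) A,
      ∃ A₀ B₀ : Subgroup (LinearMap.GeneralLinearGroup k M), A₀ ≤ A ∧ B₀ ≤ B ∧
        IsPSL2PairOver k A₀ B₀ := by
  rintro A ⟨σ, hσ, rfl⟩ B ⟨⟨τ, hτ, rfl⟩, hp⟩
  exact psl2_sub h2 h3 hσ hτ (hyp_of_rankOne h2 h3 hσ hτ hp)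

theorem card_gt (h2 : (2 : k) ≠ 0) (h3 : Nat.card k ≠ 3) : 3 < ENat.card k := by
  classical
  by_cases hfin : Finite k
  · rw [ENat.card_eq_coe_natCard]
    have hinj : Function.Injective (fun i : Fin 3 => ![(0 : k), 1, -1] i) := by
      intro i j hij
      have h1 : (1 : k) ≠ -1 := by
        intro h
        apply h2
        have : (1 : k) + 1 = 0 := by nth_rewrite 2 [h]; exact add_neg_cancel 1
        rw [← this]; norm_num
      fin_cases i <;> fin_cases j <;> simp_all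
    have hle := Nat.card_le_card_of_injective _ hinj
    rw [Nat.card_fin] at hle
    have : 3 < Nat.card k := lt_of_le_of_ne hle (Ne.symm h3)
    exact_mod_cast this
  · rw [not_finite_iff_infinite] at hfin
    rw [ENat.card_eq_top_of_infinite]
    exact ENat.natCast_lt_top 3

end qp

end Cfsg.Agent.Lib.Helper83.QPSet
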