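import Mathlib
import Cfsg.Prelude.Def_RootSubgroups
import Cfsg.Agent.Lib.Helper83.QPSet

/-!
# Quadratic pairs: the connected components of the rank one graph on `Σ` (helper83)

Two non-commuting members of `Σ` lie in the same connected component of the graph of rank one
pairs; a component is closed under conjugation by its members, is a single conjugacy class of the
subgroup it generates, and satisfies the pair axiom of a set of abstract root subgroups.
-/

set_option autoImplicit false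
set_option linter.unusedVariables false
set_option linter.unusedSectionVars false
set_option linter.unusedSimpArgs false
set_option linter.unnecessarySeqFocus false
set_option linter.unreachableTactic false
set_option linter.unusedTactic false
set_option linter.style.haveILetI false

namespace Cfsg.Agent.Lib.Helper83.QPConn

open Cfsg
open Cfsg.Agent.Lib.Helper83.QPDepth Cfsg.Agent.Lib.Helper83.QPMain
open Cfsg.Agent.Lib.Helper83.QPRoot Cfsg.Agent.Lib.Helper83.QPKey Cfsg.Agent.Lib.Helper83.QPHyp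
open Cfsg.Agent.Lib.Helper83.QPPair Cfsg.Agent.Lib.Helper83.RankOne
open Cfsg.Agent.Lib.Helper83.QPComm Cfsg.Agent.Lib.Helper83.QPOpp
open Cfsg.Agent.Lib.Helper83.QPSurj Cfsg.Agent.Lib.Helper83.QPClass2
open Cfsg.Agent.Lib.Helper83.QPTrans Cfsg.Agent.Lib.Helper83.QPSet
open scoped commutatorElement

universe u v

variable {k : Type v} [Field k] {M : Type u} [AddCommGroup M] [Module k M]
  [FiniteDimensional k M]
variable {G : Subgroup (LinearMap.GeneralLinearGroup k M)}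

/-- for a non-hyperbolic non-commuting pair `σ, τ` with commutator `ρ`: `τ` and `ρ` have a common
opposite -/
theorem common_opp (h2 : (2 : k) ≠ 0) (h3 : Nat.card k ≠ 3) (hG : IsQuadraticPair G)
    {σ τ : LinearMap.GeneralLinearGroup k M} (H : NH G σ τ) :
    ∃ ν ∈ minimalQuadraticElements G, Hyp τ ν ∧ Hyp (rho σ τ) ν := by
  have hρ := H.rho_mq
  obtain ⟨μ, hμ, hHyp⟩ := exists_opp h2 h3 hG hρ
  by_cases hnh : Hyp τ μ
  · exact ⟨μ, hμ, hnh, hHyp⟩
  obtain ⟨Q, hQQ, hQc, e1, e2⟩ := partner h2 h3 hρ hμ hHyp (self_mem_class hρ)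
  have hnρ := H.nn_rho
  have hne := H.ne
  have hker := H.ker_eq
  have hrng := H.range_eq
  rw [hnρ] at e1 e2
  have hkστ := H.key σ (self_mem_E H.hσ) τ (self_mem_E H.hτ)
  have c2 : nn (σ * τ * σ⁻¹) = nn τ + (nn σ * nn τ - nn τ * nn σ) :=
    conj_nn H.hσ.1.2.1.1 hkστ.2
  generalize hL : nn σ * nn τ - nn τ * nn σ = L at e1 e2 hnρ hne hker hrng c2
  have hσF := H.flag_left (self_mem_E H.hσ)
  have hτF := H.flag_right (self_mem_E H.hτ)
  have hρE := self_mem_E hρ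
  have hNL : nn σ * L = 0 := by have := (H.mul_rho hσF hρE).1; rwa [hnρ] at this
  have hLN : L * nn σ = 0 := by have := (H.mul_rho hσF hρE).2; rwa [hnρ] at this
  have hN'L : nn τ * L = 0 := by have := (H.mul_rho hτF hρE).1; rwa [hnρ] at this
  have hLN' : L * nn τ = 0 := by have := (H.mul_rho hτF hρE).2; rwa [hnρ] at this
  have hμ' : sqUnit Q hQQ ∈ minimalQuadraticElements G := hQc.1
  have hnh' : ¬ Hyp τ (sqUnit Q hQQ) :=
    fun h => hnh ((Hyp_congr (self_mem_class H.hτ) hQc).1 h)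
  have hkey := key_E h2 h3 H.hτ hμ' hnh' τ (self_mem_E H.hτ) (sqUnit Q hQQ) (self_mem_E hμ')
  rw [nn_sqUnit] at hkey
  have hτF' : FlagP (LinearMap.ker L) (LinearMap.range L) τ := by
    rw [hker, hrng]; exact hτF
  have hUτ := flag_hU L Q hτF' e1
  have hPL : (nn τ * Q - Q * nn τ) * L - L * (nn τ * Q - Q * nn τ) = nn τ :=
    comm_PL L Q (nn τ) hN'L hLN' hkey.1 hUτ
  have Hτμ : NH G τ (sqUnit Q hQQ) := NH.of_not_hyp h2 h3 H.hτ hμ' hnh' (by
    rw [nn_sqUnit]
    intro h0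
    rw [h0, zero_mul, mul_zero, sub_zero] at hPL
    exact H.hτ.1.2.1.2 hPL.symm)
  have hπ := Hτμ.rho_mq
  have hnπ := Hτμ.nn_rho
  rw [nn_sqUnit] at hnπ
  have hPQ : (nn τ * Q - Q * nn τ) * Q = 0 := by
    rw [sub_mul, mul_assoc, hQQ, mul_zero, hkey.1, sub_zero]
  have hQP : Q * (nn τ * Q - Q * nn τ) = 0 := by
    rw [mul_sub, ← mul_assoc, ← mul_assoc, hQQ, zero_mul, hkey.1, sub_zero]
  generalize hP : nn τ * Q - Q * nn τ = P at hPL hnπ hPQ hQP
  have hPLQ : P * L * Q = nn τ * Q := by rw [← hP]; exact PLQ L Q (nn τ) hN'L e2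
  have hnh2 : ¬ Hyp (rho τ (sqUnit Q hQQ)) (rho σ τ) := by
    rintro ⟨k1, k2⟩
    rw [hnπ, hnρ] at k1 k2
    have z1 : ∀ x, nn τ (Q x) = 0 := by
      intro x
      have : nn τ (Q x) ∈ LinearMap.range P ⊓ LinearMap.ker L := by
        refine ⟨⟨L (Q x), ?_⟩, ?_⟩
        · exact LinearMap.congr_fun hPLQ x
        · exact LinearMap.congr_fun hLN' (Q x)
      rw [k1] at this; exact (Submodule.mem_bot k).1 this
    have z2 : ∀ x, L (Q x) = 0 := by
      intro x
      have : L (Q x) ∈ LinearMap.range L ⊓ LinearMap.ker P := by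
        refine ⟨⟨_, rfl⟩, ?_⟩
        show P (L (Q x)) = 0
        have h0 : P (L (Q x)) = nn τ (Q x) := LinearMap.congr_fun hPLQ x
        rw [h0, z1]
      rw [k2] at this; exact (Submodule.mem_bot k).1 this
    apply hne
    rw [← e1]
    apply LinearMap.ext; intro x
    show L (Q (L x)) = 0
    exact z2 _
  have Hπρ : NH G (rho τ (sqUnit Q hQQ)) (rho σ τ) := NH.of_not_hyp h2 h3 hπ hρ hnh2 (by
    rw [hnπ, hnρ, hPL]; exact H.hτ.1.2.1.2)
  -- `π ρ π⁻¹ = σ τ σ⁻¹`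
  have hkπρ := Hπρ.key _ (self_mem_E hπ) _ (self_mem_E hρ)
  have c1 := conj_nn (h := rho σ τ) hπ.1.2.1.1 hkπρ.2
  generalize hπdef : rho τ (sqUnit Q hQQ) = π at hπ hnπ Hπρ hkπρ c1
  have hconj : π * rho σ τ * π⁻¹ = σ * τ * σ⁻¹ :=
    nn_inj (by rw [c1, c2, hnπ, hnρ, hPL]; abel)
  have hcomm : π * sqUnit Q hQQ * π⁻¹ = sqUnit Q hQQ := by
    rw [mul_inv_eq_iff_eq_mul]
    apply Units.ext
    rw [Units.val_mul, Units.val_mul, val_eq π, hnπ]
    show (1 + P) * (1 + Q) = (1 + Q) * (1 + P)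
    rw [add_mul, mul_add, mul_add, add_mul, mul_add, mul_add, hPQ, hQP]
    simp only [one_mul, mul_one]
    abel
  have hH1 : Hyp (rho σ τ) (sqUnit Q hQQ) := (Hyp_congr (self_mem_class hρ) hQc).2 hHyp
  have hH2 : Hyp (π * rho σ τ * π⁻¹) (π * sqUnit Q hQQ * π⁻¹) := (Hyp_conj π _ _).2 hH1
  rw [hconj, hcomm] at hH2
  have hσG : σ ∈ G := H.hσ.1.1
  refine ⟨σ⁻¹ * sqUnit Q hQQ * σ⁻¹⁻¹, conj_mq (G.inv_mem hσG) hμ', ?_, ?_⟩
  · have := (Hyp_conj σ⁻¹ (σ * τ * σ⁻¹) (sqUnit Q hQQ)).2 hH2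
    have e : σ⁻¹ * (σ * τ * σ⁻¹) * σ⁻¹⁻¹ = τ := by group
    rwa [e] at this
  · have := (Hyp_conj σ⁻¹ (rho σ τ) (sqUnit Q hQQ)).2 hH1
    have hc : rho σ τ * σ = σ * rho σ τ := by
      apply Units.ext
      rw [Units.val_mul, Units.val_mul, val_eq σ, val_eq (rho σ τ), hnρ]
      rw [add_mul, mul_add, mul_add, add_mul, mul_add, mul_add, hNL, hLN]
      simp only [one_mul, mul_one]
      abel
    have e : σ⁻¹ * rho σ τ * σ⁻¹⁻¹ = rho σ τ := by
      rw [inv_inv, mul_assoc, hc, inv_mul_cancel_left]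
    rwa [e] at this

/-- for a non-hyperbolic non-commuting pair `σ, τ` with commutator `ρ`: `σ` and `ρ` have a common
opposite -/
theorem common_opp' (h2 : (2 : k) ≠ 0) (h3 : Nat.card k ≠ 3) (hG : IsQuadraticPair G)
    {σ τ : LinearMap.GeneralLinearGroup k M} (H : NH G σ τ) :
    ∃ ν ∈ minimalQuadraticElements G, Hyp σ ν ∧ Hyp (rho σ τ) ν := by
  obtain ⟨ν, hν, h1, h2'⟩ := common_opp h2 h3 hG H.symm
  refine ⟨ν, hν, h1, ?_⟩
  have hρ := H.rho_mq
  have hinv : rho τ σ = (rho σ τ)⁻¹ := by unfold rho; group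
  rw [hinv] at h2'
  exact (Hyp_congr (class_inv hρ (self_mem_class hρ)) (self_mem_class hν)).1 h2'

/-- the commutator subgroup of a non-hyperbolic non-commuting pair -/
theorem comm_eq_E (h2 : (2 : k) ≠ 0) (h3 : Nat.card k ≠ 3) (hG : IsQuadraticPair G)
    {σ τ : LinearMap.GeneralLinearGroup k M} (H : NH G σ τ) :
    ⁅sameActionSubgroup G σ, sameActionSubgroup G τ⁆ = sameActionSubgroup G (rho σ τ) := by
  apply le_antisymm
  · rw [Subgroup.commutator_le]
    intro g hg h hh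
    rw [commutatorElement_def]
    exact H.comm_mem hg hh
  · intro g hg
    obtain ⟨h, hh, e⟩ := surj h2 h3 hG H g hg
    have : g = σ * h * σ⁻¹ * h⁻¹ := nn_inj (by rw [H.comm_nn (self_mem_E H.hσ) hh, e])
    rw [this, ← commutatorElement_def]
    exact Subgroup.commutator_mem_commutator (self_mem_E H.hσ) hh

/-! ### connectedness -/

/-- connectedness in the graph of rank one pairs on `Σ` -/
def Conn (G : Subgroup (LinearMap.GeneralLinearGroup k M))
    (A B : Subgroup (LinearMap.GeneralLinearGroup k M)) : Prop :=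
  Relation.ReflTransGen (FAdj (quadraticRootSubgroups G)) A B

lemma Conn.refl (A : Subgroup (LinearMap.GeneralLinearGroup k M)) : Conn G A A :=
  Relation.ReflTransGen.refl

lemma Conn.trans {A B C : Subgroup (LinearMap.GeneralLinearGroup k M)} (h1 : Conn G A B)
    (h2 : Conn G B C) : Conn G A C := Relation.ReflTransGen.trans h1 h2

lemma Conn.symm {A B : Subgroup (LinearMap.GeneralLinearGroup k M)} (h : Conn G A B) :
    Conn G B A := by
  induction h with
  | refl => exact Relation.ReflTransGen.refl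
  | tail hAC hCB ih =>
    exact Relation.ReflTransGen.head ⟨hCB.2.1, hCB.1, RankOnePair_symm hCB.2.2⟩ ih

lemma Conn.mem {A B : Subgroup (LinearMap.GeneralLinearGroup k M)} (h : Conn G A B)
    (hA : A ∈ quadraticRootSubgroups G) : B ∈ quadraticRootSubgroups G := by
  rcases Relation.ReflTransGen.cases_tail h with rfl | ⟨C, _, hCB⟩
  · exact hA
  · exact hCB.2.1

lemma conn_hyp (h2 : (2 : k) ≠ 0) (h3 : Nat.card k ≠ 3)
    {σ τ : LinearMap.GeneralLinearGroup k M}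
    (hσ : σ ∈ minimalQuadraticElements G) (hτ : τ ∈ minimalQuadraticElements G) (hH : Hyp σ τ) :
    Conn G (sameActionSubgroup G σ) (sameActionSubgroup G τ) :=
  Relation.ReflTransGen.single ⟨⟨σ, hσ, rfl⟩, ⟨τ, hτ, rfl⟩, rankOne_of_hyp h2 h3 hσ hτ hH⟩

lemma conn_NH (h2 : (2 : k) ≠ 0) (h3 : Nat.card k ≠ 3) (hG : IsQuadraticPair G)
    {σ τ : LinearMap.GeneralLinearGroup k M} (H : NH G σ τ) :
    Conn G (sameActionSubgroup G σ) (sameActionSubgroup G (rho σ τ)) ∧
    Conn G (sameActionSubgroup G τ) (sameActionSubgroup G (rho σ τ)) := by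
  have hρ := H.rho_mq
  obtain ⟨ν, hν, a1, a2⟩ := common_opp h2 h3 hG H
  obtain ⟨ν', hν', b1, b2⟩ := common_opp' h2 h3 hG H
  exact ⟨(conn_hyp h2 h3 H.hσ hν' b1).trans (conn_hyp h2 h3 hρ hν' b2).symm,
    (conn_hyp h2 h3 H.hτ hν a1).trans (conn_hyp h2 h3 hρ hν a2).symm⟩

/-- non-commuting members of `Σ` are connected -/
theorem conn_of_ne (h2 : (2 : k) ≠ 0) (h3 : Nat.card k ≠ 3) (hG : IsQuadraticPair G)
    {σ τ : LinearMap.GeneralLinearGroup k M}
    (hσ : σ ∈ minimalQuadraticElements G) (hτ : τ ∈ minimalQuadraticElements G)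
    (hne : ⁅sameActionSubgroup G σ, sameActionSubgroup G τ⁆ ≠ ⊥) :
    Conn G (sameActionSubgroup G σ) (sameActionSubgroup G τ) := by
  by_cases hH : Hyp σ τ
  · exact conn_hyp h2 h3 hσ hτ hH
  · have H := NH_of_ne h2 h3 hσ hτ hH hne
    obtain ⟨c1, c2⟩ := conn_NH h2 h3 hG H
    exact c1.trans c2.symm

lemma conjBy_mem_Sigma {A : Subgroup (LinearMap.GeneralLinearGroup k M)}
    (hA : A ∈ quadraticRootSubgroups G) {g : LinearMap.GeneralLinearGroup k M} (hg : g ∈ G) :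
    conjBy A g ∈ quadraticRootSubgroups G := by
  obtain ⟨σ, hσ, rfl⟩ := hA
  exact ⟨g * σ * g⁻¹, conj_mq hg hσ, conj_E σ hg⟩

lemma conn_conj {A B : Subgroup (LinearMap.GeneralLinearGroup k M)} (h : Conn G A B)
    {g : LinearMap.GeneralLinearGroup k M} (hg : g ∈ G) : Conn G (conjBy A g) (conjBy B g) := by
  induction h with
  | refl => exact Relation.ReflTransGen.refl
  | tail hAC hCB ih =>
    exact Relation.ReflTransGen.tail ih ⟨conjBy_mem_Sigma hCB.1 hg, conjBy_mem_Sigma hCB.2.1 hg,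
      isRankOnePair_conjBy hCB.2.2 g⟩

lemma Sigma_le {A : Subgroup (LinearMap.GeneralLinearGroup k M)}
    (hA : A ∈ quadraticRootSubgroups G) : A ≤ G := by
  obtain ⟨σ, hσ, rfl⟩ := hA
  exact fun x hx => E_mem_G hσ hx

/-! ### components -/

/-- a connected component of the graph of rank one pairs on `Σ` -/
structure IsComp (G : Subgroup (LinearMap.GeneralLinearGroup k M))
    (Δ : Set (Subgroup (LinearMap.GeneralLinearGroup k M))) : Prop where
  sub : Δ ⊆ quadraticRootSubgroups G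
  nonempty : Δ.Nonempty
  conn : ∀ A ∈ Δ, ∀ B ∈ Δ, Conn G A B
  closed : ∀ A ∈ Δ, ∀ B, Conn G A B → B ∈ Δ

/-- the component of `A` -/
def comp (G : Subgroup (LinearMap.GeneralLinearGroup k M))
    (A : Subgroup (LinearMap.GeneralLinearGroup k M)) :
    Set (Subgroup (LinearMap.GeneralLinearGroup k M)) := {B | Conn G A B}

lemma isComp_comp {A : Subgroup (LinearMap.GeneralLinearGroup k M)}
    (hA : A ∈ quadraticRootSubgroups G) : IsComp G (comp G A) where
  sub := fun B hB => Conn.mem hB hA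
  nonempty := ⟨A, Conn.refl A⟩
  conn := fun B hB C hC => (Conn.symm hB).trans hC
  closed := fun B hB C hC => Conn.trans hB hC

lemma self_mem_comp (A : Subgroup (LinearMap.GeneralLinearGroup k M)) : A ∈ comp G A :=
  Conn.refl A

variable {Δ : Set (Subgroup (LinearMap.GeneralLinearGroup k M))}

lemma IsComp.eq_comp (hΔ : IsComp G Δ) {A : Subgroup (LinearMap.GeneralLinearGroup k M)}
    (hA : A ∈ Δ) : Δ = comp G A := by
  ext B
  exact ⟨fun hB => hΔ.conn A hA B hB, fun hB => hΔ.closed A hA B hB⟩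

lemma IsComp.eq_of_mem {Δ' : Set (Subgroup (LinearMap.GeneralLinearGroup k M))}
    (hΔ : IsComp G Δ) (hΔ' : IsComp G Δ') {A : Subgroup (LinearMap.GeneralLinearGroup k M)}
    (hA : A ∈ Δ) (hA' : A ∈ Δ') : Δ = Δ' := by
  rw [hΔ.eq_comp hA, hΔ'.eq_comp hA']

lemma IsComp.le (hΔ : IsComp G Δ) : (⨆ A ∈ Δ, A) ≤ G :=
  iSup₂_le fun A hA => Sigma_le (hΔ.sub hA)

/-- members of different components commute -/
lemma IsComp.comm_of_not_mem (h2 : (2 : k) ≠ 0) (h3 : Nat.card k ≠ 3) (hG : IsQuadraticPair G)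
    (hΔ : IsComp G Δ) {A B : Subgroup (LinearMap.GeneralLinearGroup k M)} (hA : A ∈ Δ)
    (hB : B ∈ quadraticRootSubgroups G) (hBΔ : B ∉ Δ) : ⁅A, B⁆ = ⊥ := by
  by_contra hne
  obtain ⟨σ, hσ, rfl⟩ := hΔ.sub hA
  obtain ⟨τ, hτ, rfl⟩ := hB
  exact hBΔ (hΔ.closed _ hA _ (conn_of_ne h2 h3 hG hσ hτ hne))

/-- a component is closed under conjugation by the subgroup it generates -/
lemma IsComp.conj_mem (hΔ : IsComp G Δ) {A : Subgroup (LinearMap.GeneralLinearGroup k M)}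
    (hA : A ∈ Δ) {g : LinearMap.GeneralLinearGroup k M} (hg : g ∈ ⨆ B ∈ Δ, B) :
    conjBy A g ∈ Δ := by
  have key : ∀ g ∈ ⨆ B ∈ Δ, B, ∀ A ∈ Δ, conjBy A g ∈ Δ := by
    intro g hg
    rw [iSup_subtype'] at hg
    refine Subgroup.iSup_induction (fun B : Δ => (B : Subgroup (LinearMap.GeneralLinearGroup k M)))
      (C := fun g => ∀ A ∈ Δ, conjBy A g ∈ Δ) hg ?_ ?_ ?_
    · rintro ⟨B, hB⟩ x hx A hA
      have hxG : x ∈ G := Sigma_le (hΔ.sub hB) hx
      have h1 := conn_conj (hΔ.conn B hB A hA) hxG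
      rw [conjBy_of_mem hx] at h1
      exact hΔ.closed B hB _ h1
    · intro A hA
      rw [conjBy_one]; exact hA
    · intro x y hx hy A hA
      rw [← conjBy_conjBy]
      exact hx _ (hy A hA)
  exact key g hg A hA

/-- a component is a single conjugacy class under the subgroup it generates -/
lemma IsComp.conj_class (hΔ : IsComp G Δ) {A B : Subgroup (LinearMap.GeneralLinearGroup k M)}
    (hA : A ∈ Δ) (hB : B ∈ Δ) : ∃ g ∈ ⨆ C ∈ Δ, C, B = conjBy A g := by
  have hc := hΔ.conn A hA B hB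
  induction hc with
  | refl => exact ⟨1, Subgroup.one_mem _, (conjBy_one A).symm⟩
  | tail hAC hCB ih =>
    rename_i C B'
    have hC : C ∈ Δ := hΔ.closed A hA C hAC
    obtain ⟨g₁, hg₁, rfl⟩ := ih hC
    obtain ⟨_, _, hp⟩ := hCB
    obtain ⟨a, ha, ha1⟩ := exists_mem_ne_one (left_ne_bot hp)
    obtain ⟨b, hb, hb1, hab⟩ := hp.cond_left a ha ha1
    have hle : ∀ D ∈ Δ, D ≤ ⨆ C ∈ Δ, C := fun D hD => le_biSup (fun A => A) hD
    refine ⟨a * b⁻¹ * g₁, Subgroup.mul_mem _ (Subgroup.mul_mem _ (hle _ hC ha)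
      (Subgroup.inv_mem _ (hle _ hB hb))) hg₁, ?_⟩
    have h1 : conjBy (conjBy (conjBy A g₁) b⁻¹) a = B' := by
      rw [hab]; exact conjBy_inv_cancel' B' a
    rw [← h1, conjBy_conjBy, conjBy_conjBy, mul_assoc]

/-- the pair axiom inside a component -/
lemma IsComp.pair (h2 : (2 : k) ≠ 0) (h3 : Nat.card k ≠ 3) (hG : IsQuadraticPair G)
    (hΔ : IsComp G Δ) {A B : Subgroup (LinearMap.GeneralLinearGroup k M)} (hA : A ∈ Δ)
    (hB : B ∈ Δ) : ⁅A, B⁆ = ⊥ ∨ IsRankOnePair A B ∨ RootCommutatorCase Δ A B := by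
  obtain ⟨σ, hσ, rfl⟩ := hΔ.sub hA
  obtain ⟨τ, hτ, rfl⟩ := hΔ.sub hB
  by_cases hH : Hyp σ τ
  · right; left; exact rankOne_of_hyp h2 h3 hσ hτ hH
  by_cases hc : ⁅sameActionSubgroup G σ, sameActionSubgroup G τ⁆ = ⊥
  · left; exact hc
  rcases pair_cases h2 h3 hG hσ hτ with h | h | ⟨-, c2, c3, c4⟩
  · exact absurd h hc
  · right; left; exact h
  · right; right
    have H := NH_of_ne h2 h3 hσ hτ hH hc
    refine ⟨?_, c2, c3, c4⟩
    rw [comm_eq_E h2 h3 hG H]
    exact hΔ.closed _ hA _ (conn_NH h2 h3 hG H).1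

/-- every member of a component has a rank one partner in the component -/
lemma IsComp.exists_opp (h2 : (2 : k) ≠ 0) (h3 : Nat.card k ≠ 3) (hG : IsQuadraticPair G)
    (hΔ : IsComp G Δ) {σ : LinearMap.GeneralLinearGroup k M}
    (hσ : σ ∈ minimalQuadraticElements G) (hA : sameActionSubgroup G σ ∈ Δ) :
    ∃ μ ∈ minimalQuadraticElements G, Hyp σ μ ∧ sameActionSubgroup G μ ∈ Δ := by
  obtain ⟨μ, hμ, hH⟩ := QPOpp.exists_opp h2 h3 hG hσ
  exact ⟨μ, hμ, hH, hΔ.closed _ hA _ (conn_hyp h2 h3 hσ hμ hH)⟩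

/-- a component is a set of abstract root subgroups of the subgroup it generates -/
theorem IsComp.rootSet (h2 : (2 : k) ≠ 0) (h3 : Nat.card k ≠ 3) (hG : IsQuadraticPair G)
    (hΔ : IsComp G Δ) :
    IsRootSubgroupSet ((fun A : Subgroup (LinearMap.GeneralLinearGroup k M) =>
      A.subgroupOf (⨆ B ∈ Δ, B)) '' Δ) := by
  apply rootSet_subgroupOf
  · intro A hA a ha b hb
    obtain ⟨σ, hσ, rfl⟩ := hΔ.sub hA
    exact E_comm hσ ha hb
  · intro A hA h
    obtain ⟨σ, hσ, rfl⟩ := hΔ.sub hA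
    have := self_mem_E hσ
    rw [h] at this
    exact class_ne_one (self_mem_class hσ) (Subgroup.mem_bot.1 this)
  · intro A hA g hg
    exact hΔ.conj_mem hA hg
  · intro A hA B hB
    exact hΔ.pair h2 h3 hG hA hB

/-- a component is a conjugacy class of the subgroup it generates -/
theorem IsComp.conjClass (hΔ : IsComp G Δ) :
    IsConjClassOfSubgroups ((fun A : Subgroup (LinearMap.GeneralLinearGroup k M) =>
      A.subgroupOf (⨆ B ∈ Δ, B)) '' Δ) := by
  refine ⟨hΔ.nonempty.image _, ?_⟩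
  rintro _ ⟨A, hA, rfl⟩ _ ⟨B, hB, rfl⟩
  obtain ⟨g, hg, rfl⟩ := hΔ.conj_class hA hB
  refine ⟨⟨g, hg⟩, ?_⟩
  ext x
  rw [mem_conjBy, Subgroup.mem_subgroupOf, Subgroup.mem_subgroupOf, mem_conjBy]
  rfl

end Cfsg.Agent.Lib.Helper83.QPConn
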