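import Mathlib
import Cfsg.Prelude.Def_RootSubgroups
import Cfsg.Agent.Lib.Helper83.Unip
import Cfsg.Agent.Lib.Helper83.QPOpp

/-!
# Clifford's theorem for subgroups of `GL(M)`, and normal unipotent subgroups (helper83)

`SS K`: `M` is the sum of its simple `K`-invariant subspaces.  This passes from a group to a
subgroup normalized by it; and a group with `SS` has no non-identity normal unipotent subgroup.
-/

set_option autoImplicit false
set_option linter.unusedVariables false
set_option linter.unusedSectionVars false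
set_option linter.unusedSimpArgs false
set_option linter.unnecessarySeqFocus false
set_option linter.unreachableTactic false
set_option linter.unusedTactic false
set_option linter.style.haveILetI false

namespace Cfsg.Agent.Lib.Helper83.QPCliff

open Cfsg
open Cfsg.Agent.Lib.Helper83.QPOpp

universe u v

variable {k : Type v} [Field k] {M : Type u} [AddCommGroup M] [Module k M]
  [FiniteDimensional k M]

/-- `W` is invariant under `K` -/
def Inv (K : Subgroup (LinearMap.GeneralLinearGroup k M)) (W : Submodule k M) : Prop :=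
  ∀ g ∈ K, ∀ w ∈ W, (g : M →ₗ[k] M) w ∈ W

/-- `W` is a simple `K`-invariant subspace -/
def Simp (K : Subgroup (LinearMap.GeneralLinearGroup k M)) (W : Submodule k M) : Prop :=
  Inv K W ∧ W ≠ ⊥ ∧ ∀ W' : Submodule k M, W' ≤ W → Inv K W' → W' = ⊥ ∨ W' = W

/-- `M` is the sum of its simple `K`-invariant subspaces -/
def SS (K : Subgroup (LinearMap.GeneralLinearGroup k M)) : Prop :=
  (⨆ W ∈ {W : Submodule k M | Simp K W}, W) = ⊤

theorem ss_of_irred {G : Subgroup (LinearMap.GeneralLinearGroup k M)} (hG : IsIrreducibleFor G) :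
    SS G := by
  have hs : Simp G (⊤ : Submodule k M) := by
    refine ⟨fun g _ w _ => Submodule.mem_top, ?_, fun W' _ hW' => hG.2 W' hW'⟩
    obtain ⟨m, hm⟩ := hG.1
    intro h
    have : m ∈ (⊤ : Submodule k M) := Submodule.mem_top
    rw [h] at this
    exact hm ((Submodule.mem_bot k).1 this)
  unfold SS
  rw [eq_top_iff]
  exact le_biSup (fun W => W) hs

lemma conj_apply (g x : LinearMap.GeneralLinearGroup k M) (w : M) :
    (x : M →ₗ[k] M) ((g : M →ₗ[k] M) w) =
      (g : M →ₗ[k] M) (((g⁻¹ * x * g⁻¹⁻¹ : LinearMap.GeneralLinearGroup k M) : M →ₗ[k] M) w) := by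
  rw [← Module.End.mul_apply, ← Module.End.mul_apply, ← Units.val_mul, ← Units.val_mul]
  congr 2
  group

lemma conj_apply' (g x : LinearMap.GeneralLinearGroup k M) (w : M) :
    (g : M →ₗ[k] M) ((x : M →ₗ[k] M) w) =
      ((g * x * g⁻¹ : LinearMap.GeneralLinearGroup k M) : M →ₗ[k] M) ((g : M →ₗ[k] M) w) := by
  rw [← Module.End.mul_apply, ← Module.End.mul_apply, ← Units.val_mul, ← Units.val_mul]
  congr 2
  group

lemma unip_mono {U U' : Subgroup (LinearMap.GeneralLinearGroup k M)} (h : U ≤ U')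
    (hU : IsUnipotentOn U') : IsUnipotentOn U := by
  rw [Cfsg.Agent.Lib.Helper83.Unip.unip_iff] at hU ⊢
  obtain ⟨n, hn⟩ := hU
  exact ⟨n, fun l hl hlen => hn l (fun g hg => h (hl g hg)) hlen⟩

lemma prod_mem {U : Subgroup (LinearMap.GeneralLinearGroup k M)} {W : Submodule k M}
    (hW : Inv U W) (l : List (LinearMap.GeneralLinearGroup k M)) (hl : ∀ g ∈ l, g ∈ U) :
    ∀ w ∈ W, (l.map fun g : LinearMap.GeneralLinearGroup k M => (g : M →ₗ[k] M) - 1).prod w ∈ W := by
  induction l with
  | nil => intro w hw; simpa using hw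
  | cons a l ih =>
    intro w hw
    rw [List.map_cons, List.prod_cons, Module.End.mul_apply, LinearMap.sub_apply,
      Module.End.one_apply]
    have h1 := ih (fun g hg => hl g (List.mem_cons_of_mem _ hg)) w hw
    exact W.sub_mem (hW a (hl a List.mem_cons_self) _ h1) h1

/-- a unipotent group has a non-zero fixed vector in every non-zero invariant subspace -/
lemma exists_fixed_in {U : Subgroup (LinearMap.GeneralLinearGroup k M)} (hU : IsUnipotentOn U)
    {W : Submodule k M} (hW : Inv U W) (hne : W ≠ ⊥) : W ⊓ fixedSubmodule U ≠ ⊥ := by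
  rw [Cfsg.Agent.Lib.Helper83.Unip.unip_iff] at hU
  obtain ⟨n, hn⟩ := hU
  have key : ∀ n : ℕ, (∀ l : List (LinearMap.GeneralLinearGroup k M), (∀ g ∈ l, g ∈ U) →
      l.length = n → ∀ w ∈ W,
      (l.map fun g : LinearMap.GeneralLinearGroup k M => (g : M →ₗ[k] M) - 1).prod w = 0) →
      W ⊓ fixedSubmodule U ≠ ⊥ := by
    intro n
    induction n with
    | zero =>
      intro h _
      apply hne
      rw [eq_bot_iff]
      intro w hw
      have := h [] (by simp) rfl w hw
      simpa using this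
    | succ n ih =>
      intro h
      by_cases hc : ∀ l : List (LinearMap.GeneralLinearGroup k M), (∀ g ∈ l, g ∈ U) →
          l.length = n → ∀ w ∈ W,
          (l.map fun g : LinearMap.GeneralLinearGroup k M => (g : M →ₗ[k] M) - 1).prod w = 0
      · exact ih hc
      · push Not at hc
        obtain ⟨l, hl, hlen, w, hw, hw0⟩ := hc
        intro hbot
        apply hw0
        have hmem : (l.map fun g : LinearMap.GeneralLinearGroup k M =>
            (g : M →ₗ[k] M) - 1).prod w ∈ W ⊓ fixedSubmodule U := by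
          refine Submodule.mem_inf.2 ⟨prod_mem hW l hl w hw, ?_⟩
          rw [mem_fixed]
          intro u hu
          have := h (u :: l) (by
            intro g hg
            rcases List.mem_cons.1 hg with rfl | hg
            · exact hu
            · exact hl g hg) (by rw [List.length_cons, hlen]) w hw
          rw [List.map_cons, List.prod_cons, Module.End.mul_apply, LinearMap.sub_apply,
            Module.End.one_apply, sub_eq_zero] at this
          exact this
        rw [hbot] at hmem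
        exact (Submodule.mem_bot k).1 hmem
  exact key n (fun l hl hlen w _ => by rw [hn l hl hlen]; rfl)

section fd

lemma exists_simp_le (K : Subgroup (LinearMap.GeneralLinearGroup k M)) {W : Submodule k M}
    (hW : Inv K W) (hne : W ≠ ⊥) : ∃ W₁ : Submodule k M, W₁ ≤ W ∧ Simp K W₁ := by
  classical
  have hex : ∃ n : ℕ, ∃ W₁ : Submodule k M, W₁ ≤ W ∧ Inv K W₁ ∧ W₁ ≠ ⊥ ∧
      Module.finrank k W₁ = n := ⟨_, W, le_rfl, hW, hne, rfl⟩
  obtain ⟨W₁, hle, hinv, hne₁, hfr⟩ := Nat.find_spec hex
  refine ⟨W₁, hle, hinv, hne₁, ?_⟩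
  intro W' hW' hinv'
  by_cases h0 : W' = ⊥
  · left; exact h0
  · right
    have h1 : Nat.find hex ≤ Module.finrank k W' :=
      Nat.find_min' hex ⟨W', hW'.trans hle, hinv', h0, rfl⟩
    have h2 := Submodule.finrank_mono hW'
    exact Submodule.eq_of_le_of_finrank_eq hW' (by omega)

lemma simp_map {K : Subgroup (LinearMap.GeneralLinearGroup k M)}
    {g : LinearMap.GeneralLinearGroup k M}
    (h1 : ∀ x ∈ K, g * x * g⁻¹ ∈ K) (h2 : ∀ x ∈ K, g⁻¹ * x * g⁻¹⁻¹ ∈ K) {W : Submodule k M}
    (hW : Simp K W) : Simp K (W.map (g : M →ₗ[k] M)) := by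
  obtain ⟨hinv, hne, hmin⟩ := hW
  refine ⟨?_, ?_, ?_⟩
  · rintro x hx _ ⟨w, hw, rfl⟩
    rw [conj_apply g x w]
    exact ⟨_, hinv _ (h2 x hx) w hw, rfl⟩
  · intro h
    apply hne
    rw [eq_bot_iff]
    intro w hw
    have : (g : M →ₗ[k] M) w ∈ W.map (g : M →ₗ[k] M) := ⟨w, hw, rfl⟩
    rw [h] at this
    have h0 : (g : M →ₗ[k] M) w = 0 := (Submodule.mem_bot k).1 this
    rw [Submodule.mem_bot]
    apply unit_inj g
    rw [h0, map_zero]
  · intro W' hW' hinv'
    have hinv'' : Inv K (W ⊓ W'.comap (g : M →ₗ[k] M)) := by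
      rintro x hx w ⟨hw1, hw2⟩
      refine ⟨hinv x hx w hw1, ?_⟩
      show (g : M →ₗ[k] M) ((x : M →ₗ[k] M) w) ∈ W'
      rw [conj_apply' g x w]
      exact hinv' _ (h1 x hx) _ hw2
    rcases hmin _ inf_le_left hinv'' with h | h
    · left
      rw [eq_bot_iff]
      intro w' hw'
      obtain ⟨w, hw, rfl⟩ := hW' hw'
      have : w ∈ W ⊓ W'.comap (g : M →ₗ[k] M) := ⟨hw, hw'⟩
      rw [h] at this
      rw [(Submodule.mem_bot k).1 this, map_zero]
      exact Submodule.zero_mem _
    · right
      apply le_antisymm hW'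
      rintro _ ⟨w, hw, rfl⟩
      rw [← h] at hw
      exact hw.2

/-- **Clifford**: semisimplicity passes to a subgroup normalized by the group -/
theorem clifford {K K' : Subgroup (LinearMap.GeneralLinearGroup k M)} (hle : K ≤ K')
    (hnorm : ∀ g ∈ K', ∀ x ∈ K, g * x * g⁻¹ ∈ K) (h : SS K') : SS K := by
  unfold SS at h ⊢
  rw [eq_top_iff, ← h]
  apply iSup₂_le
  intro W hW
  obtain ⟨hinv, hne, hmin⟩ := hW
  have hinvK : Inv K W := fun g hg => hinv g (hle hg)
  obtain ⟨W₁, hW₁, hs⟩ := exists_simp_le K hinvK hne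
  have hS : (⨆ g : K', W₁.map ((g : LinearMap.GeneralLinearGroup k M) : M →ₗ[k] M)) = W := by
    have hSle : (⨆ g : K', W₁.map ((g : LinearMap.GeneralLinearGroup k M) : M →ₗ[k] M)) ≤ W := by
      apply iSup_le
      rintro ⟨g, hg⟩ _ ⟨w, hw, rfl⟩
      exact hinv g hg w (hW₁ hw)
    have hSinv : Inv K' (⨆ g : K', W₁.map ((g : LinearMap.GeneralLinearGroup k M) : M →ₗ[k] M)) := by
      intro g' hg'
      have : (⨆ g : K', W₁.map ((g : LinearMap.GeneralLinearGroup k M) : M →ₗ[k] M)) ≤
          (⨆ g : K', W₁.map ((g : LinearMap.GeneralLinearGroup k M) : M →ₗ[k] M)).comap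
            (g' : M →ₗ[k] M) := by
        apply iSup_le
        rintro ⟨g, hg⟩ _ ⟨w, hw, rfl⟩
        rw [Submodule.mem_comap]
        have : (g' : M →ₗ[k] M) ((g : M →ₗ[k] M) w) ∈
            W₁.map (((⟨g' * g, K'.mul_mem hg' hg⟩ : K') : LinearMap.GeneralLinearGroup k M) :
              M →ₗ[k] M) := ⟨w, hw, rfl⟩
        exact (le_iSup (fun g : K' => W₁.map ((g : LinearMap.GeneralLinearGroup k M) : M →ₗ[k] M))
          ⟨g' * g, K'.mul_mem hg' hg⟩) this
      intro w hw
      exact this hw
    rcases hmin _ hSle hSinv with h0 | h0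
    · exfalso
      apply hs.2.1
      rw [eq_bot_iff, ← h0]
      intro w hw
      have : w ∈ W₁.map (((1 : K') : LinearMap.GeneralLinearGroup k M) : M →ₗ[k] M) :=
        ⟨w, hw, rfl⟩
      exact (le_iSup (fun g : K' => W₁.map ((g : LinearMap.GeneralLinearGroup k M) : M →ₗ[k] M))
        1) this
    · exact h0
  rw [← hS]
  apply iSup_le
  rintro ⟨g, hg⟩
  have hsg : Simp K (W₁.map (g : M →ₗ[k] M)) :=
    simp_map (fun x hx => hnorm g hg x hx) (fun x hx => hnorm g⁻¹ (K'.inv_mem hg) x hx) hs
  exact le_biSup (fun W => W) hsg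

end fd

/-- a group acting semisimply has no non-identity normal unipotent subgroup -/
theorem unip_normal_eq_bot {N U : Subgroup (LinearMap.GeneralLinearGroup k M)} (hN : SS N)
    (hUN : U ≤ N) (hnorm : ∀ n ∈ N, ∀ u ∈ U, n * u * n⁻¹ ∈ U) (hU : IsUnipotentOn U) :
    U = ⊥ := by
  have hW : ∀ W : Submodule k M, Simp N W → W ≤ fixedSubmodule U := by
    intro W ⟨hinv, hne, hmin⟩
    have hinv' : Inv N (W ⊓ fixedSubmodule U) := by
      intro n hn w hw
      obtain ⟨hw1, hw2⟩ := Submodule.mem_inf.1 hw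
      refine Submodule.mem_inf.2 ⟨hinv n hn w hw1, ?_⟩
      rw [mem_fixed] at hw2 ⊢
      intro u hu
      rw [conj_apply n u w, hw2 _ (hnorm n⁻¹ (N.inv_mem hn) u hu)]
    have hne' := exists_fixed_in hU (fun g hg => hinv g (hUN hg)) hne
    rcases hmin _ inf_le_left hinv' with h | h
    · exact absurd h hne'
    · rw [← h]; exact inf_le_right
  have htop : fixedSubmodule U = ⊤ := by
    rw [eq_top_iff, ← hN]
    exact iSup₂_le hW
  rw [eq_bot_iff]
  intro u hu
  rw [Subgroup.mem_bot]
  apply Units.ext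
  apply LinearMap.ext
  intro m
  have hm : m ∈ fixedSubmodule U := by rw [htop]; trivial
  rw [mem_fixed] at hm
  exact hm u hu

end Cfsg.Agent.Lib.Helper83.QPCliff
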