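import Mathlib
import Cfsg.Prelude.Def_RootSubgroups
import Cfsg.Prelude.Def_CaseTheorems
import Cfsg.Agent.Lib.Helper83.QPSet
import Cfsg.Agent.Lib.Helper83.QPConn
import Cfsg.Agent.Lib.Helper83.QPCliff

/-!
# Quadratic pairs: the subgroup generated by a component of `Σ` is quasisimple (helper83)
-/

set_option autoImplicit false
set_option linter.unusedVariables false
set_option linter.unusedSectionVars false
set_option linter.unusedSimpArgs false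
set_option linter.unnecessarySeqFocus false
set_option linter.unreachableTactic false
set_option linter.unusedTactic false
set_option linter.style.haveILetI false

namespace Cfsg.Agent.Lib.Helper83.QPSimple

open Cfsg
open Cfsg.Agent.Lib.Helper83.QPDepth Cfsg.Agent.Lib.Helper83.QPMain
open Cfsg.Agent.Lib.Helper83.QPRoot Cfsg.Agent.Lib.Helper83.QPKey Cfsg.Agent.Lib.Helper83.QPHyp
open Cfsg.Agent.Lib.Helper83.QPPair Cfsg.Agent.Lib.Helper83.RankOne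
open Cfsg.Agent.Lib.Helper83.QPComm Cfsg.Agent.Lib.Helper83.QPOpp
open Cfsg.Agent.Lib.Helper83.QPSurj Cfsg.Agent.Lib.Helper83.QPClass2
open Cfsg.Agent.Lib.Helper83.QPTrans Cfsg.Agent.Lib.Helper83.QPSet
open Cfsg.Agent.Lib.Helper83.QPConn Cfsg.Agent.Lib.Helper83.QPCliff
open scoped commutatorElement

universe u v

section sl2
variable {k : Type*} [Field k]

/-- the diagonal element `diag(t, t⁻¹)` -/
def dg (t : k) (ht : t ≠ 0) : Matrix.SpecialLinearGroup (Fin 2) k :=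
  ⟨!![t, 0; 0, t⁻¹], by simp [Matrix.det_fin_two, ht]⟩

lemma dg00 (t : k) (ht : t ≠ 0) : (dg t ht) 0 0 = t := by simp [dg]
lemma dg01 (t : k) (ht : t ≠ 0) : (dg t ht) 0 1 = 0 := by simp [dg]
lemma dg10 (t : k) (ht : t ≠ 0) : (dg t ht) 1 0 = 0 := by simp [dg]
lemma dg11 (t : k) (ht : t ≠ 0) : (dg t ht) 1 1 = t⁻¹ := by simp [dg]

lemma U_comm (t : k) (ht : t ≠ 0) (s : k) :
    dg t ht * Cfsg.Agent.S5016.U s * (dg t ht)⁻¹ * (Cfsg.Agent.S5016.U s)⁻¹ =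
      Cfsg.Agent.S5016.U ((t ^ 2 - 1) * s) := by
  apply Cfsg.Agent.S5016.ext2 <;>
  simp only [Cfsg.Agent.S5016.mul11, Cfsg.Agent.S5016.mul10,
    Cfsg.Agent.S5016.mul00, Cfsg.Agent.S5016.mul01,
    Cfsg.Agent.S5016.inv00, Cfsg.Agent.S5016.inv01, Cfsg.Agent.S5016.inv10,
    Cfsg.Agent.S5016.inv11, Cfsg.Agent.S5016.U00, Cfsg.Agent.S5016.U01, Cfsg.Agent.S5016.U10,
    Cfsg.Agent.S5016.U11, dg00, dg01, dg10, dg11] <;>
  field_simp <;> ring

end sl2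

section grp
variable {Γ : Type*} [Group Γ]

/-- the product `N A` as a subgroup, when `A` normalizes `N` -/
def prodSub (N A : Subgroup Γ) (h : ∀ a ∈ A, ∀ n ∈ N, a * n * a⁻¹ ∈ N) : Subgroup Γ where
  carrier := {x | ∃ n ∈ N, ∃ a ∈ A, x = n * a}
  mul_mem' := by
    rintro _ _ ⟨n, hn, a, ha, rfl⟩ ⟨n', hn', a', ha', rfl⟩
    exact ⟨n * (a * n' * a⁻¹), N.mul_mem hn (h a ha n' hn'), a * a', A.mul_mem ha ha', by group⟩
  one_mem' := ⟨1, N.one_mem, 1, A.one_mem, by simp⟩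
  inv_mem' := by
    rintro _ ⟨n, hn, a, ha, rfl⟩
    exact ⟨a⁻¹ * n⁻¹ * a⁻¹⁻¹, h a⁻¹ (A.inv_mem ha) n⁻¹ (N.inv_mem hn), a⁻¹, A.inv_mem ha,
      by group⟩

lemma mem_prodSub {N A : Subgroup Γ} {h : ∀ a ∈ A, ∀ n ∈ N, a * n * a⁻¹ ∈ N} {x : Γ} :
    x ∈ prodSub N A h ↔ ∃ n ∈ N, ∃ a ∈ A, x = n * a := Iff.rfl

lemma left_le_prodSub (N A : Subgroup Γ) (h : ∀ a ∈ A, ∀ n ∈ N, a * n * a⁻¹ ∈ N) :
    N ≤ prodSub N A h := fun n hn => ⟨n, hn, 1, A.one_mem, by simp⟩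

lemma right_le_prodSub (N A : Subgroup Γ) (h : ∀ a ∈ A, ∀ n ∈ N, a * n * a⁻¹ ∈ N) :
    A ≤ prodSub N A h := fun a ha => ⟨1, N.one_mem, a, ha, by simp⟩

lemma comm_prodSub_le (N A : Subgroup Γ) (h : ∀ a ∈ A, ∀ n ∈ N, a * n * a⁻¹ ∈ N)
    (hA : ∀ a ∈ A, ∀ b ∈ A, a * b = b * a) : ⁅prodSub N A h, prodSub N A h⁆ ≤ N := by
  rw [Subgroup.commutator_le]
  rintro _ ⟨n₁, hn₁, a₁, ha₁, rfl⟩ _ ⟨n₂, hn₂, a₂, ha₂, rfl⟩
  have hc : a₂ * a₁⁻¹ = a₁⁻¹ * a₂ := by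
    have := hA a₁ ha₁ a₂ ha₂
    rw [eq_inv_mul_iff_mul_eq, ← mul_assoc, this, mul_inv_cancel_right]
  have e : ⁅n₁ * a₁, n₂ * a₂⁆ = n₁ * (a₁ * n₂ * a₁⁻¹) * (a₂ * n₁⁻¹ * a₂⁻¹) * n₂⁻¹ := by
    rw [commutatorElement_def]
    have : n₁ * a₁ * (n₂ * a₂) * (n₁ * a₁)⁻¹ * (n₂ * a₂)⁻¹ =
        n₁ * a₁ * n₂ * (a₂ * a₁⁻¹) * n₁⁻¹ * a₂⁻¹ * n₂⁻¹ := by group
    rw [this, hc]; group
  rw [e]
  exact N.mul_mem (N.mul_mem (N.mul_mem hn₁ (h a₁ ha₁ n₂ hn₂)) (h a₂ ha₂ _ (N.inv_mem hn₁)))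
    (N.inv_mem hn₂)

/-- a perfect group in which every normal subgroup is central or everything has a simple central
quotient -/
theorem simple_quot (hperf : commutator Γ = ⊤) (hnt : Nontrivial Γ)
    (h : ∀ N : Subgroup Γ, N.Normal → N ≤ Subgroup.center Γ ∨ N = ⊤) :
    IsSimpleGroup (Γ ⧸ Subgroup.center Γ) := by
  have hnt' : Nontrivial (Γ ⧸ Subgroup.center Γ) := by
    by_contra hc
    rw [not_nontrivial_iff_subsingleton] at hc
    have htop : Subgroup.center Γ = ⊤ := QuotientGroup.subgroup_eq_top_of_subsingleton _ hc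
    have hbot : commutator Γ = ⊥ := by
      rw [commutator_def, Subgroup.commutator_eq_bot_iff_le_centralizer]
      intro x _
      rw [Subgroup.mem_centralizer_iff]
      intro y _
      have hy : y ∈ Subgroup.center Γ := by rw [htop]; trivial
      exact (Subgroup.mem_center_iff.1 hy x).symm
    rw [hperf] at hbot
    obtain ⟨x, y, hxy⟩ := hnt.exists_pair_ne
    have hx : x ∈ (⊤ : Subgroup Γ) := trivial
    have hy : y ∈ (⊤ : Subgroup Γ) := trivial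
    rw [hbot, Subgroup.mem_bot] at hx hy
    exact hxy (hx.trans hy.symm)
  refine { toNontrivial := hnt', eq_bot_or_eq_top_of_normal := ?_ }
  intro Nb hNb
  rcases h (Nb.comap (QuotientGroup.mk' (Subgroup.center Γ))) (hNb.comap _) with h1 | h1
  · left
    rw [eq_bot_iff]
    intro xb hxb
    obtain ⟨x, rfl⟩ := QuotientGroup.mk_surjective xb
    have hx : x ∈ Nb.comap (QuotientGroup.mk' (Subgroup.center Γ)) := hxb
    rw [Subgroup.mem_bot]
    exact (QuotientGroup.eq_one_iff x).2 (h1 hx)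
  · right
    rw [eq_top_iff]
    intro xb _
    obtain ⟨x, rfl⟩ := QuotientGroup.mk_surjective xb
    have hx : x ∈ Nb.comap (QuotientGroup.mk' (Subgroup.center Γ)) := by rw [h1]; trivial
    exact hx

end grp

section qp
variable {k : Type v} [Field k] {M : Type u} [AddCommGroup M] [Module k M]
  [FiniteDimensional k M]
variable {G : Subgroup (LinearMap.GeneralLinearGroup k M)}

/-- in a hyperbolic pair each member lies in the commutator subgroup of the group generated -/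
theorem pair_perfect (h2 : (2 : k) ≠ 0) (h3 : Nat.card k ≠ 3)
    {σ τ : LinearMap.GeneralLinearGroup k M}
    (hσ : σ ∈ minimalQuadraticElements G) (hτ : τ ∈ minimalQuadraticElements G) (hH : Hyp σ τ) :
    sameActionSubgroup G σ ≤ ⁅sameActionSubgroup G σ ⊔ sameActionSubgroup G τ,
      sameActionSubgroup G σ ⊔ sameActionSubgroup G τ⁆ := by
  have hcl : sameActionSubgroup G σ = Subgroup.closure (sameActionClass G σ) := rfl
  nth_rewrite 1 [hcl]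
  rw [Subgroup.closure_le]
  intro e he
  obtain ⟨P, hPP, hPc, e1, e2⟩ := partner h2 h3 hσ hτ hH he
  have hNN : nn e * nn e = 0 := he.1.1.2.1.1
  have hEe : sameActionSubgroup G e = sameActionSubgroup G σ := class_congr he
  have hrange : ∀ X : Matrix.SpecialLinearGroup (Fin 2) k,
      Phi (nn e) P hNN hPP e1 e2 X ∈ sameActionSubgroup G σ ⊔ sameActionSubgroup G τ := by
    intro X
    have hX : X ∈ upperUnipotentSL2 k ⊔ lowerUnipotentSL2 k := by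
      rw [Cfsg.Agent.Lib.Helper83.SL2Pair.upper_sup_lower]; trivial
    have hm : Phi (nn e) P hNN hPP e1 e2 X ∈
        (upperUnipotentSL2 k ⊔ lowerUnipotentSL2 k).map (Phi (nn e) P hNN hPP e1 e2) :=
      ⟨X, hX, rfl⟩
    rw [Subgroup.map_sup] at hm
    have hle' : (upperUnipotentSL2 k).map (Phi (nn e) P hNN hPP e1 e2) ⊔
        (lowerUnipotentSL2 k).map (Phi (nn e) P hNN hPP e1 e2) ≤
        sameActionSubgroup G σ ⊔ sameActionSubgroup G τ := by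
      apply sup_le_sup
      · rintro _ ⟨X, hX, rfl⟩
        obtain ⟨s, rfl⟩ := (Cfsg.Agent.S5016.mem_upper_iff' X).mp hX
        rw [Phi_U, ← hEe]; exact E_smul he.1 (self_mem_E he.1) s
      · rintro _ ⟨X, hX, rfl⟩
        obtain ⟨t, rfl⟩ := (Cfsg.Agent.S5016.mem_lower_iff' X).mp hX
        rw [Phi_L]
        have hPE : sqUnit P hPP ∈ sameActionSubgroup G τ := Subgroup.subset_closure hPc
        have := E_smul hτ hPE t
        rwa [sqUnit_congr _ (smul_sq t P hPP) (by rw [nn_sqUnit])] at this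
    exact hle' hm
  obtain ⟨t, ht0, ht1⟩ := Cfsg.Agent.Lib.Helper83.SL2RingGen.exists_t h2 h3
  have ht1' : t ^ 2 - 1 ≠ 0 := sub_ne_zero.2 ht1
  have he1 : e = Phi (nn e) P hNN hPP e1 e2 (Cfsg.Agent.S5016.U 1) := by
    rw [Phi_U]
    exact nn_inj (by rw [nn_sqUnit, one_smul])
  have hU1 : Cfsg.Agent.S5016.U (1 : k) =
      dg t ht0 * Cfsg.Agent.S5016.U (t ^ 2 - 1)⁻¹ * (dg t ht0)⁻¹ *
        (Cfsg.Agent.S5016.U (t ^ 2 - 1)⁻¹)⁻¹ := by
    rw [U_comm, mul_inv_cancel₀ ht1']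
  have he2 : e = ⁅Phi (nn e) P hNN hPP e1 e2 (dg t ht0),
      Phi (nn e) P hNN hPP e1 e2 (Cfsg.Agent.S5016.U (t ^ 2 - 1)⁻¹)⁆ := by
    rw [commutatorElement_def, ← map_inv, ← map_inv, ← map_mul, ← map_mul, ← map_mul, ← hU1]
    exact he1
  show e ∈ ⁅sameActionSubgroup G σ ⊔ sameActionSubgroup G τ,
      sameActionSubgroup G σ ⊔ sameActionSubgroup G τ⁆
  rw [he2]
  exact Subgroup.commutator_mem_commutator (hrange _) (hrange _)

variable {Δ : Set (Subgroup (LinearMap.GeneralLinearGroup k M))}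

/-- **Normal subgroups** of the group generated by a component: central, or containing a member -/
theorem normal_cases (h2 : (2 : k) ≠ 0) (h3 : Nat.card k ≠ 3) (hG : IsQuadraticPair G)
    (hΔ : IsComp G Δ) (hSS : SS (⨆ A ∈ Δ, A))
    {N : Subgroup (LinearMap.GeneralLinearGroup k M)} (hNH : N ≤ ⨆ A ∈ Δ, A)
    (hnorm : ∀ h ∈ ⨆ A ∈ Δ, A, ∀ n ∈ N, h * n * h⁻¹ ∈ N) :
    (∀ n ∈ N, ∀ h ∈ ⨆ A ∈ Δ, A, n * h = h * n) ∨ ∃ A ∈ Δ, A ≤ N := by
  by_contra hcon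
  push Not at hcon
  obtain ⟨⟨n₀, hn₀, h₀, hh₀, hne₀⟩, hnot⟩ := hcon
  have hle : ∀ D ∈ Δ, D ≤ ⨆ C ∈ Δ, C := fun D hD => le_biSup (fun A => A) hD
  have hHG : (⨆ A ∈ Δ, A) ≤ G := hΔ.le
  -- a member of `Δ` not centralized by `N`
  obtain ⟨A, hA, a₀, ha₀, n₁, hn₁, hne₁⟩ : ∃ A ∈ Δ, ∃ a ∈ A, ∃ n ∈ N, a * n ≠ n * a := by
    by_contra hc
    push Not at hc
    apply hne₀
    have : (⨆ A ∈ Δ, A) ≤ Subgroup.centralizer {n₀} := by
      apply iSup₂_le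
      intro A hA a ha
      rw [Subgroup.mem_centralizer_iff]
      intro x hx
      rw [Set.mem_singleton_iff] at hx
      rw [hx]
      exact (hc A hA a ha n₀ hn₀).symm
    have h1 := Subgroup.mem_centralizer_iff.1 (this hh₀) n₀ rfl
    exact h1
  obtain ⟨σ, hσ, rfl⟩ := hΔ.sub hA
  have hnA : ∀ a ∈ sameActionSubgroup G σ, ∀ n ∈ N, a * n * a⁻¹ ∈ N :=
    fun a ha n hn => hnorm a (hle _ hA ha) n hn
  have hcommA : ∀ a ∈ sameActionSubgroup G σ, ∀ b ∈ sameActionSubgroup G σ, a * b = b * a :=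
    fun a ha b hb => E_comm hσ ha hb
  have hNAH : prodSub N (sameActionSubgroup G σ) hnA ≤ ⨆ A ∈ Δ, A := by
    rintro _ ⟨n, hn, a, ha, rfl⟩
    exact Subgroup.mul_mem _ (hNH hn) (hle _ hA ha)
  by_cases hex : ∃ n ∈ N, Hyp σ (n * σ * n⁻¹)
  · obtain ⟨n, hn, hH⟩ := hex
    have hnG : n ∈ G := hHG (hNH hn)
    have hτ : n * σ * n⁻¹ ∈ minimalQuadraticElements G := conj_mq hnG hσ
    have hp := pair_perfect h2 h3 hσ hτ hH
    have hsup : sameActionSubgroup G σ ⊔ sameActionSubgroup G (n * σ * n⁻¹) ≤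
        prodSub N (sameActionSubgroup G σ) hnA := by
      apply sup_le (right_le_prodSub _ _ _)
      rw [← conj_E σ hnG]
      intro x hx
      rw [mem_conjBy] at hx
      have e : x = n * (n⁻¹ * x * n) * n⁻¹ := by group
      rw [e]
      exact Subgroup.mul_mem _ (Subgroup.mul_mem _ (left_le_prodSub _ _ _ hn)
        (right_le_prodSub _ _ _ hx)) (Subgroup.inv_mem _ (left_le_prodSub _ _ _ hn))
    exact hnot _ hA (hp.trans ((Subgroup.commutator_mono hsup hsup).trans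
      (comm_prodSub_le N _ hnA hcommA)))
  · push Not at hex
    set W : Set (Subgroup (LinearMap.GeneralLinearGroup k M)) :=
      {B | ∃ g ∈ prodSub N (sameActionSubgroup G σ) hnA, B = conjBy (sameActionSubgroup G σ) g}
      with hW
    have hWG : ∀ B ∈ W, B ≤ prodSub N (sameActionSubgroup G σ) hnA := by
      rintro B ⟨g, hg, rfl⟩
      exact conjBy_le_of_mem (right_le_prodSub _ _ _) hg
    have hWW : ∀ B ∈ W, ∀ C ∈ W, IsUnipotentOn (B ⊔ C) := by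
      rintro B ⟨g₁, hg₁, rfl⟩ C ⟨g₂, hg₂, rfl⟩
      have hg₁G : g₁ ∈ G := hHG (hNAH hg₁)
      have hg₂G : g₂ ∈ G := hHG (hNAH hg₂)
      rw [conj_E σ hg₁G, conj_E σ hg₂G]
      apply unip_of_not_hyp h2 h3 (conj_mq hg₁G hσ) (conj_mq hg₂G hσ)
      have e : g₂ * σ * g₂⁻¹ = g₁ * ((g₁⁻¹ * g₂) * σ * (g₁⁻¹ * g₂)⁻¹) * g₁⁻¹ := by group
      rw [e, Hyp_conj]
      obtain ⟨n, hn, a, ha, hna⟩ := mem_prodSub.1 (Subgroup.mul_mem _ (Subgroup.inv_mem _ hg₁) hg₂)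
      have e2 : (g₁⁻¹ * g₂) * σ * (g₁⁻¹ * g₂)⁻¹ = n * σ * n⁻¹ := by
        rw [hna]
        have hc : a * σ = σ * a := E_comm hσ ha (self_mem_E hσ)
        have : n * a * σ * (n * a)⁻¹ = n * (a * σ) * a⁻¹ * n⁻¹ := by group
        rw [this, hc]; group
      rw [e2]
      exact hex n hn
    have hWconj : ∀ B ∈ W, ∀ g ∈ prodSub N (sameActionSubgroup G σ) hnA, conjBy B g ∈ W := by
      rintro B ⟨g₁, hg₁, rfl⟩ g hg
      exact ⟨g * g₁, Subgroup.mul_mem _ hg hg₁, conjBy_conjBy _ _ _⟩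
    have hT : IsUnipotentOn (⨆ B ∈ W, B) := Cfsg.Agent.Lib.Helper83.Unip.main hWG hWW hWconj
    have hTnorm : ∀ g ∈ prodSub N (sameActionSubgroup G σ) hnA, ∀ x ∈ ⨆ B ∈ W, B,
        g * x * g⁻¹ ∈ ⨆ B ∈ W, B := by
      intro g hg x hx
      have key : conjBy (⨆ B ∈ W, B) g ≤ ⨆ B ∈ W, B := by
        rw [Cfsg.conjBy, Subgroup.map_iSup]
        refine iSup_le (fun B => ?_)
        rw [Subgroup.map_iSup]
        exact iSup_le (fun hB => le_biSup (fun A => A) (hWconj B hB g hg))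
      exact key (conj_mem_conjBy hx g)
    have hUbot : (⨆ B ∈ W, B) ⊓ N = ⊥ := by
      apply unip_normal_eq_bot (clifford hNH hnorm hSS) inf_le_right
      · rintro n hn u ⟨hu1, hu2⟩
        exact ⟨hTnorm n (left_le_prodSub _ _ _ hn) u hu1,
          N.mul_mem (N.mul_mem hn hu2) (N.inv_mem hn)⟩
      · exact unip_mono inf_le_left hT
    apply hne₁
    have hAW : sameActionSubgroup G σ ∈ W := ⟨1, Subgroup.one_mem _, (conjBy_one _).symm⟩
    have hm : a₀ * n₁ * a₀⁻¹ * n₁⁻¹ ∈ (⨆ B ∈ W, B) ⊓ N := by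
      refine ⟨?_, N.mul_mem (hnA a₀ ha₀ n₁ hn₁) (N.inv_mem hn₁)⟩
      have h1 : a₀ ∈ ⨆ B ∈ W, B := (le_biSup (fun A => A) hAW) ha₀
      have hBW : conjBy (sameActionSubgroup G σ) n₁ ∈ W := ⟨n₁, left_le_prodSub _ _ _ hn₁, rfl⟩
      have h2' : n₁ * a₀⁻¹ * n₁⁻¹ ∈ ⨆ B ∈ W, B :=
        (le_biSup (fun A => A) hBW) (conj_mem_conjBy (Subgroup.inv_mem _ ha₀) n₁)
      have e : a₀ * n₁ * a₀⁻¹ * n₁⁻¹ = a₀ * (n₁ * a₀⁻¹ * n₁⁻¹) := by group
      rw [e]
      exact Subgroup.mul_mem _ h1 h2'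
    rw [hUbot, Subgroup.mem_bot] at hm
    have e : a₀ * n₁ = (a₀ * n₁ * a₀⁻¹ * n₁⁻¹) * (n₁ * a₀) := by group
    rw [e, hm, one_mul]

/-- the subgroup generated by a component is perfect -/
theorem comp_perfect (h2 : (2 : k) ≠ 0) (h3 : Nat.card k ≠ 3) (hG : IsQuadraticPair G)
    (hΔ : IsComp G Δ) : ⁅(⨆ A ∈ Δ, A), (⨆ A ∈ Δ, A)⁆ = ⨆ A ∈ Δ, A := by
  have hle : ∀ D ∈ Δ, D ≤ ⨆ C ∈ Δ, C := fun D hD => le_biSup (fun A => A) hD
  apply le_antisymm
  · rw [Subgroup.commutator_le]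
    intro a ha b hb
    rw [commutatorElement_def]
    exact Subgroup.mul_mem _ (Subgroup.mul_mem _ (Subgroup.mul_mem _ ha hb)
      (Subgroup.inv_mem _ ha)) (Subgroup.inv_mem _ hb)
  · apply iSup₂_le
    intro A hA
    obtain ⟨σ, hσ, rfl⟩ := hΔ.sub hA
    obtain ⟨μ, hμ, hH, hB⟩ := hΔ.exists_opp h2 h3 hG hσ hA
    have hsup : sameActionSubgroup G σ ⊔ sameActionSubgroup G μ ≤ ⨆ C ∈ Δ, C :=
      sup_le (hle _ hA) (hle _ hB)
    exact (pair_perfect h2 h3 hσ hμ hH).trans (Subgroup.commutator_mono hsup hsup)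

/-- the subgroup generated by a component acts semisimply -/
theorem comp_SS (h2 : (2 : k) ≠ 0) (h3 : Nat.card k ≠ 3) (hG : IsQuadraticPair G)
    (hΔ : IsComp G Δ) : SS (⨆ A ∈ Δ, A) := by
  have hSS₀ : SS (⨆ A ∈ quadraticRootSubgroups G, A) := by
    refine clifford (iSup₂_le fun A hA => Sigma_le hA) ?_ (ss_of_irred hG.1)
    intro g hg x hx
    have key : conjBy (⨆ A ∈ quadraticRootSubgroups G, A) g ≤
        ⨆ A ∈ quadraticRootSubgroups G, A := by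
      rw [Cfsg.conjBy, Subgroup.map_iSup]
      refine iSup_le (fun B => ?_)
      rw [Subgroup.map_iSup]
      exact iSup_le (fun hB => le_biSup (fun A => A) (conjBy_mem_Sigma hB hg))
    exact key (conj_mem_conjBy hx g)
  refine clifford (biSup_mono hΔ.sub) ?_ hSS₀
  intro g hg
  rw [iSup_subtype'] at hg
  refine Subgroup.iSup_induction
    (fun B : quadraticRootSubgroups G => (B : Subgroup (LinearMap.GeneralLinearGroup k M)))
    (C := fun g => ∀ x ∈ ⨆ A ∈ Δ, A, g * x * g⁻¹ ∈ ⨆ A ∈ Δ, A) hg ?_ ?_ ?_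
  · rintro ⟨B, hB⟩ g hg x hx
    by_cases hBΔ : B ∈ Δ
    · have hgH : g ∈ ⨆ A ∈ Δ, A := (le_biSup (fun A => A) hBΔ) hg
      exact Subgroup.mul_mem _ (Subgroup.mul_mem _ hgH hx) (Subgroup.inv_mem _ hgH)
    · have hcent : (⨆ A ∈ Δ, A) ≤ Subgroup.centralizer {g} := by
        apply iSup₂_le
        intro A hA a ha
        have hc := hΔ.comm_of_not_mem h2 h3 hG hA hB hBΔ
        rw [Subgroup.commutator_eq_bot_iff_le_centralizer] at hc
        rw [Subgroup.mem_centralizer_iff]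
        intro y hy
        rw [Set.mem_singleton_iff] at hy
        rw [hy]
        exact Subgroup.mem_centralizer_iff.1 (hc ha) g hg
      have h1 : g * x = x * g := Subgroup.mem_centralizer_iff.1 (hcent hx) g rfl
      rw [h1, mul_inv_cancel_right]
      exact hx
  · intro x hx
    simpa using hx
  · intro g₁ g₂ h1 h2' x hx
    have e : g₁ * g₂ * x * (g₁ * g₂)⁻¹ = g₁ * (g₂ * x * g₂⁻¹) * g₁⁻¹ := by group
    rw [e]
    exact h1 _ (h2' x hx)

/-- **Quasisimplicity** of the subgroup generated by a component -/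
theorem comp_quasisimple (h2 : (2 : k) ≠ 0) (h3 : Nat.card k ≠ 3) (hG : IsQuadraticPair G)
    (hΔ : IsComp G Δ) : IsQuasisimple ↥(⨆ A ∈ Δ, A) := by
  have hle : ∀ D ∈ Δ, D ≤ ⨆ C ∈ Δ, C := fun D hD => le_biSup (fun A => A) hD
  have hperf := comp_perfect h2 h3 hG hΔ
  have hperf' : Group.IsPerfect ↥(⨆ A ∈ Δ, A) := Subgroup.isPerfect_iff.2 hperf
  refine ⟨hperf', ?_⟩
  have hnt : Nontrivial ↥(⨆ A ∈ Δ, A) := by
    obtain ⟨A, hA⟩ := hΔ.nonempty
    obtain ⟨σ, hσ, rfl⟩ := hΔ.sub hA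
    refine ⟨⟨⟨σ, hle _ hA (self_mem_E hσ)⟩, 1, ?_⟩⟩
    intro h
    exact class_ne_one (self_mem_class hσ) (congrArg Subtype.val h)
  apply simple_quot (Group.isPerfect_def.1 hperf') hnt
  intro N' hN'
  have hNH : N'.map (⨆ A ∈ Δ, A).subtype ≤ ⨆ A ∈ Δ, A := Subgroup.map_subtype_le N'
  have hnorm : ∀ h ∈ ⨆ A ∈ Δ, A, ∀ n ∈ N'.map (⨆ A ∈ Δ, A).subtype,
      h * n * h⁻¹ ∈ N'.map (⨆ A ∈ Δ, A).subtype := by
    rintro h hh _ ⟨n, hn, rfl⟩
    exact ⟨⟨h, hh⟩ * n * ⟨h, hh⟩⁻¹, hN'.conj_mem n hn ⟨h, hh⟩, rfl⟩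
  rcases normal_cases h2 h3 hG hΔ (comp_SS h2 h3 hG hΔ) hNH hnorm with hc | ⟨A, hA, hAN⟩
  · left
    intro n hn
    rw [Subgroup.mem_center_iff]
    intro g
    apply Subtype.ext
    exact (hc n ⟨n, hn, rfl⟩ g g.2).symm
  · right
    have hall : (⨆ A ∈ Δ, A) ≤ N'.map (⨆ A ∈ Δ, A).subtype := by
      apply iSup₂_le
      intro B hB x hx
      obtain ⟨g, hg, rfl⟩ := hΔ.conj_class hA hB
      rw [mem_conjBy] at hx
      have e : x = g * (g⁻¹ * x * g) * g⁻¹ := by group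
      rw [e]
      exact hnorm g hg _ (hAN hx)
    rw [eq_top_iff]
    intro x _
    obtain ⟨y, hy, hyx⟩ := hall x.2
    have : y = x := Subtype.ext hyx
    rw [← this]; exact hy

end qp

end Cfsg.Agent.Lib.Helper83.QPSimple
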