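import Mathlib
import Cfsg.Prelude.Def_RootSubgroups
import Cfsg.Prelude.Def_CaseTheorems
import Cfsg.Agent.Lib.Helper83.QPSet
import Cfsg.Agent.Lib.Helper83.QPConn
import Cfsg.Agent.Lib.Helper83.QPSimple

/-!
# Quadratic pairs: `Σ` has finitely many components, which commute pairwise (helper83)
-/

set_option autoImplicit false
set_option linter.unusedVariables false
set_option linter.unusedSectionVars false
set_option linter.unusedSimpArgs false
set_option linter.unnecessarySeqFocus false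
set_option linter.unreachableTactic false
set_option linter.unusedTactic false
set_option linter.style.haveILetI false

namespace Cfsg.Agent.Lib.Helper83.QPParts

open Cfsg
open Cfsg.Agent.Lib.Helper83.QPDepth Cfsg.Agent.Lib.Helper83.QPMain
open Cfsg.Agent.Lib.Helper83.QPRoot Cfsg.Agent.Lib.Helper83.QPKey Cfsg.Agent.Lib.Helper83.QPHyp
open Cfsg.Agent.Lib.Helper83.QPPair Cfsg.Agent.Lib.Helper83.RankOne
open Cfsg.Agent.Lib.Helper83.QPComm Cfsg.Agent.Lib.Helper83.QPOpp
open Cfsg.Agent.Lib.Helper83.QPSurj Cfsg.Agent.Lib.Helper83.QPClass2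
open Cfsg.Agent.Lib.Helper83.QPTrans Cfsg.Agent.Lib.Helper83.QPSet
open Cfsg.Agent.Lib.Helper83.QPConn Cfsg.Agent.Lib.Helper83.QPSimple
open scoped commutatorElement

universe u v

variable {k : Type v} [Field k] {M : Type u} [AddCommGroup M] [Module k M]
  [FiniteDimensional k M]
variable {G : Subgroup (LinearMap.GeneralLinearGroup k M)}

/-- the two members of a hyperbolic pair do not commute -/
lemma hyp_comm_ne {σ μ : LinearMap.GeneralLinearGroup k M} (hH : Hyp σ μ)
    (hNN : nn σ * nn σ = 0) (hN0 : nn σ ≠ 0) : nn σ * nn μ - nn μ * nn σ ≠ 0 := by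
  intro h0
  have hc : nn σ * nn μ = nn μ * nn σ := sub_eq_zero.1 h0
  obtain ⟨k1, k2⟩ := hH
  have z1 : ∀ x, nn μ (nn σ x) = 0 := by
    intro x
    have : nn μ (nn σ x) ∈ LinearMap.range (nn μ) ⊓ LinearMap.ker (nn σ) := by
      refine ⟨⟨_, rfl⟩, ?_⟩
      show nn σ (nn μ (nn σ x)) = 0
      have h1 : nn σ (nn μ (nn σ x)) = (nn σ * nn μ) (nn σ x) := rfl
      rw [h1, hc]
      show nn μ (nn σ (nn σ x)) = 0
      have h2 : nn σ (nn σ x) = 0 := LinearMap.congr_fun hNN x
      rw [h2, map_zero]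
    rw [k2] at this; exact (Submodule.mem_bot k).1 this
  apply hN0
  apply LinearMap.ext; intro x
  have : nn σ x ∈ LinearMap.range (nn σ) ⊓ LinearMap.ker (nn μ) := ⟨⟨x, rfl⟩, z1 x⟩
  rw [k1] at this; exact (Submodule.mem_bot k).1 this

lemma nn_comm_of_bot {σ μ : LinearMap.GeneralLinearGroup k M}
    (hσ : σ ∈ minimalQuadraticElements G) (hμ : μ ∈ minimalQuadraticElements G)
    (h : ⁅sameActionSubgroup G σ, sameActionSubgroup G μ⁆ = ⊥) :
    nn σ * nn μ - nn μ * nn σ = 0 := by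
  rw [Subgroup.commutator_eq_bot_iff_le_centralizer] at h
  have hc : μ * σ = σ * μ :=
    Subgroup.mem_centralizer_iff.1 (h (self_mem_E hσ)) μ (self_mem_E hμ)
  have h1 := congrArg Units.val hc
  rw [Units.val_mul, Units.val_mul, val_eq σ, val_eq μ] at h1
  have : nn σ * nn μ - nn μ * nn σ = (1 + nn σ) * (1 + nn μ) - (1 + nn μ) * (1 + nn σ) := by
    noncomm_ring
  rw [this, h1, sub_self]

variable {Δ Δ' : Set (Subgroup (LinearMap.GeneralLinearGroup k M))}

/-- the subgroups generated by two different components commute -/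
theorem comp_comm (h2 : (2 : k) ≠ 0) (h3 : Nat.card k ≠ 3) (hG : IsQuadraticPair G)
    (hΔ : IsComp G Δ) (hΔ' : IsComp G Δ') (hd : Disjoint Δ Δ') :
    ⁅(⨆ A ∈ Δ, A), (⨆ A ∈ Δ', A)⁆ = ⊥ := by
  rw [Subgroup.commutator_eq_bot_iff_le_centralizer]
  apply iSup₂_le
  intro A hA a ha
  rw [Subgroup.mem_centralizer_iff]
  intro h hh
  have hcent : (⨆ B ∈ Δ', B) ≤ Subgroup.centralizer {a} := by
    apply iSup₂_le
    intro B hB b hb
    have hBΔ : B ∉ Δ := fun hBΔ => Set.disjoint_left.1 hd hBΔ hB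
    have hc := hΔ.comm_of_not_mem h2 h3 hG hA (hΔ'.sub hB) hBΔ
    rw [Subgroup.commutator_eq_bot_iff_le_centralizer] at hc
    rw [Subgroup.mem_centralizer_iff]
    intro y hy
    rw [Set.mem_singleton_iff] at hy
    rw [hy]
    exact (Subgroup.mem_centralizer_iff.1 (hc ha) b hb).symm
  exact (Subgroup.mem_centralizer_iff.1 (hcent hh) a rfl).symm

/-- there are only finitely many components -/
theorem finite_comps (h2 : (2 : k) ≠ 0) (h3 : Nat.card k ≠ 3) (hG : IsQuadraticPair G) :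
    Finite {Δ : Set (Subgroup (LinearMap.GeneralLinearGroup k M)) // IsComp G Δ} := by
  classical
  have hch : ∀ c : {Δ : Set (Subgroup (LinearMap.GeneralLinearGroup k M)) // IsComp G Δ},
      ∃ σ μ : LinearMap.GeneralLinearGroup k M, σ ∈ minimalQuadraticElements G ∧
        μ ∈ minimalQuadraticElements G ∧ sameActionSubgroup G σ ∈ c.1 ∧
        sameActionSubgroup G μ ∈ c.1 ∧ Hyp σ μ := by
    rintro ⟨Δ, hΔ⟩
    obtain ⟨A, hA⟩ := hΔ.nonempty
    obtain ⟨σ, hσ, rfl⟩ := hΔ.sub hA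
    obtain ⟨μ, hμ, hH, hB⟩ := hΔ.exists_opp h2 h3 hG hσ hA
    exact ⟨σ, μ, hσ, hμ, hA, hB, hH⟩
  choose s m hs hm hsc hmc hH using hch
  have hli : LinearIndependent k (fun c => nn (s c)) := by
    rw [linearIndependent_iff']
    intro t g hsum c₀ hc₀
    have h1 : (∑ c ∈ t, g c • nn (s c)) * nn (m c₀) - nn (m c₀) * (∑ c ∈ t, g c • nn (s c)) = 0 := by
      rw [hsum]; simp
    rw [Finset.sum_mul, Finset.mul_sum, ← Finset.sum_sub_distrib] at h1
    rw [Finset.sum_eq_single c₀] at h1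
    · have h3' : g c₀ • (nn (s c₀) * nn (m c₀) - nn (m c₀) * nn (s c₀)) = 0 := by
        rw [← h1, smul_sub, smul_mul_assoc, mul_smul_comm]
      exact (smul_eq_zero.1 h3').resolve_right
        (hyp_comm_ne (hH c₀) (hs c₀).1.2.1.1 (hs c₀).1.2.1.2)
    · intro c _ hcne
      have hnot : sameActionSubgroup G (m c₀) ∉ c.1 := by
        intro hmem
        exact hcne (Subtype.ext (c.2.eq_of_mem c₀.2 hmem (hmc c₀)))
      have hb := c.2.comm_of_not_mem h2 h3 hG (hsc c) ⟨m c₀, hm c₀, rfl⟩ hnot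
      have h0 := nn_comm_of_bot (hs c) (hm c₀) hb
      rw [smul_mul_assoc, mul_smul_comm, ← smul_sub, h0, smul_zero]
    · intro hc; exact absurd hc₀ hc
  exact hli.finite_of_isNoetherian

/-- **The partition of `Σ` into components** -/
theorem parts (h2 : (2 : k) ≠ 0) (h3 : Nat.card k ≠ 3) (hG : IsQuadraticPair G) :
    ∃ (r : ℕ) (part : Fin r → Set (Subgroup (LinearMap.GeneralLinearGroup k M))),
      (⋃ i, part i) = quadraticRootSubgroups G ∧
      (∀ i j, i ≠ j → Disjoint (part i) (part j)) ∧ (∀ i, IsComp G (part i)) := by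
  haveI := finite_comps h2 h3 hG
  obtain ⟨r, ⟨e⟩⟩ := Finite.exists_equiv_fin
    {Δ : Set (Subgroup (LinearMap.GeneralLinearGroup k M)) // IsComp G Δ}
  refine ⟨r, fun i => (e.symm i).1, ?_, ?_, fun i => (e.symm i).2⟩
  · ext A
    rw [Set.mem_iUnion]
    constructor
    · rintro ⟨i, hi⟩
      exact (e.symm i).2.sub hi
    · intro hA
      refine ⟨e ⟨comp G A, isComp_comp hA⟩, ?_⟩
      rw [Equiv.symm_apply_apply]
      exact self_mem_comp A
  · intro i j hij
    rw [Set.disjoint_left]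
    intro A hAi hAj
    apply hij
    have : e.symm i = e.symm j := Subtype.ext ((e.symm i).2.eq_of_mem (e.symm j).2 hAi hAj)
    exact e.symm.injective this

end Cfsg.Agent.Lib.Helper83.QPParts
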