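import Mathlib
import Cfsg.Prelude.Def_RootSubgroups
import Cfsg.Prelude.Def_CaseTheorems
import Cfsg.Agent.Lib.Helper83.QPParts

/-!
# Splitting a quadratic element along a non-nilpotent pair (helper83)

`A, B` square-zero endomorphisms of `M`, `H = ⟨1 + cA, 1 + cB⟩`.
* `unip_of_nilp`: if `AB + BA` is nilpotent then `H` is unipotent.
* `split`: otherwise `A = S + (A - S)` with `S ≠ 0`, `S² = 0`, `S (A - S) = (A - S) S = 0`,
  `rank (A - S) < rank A` and `1 + cS ∈ [H, H]` for all `c`.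
-/

set_option autoImplicit false
set_option linter.unusedVariables false
set_option linter.unusedSectionVars false
set_option linter.unusedSimpArgs false
set_option linter.unnecessarySeqFocus false
set_option linter.unreachableTactic false
set_option linter.unusedTactic false
set_option linter.style.haveILetI false

namespace Cfsg.Agent.Lib.Helper83.QPSplit

open Matrix MatrixGroups
open Cfsg
open Cfsg.Agent.Lib.Helper83.SL2Ring Cfsg.Agent.Lib.Helper83.SL2RingGen
open Cfsg.Agent.Lib.Helper83.QPRep Cfsg.Agent.Lib.Helper83.QPDepth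
open Cfsg.Agent.Lib.Helper83.QPMain Cfsg.Agent.Lib.Helper83.QPRoot
open scoped commutatorElement

universe u v

section unip
variable {k : Type*} [Field k] {M : Type*} [AddCommGroup M] [Module k M]

/-- nilpotent anticommutator: the group generated by the two families is unipotent -/
theorem unip_of_nilp (A B : Module.End k M) (hAA : A * A = 0) (hBB : B * B = 0) (r : ℕ)
    (hZ : Zc A B ^ r = 0) : IsUnipotentOn (Hgrp A B) := by
  rw [Cfsg.Agent.Lib.Helper83.Unip.unip_iff]
  refine ⟨2 * r + 1, fun l hl hlen => ?_⟩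
  apply LinearMap.ext
  intro m
  have hm : m ∈ K A B (0 + l.length) := by
    rw [zero_add, hlen]
    apply ker_pow_le_K A B hAA hBB r
    rw [LinearMap.mem_ker]
    have : (A * B + B * A) ^ r = 0 := hZ
    rw [this]; rfl
  have h := prod_mem_K A B l (fun g hg => Hgrp_le_T A B hAA hBB (hl g hg)) 0 m hm
  exact (Submodule.mem_bot k).1 h

end unip

section aux
variable {k M R : Type*} [Field k] [AddCommGroup M] [Module k M] [FiniteDimensional k M]
  [CommRing R] [Algebra k R] [Module.Finite k R] [Nontrivial R]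
variable (M₀ M₁ : Submodule k M) (hc : IsCompl M₀ M₁) (D : HP k M₁ R) (lam : R)

include hc in
theorem split_aux (h2 : (2 : k) ≠ 0) (h3 : Nat.card k ≠ 3)
    (A B : Module.End k M) (hAA : A * A = 0) (hBB : B * B = 0)
    (hA0 : ∀ m ∈ M₀, A m ∈ M₀)
    (N : ℕ) (hN : M₀ ≤ K A B N)
    (mu : R) (hlm : lam * mu = 1) (hgen : Algebra.adjoin k ({lam} : Set R) = ⊤)
    (hι : Function.Injective D.ι)
    (ha : ∀ v : M₁, ((D.a v : M₁) : M) = A v)
    (hb : ∀ v : M₁, ((D.ι lam (D.b v) : M₁) : M) = B v) :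
    ∃ S : Module.End k M, S * S = 0 ∧ S ≠ 0 ∧ S * (A - S) = 0 ∧ (A - S) * S = 0 ∧
      Module.finrank k (LinearMap.range (A - S)) < Module.finrank k (LinearMap.range A) ∧
      ∀ (c : k) (g : (Module.End k M)ˣ), (g : Module.End k M) = 1 + c • S →
        g ∈ ⁅Hgrp A B, Hgrp A B⁆ := by
  obtain ⟨t, ht0, ht1⟩ := exists_t h2 h3
  have hGS0 := gen_all h2 h3 lam mu hlm hgen
  have hGS : ∀ x : R, eu x ∈ HR k lam ∧ el x ∈ HR k lam := fun x => ⟨hGS0.1 x, hGS0.2 x⟩
  have hΦ := Phi_mem A B M₀ M₁ hc D lam hAA hBB ha hb N hN t ht0 ht1 hGS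
  have ha0 : D.a ≠ 0 := by
    intro h
    have h1 : D.ι (1 : R) = 0 := D.iota_a_zero 1 (by rw [h, mul_zero])
    have h2' : (1 : R) = 0 := hι (by rw [h1, map_zero])
    exact one_ne_zero h2'
  have hS1 : ∀ v : M₁, emb M₀ M₁ hc D.a (v : M) = A v := by
    intro v; rw [emb_apply_one, ha]
  have hS0 : ∀ m ∈ M₀, emb M₀ M₁ hc D.a m = 0 := fun m hm => emb_apply_zero _ _ _ _ _ hm
  have hd1 : ∀ v : M₁, (A - emb M₀ M₁ hc D.a) (v : M) = 0 := by
    intro v
    rw [LinearMap.sub_apply, hS1, sub_self]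
  have hd0 : ∀ m ∈ M₀, (A - emb M₀ M₁ hc D.a) m = A m := by
    intro m hm
    rw [LinearMap.sub_apply, hS0 m hm, sub_zero]
  refine ⟨emb M₀ M₁ hc D.a, ?_, ?_, ?_, ?_, ?_, ?_⟩
  · rw [← emb_mul, D.haa, emb_zero]
  · intro h
    apply ha0
    apply emb_injective M₀ M₁ hc
    rw [h, emb_zero]
  · apply ext_unique M₀ M₁ hc
    · intro v
      rw [Module.End.mul_apply, hd1, map_zero]; rfl
    · intro m hm
      rw [Module.End.mul_apply, hd0 m hm, hS0 _ (hA0 m hm)]; rfl
  · apply ext_unique M₀ M₁ hc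
    · intro v
      rw [Module.End.mul_apply, emb_apply_one, hd1]; rfl
    · intro m hm
      rw [Module.End.mul_apply, hS0 m hm, map_zero]; rfl
  · apply Submodule.finrank_lt_finrank_of_lt
    have hle0 : LinearMap.range (A - emb M₀ M₁ hc D.a) ≤ M₀ := by
      rintro _ ⟨x, rfl⟩
      have hx := Submodule.projection_add_projection_eq_self hc x
      have e : M₁.projection M₀ hc.symm x = ((M₁.projectionOnto M₀ hc.symm x : M₁) : M) := rfl
      rw [← hx, map_add, e, hd1, add_zero, hd0 _ (Submodule.projection_apply_mem hc x)]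
      exact hA0 _ (Submodule.projection_apply_mem hc x)
    have hle : LinearMap.range (A - emb M₀ M₁ hc D.a) ≤ LinearMap.range A := by
      rintro _ ⟨x, rfl⟩
      have hx := Submodule.projection_add_projection_eq_self hc x
      have e : M₁.projection M₀ hc.symm x = ((M₁.projectionOnto M₀ hc.symm x : M₁) : M) := rfl
      rw [← hx, map_add, e, hd1, add_zero, hd0 _ (Submodule.projection_apply_mem hc x)]
      exact ⟨_, rfl⟩
    refine lt_of_le_of_ne hle ?_
    intro heq
    apply ha0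
    apply LinearMap.ext
    intro v
    apply Subtype.ext
    rw [ha]
    have h1 : A (v : M) ∈ M₀ := by
      apply hle0
      rw [heq]; exact ⟨_, rfl⟩
    have h2' : A (v : M) ∈ M₁ := by rw [← ha]; exact (D.a v).2
    exact (Submodule.disjoint_def.1 hc.disjoint) _ h1 h2'
  · intro c g hg
    have hts : algebraMap k R t * algebraMap k R t⁻¹ = 1 := by
      rw [← map_mul, mul_inv_cancel₀ ht0, map_one]
    have e1 : (algebraMap k R t ^ 2 - 1) * algebraMap k R (t ^ 2 - 1)⁻¹ = 1 := by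
      have : algebraMap k R t ^ 2 - 1 = algebraMap k R (t ^ 2 - 1) := by simp
      rw [this, ← map_mul, mul_inv_cancel₀ (sub_ne_zero.2 ht1), map_one]
    have hed : Phi M₀ M₁ hc D (ed (algebraMap k R t) (algebraMap k R t⁻¹) hts) ∈ Hgrp A B := by
      rw [ed_eq]
      have hw : Phi M₀ M₁ hc D (ew : SL(2, R)) ∈ Hgrp A B := by
        have : (ew : SL(2, R)) = eu 1 * el (-1) * eu 1 := rfl
        rw [this, map_mul, map_mul]
        exact mul_mem (mul_mem (hΦ 1).1 (hΦ (-1)).2) (hΦ 1).1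
      rw [map_mul, map_mul, map_mul, map_inv]
      exact mul_mem (mul_mem (mul_mem (hΦ _).1 (hΦ _).2) (hΦ _).1) (inv_mem hw)
    have hcomm : ∀ f : R, Phi M₀ M₁ hc D (eu f) ∈ ⁅Hgrp A B, Hgrp A B⁆ := by
      intro f
      have e : ed (algebraMap k R t) (algebraMap k R t⁻¹) hts *
          eu (algebraMap k R (t ^ 2 - 1)⁻¹ * f) *
          (ed (algebraMap k R t) (algebraMap k R t⁻¹) hts)⁻¹ *
          (eu (algebraMap k R (t ^ 2 - 1)⁻¹ * f))⁻¹ = eu f := by
        rw [ed_eu_ed, eu_inv, eu_mul]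
        congr 1
        linear_combination f * e1
      rw [← e, map_mul, map_mul, map_mul, map_inv, map_inv]
      exact Subgroup.commutator_mem_commutator hed (hΦ _).1
    have hgeq : g = Phi M₀ M₁ hc D (eu (algebraMap k R c)) := by
      apply Units.ext
      rw [hg, Phi_eu_val, AlgHom.commutes, Algebra.algebraMap_eq_smul_one, smul_mul_assoc, one_mul,
        emb_smul]
    rw [hgeq]
    exact hcomm _

end aux

section main
variable {k : Type v} [Field k] {M : Type u} [AddCommGroup M] [Module k M]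
  [FiniteDimensional k M]

/-- **Splitting lemma** -/
theorem split (h2 : (2 : k) ≠ 0) (h3 : Nat.card k ≠ 3)
    (A B : Module.End k M) (hAA : A * A = 0) (hBB : B * B = 0)
    (hZ : ∀ r : ℕ, (Zc A B) ^ r ≠ 0) :
    ∃ S : Module.End k M, S * S = 0 ∧ S ≠ 0 ∧ S * (A - S) = 0 ∧ (A - S) * S = 0 ∧
      Module.finrank k (LinearMap.range (A - S)) < Module.finrank k (LinearMap.range A) ∧
      ∀ (c : k) (g : (Module.End k M)ˣ), (g : Module.End k M) = 1 + c • S →
        g ∈ ⁅Hgrp A B, Hgrp A B⁆ := by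
  obtain ⟨n, hn1, hc⟩ := exists_fitting (Zc A B)
  have hAZn : A * Zc A B ^ n = Zc A B ^ n * A :=
    (Commute.pow_right (show Commute A (Zc A B) from A_Zc A B hAA) n)
  have hBZn : B * Zc A B ^ n = Zc A B ^ n * B :=
    (Commute.pow_right (show Commute B (Zc A B) from B_Zc A B hBB) n)
  have hA0 : ∀ m ∈ LinearMap.ker (Zc A B ^ n), A m ∈ LinearMap.ker (Zc A B ^ n) := by
    intro m hm
    rw [LinearMap.mem_ker] at hm ⊢
    rw [← Module.End.mul_apply, ← hAZn, Module.End.mul_apply, hm, map_zero]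
  have hA1 : ∀ m ∈ LinearMap.range (Zc A B ^ n), A m ∈ LinearMap.range (Zc A B ^ n) := by
    rintro _ ⟨w, rfl⟩
    exact ⟨A w, by rw [← Module.End.mul_apply, ← hAZn]; rfl⟩
  have hB1 : ∀ m ∈ LinearMap.range (Zc A B ^ n), B m ∈ LinearMap.range (Zc A B ^ n) := by
    rintro _ ⟨w, rfl⟩
    exact ⟨B w, by rw [← Module.End.mul_apply, ← hBZn]; rfl⟩
  have hZinj : ∀ m ∈ LinearMap.range (Zc A B ^ n), Zc A B m = 0 → m = 0 := by
    intro m hm hz
    have hk : m ∈ LinearMap.ker (Zc A B ^ n) := by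
      rw [LinearMap.mem_ker]
      obtain ⟨j, rfl⟩ : ∃ j, n = j + 1 := ⟨n - 1, by omega⟩
      rw [pow_succ, Module.End.mul_apply, hz, map_zero]
    exact (Submodule.disjoint_def.1 hc.disjoint) m hk hm
  have hKn : LinearMap.ker (Zc A B ^ n) ≤ K A B (2 * n + 1) := ker_pow_le_K A B hAA hBB n
  have hne : LinearMap.range (Zc A B ^ n) ≠ ⊥ := by
    intro hbot
    apply hZ n
    exact LinearMap.range_eq_bot.1 hbot
  obtain ⟨R, _, _, _, _, D, lam, mu, hlm, hgen, hι, ha, hb⟩ :=
    exists_data A B hAA hBB _ hA1 hB1 hZinj hne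
  exact split_aux _ _ hc D lam h2 h3 A B hAA hBB hA0 (2 * n + 1) hKn mu hlm hgen hι ha hb

end main

end Cfsg.Agent.Lib.Helper83.QPSplit
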