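import Mathlib
import Cfsg.Prelude.Def_RootSubgroups
import Cfsg.Prelude.Def_CaseTheorems
import Cfsg.Agent.Lib.Helper83.QPParts
import Cfsg.Agent.Lib.Helper83.QPSplit

/-!
# The centralize-or-split dichotomy for quadratic elements (helper83)

`(G, M)` a quadratic pair, `Kg ≤ G` normalized by `G`.  A quadratic element `σ ∈ 𝒬(G)` either
centralizes `Kg`, or a conjugate of it is a product `s * σ°` with `s ∈ Kg` quadratic (with its
whole scalar family in `Kg`), `(s - 1)(σ° - 1) = 0 = (σ° - 1)(s - 1)` and `σ° = 1` or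
`σ° ∈ 𝒬(G)` of smaller commutator rank (`dichotomy`).  Consequence: `G = G₀ C_G(G₀)` for
`G₀ = ⟨Σ⟩` (`cocentral`).
-/

set_option autoImplicit false
set_option linter.unusedVariables false
set_option linter.unusedSectionVars false
set_option linter.unusedSimpArgs false
set_option linter.unnecessarySeqFocus false
set_option linter.unreachableTactic false
set_option linter.unusedTactic false
set_option linter.style.haveILetI false

namespace Cfsg.Agent.Lib.Helper83.QPDich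

open Cfsg
open Cfsg.Agent.Lib.Helper83.QPDepth Cfsg.Agent.Lib.Helper83.QPMain
open Cfsg.Agent.Lib.Helper83.QPRoot Cfsg.Agent.Lib.Helper83.QPKey Cfsg.Agent.Lib.Helper83.QPHyp
open Cfsg.Agent.Lib.Helper83.QPPair Cfsg.Agent.Lib.Helper83.RankOne
open Cfsg.Agent.Lib.Helper83.QPComm Cfsg.Agent.Lib.Helper83.QPOpp
open Cfsg.Agent.Lib.Helper83.QPSurj Cfsg.Agent.Lib.Helper83.QPClass2
open Cfsg.Agent.Lib.Helper83.QPTrans Cfsg.Agent.Lib.Helper83.QPSet
open Cfsg.Agent.Lib.Helper83.QPConn Cfsg.Agent.Lib.Helper83.QPCliff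
open Cfsg.Agent.Lib.Helper83.QPSimple Cfsg.Agent.Lib.Helper83.QPSplit
open scoped commutatorElement

universe u v

section fam
variable {k : Type*} [Field k] {M : Type*} [AddCommGroup M] [Module k M]

/-- the scalar family `{1 + cX}` of a square-zero endomorphism, as a subgroup -/
def famSub (X : Module.End k M) (hX : X * X = 0) : Subgroup (LinearMap.GeneralLinearGroup k M) where
  carrier := {g | ∃ c : k, (g : Module.End k M) = 1 + c • X}
  one_mem' := ⟨0, by rw [zero_smul, add_zero]; rfl⟩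
  mul_mem' := by
    rintro a b ⟨c, hc⟩ ⟨c', hc'⟩
    refine ⟨c + c', ?_⟩
    rw [Units.val_mul, hc, hc', mul_add, mul_one, add_mul, one_mul, smul_mul_smul_comm, hX,
      smul_zero, add_zero, add_smul, add_assoc]
  inv_mem' := by
    rintro a ⟨c, hc⟩
    refine ⟨-c, ?_⟩
    have : a = sqUnit (c • X) (smul_sq c X hX) := Units.ext hc
    rw [this]
    show 1 - c • X = 1 + (-c) • X
    rw [neg_smul, sub_eq_add_neg]

lemma mem_famSub {X : Module.End k M} {hX : X * X = 0} {g : LinearMap.GeneralLinearGroup k M} :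
    g ∈ famSub X hX ↔ ∃ c : k, (g : Module.End k M) = 1 + c • X := Iff.rfl

lemma sqUnit_mem_famSub (X : Module.End k M) (hX : X * X = 0) (c : k) :
    sqUnit (c • X) (smul_sq c X hX) ∈ famSub X hX := ⟨c, rfl⟩

lemma famSub_comm (X : Module.End k M) (hX : X * X = 0) :
    ∀ a ∈ famSub X hX, ∀ b ∈ famSub X hX, a * b = b * a := by
  rintro a ⟨c, hc⟩ b ⟨c', hc'⟩
  apply Units.ext
  rw [Units.val_mul, Units.val_mul, hc, hc']
  simp only [mul_add, add_mul, mul_one, one_mul, smul_mul_smul_comm, hX, smul_zero, add_zero]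
  abel

lemma Hgrp_eq (A B : Module.End k M) (hA : A * A = 0) (hB : B * B = 0) :
    Hgrp A B = famSub A hA ⊔ famSub B hB := by
  unfold Hgrp
  rw [Subgroup.closure_union]
  congr 1
  · exact Subgroup.closure_eq (famSub A hA)
  · exact Subgroup.closure_eq (famSub B hB)

lemma conj_sq (g : LinearMap.GeneralLinearGroup k M) (X : Module.End k M) (hX : X * X = 0) :
    ((g : Module.End k M) * X * ((g⁻¹ : LinearMap.GeneralLinearGroup k M) : Module.End k M)) *
    ((g : Module.End k M) * X * ((g⁻¹ : LinearMap.GeneralLinearGroup k M) : Module.End k M)) = 0 := by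
  have : (g : Module.End k M) * X * ((g⁻¹ : LinearMap.GeneralLinearGroup k M) : Module.End k M) *
      ((g : Module.End k M) * X * ((g⁻¹ : LinearMap.GeneralLinearGroup k M) : Module.End k M)) =
      (g : Module.End k M) * (X * (((g⁻¹ : LinearMap.GeneralLinearGroup k M) : Module.End k M) *
        (g : Module.End k M)) * X) *
        ((g⁻¹ : LinearMap.GeneralLinearGroup k M) : Module.End k M) := by
    simp only [mul_assoc]
  rw [this, Units.inv_mul, mul_one, hX, mul_zero, zero_mul]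

lemma conj_famSub (g : LinearMap.GeneralLinearGroup k M) (X : Module.End k M) (hX : X * X = 0) :
    conjBy (famSub X hX) g = famSub _ (conj_sq g X hX) := by
  ext x
  rw [mem_conjBy]
  constructor
  · rintro ⟨c, hc⟩
    refine ⟨c, ?_⟩
    have e : x = g * (g⁻¹ * x * g) * g⁻¹ := by group
    rw [e, Units.val_mul, Units.val_mul, hc, mul_add, add_mul, mul_one, Units.mul_inv,
      mul_smul_comm, smul_mul_assoc]
  · rintro ⟨c, hc⟩
    refine ⟨c, ?_⟩
    rw [Units.val_mul, Units.val_mul, hc, mul_add, add_mul, mul_one, Units.inv_mul,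
      mul_smul_comm, smul_mul_assoc]
    congr 2
    have : ((g⁻¹ : LinearMap.GeneralLinearGroup k M) : Module.End k M) *
        ((g : Module.End k M) * X * ((g⁻¹ : LinearMap.GeneralLinearGroup k M) : Module.End k M)) *
        (g : Module.End k M) =
        (((g⁻¹ : LinearMap.GeneralLinearGroup k M) : Module.End k M) * (g : Module.End k M)) * X *
        ((((g⁻¹ : LinearMap.GeneralLinearGroup k M) : Module.End k M)) * (g : Module.End k M)) := by
      simp only [mul_assoc]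
    rw [this, Units.inv_mul, one_mul, mul_one]

lemma famSub_congr {X Y : Module.End k M} (hX : X * X = 0) (hY : Y * Y = 0) (h : X = Y) :
    famSub X hX = famSub Y hY := by
  subst h; rfl

/-- the scalar family subgroup is unipotent -/
lemma unip_famSub (X : Module.End k M) (hX : X * X = 0) : IsUnipotentOn (famSub X hX) := by
  have h := unip_of_nilp X X hX hX 1 (by rw [pow_one]; unfold Zc; rw [hX, add_zero])
  rw [Hgrp_eq X X hX hX, sup_idem] at h
  exact h

end fam

section qp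
variable {k : Type v} [Field k] {M : Type u} [AddCommGroup M] [Module k M]
  [FiniteDimensional k M]
variable {G : Subgroup (LinearMap.GeneralLinearGroup k M)}

/-- **Dichotomy**: a quadratic element centralizes a normal subgroup or splits along it -/
theorem dichotomy (h2 : (2 : k) ≠ 0) (h3 : Nat.card k ≠ 3) (hG : IsQuadraticPair G)
    {Kg : Subgroup (LinearMap.GeneralLinearGroup k M)} (hKG : Kg ≤ G)
    (hnorm : ∀ g ∈ G, ∀ x ∈ Kg, g * x * g⁻¹ ∈ Kg)
    {σ : LinearMap.GeneralLinearGroup k M} (hσ : σ ∈ quadraticElements G) :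
    (∀ x ∈ Kg, σ * x = x * σ) ∨
    ∃ g ∈ G, ∃ s σ' : LinearMap.GeneralLinearGroup k M, g * σ * g⁻¹ = s * σ' ∧
      s ∈ quadraticElements G ∧ scalarFamily s ⊆ (Kg : Set (LinearMap.GeneralLinearGroup k M)) ∧
      nn s * nn σ' = 0 ∧ nn σ' * nn s = 0 ∧
      (σ' = 1 ∨ (σ' ∈ quadraticElements G ∧ commutatorRank σ' < commutatorRank σ)) := by
  have hσσ : nn σ * nn σ = 0 := hσ.2.1.1
  have hSS : SS Kg := clifford hKG hnorm (ss_of_irred hG.1)
  have hRG : famSub (nn σ) hσσ ≤ G := by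
    rintro x ⟨c, hc⟩
    exact hσ.2.2 ⟨c, hc⟩
  have hσR : σ ∈ famSub (nn σ) hσσ := ⟨1, by rw [one_smul]; exact val_eq σ⟩
  have hR : ∀ a ∈ famSub (nn σ) hσσ, ∀ n ∈ Kg, a * n * a⁻¹ ∈ Kg :=
    fun a ha n hn => hnorm a (hRG ha) n hn
  have hRcomm := famSub_comm (nn σ) hσσ
  have hG'G : prodSub Kg (famSub (nn σ) hσσ) hR ≤ G := by
    rintro _ ⟨n, hn, a, ha, rfl⟩
    exact G.mul_mem (hKG hn) (hRG ha)
  by_cases hcase : ∀ g₁ ∈ prodSub Kg (famSub (nn σ) hσσ) hR,
      ∀ g₂ ∈ prodSub Kg (famSub (nn σ) hσσ) hR,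
      IsUnipotentOn (conjBy (famSub (nn σ) hσσ) g₁ ⊔ conjBy (famSub (nn σ) hσσ) g₂)
  · left
    set W : Set (Subgroup (LinearMap.GeneralLinearGroup k M)) :=
      {B | ∃ g ∈ prodSub Kg (famSub (nn σ) hσσ) hR, B = conjBy (famSub (nn σ) hσσ) g}
      with hW
    have hWG : ∀ B ∈ W, B ≤ prodSub Kg (famSub (nn σ) hσσ) hR := by
      rintro B ⟨g, hg, rfl⟩
      exact conjBy_le_of_mem (right_le_prodSub _ _ _) hg
    have hWW : ∀ B ∈ W, ∀ C ∈ W, IsUnipotentOn (B ⊔ C) := by
      rintro B ⟨g₁, hg₁, rfl⟩ C ⟨g₂, hg₂, rfl⟩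
      exact hcase g₁ hg₁ g₂ hg₂
    have hWconj : ∀ B ∈ W, ∀ g ∈ prodSub Kg (famSub (nn σ) hσσ) hR, conjBy B g ∈ W := by
      rintro B ⟨g₁, hg₁, rfl⟩ g hg
      exact ⟨g * g₁, Subgroup.mul_mem _ hg hg₁, conjBy_conjBy _ _ _⟩
    have hT : IsUnipotentOn (⨆ B ∈ W, B) := Cfsg.Agent.Lib.Helper83.Unip.main hWG hWW hWconj
    have hTnorm : ∀ g ∈ prodSub Kg (famSub (nn σ) hσσ) hR, ∀ x ∈ ⨆ B ∈ W, B,
        g * x * g⁻¹ ∈ ⨆ B ∈ W, B := by
      intro g hg x hx
      have key : conjBy (⨆ B ∈ W, B) g ≤ ⨆ B ∈ W, B := by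
        rw [Cfsg.conjBy, Subgroup.map_iSup]
        refine iSup_le (fun B => ?_)
        rw [Subgroup.map_iSup]
        exact iSup_le (fun hB => le_biSup (fun A => A) (hWconj B hB g hg))
      exact key (conj_mem_conjBy hx g)
    have hUbot : (⨆ B ∈ W, B) ⊓ Kg = ⊥ := by
      apply unip_normal_eq_bot hSS inf_le_right
      · rintro n hn u ⟨hu1, hu2⟩
        exact ⟨hTnorm n (left_le_prodSub _ _ _ hn) u hu1,
          Kg.mul_mem (Kg.mul_mem hn hu2) (Kg.inv_mem hn)⟩
      · exact unip_mono inf_le_left hT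
    intro x hx
    have hAW : famSub (nn σ) hσσ ∈ W := ⟨1, Subgroup.one_mem _, (conjBy_one _).symm⟩
    have hm : σ * x * σ⁻¹ * x⁻¹ ∈ (⨆ B ∈ W, B) ⊓ Kg := by
      refine ⟨?_, Kg.mul_mem (hR σ hσR x hx) (Kg.inv_mem hx)⟩
      have h1 : σ ∈ ⨆ B ∈ W, B := (le_biSup (fun A => A) hAW) hσR
      have hBW : conjBy (famSub (nn σ) hσσ) x ∈ W := ⟨x, left_le_prodSub _ _ _ hx, rfl⟩
      have h2' : x * σ⁻¹ * x⁻¹ ∈ ⨆ B ∈ W, B :=
        (le_biSup (fun A => A) hBW) (conj_mem_conjBy (Subgroup.inv_mem _ hσR) x)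
      have e : σ * x * σ⁻¹ * x⁻¹ = σ * (x * σ⁻¹ * x⁻¹) := by group
      rw [e]
      exact Subgroup.mul_mem _ h1 h2'
    rw [hUbot, Subgroup.mem_bot] at hm
    have e : σ * x = (σ * x * σ⁻¹ * x⁻¹) * (x * σ) := by group
    rw [e, hm, one_mul]
  · right
    push Not at hcase
    obtain ⟨g₁, hg₁, g₂, hg₂, hnu⟩ := hcase
    have hg₁G : g₁ ∈ G := hG'G hg₁
    have hg₂G : g₂ ∈ G := hG'G hg₂
    have hσ₁ : g₁ * σ * g₁⁻¹ ∈ quadraticElements G := conj_quad hg₁G hσ
    have hσ₂ : g₂ * σ * g₂⁻¹ ∈ quadraticElements G := conj_quad hg₂G hσ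
    have hAA : nn (g₁ * σ * g₁⁻¹) * nn (g₁ * σ * g₁⁻¹) = 0 := hσ₁.2.1.1
    have hBB : nn (g₂ * σ * g₂⁻¹) * nn (g₂ * σ * g₂⁻¹) = 0 := hσ₂.2.1.1
    have hc1 : conjBy (famSub (nn σ) hσσ) g₁ = famSub (nn (g₁ * σ * g₁⁻¹)) hAA := by
      rw [conj_famSub]
      exact famSub_congr _ _ (nn_conj g₁ σ).symm
    have hc2 : conjBy (famSub (nn σ) hσσ) g₂ = famSub (nn (g₂ * σ * g₂⁻¹)) hBB := by
      rw [conj_famSub]
      exact famSub_congr _ _ (nn_conj g₂ σ).symm
    have hH : conjBy (famSub (nn σ) hσσ) g₁ ⊔ conjBy (famSub (nn σ) hσσ) g₂ =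
        Hgrp (nn (g₁ * σ * g₁⁻¹)) (nn (g₂ * σ * g₂⁻¹)) := by
      rw [hc1, hc2, Hgrp_eq _ _ hAA hBB]
    rw [hH] at hnu
    have hZ : ∀ r : ℕ, Zc (nn (g₁ * σ * g₁⁻¹)) (nn (g₂ * σ * g₂⁻¹)) ^ r ≠ 0 :=
      fun r hr => hnu (unip_of_nilp _ _ hAA hBB r hr)
    have hHG' : Hgrp (nn (g₁ * σ * g₁⁻¹)) (nn (g₂ * σ * g₂⁻¹)) ≤
        prodSub Kg (famSub (nn σ) hσσ) hR := by
      rw [← hH]
      exact sup_le (conjBy_le_of_mem (right_le_prodSub _ _ _) hg₁)
        (conjBy_le_of_mem (right_le_prodSub _ _ _) hg₂)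
    generalize hA : nn (g₁ * σ * g₁⁻¹) = A at hAA hZ hHG'
    generalize hB : nn (g₂ * σ * g₂⁻¹) = B at hBB hZ hHG'
    obtain ⟨S, hSS', hS0, hSA, hAS, hrk, hmem⟩ := split h2 h3 A B hAA hBB hZ
    have hSK : ∀ c : k, sqUnit (c • S) (smul_sq c S hSS') ∈ Kg := by
      intro c
      have h1 := hmem c (sqUnit (c • S) (smul_sq c S hSS')) rfl
      exact comm_prodSub_le Kg _ hR hRcomm (Subgroup.commutator_mono hHG' hHG' h1)
    have hSA' : S * A = 0 := by
      have : S * A = S * (A - S) + S * S := by rw [mul_sub, sub_add_cancel]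
      rw [this, hSA, hSS', add_zero]
    have hAS' : A * S = 0 := by
      have : A * S = (A - S) * S + S * S := by rw [sub_mul, sub_add_cancel]
      rw [this, hAS, hSS', add_zero]
    have hDD : (A - S) * (A - S) = 0 := by
      rw [mul_sub, sub_mul, sub_mul, hAA, hSA', hAS', hSS']; simp
    have hsq : sqUnit S hSS' ∈ quadraticElements G := by
      refine ⟨?_, ⟨?_, ?_⟩, ?_⟩
      · have := hKG (hSK 1)
        have e : sqUnit ((1 : k) • S) (smul_sq 1 S hSS') = sqUnit S hSS' :=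
          sqUnit_congr _ _ (one_smul k S)
        rw [e] at this; exact this
      · show nn (sqUnit S hSS') * nn (sqUnit S hSS') = 0
        rw [nn_sqUnit]; exact hSS'
      · show nn (sqUnit S hSS') ≠ 0
        rw [nn_sqUnit]; exact hS0
      · rintro π ⟨c, hc⟩
        have e : π = sqUnit (c • S) (smul_sq c S hSS') := by
          apply Units.ext
          rw [hc]
          show 1 + c • nn (sqUnit S hSS') = 1 + c • S
          rw [nn_sqUnit]
        rw [e]; exact hKG (hSK c)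
    refine ⟨g₁, hg₁G, sqUnit S hSS', sqUnit (A - S) hDD, ?_, hsq, ?_, ?_, ?_, ?_⟩
    · apply Units.ext
      rw [val_eq, hA, Units.val_mul]
      show 1 + A = (1 + S) * (1 + (A - S))
      rw [mul_add, mul_one, add_mul, one_mul, hSA]
      abel
    · rintro π ⟨c, hc⟩
      have e : π = sqUnit (c • S) (smul_sq c S hSS') := by
        apply Units.ext
        rw [hc]
        show 1 + c • nn (sqUnit S hSS') = 1 + c • S
        rw [nn_sqUnit]
      rw [e]; exact hSK c
    · rw [nn_sqUnit, nn_sqUnit]; exact hSA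
    · rw [nn_sqUnit, nn_sqUnit]; exact hAS
    · by_cases hD0 : A - S = 0
      · left
        rw [← nn_eq_zero, nn_sqUnit]; exact hD0
      · right
        constructor
        · refine ⟨?_, ⟨?_, ?_⟩, ?_⟩
          · have h1 : sqUnit (A - S) hDD = (sqUnit S hSS')⁻¹ * (g₁ * σ * g₁⁻¹) := by
              apply Units.ext
              rw [Units.val_mul, val_eq (g₁ * σ * g₁⁻¹), hA]
              show 1 + (A - S) = (1 - S) * (1 + A)
              rw [mul_add, mul_one, sub_mul, one_mul, hSA']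
              abel
            rw [h1]
            exact G.mul_mem (G.inv_mem hsq.1) hσ₁.1
          · show nn (sqUnit (A - S) hDD) * nn (sqUnit (A - S) hDD) = 0
            rw [nn_sqUnit]; exact hDD
          · show nn (sqUnit (A - S) hDD) ≠ 0
            rw [nn_sqUnit]; exact hD0
          · rintro π ⟨c, hc⟩
            have h1 : π = (sqUnit (c • S) (smul_sq c S hSS'))⁻¹ *
                sqUnit (c • nn (g₁ * σ * g₁⁻¹)) (smul_sq c _ hσ₁.2.1.1) := by
              apply Units.ext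
              rw [hc, Units.val_mul]
              show 1 + c • nn (sqUnit (A - S) hDD) = (1 - c • S) * (1 + c • nn (g₁ * σ * g₁⁻¹))
              rw [nn_sqUnit, hA, mul_add, mul_one, sub_mul, one_mul, smul_mul_smul_comm, hSA',
                smul_zero, smul_sub]
              abel
            rw [h1]
            exact G.mul_mem (G.inv_mem (hKG (hSK c))) (fam_mem hσ₁ c)
        · have e1 : commutatorRank (sqUnit (A - S) hDD) =
              Module.finrank k (LinearMap.range (A - S)) := by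
            show Module.finrank k (LinearMap.range (nn (sqUnit (A - S) hDD))) = _
            rw [nn_sqUnit]
          have e2 : commutatorRank σ = Module.finrank k (LinearMap.range A) := by
            rw [← rank_conj g₁ σ]
            show Module.finrank k (LinearMap.range (nn (g₁ * σ * g₁⁻¹))) = _
            rw [hA]
          rw [e1, e2]; exact hrk

/-- `⟨Σ⟩` is normalized by `G` -/
lemma Sigma_norm : ∀ g ∈ G, ∀ x ∈ ⨆ A ∈ quadraticRootSubgroups G, A,
    g * x * g⁻¹ ∈ ⨆ A ∈ quadraticRootSubgroups G, A := by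
  intro g hg x hx
  have key : conjBy (⨆ A ∈ quadraticRootSubgroups G, A) g ≤
      ⨆ A ∈ quadraticRootSubgroups G, A := by
    rw [Cfsg.conjBy, Subgroup.map_iSup]
    refine iSup_le (fun B => ?_)
    rw [Subgroup.map_iSup]
    exact iSup_le (fun hB => le_biSup (fun A => A) (conjBy_mem_Sigma hB hg))
  exact key (conj_mem_conjBy hx g)

/-- the centralizer in `G` of a subgroup normalized by `G` is normalized by `G` -/
lemma cent_norm {Kg : Subgroup (LinearMap.GeneralLinearGroup k M)}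
    (hnorm : ∀ g ∈ G, ∀ x ∈ Kg, g * x * g⁻¹ ∈ Kg) :
    ∀ g ∈ G, ∀ x ∈ G ⊓ Subgroup.centralizer (Kg : Set (LinearMap.GeneralLinearGroup k M)),
      g * x * g⁻¹ ∈ G ⊓ Subgroup.centralizer (Kg : Set (LinearMap.GeneralLinearGroup k M)) := by
  intro g hg x hx
  obtain ⟨hxG, hxC⟩ := Subgroup.mem_inf.1 hx
  refine Subgroup.mem_inf.2 ⟨G.mul_mem (G.mul_mem hg hxG) (G.inv_mem hg), ?_⟩
  rw [Subgroup.mem_centralizer_iff] at hxC ⊢
  intro y hy
  have h1 := hxC (g⁻¹ * y * g⁻¹⁻¹) (hnorm g⁻¹ (G.inv_mem hg) y hy)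
  have e1 : y * (g * x * g⁻¹) = g * ((g⁻¹ * y * g⁻¹⁻¹) * x) * g⁻¹ := by group
  have e2 : g * x * g⁻¹ * y = g * (x * (g⁻¹ * y * g⁻¹⁻¹)) * g⁻¹ := by group
  rw [e1, e2, h1]

/-- a join of two subgroups normalized by `G` is normalized by `G` -/
lemma sup_norm {K₁ K₂ : Subgroup (LinearMap.GeneralLinearGroup k M)}
    (h1 : ∀ g ∈ G, ∀ x ∈ K₁, g * x * g⁻¹ ∈ K₁) (h2 : ∀ g ∈ G, ∀ x ∈ K₂, g * x * g⁻¹ ∈ K₂) :
    ∀ g ∈ G, ∀ x ∈ K₁ ⊔ K₂, g * x * g⁻¹ ∈ K₁ ⊔ K₂ := by
  intro g hg x hx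
  have key : conjBy (K₁ ⊔ K₂) g ≤ K₁ ⊔ K₂ := by
    rw [Cfsg.conjBy, Subgroup.map_sup]
    apply sup_le_sup
    · rintro _ ⟨y, hy, rfl⟩
      exact h1 g hg y hy
    · rintro _ ⟨y, hy, rfl⟩
      exact h2 g hg y hy
  exact key (conj_mem_conjBy hx g)

/-- **`G = K C_G(K)`** for every subgroup `K` of `G` normalized by `G` -/
theorem cocentral_gen (h2 : (2 : k) ≠ 0) (h3 : Nat.card k ≠ 3) (hG : IsQuadraticPair G)
    {Kg : Subgroup (LinearMap.GeneralLinearGroup k M)} (hKG : Kg ≤ G)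
    (hnorm : ∀ g ∈ G, ∀ x ∈ Kg, g * x * g⁻¹ ∈ Kg) :
    Kg ⊔ (G ⊓ Subgroup.centralizer (Kg : Set (LinearMap.GeneralLinearGroup k M))) = G := by
  apply le_antisymm (sup_le hKG inf_le_left)
  have hstar := sup_norm hnorm (cent_norm hnorm)
  have main : ∀ n : ℕ, ∀ σ ∈ quadraticElements G, commutatorRank σ = n →
      σ ∈ Kg ⊔ (G ⊓ Subgroup.centralizer (Kg : Set (LinearMap.GeneralLinearGroup k M))) := by
    intro n
    induction n using Nat.strong_induction_on with
    | _ n ih =>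
      intro σ hσ hn
      rcases dichotomy h2 h3 hG hKG hnorm hσ with hc | ⟨g, hg, s, σ', he, hs, hsK, _, _, hσ'⟩
      · apply Subgroup.mem_sup_right
        exact ⟨hσ.1, Subgroup.mem_centralizer_iff.2 (fun x hx => (hc x hx).symm)⟩
      · have hsKg : s ∈ Kg := hsK ⟨1, by rw [one_smul]; abel⟩
        have hσ'm : σ' ∈ Kg ⊔
            (G ⊓ Subgroup.centralizer (Kg : Set (LinearMap.GeneralLinearGroup k M))) := by
          rcases hσ' with rfl | ⟨hq, hlt⟩
          · exact Subgroup.one_mem _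
          · exact ih _ (hn ▸ hlt) σ' hq rfl
        have h1 : g * σ * g⁻¹ ∈ Kg ⊔
            (G ⊓ Subgroup.centralizer (Kg : Set (LinearMap.GeneralLinearGroup k M))) := by
          rw [he]
          exact Subgroup.mul_mem _ (Subgroup.mem_sup_left hsKg) hσ'm
        have e : σ = g⁻¹ * (g * σ * g⁻¹) * g⁻¹⁻¹ := by group
        rw [e]
        exact hstar g⁻¹ (G.inv_mem hg) _ h1
  intro x hx
  have hx' : x ∈ Subgroup.closure (quadraticElements G) := by rw [hG.2]; exact hx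
  exact (Subgroup.closure_le _).2 (fun σ hσ => main _ σ hσ rfl) hx'

/-- **`G = G₀ C_G(G₀)`** -/
theorem cocentral (h2 : (2 : k) ≠ 0) (h3 : Nat.card k ≠ 3) (hG : IsQuadraticPair G) :
    (⨆ A ∈ quadraticRootSubgroups G, A) ⊔ (G ⊓ Subgroup.centralizer
      ((⨆ A ∈ quadraticRootSubgroups G, A : Subgroup (LinearMap.GeneralLinearGroup k M)) :
        Set (LinearMap.GeneralLinearGroup k M))) = G :=
  cocentral_gen h2 h3 hG (iSup₂_le fun A hA => Sigma_le hA) Sigma_norm

end qp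

end Cfsg.Agent.Lib.Helper83.QPDich
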