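import Mathlib
import Cfsg.Prelude.Def_RootSubgroups
import Cfsg.Prelude.Def_CaseTheorems
import Cfsg.Agent.Lib.Helper83.QPParts
import Cfsg.Agent.Lib.Helper83.QPDich

/-!
# Components of a quadratic pair are normal, and every quadratic element lies in a component or
centralizes all of them (helper83)

* `comp_norm`: the subgroup generated by a component is normalized by `G`.
* `comp_gen`: it is generated by the quadratic elements of `G` it contains.
* `comp_faithful`: a nontrivial quadratic `s` in a component group `H` and a nontrivial `c`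
  centralizing `H` never satisfy `(s - 1)(c - 1) = 0`.
* `quad_cases`: every `σ ∈ 𝒬(G)` lies in some component group or centralizes all of them.
-/

set_option autoImplicit false
set_option linter.unusedVariables false
set_option linter.unusedSectionVars false
set_option linter.unusedSimpArgs false
set_option linter.unnecessarySeqFocus false
set_option linter.unreachableTactic false
set_option linter.unusedTactic false
set_option linter.style.haveILetI false

namespace Cfsg.Agent.Lib.Helper83.QPCen

open Cfsg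
open Cfsg.Agent.Lib.Helper83.QPDepth Cfsg.Agent.Lib.Helper83.QPMain
open Cfsg.Agent.Lib.Helper83.QPRoot Cfsg.Agent.Lib.Helper83.QPKey Cfsg.Agent.Lib.Helper83.QPHyp
open Cfsg.Agent.Lib.Helper83.QPPair Cfsg.Agent.Lib.Helper83.RankOne
open Cfsg.Agent.Lib.Helper83.QPComm Cfsg.Agent.Lib.Helper83.QPOpp
open Cfsg.Agent.Lib.Helper83.QPSurj Cfsg.Agent.Lib.Helper83.QPClass2
open Cfsg.Agent.Lib.Helper83.QPTrans Cfsg.Agent.Lib.Helper83.QPSet
open Cfsg.Agent.Lib.Helper83.QPConn Cfsg.Agent.Lib.Helper83.QPCliff
open Cfsg.Agent.Lib.Helper83.QPSimple Cfsg.Agent.Lib.Helper83.QPSplit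
open Cfsg.Agent.Lib.Helper83.QPParts Cfsg.Agent.Lib.Helper83.QPDich
open scoped commutatorElement

universe u v

section grp

/-- quasisimplicity is invariant under isomorphism -/
theorem quasi_equiv {H H' : Type*} [Group H] [Group H'] (e : H ≃* H')
    (h : Cfsg.IsQuasisimple H) : Cfsg.IsQuasisimple H' := by
  obtain ⟨hp, hs⟩ := h
  refine ⟨Group.IsPerfect.ofSurjective (f := e.toMonoidHom) e.surjective, ?_⟩
  have hc : (Subgroup.center H).map e.toMonoidHom = Subgroup.center H' := by
    ext x
    rw [Subgroup.mem_map]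
    constructor
    · rintro ⟨y, hy, rfl⟩
      rw [Subgroup.mem_center_iff] at hy ⊢
      intro g
      obtain ⟨g', rfl⟩ := e.surjective g
      have := congrArg e (hy g')
      simpa using this
    · intro hx
      refine ⟨e.symm x, ?_, by simp⟩
      rw [Subgroup.mem_center_iff] at hx ⊢
      intro g
      apply e.injective
      simp [hx (e g)]
  exact (QuotientGroup.congr _ _ e hc).symm.isSimpleGroup

variable {Γ : Type*} [Group Γ]

/-- a subgroup normalized by `K` is fixed by conjugation with the elements of `K` -/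
lemma conjBy_eq_of_norm {K X : Subgroup Γ} (h : ∀ g ∈ K, ∀ x ∈ X, g * x * g⁻¹ ∈ X) :
    ∀ g ∈ K, conjBy X g = X := by
  intro g hg
  ext x
  rw [mem_conjBy]
  constructor
  · intro hx
    have e : x = g * (g⁻¹ * x * g) * g⁻¹ := by group
    rw [e]; exact h g hg _ hx
  · intro hx
    have := h g⁻¹ (K.inv_mem hg) x hx
    rwa [inv_inv] at this

end grp

section qp
variable {k : Type v} [Field k] {M : Type u} [AddCommGroup M] [Module k M]
  [FiniteDimensional k M]
variable {G : Subgroup (LinearMap.GeneralLinearGroup k M)}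
variable {Δ : Set (Subgroup (LinearMap.GeneralLinearGroup k M))}

/-- commuting with a unit: the `nn` version -/
lemma nn_commute {c x : LinearMap.GeneralLinearGroup k M} (h : c * x = x * c) :
    nn c * (x : Module.End k M) = (x : Module.End k M) * nn c := by
  unfold nn
  rw [sub_mul, mul_sub, one_mul, mul_one, ← Units.val_mul, ← Units.val_mul, h]

/-- **Components are normal in `G`** -/
theorem comp_norm (h2 : (2 : k) ≠ 0) (h3 : Nat.card k ≠ 3) (hG : IsQuadraticPair G)
    (hΔ : IsComp G Δ) : ∀ g ∈ G, ∀ x ∈ ⨆ A ∈ Δ, A, g * x * g⁻¹ ∈ ⨆ A ∈ Δ, A := by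
  have hco := cocentral h2 h3 hG
  have h0 : (⨆ A ∈ quadraticRootSubgroups G, A) ≤
      Subgroup.normalizer ((⨆ A ∈ Δ, A : Subgroup (LinearMap.GeneralLinearGroup k M)) :
        Set (LinearMap.GeneralLinearGroup k M)) := by
    apply iSup₂_le
    intro B hB
    by_cases hBΔ : B ∈ Δ
    · exact (le_biSup (fun A => A) hBΔ).trans Subgroup.le_normalizer
    · refine le_trans ?_ (Subgroup.centralizer_le_normalizer _)
      intro g hg
      rw [Subgroup.mem_centralizer_iff]
      intro x hx
      have hcent : (⨆ A ∈ Δ, A) ≤ Subgroup.centralizer {g} := by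
        apply iSup₂_le
        intro A hA a ha
        have hc := hΔ.comm_of_not_mem h2 h3 hG hA hB hBΔ
        rw [Subgroup.commutator_eq_bot_iff_le_centralizer] at hc
        rw [Subgroup.mem_centralizer_iff]
        intro y hy
        rw [Set.mem_singleton_iff] at hy
        rw [hy]
        exact Subgroup.mem_centralizer_iff.1 (hc ha) g hg
      exact (Subgroup.mem_centralizer_iff.1 (hcent hx) g rfl).symm
  have h1 : (G ⊓ Subgroup.centralizer ((⨆ A ∈ quadraticRootSubgroups G, A :
      Subgroup (LinearMap.GeneralLinearGroup k M)) : Set (LinearMap.GeneralLinearGroup k M))) ≤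
      Subgroup.normalizer ((⨆ A ∈ Δ, A : Subgroup (LinearMap.GeneralLinearGroup k M)) :
        Set (LinearMap.GeneralLinearGroup k M)) := by
    refine le_trans ?_ (Subgroup.centralizer_le_normalizer _)
    refine inf_le_right.trans ?_
    apply Subgroup.centralizer_le
    exact (biSup_mono hΔ.sub : (⨆ A ∈ Δ, A) ≤ ⨆ A ∈ quadraticRootSubgroups G, A)
  have h01 : G ≤ Subgroup.normalizer ((⨆ A ∈ Δ, A :
      Subgroup (LinearMap.GeneralLinearGroup k M)) : Set (LinearMap.GeneralLinearGroup k M)) := by
    rw [← hco]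
    exact sup_le h0 h1
  exact Subgroup.le_normalizer_iff.1 h01

/-- a component group is generated by the quadratic elements of `G` it contains -/
theorem comp_gen (hΔ : IsComp G Δ) :
    Subgroup.closure (quadraticElements G ∩
      ((⨆ A ∈ Δ, A : Subgroup (LinearMap.GeneralLinearGroup k M)) :
        Set (LinearMap.GeneralLinearGroup k M))) = ⨆ A ∈ Δ, A := by
  apply le_antisymm
  · rw [Subgroup.closure_le]
    exact Set.inter_subset_right
  · apply iSup₂_le
    intro A hA
    obtain ⟨σ, hσ, rfl⟩ := hΔ.sub hA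
    unfold sameActionSubgroup
    apply Subgroup.closure_mono
    intro τ hτ
    exact ⟨hτ.1.1, (le_biSup (fun A => A) hA) (Subgroup.subset_closure hτ)⟩

/-- a nontrivial quadratic element of a component group does not annihilate a nontrivial
element centralizing the component group -/
theorem comp_faithful (h2 : (2 : k) ≠ 0) (h3 : Nat.card k ≠ 3) (hG : IsQuadraticPair G)
    (hΔ : IsComp G Δ) {s c : LinearMap.GeneralLinearGroup k M} (hs : s ∈ ⨆ A ∈ Δ, A)
    (hs1 : s ≠ 1) (hss : nn s * nn s = 0) (hc1 : c ≠ 1)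
    (hcomm : ∀ x ∈ ⨆ A ∈ Δ, A, c * x = x * c) (h0 : nn s * nn c = 0) : False := by
  have hnorm := comp_norm h2 h3 hG hΔ
  let F : Subgroup (LinearMap.GeneralLinearGroup k M) :=
    { carrier := {h | h ∈ ⨆ A ∈ Δ, A ∧ nn h * nn c = 0}
      one_mem' := ⟨Subgroup.one_mem _, by rw [nn_one, zero_mul]⟩
      mul_mem' := by
        rintro a b ⟨ha, ha0⟩ ⟨hb, hb0⟩
        refine ⟨Subgroup.mul_mem _ ha hb, ?_⟩
        rw [nn_mul, add_mul, add_mul, ha0, hb0, mul_assoc, hb0, mul_zero, add_zero, add_zero]
      inv_mem' := by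
        rintro a ⟨ha, ha0⟩
        refine ⟨Subgroup.inv_mem _ ha, ?_⟩
        have e : nn a⁻¹ = -(((a⁻¹ : LinearMap.GeneralLinearGroup k M) : Module.End k M) * nn a) := by
          unfold nn
          rw [mul_sub, Units.inv_mul, mul_one]; abel
        rw [e, neg_mul, mul_assoc, ha0, mul_zero, neg_zero] }
  have hFH : F ≤ ⨆ A ∈ Δ, A := fun x hx => hx.1
  have hFnorm : ∀ x ∈ ⨆ A ∈ Δ, A, ∀ n ∈ F, x * n * x⁻¹ ∈ F := by
    rintro x hx n ⟨hn, hn0⟩
    refine ⟨Subgroup.mul_mem _ (Subgroup.mul_mem _ hx hn) (Subgroup.inv_mem _ hx), ?_⟩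
    have hc' := nn_commute (hcomm x⁻¹ (Subgroup.inv_mem _ hx))
    rw [nn_conj, mul_assoc, mul_assoc, ← hc', ← mul_assoc (nn n), hn0, zero_mul, mul_zero]
  have hsF : s ∈ F := ⟨hs, h0⟩
  rcases normal_cases h2 h3 hG hΔ (comp_SS h2 h3 hG hΔ) hFH hFnorm with hcen | ⟨A, hA, hAF⟩
  · -- `s` is central in the component group: a normal unipotent subgroup
    have hUH : Subgroup.zpowers s ≤ ⨆ A ∈ Δ, A := Subgroup.zpowers_le.2 hs
    have hUcen : Subgroup.zpowers s ≤ Subgroup.centralizer
        ((⨆ A ∈ Δ, A : Subgroup (LinearMap.GeneralLinearGroup k M)) :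
          Set (LinearMap.GeneralLinearGroup k M)) := by
      apply Subgroup.zpowers_le.2
      rw [Subgroup.mem_centralizer_iff]
      intro h hh
      exact (hcen s hsF h hh).symm
    have hUfam : Subgroup.zpowers s ≤ famSub (nn s) hss :=
      Subgroup.zpowers_le.2 ⟨1, by rw [one_smul]; exact val_eq s⟩
    have hU : IsUnipotentOn (Subgroup.zpowers s) := unip_mono hUfam (unip_famSub _ _)
    have hbot : Subgroup.zpowers s = ⊥ := by
      apply unip_normal_eq_bot (comp_SS h2 h3 hG hΔ) hUH ?_ hU
      intro n hn u hu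
      have := Subgroup.mem_centralizer_iff.1 (hUcen hu) n hn
      rw [this, mul_inv_cancel_right]
      exact hu
    apply hs1
    have : s ∈ Subgroup.zpowers s := Subgroup.mem_zpowers s
    rw [hbot, Subgroup.mem_bot] at this
    exact this
  · -- the whole component group acts trivially on the range of `c - 1`
    have hall : (⨆ A ∈ Δ, A) ≤ F := by
      apply iSup₂_le
      intro B hB x hx
      obtain ⟨g, hg, rfl⟩ := hΔ.conj_class hA hB
      rw [mem_conjBy] at hx
      have e : x = g * (g⁻¹ * x * g) * g⁻¹ := by group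
      rw [e]
      exact hFnorm g hg _ (hAF hx)
    have hinv : ∀ g ∈ G, ∀ w ∈ fixedSubmodule (⨆ A ∈ Δ, A),
        (g : M →ₗ[k] M) w ∈ fixedSubmodule (⨆ A ∈ Δ, A) := by
      intro g hg w hw
      rw [mem_fixed] at hw ⊢
      intro u hu
      have h1 := hw (g⁻¹ * u * g⁻¹⁻¹) (hnorm g⁻¹ (G.inv_mem hg) u hu)
      have e : u = g * (g⁻¹ * u * g⁻¹⁻¹) * g⁻¹ := by group
      rw [e, Units.val_mul, Units.val_mul, Module.End.mul_apply, Module.End.mul_apply,
        unit_inv_apply', h1]
    have hne : fixedSubmodule (⨆ A ∈ Δ, A) ≠ ⊥ := by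
      have hc0 : nn c ≠ 0 := fun h => hc1 (nn_eq_zero.1 h)
      obtain ⟨m, hm⟩ : ∃ m, nn c m ≠ 0 := by
        by_contra hcon
        push Not at hcon
        exact hc0 (LinearMap.ext hcon)
      intro hbot
      apply hm
      have hmem : nn c m ∈ fixedSubmodule (⨆ A ∈ Δ, A) := by
        rw [mem_fixed]
        intro u hu
        have h1 : (nn u * nn c) m = 0 := by rw [(hall hu).2]; rfl
        rw [val_eq u]
        show nn c m + nn u (nn c m) = nn c m
        have h1' : nn u (nn c m) = 0 := h1
        rw [h1', add_zero]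
      rw [hbot] at hmem
      exact (Submodule.mem_bot k).1 hmem
    have htop : fixedSubmodule (⨆ A ∈ Δ, A) = ⊤ := (hG.1.2 _ hinv).resolve_left hne
    apply hs1
    apply Units.ext
    apply LinearMap.ext
    intro m
    have hm : m ∈ fixedSubmodule (⨆ A ∈ Δ, A) := by rw [htop]; trivial
    exact (mem_fixed.1 hm) s hs

/-- **Every quadratic element lies in a component group or centralizes all of them** -/
theorem quad_cases (h2 : (2 : k) ≠ 0) (h3 : Nat.card k ≠ 3) (hG : IsQuadraticPair G)
    {r : ℕ} {part : Fin r → Set (Subgroup (LinearMap.GeneralLinearGroup k M))}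
    (hdisj : ∀ i j, i ≠ j → Disjoint (part i) (part j)) (hcomp : ∀ i, IsComp G (part i)) :
    ∀ σ ∈ quadraticElements G, (∃ i, σ ∈ ⨆ A ∈ part i, A) ∨
      (∀ i, ∀ x ∈ ⨆ A ∈ part i, A, σ * x = x * σ) := by
  have main : ∀ n : ℕ, ∀ σ ∈ quadraticElements G, commutatorRank σ = n →
      (∃ i, σ ∈ ⨆ A ∈ part i, A) ∨ (∀ i, ∀ x ∈ ⨆ A ∈ part i, A, σ * x = x * σ) := by
    intro n
    induction n using Nat.strong_induction_on with
    | _ n ih =>
      intro σ hσ hn
      by_cases hall : ∀ i, ∀ x ∈ ⨆ A ∈ part i, A, σ * x = x * σ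
      · right; exact hall
      · left
        push Not at hall
        obtain ⟨i, hni⟩ := hall
        have hnorm := comp_norm h2 h3 hG (hcomp i)
        rcases dichotomy h2 h3 hG (hcomp i).le hnorm hσ with
          hc | ⟨g, hg, s, σ', he, hs, hsK, hsσ', _, hσ'⟩
        · exfalso
          obtain ⟨x, hx, hne⟩ := hni
          exact hne (hc x hx)
        · have hsH : s ∈ ⨆ A ∈ part i, A := hsK ⟨1, by rw [one_smul]; abel⟩
          have hs1 : s ≠ 1 := fun h => hs.2.1.2 (by rw [h]; simp)
          have hss : nn s * nn s = 0 := hs.2.1.1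
          have back : g * σ * g⁻¹ ∈ ⨆ A ∈ part i, A → σ ∈ ⨆ A ∈ part i, A := by
            intro h
            have e : σ = g⁻¹ * (g * σ * g⁻¹) * g⁻¹⁻¹ := by group
            rw [e]
            exact hnorm g⁻¹ (G.inv_mem hg) _ h
          rcases hσ' with rfl | ⟨hq, hlt⟩
          · exact ⟨i, back (by rw [he, mul_one]; exact hsH)⟩
          · have hσ'1 : σ' ≠ 1 := fun h => hq.2.1.2 (by rw [h]; simp)
            rcases ih _ (hn ▸ hlt) σ' hq rfl with ⟨j, hj⟩ | hcen
            · by_cases hij : j = i
              · subst hij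
                exact ⟨j, back (by rw [he]; exact Subgroup.mul_mem _ hsH hj)⟩
              · exfalso
                have hcomm : ∀ x ∈ ⨆ A ∈ part i, A, σ' * x = x * σ' := by
                  have hb := comp_comm h2 h3 hG (hcomp j) (hcomp i) (hdisj j i hij)
                  rw [Subgroup.commutator_eq_bot_iff_le_centralizer] at hb
                  intro x hx
                  exact (Subgroup.mem_centralizer_iff.1 (hb hj) x hx).symm
                exact comp_faithful h2 h3 hG (hcomp i) hsH hs1 hss hσ'1 hcomm hsσ'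
            · exfalso
              exact comp_faithful h2 h3 hG (hcomp i) hsH hs1 hss hσ'1 (hcen i) hsσ'
  intro σ hσ
  exact main _ σ hσ rfl

end qp

end Cfsg.Agent.Lib.Helper83.QPCen
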