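import Mathlib
import Cfsg.Prelude.Def_RootSubgroups
import Cfsg.Prelude.Def_CaseTheorems
import Cfsg.Agent.Lib.Helper83.QPParts
import Cfsg.Agent.Lib.Helper83.QPDich
import Cfsg.Agent.Lib.Helper83.QPCen

/-!
# Restricting the "central part" of a quadratic pair to a simple submodule (helper83)

`(G, M)` a quadratic pair, `G₀` a subgroup, `cq G G₀` the quadratic elements of `G` centralizing
`G₀`, `G1 G G₀` the subgroup they generate.  If `G ≤ G₀ ⊔ G1` and `W ≠ 0` is a `G1`-invariant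
subspace, then `G1` acts faithfully on `W` (`res_inj`), for simple `W` the image is a quadratic
pair on `W` (`res_qp`), and a decomposition of the image into quasisimple normal subgroups
pulls back to `G1` (`pullback`).
-/

set_option autoImplicit false
set_option linter.unusedVariables false
set_option linter.unusedSectionVars false
set_option linter.unusedSimpArgs false
set_option linter.unnecessarySeqFocus false
set_option linter.unreachableTactic false
set_option linter.unusedTactic false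
set_option linter.style.haveILetI false

namespace Cfsg.Agent.Lib.Helper83.QPRes

open Cfsg
open Cfsg.Agent.Lib.Helper83.QPDepth Cfsg.Agent.Lib.Helper83.QPMain
open Cfsg.Agent.Lib.Helper83.QPRoot Cfsg.Agent.Lib.Helper83.RankOne
open Cfsg.Agent.Lib.Helper83.QPCliff
open Cfsg.Agent.Lib.Helper83.QPDich Cfsg.Agent.Lib.Helper83.QPCen
open scoped commutatorElement

universe u v

section res
variable {k : Type*} [Field k] {M : Type*} [AddCommGroup M] [Module k M]

/-- restriction of a group of linear maps to an invariant subspace -/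
def resHom (K : Subgroup (LinearMap.GeneralLinearGroup k M)) (W : Submodule k M)
    (hW : ∀ g ∈ K, ∀ w ∈ W, (g : M →ₗ[k] M) w ∈ W) :
    ↥K →* LinearMap.GeneralLinearGroup k ↥W where
  toFun g :=
    { val := ((g : LinearMap.GeneralLinearGroup k M) : M →ₗ[k] M).restrict
        (fun w hw => hW g g.2 w hw)
      inv := (((g⁻¹ : ↥K) : LinearMap.GeneralLinearGroup k M) : M →ₗ[k] M).restrict
        (fun w hw => hW _ (g⁻¹).2 w hw)
      val_inv := by
        apply LinearMap.ext; intro w; apply Subtype.ext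
        show ((g : LinearMap.GeneralLinearGroup k M) : M →ₗ[k] M)
          ((((g⁻¹ : ↥K) : LinearMap.GeneralLinearGroup k M) : M →ₗ[k] M) (w : M)) = (w : M)
        rw [Subgroup.coe_inv]
        exact unit_inv_apply _ _
      inv_val := by
        apply LinearMap.ext; intro w; apply Subtype.ext
        show (((g⁻¹ : ↥K) : LinearMap.GeneralLinearGroup k M) : M →ₗ[k] M)
          (((g : LinearMap.GeneralLinearGroup k M) : M →ₗ[k] M) (w : M)) = (w : M)
        rw [Subgroup.coe_inv]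
        exact unit_inv_apply' _ _ }
  map_one' := by
    apply Units.ext; apply LinearMap.ext; intro w; apply Subtype.ext; rfl
  map_mul' := by
    intro a b
    apply Units.ext; apply LinearMap.ext; intro w; apply Subtype.ext; rfl

variable (K : Subgroup (LinearMap.GeneralLinearGroup k M)) (W : Submodule k M)
  (hW : ∀ g ∈ K, ∀ w ∈ W, (g : M →ₗ[k] M) w ∈ W)

lemma resHom_apply (g : ↥K) (w : ↥W) :
    ((((resHom K W hW g : LinearMap.GeneralLinearGroup k ↥W) : ↥W →ₗ[k] ↥W) w : ↥W) : M) =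
      ((g : LinearMap.GeneralLinearGroup k M) : M →ₗ[k] M) (w : M) := rfl

lemma res_nn (g : ↥K) (w : ↥W) :
    ((nn (resHom K W hW g) w : ↥W) : M) = nn (g : LinearMap.GeneralLinearGroup k M) (w : M) := by
  unfold nn
  rw [LinearMap.sub_apply, LinearMap.sub_apply, Submodule.coe_sub]
  rfl

end res

section qp
variable {k : Type v} [Field k] {M : Type u} [AddCommGroup M] [Module k M]
  [FiniteDimensional k M]

/-- the quadratic elements of `G` centralizing `G₀` -/
def cq (G G₀ : Subgroup (LinearMap.GeneralLinearGroup k M)) :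
    Set (LinearMap.GeneralLinearGroup k M) :=
  {σ | σ ∈ quadraticElements G ∧ ∀ y ∈ G₀, σ * y = y * σ}

/-- the subgroup generated by the quadratic elements centralizing `G₀` -/
def G1 (G G₀ : Subgroup (LinearMap.GeneralLinearGroup k M)) :
    Subgroup (LinearMap.GeneralLinearGroup k M) := Subgroup.closure (cq G G₀)

variable {G G₀ : Subgroup (LinearMap.GeneralLinearGroup k M)}

lemma G1_le : G1 G G₀ ≤ G := (Subgroup.closure_le _).2 fun σ hσ => hσ.1.1

lemma G1_comm : ∀ x ∈ G1 G G₀, ∀ y ∈ G₀, x * y = y * x := by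
  have h : G1 G G₀ ≤ Subgroup.centralizer (G₀ : Set (LinearMap.GeneralLinearGroup k M)) :=
    (Subgroup.closure_le _).2
      (fun σ hσ => Subgroup.mem_centralizer_iff.2 (fun y hy => (hσ.2 y hy).symm))
  intro x hx y hy
  exact (Subgroup.mem_centralizer_iff.1 (h hx) y hy).symm

lemma fam_cq {σ : LinearMap.GeneralLinearGroup k M} (hσ : σ ∈ cq G G₀) (c : k) :
    sqUnit (c • nn σ) (smul_sq c _ hσ.1.2.1.1) ∈ G1 G G₀ := by
  by_cases hc : c = 0
  · have : sqUnit (c • nn σ) (smul_sq c _ hσ.1.2.1.1) = 1 := by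
      apply Units.ext
      show 1 + c • nn σ = 1
      rw [hc, zero_smul, add_zero]
    rw [this]; exact Subgroup.one_mem _
  · apply Subgroup.subset_closure
    refine ⟨⟨hσ.1.2.2 ⟨c, rfl⟩, ⟨?_, ?_⟩, ?_⟩, ?_⟩
    · show nn (sqUnit (c • nn σ) _) * nn (sqUnit (c • nn σ) _) = 0
      rw [nn_sqUnit]; exact smul_sq c _ hσ.1.2.1.1
    · show nn (sqUnit (c • nn σ) _) ≠ 0
      rw [nn_sqUnit]
      intro h
      rcases smul_eq_zero.1 h with h | h
      · exact hc h
      · exact hσ.1.2.1.2 h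
    · rintro π ⟨c', hc'⟩
      apply hσ.1.2.2
      refine ⟨c' * c, ?_⟩
      rw [hc']
      show 1 + c' • nn (sqUnit (c • nn σ) _) = 1 + (c' * c) • nn σ
      rw [nn_sqUnit, smul_smul]
    · intro y hy
      apply Units.ext
      rw [Units.val_mul, Units.val_mul]
      show (1 + c • nn σ) * (y : Module.End k M) = (y : Module.End k M) * (1 + c • nn σ)
      rw [add_mul, mul_add, one_mul, mul_one, smul_mul_assoc, mul_smul_comm,
        nn_commute (hσ.2 y hy)]

variable {W : Submodule k M}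

/-- an endomorphism commuting with `G₀` and vanishing on `W` is zero -/
theorem vanish (hG : IsQuadraticPair G) (h01 : G ≤ G₀ ⊔ G1 G G₀)
    (hW : ∀ g ∈ G1 G G₀, ∀ w ∈ W, (g : M →ₗ[k] M) w ∈ W) (hW0 : W ≠ ⊥)
    (X : Module.End k M) (hX : ∀ y ∈ G₀, X * (y : Module.End k M) = (y : Module.End k M) * X)
    (hXW : ∀ w ∈ W, X w = 0) : X = 0 := by
  let V : Submodule k M :=
    ⨆ g : G₀, W.map ((g : LinearMap.GeneralLinearGroup k M) : M →ₗ[k] M)
  have hmemV : ∀ (g : LinearMap.GeneralLinearGroup k M), g ∈ G₀ → ∀ w ∈ W,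
      (g : M →ₗ[k] M) w ∈ V := by
    intro g hg w hw
    exact Submodule.mem_iSup_of_mem (⟨g, hg⟩ : G₀) ⟨w, hw, rfl⟩
  have hWV : W ≤ V := by
    intro w hw
    have := hmemV 1 (Subgroup.one_mem _) w hw
    exact this
  have hV0 : ∀ y ∈ G₀, ∀ v ∈ V, (y : M →ₗ[k] M) v ∈ V := by
    intro y hy v hv
    have hle : V ≤ V.comap (y : M →ₗ[k] M) := by
      apply iSup_le
      intro g
      rintro _ ⟨w, hw, rfl⟩
      rw [Submodule.mem_comap]
      have h1 := hmemV (y * g) (Subgroup.mul_mem _ hy g.2) w hw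
      rw [Units.val_mul] at h1
      exact h1
    exact hle hv
  have hV1 : ∀ x ∈ G1 G G₀, ∀ v ∈ V, (x : M →ₗ[k] M) v ∈ V := by
    intro x hx v hv
    have hle : V ≤ V.comap (x : M →ₗ[k] M) := by
      apply iSup_le
      intro g
      rintro _ ⟨w, hw, rfl⟩
      rw [Submodule.mem_comap]
      have hc := G1_comm x hx g g.2
      have e : (x : M →ₗ[k] M) (((g : LinearMap.GeneralLinearGroup k M) : M →ₗ[k] M) w) =
          ((g : LinearMap.GeneralLinearGroup k M) : M →ₗ[k] M) ((x : M →ₗ[k] M) w) := by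
        rw [← Module.End.mul_apply, ← Units.val_mul, hc, Units.val_mul, Module.End.mul_apply]
      rw [e]
      exact hmemV g g.2 _ (hW x hx w hw)
    exact hle hv
  have hVG : ∀ g ∈ G, ∀ v ∈ V, (g : M →ₗ[k] M) v ∈ V := by
    let St : Subgroup (LinearMap.GeneralLinearGroup k M) :=
      { carrier := {g | (∀ v ∈ V, (g : M →ₗ[k] M) v ∈ V) ∧
          (∀ v ∈ V, ((g⁻¹ : LinearMap.GeneralLinearGroup k M) : M →ₗ[k] M) v ∈ V)}
        one_mem' := ⟨fun v hv => hv, fun v hv => by rw [inv_one]; exact hv⟩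
        mul_mem' := by
          rintro a b ⟨ha1, ha2⟩ ⟨hb1, hb2⟩
          refine ⟨fun v hv => ?_, fun v hv => ?_⟩
          · rw [Units.val_mul, Module.End.mul_apply]
            exact ha1 _ (hb1 v hv)
          · rw [mul_inv_rev, Units.val_mul, Module.End.mul_apply]
            exact hb2 _ (ha2 v hv)
        inv_mem' := by
          rintro a ⟨ha1, ha2⟩
          exact ⟨ha2, by rw [inv_inv]; exact ha1⟩ }
    have h0 : G₀ ≤ St := fun y hy => ⟨hV0 y hy, hV0 y⁻¹ (Subgroup.inv_mem _ hy)⟩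
    have h1 : G1 G G₀ ≤ St := fun x hx => ⟨hV1 x hx, hV1 x⁻¹ (Subgroup.inv_mem _ hx)⟩
    intro g hg
    exact ((sup_le h0 h1) (h01 hg)).1
  have hVtop : V = ⊤ := by
    refine (hG.1.2 V hVG).resolve_left (fun h => hW0 ?_)
    rw [← le_bot_iff, ← h]; exact hWV
  apply LinearMap.ext
  intro m
  have hm : m ∈ V := by rw [hVtop]; trivial
  have hker : V ≤ LinearMap.ker X := by
    apply iSup_le
    intro g
    rintro _ ⟨w, hw, rfl⟩
    rw [LinearMap.mem_ker, ← Module.End.mul_apply, hX g g.2, Module.End.mul_apply, hXW w hw,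
      map_zero]
  exact hker hm

/-- `G1` acts faithfully on `W` -/
theorem res_inj (hG : IsQuadraticPair G) (h01 : G ≤ G₀ ⊔ G1 G G₀)
    (hW : ∀ g ∈ G1 G G₀, ∀ w ∈ W, (g : M →ₗ[k] M) w ∈ W) (hW0 : W ≠ ⊥) :
    Function.Injective (resHom (G1 G G₀) W hW) := by
  rw [injective_iff_map_eq_one]
  intro x hx
  have h0 : nn (x : LinearMap.GeneralLinearGroup k M) = 0 := by
    apply vanish hG h01 hW hW0
    · intro y hy
      exact nn_commute (G1_comm x x.2 y hy)
    · intro w hw
      have h1 := res_nn (G1 G G₀) W hW x ⟨w, hw⟩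
      rw [hx, nn_one] at h1
      exact h1.symm
  rw [nn_eq_zero] at h0
  exact Subtype.ext h0

/-- the restriction of a quadratic element centralizing `G₀` is quadratic for the image -/
theorem res_quad (hG : IsQuadraticPair G) (h01 : G ≤ G₀ ⊔ G1 G G₀)
    (hW : ∀ g ∈ G1 G G₀, ∀ w ∈ W, (g : M →ₗ[k] M) w ∈ W) (hW0 : W ≠ ⊥)
    {σ : LinearMap.GeneralLinearGroup k M} (hσ : σ ∈ cq G G₀) :
    resHom (G1 G G₀) W hW ⟨σ, Subgroup.subset_closure hσ⟩ ∈
      quadraticElements (resHom (G1 G G₀) W hW).range := by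
  have hinj := res_inj hG h01 hW hW0
  refine ⟨⟨_, rfl⟩, ⟨?_, ?_⟩, ?_⟩
  · show nn (resHom (G1 G G₀) W hW ⟨σ, Subgroup.subset_closure hσ⟩) *
      nn (resHom (G1 G G₀) W hW ⟨σ, Subgroup.subset_closure hσ⟩) = 0
    apply LinearMap.ext; intro w; apply Subtype.ext
    rw [Module.End.mul_apply, res_nn, res_nn]
    have h := hσ.1.2.1.1
    exact LinearMap.congr_fun h (w : M)
  · show nn (resHom (G1 G G₀) W hW ⟨σ, Subgroup.subset_closure hσ⟩) ≠ 0
    rw [Ne, nn_eq_zero]
    intro h
    have h1 : (⟨σ, Subgroup.subset_closure hσ⟩ : ↥(G1 G G₀)) = 1 := hinj (by rw [h, map_one])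
    apply hσ.1.2.1.2
    show nn σ = 0
    rw [nn_eq_zero]
    exact congrArg Subtype.val h1
  · rintro π ⟨c, hc⟩
    refine ⟨⟨sqUnit (c • nn σ) (smul_sq c _ hσ.1.2.1.1), fam_cq hσ c⟩, ?_⟩
    apply Units.ext
    rw [hc]
    apply LinearMap.ext; intro w; apply Subtype.ext
    rw [resHom_apply]
    show (1 + c • nn σ) (w : M) = _
    simp only [LinearMap.add_apply, Module.End.one_apply, LinearMap.smul_apply,
      LinearMap.sub_apply, Submodule.coe_add, Submodule.coe_smul, Submodule.coe_sub]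
    rw [resHom_apply]
    rfl

/-- the image is irreducible on a simple submodule -/
theorem res_irred (hW : ∀ g ∈ G1 G G₀, ∀ w ∈ W, (g : M →ₗ[k] M) w ∈ W)
    (hS : Simp (G1 G G₀) W) : IsIrreducibleFor (resHom (G1 G G₀) W hW).range := by
  obtain ⟨hinv, hne, hmin⟩ := hS
  constructor
  · obtain ⟨w, hw, hw0⟩ := (Submodule.ne_bot_iff W).1 hne
    exact ⟨⟨w, hw⟩, fun h => hw0 (congrArg Subtype.val h)⟩
  · intro W' hW'
    have h1 := hmin (W'.map W.subtype) (by rintro _ ⟨w, _, rfl⟩; exact w.2) (by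
      rintro g hg _ ⟨w, hw, rfl⟩
      exact ⟨((resHom (G1 G G₀) W hW ⟨g, hg⟩ : LinearMap.GeneralLinearGroup k ↥W) :
        ↥W →ₗ[k] ↥W) w, hW' _ ⟨_, rfl⟩ w hw, rfl⟩)
    rcases h1 with h | h
    · left
      rw [eq_bot_iff]
      intro w hw
      have : (w : M) ∈ W'.map W.subtype := ⟨w, hw, rfl⟩
      rw [h] at this
      rw [Submodule.mem_bot]
      exact Subtype.ext ((Submodule.mem_bot k).1 this)
    · right
      rw [eq_top_iff]
      intro w _
      have : (w : M) ∈ W'.map W.subtype := by rw [h]; exact w.2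
      obtain ⟨w', hw', he⟩ := this
      have : w' = w := Subtype.ext he
      rw [← this]; exact hw'

/-- the image is generated by its quadratic elements -/
theorem res_gen (hG : IsQuadraticPair G) (h01 : G ≤ G₀ ⊔ G1 G G₀)
    (hW : ∀ g ∈ G1 G G₀, ∀ w ∈ W, (g : M →ₗ[k] M) w ∈ W) (hW0 : W ≠ ⊥) :
    Subgroup.closure (quadraticElements (resHom (G1 G G₀) W hW).range) =
      (resHom (G1 G G₀) W hW).range := by
  apply le_antisymm
  · rw [Subgroup.closure_le]
    intro x hx
    exact hx.1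
  · rintro _ ⟨y, rfl⟩
    have htop : Subgroup.closure ((Subtype.val : ↥(G1 G G₀) → LinearMap.GeneralLinearGroup k M) ⁻¹'
        (cq G G₀)) = ⊤ := Subgroup.closure_closure_coe_preimage
    have hy : y ∈ Subgroup.closure
        ((Subtype.val : ↥(G1 G G₀) → LinearMap.GeneralLinearGroup k M) ⁻¹' (cq G G₀)) := by
      rw [htop]; trivial
    have h1 : resHom (G1 G G₀) W hW y ∈ (Subgroup.closure
        ((Subtype.val : ↥(G1 G G₀) → LinearMap.GeneralLinearGroup k M) ⁻¹' (cq G G₀))).map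
        (resHom (G1 G G₀) W hW) := ⟨y, hy, rfl⟩
    rw [MonoidHom.map_closure] at h1
    refine (Subgroup.closure_mono ?_) h1
    rintro _ ⟨z, hz, rfl⟩
    exact res_quad hG h01 hW hW0 hz

/-- the image on a simple submodule is a quadratic pair -/
theorem res_qp (hG : IsQuadraticPair G) (h01 : G ≤ G₀ ⊔ G1 G G₀)
    (hW : ∀ g ∈ G1 G G₀, ∀ w ∈ W, (g : M →ₗ[k] M) w ∈ W) (hS : Simp (G1 G G₀) W) :
    IsQuadraticPair (resHom (G1 G G₀) W hW).range :=
  ⟨res_irred hW hS, res_gen hG h01 hW hS.2.1⟩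

/-- an element of `G1` whose restriction is quadratic for the image is quadratic for `G` -/
theorem quad_lift (hG : IsQuadraticPair G) (h01 : G ≤ G₀ ⊔ G1 G G₀)
    (hW : ∀ g ∈ G1 G G₀, ∀ w ∈ W, (g : M →ₗ[k] M) w ∈ W) (hW0 : W ≠ ⊥)
    (y : ↥(G1 G G₀))
    (hy : resHom (G1 G G₀) W hW y ∈ quadraticElements (resHom (G1 G G₀) W hW).range) :
    (y : LinearMap.GeneralLinearGroup k M) ∈ cq G G₀ := by
  have hinj := res_inj hG h01 hW hW0
  have hq : nn (resHom (G1 G G₀) W hW y) * nn (resHom (G1 G G₀) W hW y) = 0 := hy.2.1.1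
  have hyy : nn (y : LinearMap.GeneralLinearGroup k M) *
      nn (y : LinearMap.GeneralLinearGroup k M) = 0 := by
    apply vanish hG h01 hW hW0
    · intro g hg
      have hc := nn_commute (G1_comm y y.2 g hg)
      rw [mul_assoc, hc, ← mul_assoc, hc, mul_assoc]
    · intro w hw
      have h2 := congrArg Subtype.val (LinearMap.congr_fun hq ⟨w, hw⟩)
      rw [Module.End.mul_apply, res_nn, res_nn] at h2
      exact h2
  have hy0 : nn (y : LinearMap.GeneralLinearGroup k M) ≠ 0 := by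
    intro h
    rw [nn_eq_zero] at h
    apply hy.2.1.2
    have : y = 1 := Subtype.ext h
    rw [this, map_one]; simp
  refine ⟨⟨G1_le y.2, ⟨hyy, hy0⟩, ?_⟩, fun g hg => G1_comm y y.2 g hg⟩
  rintro π ⟨c, hc⟩
  have hfam : sqUnit (c • nn (resHom (G1 G G₀) W hW y)) (smul_sq c _ hq) ∈
      (resHom (G1 G G₀) W hW).range := hy.2.2 ⟨c, rfl⟩
  obtain ⟨z, hz⟩ := hfam
  have hzy : nn (z : LinearMap.GeneralLinearGroup k M) -
      c • nn (y : LinearMap.GeneralLinearGroup k M) = 0 := by
    apply vanish hG h01 hW hW0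
    · intro g hg
      rw [sub_mul, mul_sub, smul_mul_assoc, mul_smul_comm, nn_commute (G1_comm z z.2 g hg),
        nn_commute (G1_comm y y.2 g hg)]
    · intro w hw
      have h2 : nn (resHom (G1 G G₀) W hW z) = c • nn (resHom (G1 G G₀) W hW y) := by
        rw [hz, nn_sqUnit]
      have h3 := congrArg Subtype.val (LinearMap.congr_fun h2 ⟨w, hw⟩)
      rw [res_nn] at h3
      rw [LinearMap.sub_apply, h3, LinearMap.smul_apply, Submodule.coe_smul, res_nn,
        LinearMap.smul_apply, sub_self]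
  have : π = z := by
    apply Units.ext
    rw [hc, val_eq (z : LinearMap.GeneralLinearGroup k M), sub_eq_zero.1 hzy]
    rfl
  rw [this]
  exact G1_le z.2

/-- **Pulling back a decomposition of the image** -/
theorem pullback (hG : IsQuadraticPair G) (h01 : G ≤ G₀ ⊔ G1 G G₀)
    (hW : ∀ g ∈ G1 G G₀, ∀ w ∈ W, (g : M →ₗ[k] M) w ∈ W) (hW0 : W ≠ ⊥)
    {s' : ℕ} (G' : Fin s' → Subgroup (LinearMap.GeneralLinearGroup k ↥W))
    (hd1 : ∀ j, G' j ≤ (resHom (G1 G G₀) W hW).range ∧
      ∀ g ∈ (resHom (G1 G G₀) W hW).range, conjBy (G' j) g = G' j)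
    (hd2 : ∀ i j, i ≠ j → ⁅G' i, G' j⁆ = ⊥)
    (hd3 : (⨆ j, G' j) = (resHom (G1 G G₀) W hW).range)
    (hd4 : ∀ j, IsQuasisimple ↥(G' j) ∧
      Subgroup.closure (quadraticElements (resHom (G1 G G₀) W hW).range ∩
        (G' j : Set (LinearMap.GeneralLinearGroup k ↥W))) = G' j)
    (hd5 : quadraticElements (resHom (G1 G G₀) W hW).range ⊆
      ⋃ j, (G' j : Set (LinearMap.GeneralLinearGroup k ↥W))) :
    ∃ Gj : Fin s' → Subgroup (LinearMap.GeneralLinearGroup k M),
      (∀ j, Gj j ≤ G1 G G₀) ∧ (∀ j, ∀ g ∈ G, conjBy (Gj j) g = Gj j) ∧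
      (∀ i j, i ≠ j → ⁅Gj i, Gj j⁆ = ⊥) ∧ (⨆ j, Gj j) = G1 G G₀ ∧
      (∀ j, IsQuasisimple ↥(Gj j) ∧
        Subgroup.closure (quadraticElements G ∩
          (Gj j : Set (LinearMap.GeneralLinearGroup k M))) = Gj j) ∧
      cq G G₀ ⊆ ⋃ j, (Gj j : Set (LinearMap.GeneralLinearGroup k M)) := by
  have hinj := res_inj hG h01 hW hW0
  refine ⟨fun j => ((G' j).comap (resHom (G1 G G₀) W hW)).map (G1 G G₀).subtype,
    fun j => Subgroup.map_subtype_le _, ?_, ?_, ?_, ?_, ?_⟩
  · intro j
    apply conjBy_eq_of_norm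
    have hN : G ≤ Subgroup.normalizer
        ((((G' j).comap (resHom (G1 G G₀) W hW)).map (G1 G G₀).subtype :
          Subgroup (LinearMap.GeneralLinearGroup k M)) :
          Set (LinearMap.GeneralLinearGroup k M)) := by
      refine h01.trans (sup_le ?_ ?_)
      · refine le_trans ?_ (Subgroup.centralizer_le_normalizer _)
        intro g hg
        rw [Subgroup.mem_centralizer_iff]
        intro x hx
        exact G1_comm x (Subgroup.map_subtype_le _ hx) g hg
      · rw [Subgroup.le_normalizer_iff]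
        rintro g hg _ ⟨y, hy, rfl⟩
        refine ⟨⟨g, hg⟩ * y * ⟨g, hg⟩⁻¹, ?_, rfl⟩
        show resHom (G1 G G₀) W hW (⟨g, hg⟩ * y * ⟨g, hg⟩⁻¹) ∈ G' j
        rw [map_mul, map_mul, map_inv]
        have h1 := (hd1 j).2 (resHom (G1 G G₀) W hW ⟨g, hg⟩) ⟨_, rfl⟩
        have h2 := conj_mem_conjBy (A := G' j) hy (resHom (G1 G G₀) W hW ⟨g, hg⟩)
        rw [h1] at h2
        exact h2
    exact Subgroup.le_normalizer_iff.1 hN
  · intro i j hij
    rw [Subgroup.commutator_eq_bot_iff_le_centralizer]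
    rintro _ ⟨y, hy, rfl⟩
    rw [Subgroup.mem_centralizer_iff]
    rintro _ ⟨z, hz, rfl⟩
    have hb := hd2 i j hij
    rw [Subgroup.commutator_eq_bot_iff_le_centralizer] at hb
    have h1 := Subgroup.mem_centralizer_iff.1 (hb hy) (resHom (G1 G G₀) W hW z) hz
    have h2 : z * y = y * z := hinj (by rw [map_mul, map_mul, h1])
    exact congrArg Subtype.val h2
  · apply le_antisymm (iSup_le fun j => Subgroup.map_subtype_le _)
    intro x hx
    have hS' : (⨆ j, G' j) ≤ ((⨆ j, ((G' j).comap (resHom (G1 G G₀) W hW)).map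
        (G1 G G₀).subtype).subgroupOf (G1 G G₀)).map (resHom (G1 G G₀) W hW) := by
      apply iSup_le
      intro j z hz
      obtain ⟨y, rfl⟩ := (hd1 j).1 hz
      refine ⟨y, Subgroup.mem_subgroupOf.2 ?_, rfl⟩
      exact (le_iSup (fun j => ((G' j).comap (resHom (G1 G G₀) W hW)).map
        (G1 G G₀).subtype) j) ⟨y, hz, rfl⟩
    have h1 : resHom (G1 G G₀) W hW ⟨x, hx⟩ ∈ ⨆ j, G' j := by rw [hd3]; exact ⟨_, rfl⟩
    obtain ⟨y, hy, he⟩ := hS' h1
    have : y = ⟨x, hx⟩ := hinj he
    rw [this] at hy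
    exact Subgroup.mem_subgroupOf.1 hy
  · intro j
    constructor
    · have hle : G' j ≤ (resHom (G1 G G₀) W hW).range := (hd1 j).1
      have e1 := Subgroup.equivMapOfInjective ((G' j).comap (resHom (G1 G G₀) W hW))
        (G1 G G₀).subtype (Subgroup.subtype_injective _)
      have e2 := Subgroup.equivMapOfInjective ((G' j).comap (resHom (G1 G G₀) W hW))
        (resHom (G1 G G₀) W hW) hinj
      have e3 := MulEquiv.subgroupCongr (Subgroup.map_comap_eq_self hle)
      exact quasi_equiv ((e1.symm.trans (e2.trans e3)).symm) (hd4 j).1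
    · apply le_antisymm
      · rw [Subgroup.closure_le]
        exact Set.inter_subset_right
      · rintro _ ⟨y, hy, rfl⟩
        have hS' : G' j ≤ ((Subgroup.closure (quadraticElements G ∩
            ((((G' j).comap (resHom (G1 G G₀) W hW)).map (G1 G G₀).subtype :
              Subgroup (LinearMap.GeneralLinearGroup k M)) :
              Set (LinearMap.GeneralLinearGroup k M)))).subgroupOf (G1 G G₀)).map
            (resHom (G1 G G₀) W hW) := by
          conv_lhs => rw [← (hd4 j).2]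
          rw [Subgroup.closure_le]
          rintro z ⟨hzq, hzj⟩
          obtain ⟨y', rfl⟩ := hzq.1
          refine ⟨y', Subgroup.mem_subgroupOf.2 ?_, rfl⟩
          apply Subgroup.subset_closure
          exact ⟨(quad_lift hG h01 hW hW0 y' hzq).1, ⟨y', hzj, rfl⟩⟩
        obtain ⟨y', hy', he⟩ := hS' hy
        have : y' = y := hinj he
        rw [this] at hy'
        exact Subgroup.mem_subgroupOf.1 hy'
  · intro σ hσ
    have h1 := hd5 (res_quad hG h01 hW hW0 hσ)
    rw [Set.mem_iUnion] at h1 ⊢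
    obtain ⟨j, hj⟩ := h1
    exact ⟨j, ⟨⟨σ, Subgroup.subset_closure hσ⟩, hj, rfl⟩⟩

end qp

end Cfsg.Agent.Lib.Helper83.QPRes
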