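import Mathlib
import Cfsg.Prelude.Def_RootSubgroups
import Cfsg.Prelude.Def_CaseTheorems
import Cfsg.Agent.Lib.Helper83.QPParts
import Cfsg.Agent.Lib.Helper83.QPDich
import Cfsg.Agent.Lib.Helper83.QPCen
import Cfsg.Agent.Lib.Helper83.QPRes

/-!
# A quadratic pair is a central product of quasisimple normal subgroups (helper83)

`decomp`: `G = G₁ ∘ ⋯ ∘ G_s` with the `G_i` quasisimple, normal in `G`, pairwise commuting,
generated by the quadratic elements of `G` they contain, and every quadratic element of `G` lies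
in one of them.  Induction on `dim M`: the component groups of `Σ` take care of the quadratic
elements not centralizing `G₀ = ⟨Σ⟩`; the others generate a group `G¹` which acts faithfully on a
simple `G¹`-submodule `W < M`, and `(G¹|_W, W)` is again a quadratic pair.
-/

set_option autoImplicit false
set_option linter.unusedVariables false
set_option linter.unusedSectionVars false
set_option linter.unusedSimpArgs false
set_option linter.unnecessarySeqFocus false
set_option linter.unreachableTactic false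
set_option linter.unusedTactic false
set_option linter.style.haveILetI false

namespace Cfsg.Agent.Lib.Helper83.QPFinal

open Cfsg
open Cfsg.Agent.Lib.Helper83.QPDepth Cfsg.Agent.Lib.Helper83.QPMain
open Cfsg.Agent.Lib.Helper83.QPRoot Cfsg.Agent.Lib.Helper83.QPKey Cfsg.Agent.Lib.Helper83.QPHyp
open Cfsg.Agent.Lib.Helper83.QPPair Cfsg.Agent.Lib.Helper83.RankOne
open Cfsg.Agent.Lib.Helper83.QPComm Cfsg.Agent.Lib.Helper83.QPOpp
open Cfsg.Agent.Lib.Helper83.QPSurj Cfsg.Agent.Lib.Helper83.QPClass2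
open Cfsg.Agent.Lib.Helper83.QPTrans Cfsg.Agent.Lib.Helper83.QPSet
open Cfsg.Agent.Lib.Helper83.QPConn Cfsg.Agent.Lib.Helper83.QPCliff
open Cfsg.Agent.Lib.Helper83.QPSimple Cfsg.Agent.Lib.Helper83.QPSplit
open Cfsg.Agent.Lib.Helper83.QPParts Cfsg.Agent.Lib.Helper83.QPDich
open Cfsg.Agent.Lib.Helper83.QPCen Cfsg.Agent.Lib.Helper83.QPRes
open scoped commutatorElement

universe u v

section qp
variable {k : Type v} [Field k]

/-- the decomposition statement -/
def Decomp {M : Type u} [AddCommGroup M] [Module k M]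
    (G : Subgroup (LinearMap.GeneralLinearGroup k M)) : Prop :=
  ∃ (s : ℕ) (Gi : Fin s → Subgroup (LinearMap.GeneralLinearGroup k M)),
    (∀ i, Gi i ≤ G ∧ ∀ g ∈ G, Cfsg.conjBy (Gi i) g = Gi i) ∧
    (∀ i j, i ≠ j → ⁅Gi i, Gi j⁆ = ⊥) ∧ (⨆ i, Gi i) = G ∧
    (∀ i, Cfsg.IsQuasisimple ↥(Gi i) ∧ Subgroup.closure (Cfsg.quadraticElements G ∩
      (Gi i : Set (LinearMap.GeneralLinearGroup k M))) = Gi i) ∧
    Cfsg.quadraticElements G ⊆ ⋃ i, (Gi i : Set (LinearMap.GeneralLinearGroup k M))

/-- assembling a decomposition indexed by a finite type -/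
lemma decomp_of_finite {M : Type u} [AddCommGroup M] [Module k M]
    {G : Subgroup (LinearMap.GeneralLinearGroup k M)} {α : Type*} [Finite α]
    (F : α → Subgroup (LinearMap.GeneralLinearGroup k M))
    (h1 : ∀ i, F i ≤ G ∧ ∀ g ∈ G, Cfsg.conjBy (F i) g = F i)
    (h2 : ∀ i j, i ≠ j → ⁅F i, F j⁆ = ⊥) (h3 : (⨆ i, F i) = G)
    (h4 : ∀ i, Cfsg.IsQuasisimple ↥(F i) ∧ Subgroup.closure (Cfsg.quadraticElements G ∩
      (F i : Set (LinearMap.GeneralLinearGroup k M))) = F i)
    (h5 : Cfsg.quadraticElements G ⊆ ⋃ i, (F i : Set (LinearMap.GeneralLinearGroup k M))) :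
    Decomp G := by
  obtain ⟨n, ⟨e⟩⟩ := Finite.exists_equiv_fin α
  refine ⟨n, fun i => F (e.symm i), fun i => h1 _,
    fun i j hij => h2 _ _ (fun h => hij (e.symm.injective h)), ?_, fun i => h4 _, ?_⟩
  · rw [← h3]
    exact Equiv.iSup_comp (g := F) e.symm
  · intro σ hσ
    have := h5 hσ
    rw [Set.mem_iUnion] at this ⊢
    obtain ⟨a, ha⟩ := this
    refine ⟨e a, ?_⟩
    show σ ∈ F (e.symm (e a))
    rw [Equiv.symm_apply_apply]; exact ha

/-- **Central product decomposition**, by induction on the dimension -/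
theorem decomp_aux (h2 : (2 : k) ≠ 0) (h3 : Nat.card k ≠ 3) :
    ∀ n : ℕ, ∀ (M : Type u) [AddCommGroup M] [Module k M] [FiniteDimensional k M]
      (G : Subgroup (LinearMap.GeneralLinearGroup k M)), IsQuadraticPair G →
      Module.finrank k M = n → Decomp G := by
  intro n
  induction n using Nat.strong_induction_on with
  | _ n ih =>
    intro M _ _ _ G hG hn
    obtain ⟨r, part, hU, hdisj, hcomp⟩ := parts h2 h3 hG
    set G₀ : Subgroup (LinearMap.GeneralLinearGroup k M) := ⨆ i, ⨆ A ∈ part i, A with hG₀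
    have hHle : ∀ i, (⨆ A ∈ part i, A) ≤ G₀ := fun i => le_iSup (fun i => ⨆ A ∈ part i, A) i
    have hG₀G : G₀ ≤ G := iSup_le fun i => (hcomp i).le
    have hcases := quad_cases h2 h3 hG hdisj hcomp
    have hcq : ∀ σ ∈ quadraticElements G, (∃ i, σ ∈ ⨆ A ∈ part i, A) ∨ σ ∈ cq G G₀ := by
      intro σ hσ
      rcases hcases σ hσ with h | h
      · left; exact h
      · right
        refine ⟨hσ, ?_⟩
        have hle : G₀ ≤ Subgroup.centralizer {σ} := by
          apply iSup_le
          intro i x hx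
          rw [Subgroup.mem_centralizer_iff]
          intro y hy
          rw [Set.mem_singleton_iff] at hy
          rw [hy]
          exact h i x hx
        intro y hy
        exact Subgroup.mem_centralizer_iff.1 (hle hy) σ rfl
    have h01 : G ≤ G₀ ⊔ G1 G G₀ := by
      intro x hx
      have hx' : x ∈ Subgroup.closure (quadraticElements G) := by rw [hG.2]; exact hx
      refine (Subgroup.closure_le _).2 ?_ hx'
      intro σ hσ
      rcases hcq σ hσ with ⟨i, hi⟩ | h
      · exact Subgroup.mem_sup_left (hHle i hi)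
      · exact Subgroup.mem_sup_right (Subgroup.subset_closure h)
    -- the central part
    have hex : ∃ (s' : ℕ) (Gj : Fin s' → Subgroup (LinearMap.GeneralLinearGroup k M)),
        (∀ j, Gj j ≤ G1 G G₀) ∧ (∀ j, ∀ g ∈ G, conjBy (Gj j) g = Gj j) ∧
        (∀ i j, i ≠ j → ⁅Gj i, Gj j⁆ = ⊥) ∧ (⨆ j, Gj j) = G1 G G₀ ∧
        (∀ j, IsQuasisimple ↥(Gj j) ∧
          Subgroup.closure (quadraticElements G ∩
            (Gj j : Set (LinearMap.GeneralLinearGroup k M))) = Gj j) ∧
        cq G G₀ ⊆ ⋃ j, (Gj j : Set (LinearMap.GeneralLinearGroup k M)) := by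
      by_cases hemp : cq G G₀ = ∅
      · refine ⟨0, fun j => j.elim0, fun j => j.elim0, fun j => j.elim0, fun i => i.elim0, ?_,
          fun j => j.elim0, ?_⟩
        · rw [iSup_of_empty]
          unfold G1
          rw [hemp, Subgroup.closure_empty]
        · rw [hemp]; exact Set.empty_subset _
      · obtain ⟨σ₁, hσ₁⟩ := Set.nonempty_iff_ne_empty.2 hemp
        obtain ⟨σ₀, hσ₀⟩ : ∃ σ₀, σ₀ ∈ minimalQuadraticElements G := by
          classical
          have hex : ∃ n : ℕ, ∃ σ ∈ quadraticElements G, commutatorRank σ = n :=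
            ⟨_, σ₁, hσ₁.1, rfl⟩
          obtain ⟨σ₀, hσ₀, hr⟩ := Nat.find_spec hex
          refine ⟨σ₀, hσ₀, fun τ hτ => ?_⟩
          rw [hr]
          exact Nat.find_min' hex ⟨τ, hτ, rfl⟩
        have hσ₀G₀ : σ₀ ∈ G₀ := by
          have hA : sameActionSubgroup G σ₀ ∈ quadraticRootSubgroups G := ⟨σ₀, hσ₀, rfl⟩
          rw [← hU, Set.mem_iUnion] at hA
          obtain ⟨i, hi⟩ := hA
          exact hHle i ((le_biSup (fun A => A) hi) (self_mem_E hσ₀))
        have hInv : ∀ g ∈ G1 G G₀, ∀ w ∈ LinearMap.ker (nn σ₀),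
            (g : M →ₗ[k] M) w ∈ LinearMap.ker (nn σ₀) := by
          intro g hg w hw
          rw [LinearMap.mem_ker] at hw ⊢
          rw [← Module.End.mul_apply, nn_commute (G1_comm g hg σ₀ hσ₀G₀).symm,
            Module.End.mul_apply, hw, map_zero]
        have hne : LinearMap.ker (nn σ₀) ≠ ⊥ := by
          intro h
          have hle := range_le_ker (nn σ₀) hσ₀.1.2.1.1
          rw [h, le_bot_iff, LinearMap.range_eq_bot] at hle
          exact hσ₀.1.2.1.2 hle
        obtain ⟨W, hWle, hS⟩ := exists_simp_le (G1 G G₀) hInv hne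
        have hWlt : Module.finrank k ↥W < n := by
          rw [← hn]
          apply Submodule.finrank_lt
          intro h
          apply hσ₀.1.2.1.2
          apply LinearMap.ker_eq_top.1
          rw [eq_top_iff, ← h]
          exact hWle
        have hqp := res_qp hG h01 hS.1 hS
        obtain ⟨s', G', hd1, hd2, hd3, hd4, hd5⟩ :=
          ih _ hWlt ↥W (resHom (G1 G G₀) W hS.1).range hqp rfl
        exact ⟨s', pullback hG h01 hS.1 hS.2.1 G' hd1 hd2 hd3 hd4 hd5⟩
    obtain ⟨s', Gj, hj1, hj2, hj3, hj4, hj5, hj6⟩ := hex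
    -- assembly
    apply decomp_of_finite (α := Fin r ⊕ Fin s') (Sum.elim (fun i => ⨆ A ∈ part i, A) Gj)
    · rintro (i | j)
      · exact ⟨(hcomp i).le, conjBy_eq_of_norm (comp_norm h2 h3 hG (hcomp i))⟩
      · exact ⟨(hj1 j).trans G1_le, hj2 j⟩
    · rintro (i | i) (j | j) hij
      · exact comp_comm h2 h3 hG (hcomp i) (hcomp j) (hdisj i j (fun h => hij (by rw [h])))
      · show ⁅(⨆ A ∈ part i, A), Gj j⁆ = ⊥
        rw [Subgroup.commutator_eq_bot_iff_le_centralizer]
        intro x hx
        rw [Subgroup.mem_centralizer_iff]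
        intro z hz
        exact G1_comm z (hj1 j hz) x (hHle i hx)
      · show ⁅Gj i, (⨆ A ∈ part j, A)⁆ = ⊥
        rw [Subgroup.commutator_eq_bot_iff_le_centralizer]
        intro x hx
        rw [Subgroup.mem_centralizer_iff]
        intro z hz
        exact (G1_comm x (hj1 i hx) z (hHle j hz)).symm
      · exact hj3 i j (fun h => hij (by rw [h]))
    · rw [iSup_sum]
      show (⨆ i, ⨆ A ∈ part i, A) ⊔ (⨆ j, Gj j) = G
      rw [hj4]
      exact le_antisymm (sup_le hG₀G G1_le) h01
    · rintro (i | j)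
      · exact ⟨comp_quasisimple h2 h3 hG (hcomp i), comp_gen (hcomp i)⟩
      · exact hj5 j
    · intro σ hσ
      rw [Set.mem_iUnion]
      rcases hcq σ hσ with ⟨i, hi⟩ | h
      · exact ⟨Sum.inl i, hi⟩
      · have := hj6 h
        rw [Set.mem_iUnion] at this
        obtain ⟨j, hj⟩ := this
        exact ⟨Sum.inr j, hj⟩

/-- **A quadratic pair is a central product of quasisimple normal subgroups** -/
theorem decomp (h2 : (2 : k) ≠ 0) (h3 : Nat.card k ≠ 3) {M : Type u} [AddCommGroup M]
    [Module k M] [FiniteDimensional k M] {G : Subgroup (LinearMap.GeneralLinearGroup k M)}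
    (hG : IsQuadraticPair G) : Decomp G :=
  decomp_aux h2 h3 _ M G hG rfl

end qp

end Cfsg.Agent.Lib.Helper83.QPFinal
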