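import Mathlib
import Cfsg.Prelude.Def_RootSubgroups
import Cfsg.Prelude.Def_Transfer
import Cfsg.Agent.Lib.Helper83.RankOne
import Cfsg.Agent.S5017

/-!
# Quadratic action of a rank one group (ring form)

`ρ : X →* R` is a monoid homomorphism into a ring; `dd ρ x = ρ x - 1`.
A subgroup `U` acts quadratically (`Quad ρ U`) when `dd ρ u' * dd ρ u = 0` for all `u u' ∈ U`.
-/

set_option autoImplicit false
open Cfsg

namespace Cfsg.Agent.Lib.Helper83.QuadAct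

open Cfsg.Agent.Lib.Helper83.RankOne

variable {X : Type*} [Group X] {R : Type*} [Ring R] (ρ : X →* R)

/-- The difference `ρ x - 1`. -/
def dd (x : X) : R := ρ x - 1

theorem rho_eq (x : X) : ρ x = 1 + dd ρ x := by simp [dd]

theorem dd_one : dd ρ (1 : X) = 0 := by simp [dd]

theorem dd_mul (x y : X) : dd ρ (x * y) = dd ρ x + dd ρ y + dd ρ x * dd ρ y := by
  simp only [dd, map_mul]; noncomm_ring

theorem rho_mul_inv (x : X) : ρ x * ρ x⁻¹ = 1 := by rw [← map_mul, mul_inv_cancel, map_one]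

theorem rho_inv_mul (x : X) : ρ x⁻¹ * ρ x = 1 := by rw [← map_mul, inv_mul_cancel, map_one]

theorem dd_inv (x : X) : dd ρ x⁻¹ = - (ρ x⁻¹ * dd ρ x) := by
  simp only [dd, mul_sub, rho_inv_mul, mul_one]; abel

theorem dd_inv' (x : X) : dd ρ x⁻¹ = - (dd ρ x * ρ x⁻¹) := by
  simp only [dd, sub_mul, rho_mul_inv, one_mul]; abel

theorem dd_conj (g x : X) : dd ρ (g * x * g⁻¹) = ρ g * dd ρ x * ρ g⁻¹ := by
  simp only [dd, map_mul, mul_sub, sub_mul, mul_one, rho_mul_inv]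

theorem dd_conj' (g x : X) : dd ρ (g⁻¹ * x * g) = ρ g⁻¹ * dd ρ x * ρ g := by
  have := dd_conj ρ g⁻¹ x
  rwa [inv_inv] at this

theorem dd_pow {x : X} (hx : dd ρ x * dd ρ x = 0) (n : ℕ) : dd ρ (x ^ n) = n • dd ρ x := by
  induction n with
  | zero => simp [dd_one]
  | succ n ih =>
    rw [pow_succ, dd_mul, ih, smul_mul_assoc, hx, smul_zero, add_zero, succ_nsmul]

/-- The elements whose difference is annihilated by `t` on both sides form a subgroup. -/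
def ann (t : R) : Subgroup X where
  carrier := {x | t * dd ρ x = 0 ∧ dd ρ x * t = 0}
  one_mem' := by simp [dd_one]
  mul_mem' := by
    intro x y hx hy
    obtain ⟨hx1, hx2⟩ := hx
    obtain ⟨hy1, hy2⟩ := hy
    refine ⟨?_, ?_⟩
    · rw [dd_mul, mul_add, mul_add, ← mul_assoc, hx1, hy1]; simp
    · rw [dd_mul, add_mul, add_mul, mul_assoc, hx2, hy2]; simp
  inv_mem' := by
    intro x hx
    obtain ⟨hx1, hx2⟩ := hx
    refine ⟨?_, ?_⟩
    · rw [dd_inv', mul_neg, ← mul_assoc, hx1]; simp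
    · rw [dd_inv, neg_mul, mul_assoc, hx2]; simp

theorem mem_ann {t : R} {x : X} : x ∈ ann ρ t ↔ t * dd ρ x = 0 ∧ dd ρ x * t = 0 := Iff.rfl

theorem ann_eq_top {A B : Subgroup X} (htop : A ⊔ B = ⊤) {t : R} (hA : A ≤ ann ρ t)
    (hB : B ≤ ann ρ t) : ann ρ t = ⊤ :=
  top_le_iff.mp (htop ▸ sup_le hA hB)

/-- The elements with "doubly trivial" difference. -/
def dker : Subgroup X where
  carrier := {x | ∀ y, dd ρ y * dd ρ x = 0 ∧ dd ρ x * dd ρ y = 0}
  one_mem' := by intro y; simp [dd_one]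
  mul_mem' := by
    intro x x' hx hx' y
    obtain ⟨hx1, hx2⟩ := hx y
    obtain ⟨hy1, hy2⟩ := hx' y
    refine ⟨?_, ?_⟩
    · rw [dd_mul, mul_add, mul_add, ← mul_assoc, hx1, hy1]; simp
    · rw [dd_mul, add_mul, add_mul, mul_assoc, hy2, hx2]; simp
  inv_mem' := by
    intro x hx y
    obtain ⟨hx1, hx2⟩ := hx y
    refine ⟨?_, ?_⟩
    · rw [dd_inv', mul_neg, ← mul_assoc, hx1]; simp
    · rw [dd_inv, neg_mul, mul_assoc, hx2]; simp

theorem mem_dker {x : X} : x ∈ dker ρ ↔ ∀ y, dd ρ y * dd ρ x = 0 ∧ dd ρ x * dd ρ y = 0 := Iff.rfl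

theorem dker_normal : (dker ρ).Normal := by
  constructor
  intro n hn g y
  have h1 := (hn (g⁻¹ * y * g)).1
  have h2 := (hn (g⁻¹ * y * g)).2
  rw [dd_conj'] at h1 h2
  rw [dd_conj]
  refine ⟨?_, ?_⟩
  · have : dd ρ y * (ρ g * dd ρ n * ρ g⁻¹)
        = ρ g * (ρ g⁻¹ * dd ρ y * ρ g * dd ρ n) * ρ g⁻¹ := by
      simp only [mul_assoc]
      rw [← mul_assoc (ρ g) (ρ g⁻¹), rho_mul_inv, one_mul]
    rw [this, h1]; simp
  · have : ρ g * dd ρ n * ρ g⁻¹ * dd ρ y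
        = ρ g * (dd ρ n * (ρ g⁻¹ * dd ρ y * ρ g)) * ρ g⁻¹ := by
      simp only [mul_assoc]
      rw [rho_mul_inv, mul_one]
    rw [this, h2]; simp

/-- Quadratic action of a subgroup. -/
def Quad (U : Subgroup X) : Prop := ∀ u ∈ U, ∀ u' ∈ U, dd ρ u' * dd ρ u = 0

variable {ρ}

theorem Quad.conjBy {U : Subgroup X} (hU : Quad ρ U) (g : X) : Quad ρ (conjBy U g) := by
  intro u hu u' hu'
  rw [mem_conjBy] at hu hu'
  have h0 := hU _ hu _ hu'
  rw [dd_conj', dd_conj'] at h0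
  have : dd ρ u' * dd ρ u
      = ρ g * (ρ g⁻¹ * dd ρ u' * ρ g * (ρ g⁻¹ * dd ρ u * ρ g)) * ρ g⁻¹ := by
    simp only [mul_assoc]
    rw [rho_mul_inv, mul_one, ← mul_assoc (ρ g) (ρ g⁻¹), rho_mul_inv, one_mul,
      ← mul_assoc (ρ g) (ρ g⁻¹), rho_mul_inv, one_mul]
  rw [this, h0]; simp

theorem Quad.dd_inv {U : Subgroup X} (hU : Quad ρ U) {u : X} (hu : u ∈ U) :
    dd ρ u⁻¹ = - dd ρ u := by
  have h1 := hU u hu u⁻¹ (U.inv_mem hu)
  have h2 := QuadAct.dd_inv ρ u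
  rw [rho_eq ρ u⁻¹, add_mul, one_mul, h1, add_zero] at h2
  exact h2

theorem Quad.rho_inv {U : Subgroup X} (hU : Quad ρ U) {u : X} (hu : u ∈ U) :
    ρ u⁻¹ = 1 - dd ρ u := by
  rw [rho_eq ρ u⁻¹, hU.dd_inv hu, sub_eq_add_neg]

variable {A B : Subgroup X}

theorem Quad.right (hp : IsRankOnePair A B) (hA : Quad ρ A) : Quad ρ B := by
  obtain ⟨x, -, hx⟩ := right_mem_unipotent hp
  rw [hx]
  exact hA.conjBy x

/-- First basic relation. -/
theorem Q1 (hA : Quad ρ A) (hB : Quad ρ B) {a b : X} (ha : a ∈ A) (hb : b ∈ B)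
    (hab : conjBy A b⁻¹ = conjBy B a⁻¹) {a' b'' : X} (ha' : a' ∈ A) (hb'' : b'' ∈ B) :
    dd ρ a' * dd ρ b'' = dd ρ a' * dd ρ b * dd ρ a * dd ρ b'' := by
  have hC : Quad ρ (Cfsg.conjBy A b⁻¹) := hA.conjBy b⁻¹
  have hc1 : b⁻¹ * a' * b ∈ Cfsg.conjBy A b⁻¹ := by
    have := conj_mem_conjBy ha' b⁻¹
    rwa [inv_inv] at this
  have hc2 : a⁻¹ * b'' * a ∈ Cfsg.conjBy A b⁻¹ := by
    rw [hab]
    have := conj_mem_conjBy hb'' a⁻¹
    rwa [inv_inv] at this
  have h0 := hC _ hc2 _ hc1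
  rw [dd_conj', dd_conj'] at h0
  have key : dd ρ a' * ρ b * ρ a⁻¹ * dd ρ b'' = 0 := by
    have : dd ρ a' * ρ b * ρ a⁻¹ * dd ρ b''
        = ρ b * (ρ b⁻¹ * dd ρ a' * ρ b * (ρ a⁻¹ * dd ρ b'' * ρ a)) * ρ a⁻¹ := by
      simp only [mul_assoc]
      rw [rho_mul_inv, mul_one, ← mul_assoc (ρ b) (ρ b⁻¹), rho_mul_inv, one_mul]
    rw [this, h0]; simp
  rw [rho_eq ρ b, hA.rho_inv ha] at key
  have e1 := hA a ha a' ha'
  have e2 := hB b'' hb'' b hb
  linear_combination (norm := noncomm_ring) key - dd ρ a' * e2 + e1 * dd ρ b''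

/-- Second basic relation. -/
theorem Q2 (hA : Quad ρ A) (hB : Quad ρ B) {a b : X} (ha : a ∈ A) (hb : b ∈ B)
    (hab : conjBy A b⁻¹ = conjBy B a⁻¹) {a' b'' : X} (ha' : a' ∈ A) (hb'' : b'' ∈ B) :
    dd ρ b'' * dd ρ a' = dd ρ b'' * dd ρ a * dd ρ b * dd ρ a' := by
  have hC : Quad ρ (Cfsg.conjBy A b⁻¹) := hA.conjBy b⁻¹
  have hc1 : b⁻¹ * a' * b ∈ Cfsg.conjBy A b⁻¹ := by
    have := conj_mem_conjBy ha' b⁻¹
    rwa [inv_inv] at this
  have hc2 : a⁻¹ * b'' * a ∈ Cfsg.conjBy A b⁻¹ := by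
    rw [hab]
    have := conj_mem_conjBy hb'' a⁻¹
    rwa [inv_inv] at this
  have h0 := hC _ hc1 _ hc2
  rw [dd_conj', dd_conj'] at h0
  have key : dd ρ b'' * ρ a * ρ b⁻¹ * dd ρ a' = 0 := by
    have : dd ρ b'' * ρ a * ρ b⁻¹ * dd ρ a'
        = ρ a * (ρ a⁻¹ * dd ρ b'' * ρ a * (ρ b⁻¹ * dd ρ a' * ρ b)) * ρ b⁻¹ := by
      simp only [mul_assoc]
      rw [rho_mul_inv, mul_one, ← mul_assoc (ρ a) (ρ a⁻¹), rho_mul_inv, one_mul]
    rw [this, h0]; simp
  rw [rho_eq ρ a, hB.rho_inv hb] at key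
  have e1 := hB b hb b'' hb''
  have e2 := hA a' ha' a ha
  linear_combination (norm := noncomm_ring) key - dd ρ b'' * e2 + e1 * dd ρ a'

/-- The element `z = a b⁻¹ a b a⁻¹ b` of `B` and its difference. -/
theorem dd_z (hA : Quad ρ A) (hB : Quad ρ B) {a b : X} (ha : a ∈ A) (hb : b ∈ B)
    (hab : conjBy A b⁻¹ = conjBy B a⁻¹) :
    a * b⁻¹ * a * b * a⁻¹ * b ∈ B ∧
    dd ρ (a * b⁻¹ * a * b * a⁻¹ * b)
      = dd ρ a + dd ρ b - dd ρ a * dd ρ b * dd ρ a - dd ρ b * dd ρ a * dd ρ b := by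
  have hb' : a * (b⁻¹ * a * b) * a⁻¹ ∈ B := by
    have hc1 : b⁻¹ * a * b ∈ Cfsg.conjBy A b⁻¹ := by
      have := conj_mem_conjBy ha b⁻¹
      rwa [inv_inv] at this
    rw [hab, mem_conjBy] at hc1
    simpa using hc1
  have hz : a * b⁻¹ * a * b * a⁻¹ * b = a * (b⁻¹ * a * b) * a⁻¹ * b := by group
  refine ⟨by rw [hz]; exact B.mul_mem hb' hb, ?_⟩
  have h1 := Q1 hA hB ha hb hab ha hb
  have h2 := Q2 hA hB ha hb hab ha hb
  have haa := hA a ha a ha
  have hbb := hB b hb b hb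
  have e : dd ρ (a * (b⁻¹ * a * b) * a⁻¹)
      = dd ρ a - dd ρ a * dd ρ b * dd ρ a - dd ρ b * dd ρ a * dd ρ b := by
    rw [dd_conj, dd_conj', rho_eq ρ a, rho_eq ρ b, hA.rho_inv ha, hB.rho_inv hb]
    linear_combination (norm := noncomm_ring) haa * dd ρ b + dd ρ b * haa - haa * dd ρ a
      - haa * dd ρ b * dd ρ a + dd ρ a * dd ρ b * haa + h1 - h2 - h1 * dd ρ a
  rw [hz, dd_mul, e]
  linear_combination (norm := noncomm_ring) h1 - dd ρ b * dd ρ a * hbb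

/-- `A` quadratic and `X` not "doubly trivial" forces the doubly trivial elements to be central. -/
theorem dker_le_center (h : IsRankOneGroup X A B) (hA : Quad ρ A)
    (hX : ∃ x y : X, dd ρ y * dd ρ x ≠ 0) : dker ρ ≤ Subgroup.center X := by
  rcases (Cfsg.Agent.S5017.result h).1 (dker ρ) (dker_normal ρ) with h1 | h1
  · exfalso
    obtain ⟨x, y, hxy⟩ := hX
    have s1 : ∀ a ∈ A, ann ρ (dd ρ a) = ⊤ := by
      intro a ha
      apply ann_eq_top ρ h1
      · intro k hk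
        exact ⟨(hk a).1, (hk a).2⟩
      · intro a' ha'
        exact ⟨hA a' ha' a ha, hA a ha a' ha'⟩
    have s2 : ann ρ (dd ρ x) = ⊤ := by
      apply ann_eq_top ρ h1
      · intro k hk
        exact hk x
      · intro a ha
        have : x ∈ ann ρ (dd ρ a) := by rw [s1 a ha]; trivial
        exact ⟨this.2, this.1⟩
    have : y ∈ ann ρ (dd ρ x) := by rw [s2]; trivial
    exact hxy this.2
  · exact h1

/-- The main conclusion: the pair is special, and the differences satisfy `α + β = αβα + βαβ`. -/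
theorem special_core (h : IsRankOneGroup X A B) (hA : Quad ρ A)
    (hX : ∃ x y : X, dd ρ y * dd ρ x ≠ 0) {a b : X} (ha : a ∈ A) (hb : b ∈ B)
    (hab : conjBy A b⁻¹ = conjBy B a⁻¹) :
    b⁻¹ * a * b = a⁻¹ * b⁻¹ * a ∧
    dd ρ a + dd ρ b = dd ρ a * dd ρ b * dd ρ a + dd ρ b * dd ρ a * dd ρ b := by
  have hB : Quad ρ B := hA.right h.2
  obtain ⟨hzB, hz⟩ := dd_z hA hB ha hb hab
  set z := a * b⁻¹ * a * b * a⁻¹ * b with hzdef
  have hann : ann ρ (dd ρ z) = ⊤ := by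
    apply ann_eq_top ρ h.1
    · intro a'' ha''
      have q1 := Q1 hA hB ha hb hab ha'' hb
      have q2 := Q2 hA hB ha hb hab ha'' hb
      have e1 := hA a'' ha'' a ha
      have e2 := hA a ha a'' ha''
      rw [mem_ann, hz]
      refine ⟨?_, ?_⟩
      · linear_combination (norm := noncomm_ring) e1 + q2 - dd ρ a * dd ρ b * e1
      · linear_combination (norm := noncomm_ring) e2 + q1 - e2 * dd ρ b * dd ρ a
    · intro b'' hb''
      have q1 := Q1 hA hB ha hb hab ha hb''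
      have q2 := Q2 hA hB ha hb hab ha hb''
      have e1 := hB b'' hb'' b hb
      have e2 := hB b hb b'' hb''
      rw [mem_ann, hz]
      refine ⟨?_, ?_⟩
      · linear_combination (norm := noncomm_ring) e1 + q1 - dd ρ b * dd ρ a * e1
      · linear_combination (norm := noncomm_ring) e2 + q2 - e2 * dd ρ a * dd ρ b
  have hzk : z ∈ dker ρ := by
    intro y
    have : y ∈ ann ρ (dd ρ z) := by rw [hann]; trivial
    exact ⟨this.2, this.1⟩
  have hzc : z ∈ Subgroup.center X := dker_le_center h hA hX hzk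
  have hconj : conjBy A z = A := by
    ext x
    rw [mem_conjBy]
    have : z⁻¹ * x * z = x := by
      have := Subgroup.mem_center_iff.mp hzc x
      rw [mul_assoc, this, ← mul_assoc, inv_mul_cancel, one_mul]
    rw [this]
  have hz1 : z = 1 := eq_one_of_conjBy_eq (RankOnePair_symm h.2) hzB hconj
  refine ⟨?_, ?_⟩
  · have : b⁻¹ * a * b = a⁻¹ * (a * b⁻¹ * a * b * a⁻¹ * b) * b⁻¹ * a := by group
    rw [this, ← hzdef, hz1]; group
  · rw [hz1, dd_one] at hz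
    linear_combination (norm := noncomm_ring) -hz

/-- Quadratic action with injective `ρ`: `A` is commutative. -/
theorem comm_of_inj (hA : Quad ρ A) (hinj : ∀ x : X, ρ x = 1 → x = 1) :
    IsMulCommutative A := by
  rw [isMulCommutative_iff]
  rintro ⟨a₁, h₁⟩ ⟨a₂, h₂⟩
  apply Subtype.ext
  show a₁ * a₂ = a₂ * a₁
  have e : ρ (a₁ * a₂) = ρ (a₂ * a₁) := by
    rw [rho_eq ρ (a₁ * a₂), rho_eq ρ (a₂ * a₁), dd_mul, dd_mul, hA a₂ h₂ a₁ h₁, hA a₁ h₁ a₂ h₂]
    abel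
  have : ρ (a₁ * a₂ * (a₂ * a₁)⁻¹) = 1 := by
    rw [map_mul, e, rho_mul_inv]
  have := hinj _ this
  exact mul_inv_eq_one.mp this

/-- Quadratic action with injective `ρ`: the group is not doubly trivial. -/
theorem exists_ne_of_inj (h : IsRankOneGroup X A B) (hinj : ∀ x : X, ρ x = 1 → x = 1) :
    ∃ x y : X, dd ρ y * dd ρ x ≠ 0 := by
  by_contra hcon
  push Not at hcon
  have hcomm : ∀ x y : X, x * y = y * x := by
    intro x y
    have e : ρ (x * y) = ρ (y * x) := by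
      rw [rho_eq ρ (x * y), rho_eq ρ (y * x), dd_mul, dd_mul, hcon y x, hcon x y]
      abel
    have : ρ (x * y * (y * x)⁻¹) = 1 := by
      rw [map_mul, e, rho_mul_inv]
    exact mul_inv_eq_one.mp (hinj _ this)
  obtain ⟨a, ha, hne⟩ := exists_mem_ne_one (left_ne_bot h.2)
  apply hne
  apply eq_one_of_conjBy_eq h.2 ha
  ext x
  rw [mem_conjBy]
  have : a⁻¹ * x * a = x := by
    rw [mul_assoc, hcomm x a, ← mul_assoc, inv_mul_cancel, one_mul]
  rw [this]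

/-- Faithful quadratic action: `A` is torsion free or elementary abelian. -/
theorem elementary_core (h : IsRankOneGroup X A B) (hA : Quad ρ A)
    (hinj : ∀ x : X, ρ x = 1 → x = 1) :
    (∀ a ∈ A, a ≠ 1 → ¬ IsOfFinOrder a) ∨ ∃ p : ℕ, p.Prime ∧ Cfsg.IsElementaryAbelian p A := by
  by_cases hfin : ∀ a ∈ A, a ≠ 1 → ¬ IsOfFinOrder a
  · exact Or.inl hfin
  right
  push Not at hfin
  obtain ⟨a₀, ha₀, hne₀, hfo⟩ := hfin
  have hB : Quad ρ B := hA.right h.2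
  have hX := exists_ne_of_inj h hinj
  have hord : orderOf a₀ ≠ 0 := (orderOf_pos_iff.mpr hfo).ne'
  have hord1 : orderOf a₀ ≠ 1 := by
    intro h1
    exact hne₀ (orderOf_eq_one_iff.mp h1)
  set p := (orderOf a₀).minFac with hp
  have hpp : p.Prime := Nat.minFac_prime hord1
  have hpd : p ∣ orderOf a₀ := Nat.minFac_dvd _
  set a := a₀ ^ (orderOf a₀ / p) with hadef
  have haord : orderOf a = p := orderOf_pow_orderOf_div hord hpd
  have ha : a ∈ A := A.pow_mem ha₀ _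
  have hane : a ≠ 1 := by
    intro h1
    rw [h1, orderOf_one] at haord
    exact hpp.one_lt.ne haord
  have hap : a ^ p = 1 := by rw [← haord]; exact pow_orderOf_eq_one a
  have hpα : p • dd ρ a = 0 := by
    rw [← dd_pow ρ (hA a ha a ha), hap, dd_one]
  obtain ⟨b, hb, hbne, hab⟩ := h.2.cond_left a ha hane
  -- all mixed products are killed by p
  have m1 : ∀ a'' ∈ A, ∀ b'' ∈ B, p • (dd ρ a'' * dd ρ b'') = 0 := by
    intro a'' ha'' b'' hb''
    rw [Q1 hA hB ha hb hab ha'' hb'']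
    have : p • (dd ρ a'' * dd ρ b * dd ρ a * dd ρ b'')
        = dd ρ a'' * dd ρ b * (p • dd ρ a) * dd ρ b'' := by
      simp only [smul_mul_assoc, mul_smul_comm]
    rw [this, hpα]; simp
  have m2 : ∀ a'' ∈ A, ∀ b'' ∈ B, p • (dd ρ b'' * dd ρ a'') = 0 := by
    intro a'' ha'' b'' hb''
    rw [Q2 hA hB ha hb hab ha'' hb'']
    have : p • (dd ρ b'' * dd ρ a * dd ρ b * dd ρ a'')
        = dd ρ b'' * (p • dd ρ a) * dd ρ b * dd ρ a'' := by
      simp only [smul_mul_assoc, mul_smul_comm]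
    rw [this, hpα]; simp
  refine ⟨p, hpp, comm_of_inj hA hinj, ?_⟩
  intro a' ha'
  by_cases ha'1 : a' = 1
  · rw [ha'1, one_pow]
  obtain ⟨b', hb', hb'ne, hab'⟩ := h.2.cond_left a' ha' ha'1
  have hs := (special_core h hA hX ha' hb' hab').2
  have hsum : p • dd ρ a' + p • dd ρ b' = 0 := by
    rw [← smul_add, hs, smul_add]
    have e1 : p • (dd ρ a' * dd ρ b' * dd ρ a') = (p • (dd ρ a' * dd ρ b')) * dd ρ a' := by
      simp only [smul_mul_assoc]
    have e2 : p • (dd ρ b' * dd ρ a' * dd ρ b') = (p • (dd ρ b' * dd ρ a')) * dd ρ b' := by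
      simp only [smul_mul_assoc]
    rw [e1, e2, m1 a' ha' b' hb', m2 a' ha' b' hb']; simp
  have hθ : p • dd ρ a' = - (p • dd ρ b') := eq_neg_of_add_eq_zero_left hsum
  have hann : ann ρ (dd ρ (a' ^ p)) = ⊤ := by
    apply ann_eq_top ρ h.1
    · intro a'' ha''
      rw [mem_ann, dd_pow ρ (hA a' ha' a' ha')]
      refine ⟨?_, ?_⟩
      · rw [smul_mul_assoc, hA a'' ha'' a' ha', smul_zero]
      · rw [mul_smul_comm, hA a' ha' a'' ha'', smul_zero]
    · intro b'' hb''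
      rw [mem_ann, dd_pow ρ (hA a' ha' a' ha'), hθ]
      refine ⟨?_, ?_⟩
      · rw [neg_mul, smul_mul_assoc, hB b'' hb'' b' hb', smul_zero, neg_zero]
      · rw [mul_neg, mul_smul_comm, hB b' hb' b'' hb'', smul_zero, neg_zero]
  have hk : a' ^ p ∈ dker ρ := by
    intro y
    have : y ∈ ann ρ (dd ρ (a' ^ p)) := by rw [hann]; trivial
    exact ⟨this.2, this.1⟩
  have hc : a' ^ p ∈ Subgroup.center X := dker_le_center h hA hX hk
  apply eq_one_of_conjBy_eq h.2 (A.pow_mem ha' p)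
  ext x
  rw [mem_conjBy]
  have : (a' ^ p)⁻¹ * x * a' ^ p = x := by
    have := Subgroup.mem_center_iff.mp hc x
    rw [mul_assoc, this, ← mul_assoc, inv_mul_cancel, one_mul]
  rw [this]

end Cfsg.Agent.Lib.Helper83.QuadAct
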