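import Mathlib
import Cfsg.Prelude.Def_RootSubgroups
import Cfsg.Prelude.Def_QuasithinSetup
import Cfsg.Agent.Lib.Helper83.RootInv
import Cfsg.Agent.Lib.Helper90.Basic

/-!
# Root involutions with connected `𝓕(D)`: normal subgroups

Normal subgroups of a group generated by root involutions `D` with `𝓕(D)` connected and
`D ∩ D² ≠ ∅` either contain `D` or lie in `O_{2,Z}(G)`.
-/

set_option autoImplicit false

namespace Cfsg.Agent.Lib.Helper83.RootInv2

open Cfsg Subgroup Cfsg.Agent.Lib.Helper83.RootInv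
open scoped Pointwise

variable {G : Type*} [Group G]

/-- Two involutions whose product has odd order are conjugate. -/
theorem conj_of_odd {a b : G} (ha : a * a = 1) (hb : b * b = 1) {j : ℕ}
    (h : (a * b) ^ (2 * j + 1) = 1) : (a * b) ^ j * a * ((a * b) ^ j)⁻¹ = b := by
  have ai : a⁻¹ = a := inv_eq_of_mul_eq_one_left ha
  have bi : b⁻¹ = b := inv_eq_of_mul_eq_one_left hb
  -- `a (ab)^j a⁻¹ = ((ab)⁻¹)^j`
  have h1 : a * (a * b) ^ j * a⁻¹ = ((a * b)⁻¹) ^ j := by
    have e1 : a * (a * b) ^ j * a⁻¹ = (a * (a * b) * a⁻¹) ^ j := by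
      rw [← MulAut.conj_apply, map_pow, MulAut.conj_apply]
    have e2 : a * (a * b) * a⁻¹ = (a * b)⁻¹ := by
      rw [mul_inv_rev, ai, bi]
      calc a * (a * b) * a = (a * a) * b * a := by group
        _ = b * a := by rw [ha, one_mul]
    rw [e1, e2]
  -- so `a ((ab)^j)⁻¹ = (ab)^j a`
  have h2 : a * ((a * b) ^ j)⁻¹ = (a * b) ^ j * a := by
    have : ((a * b) ^ j)⁻¹ = a * (a * b) ^ j * a⁻¹ := by rw [h1, inv_pow]
    rw [this, ai]
    calc a * (a * (a * b) ^ j * a) = (a * a) * (a * b) ^ j * a := by group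
      _ = (a * b) ^ j * a := by rw [ha, one_mul]
  have h3 : (a * b) ^ j * (a * b) ^ j * (a * b) = 1 := by
    rw [← pow_add, ← pow_succ]
    have : j + j + 1 = 2 * j + 1 := by ring
    rw [this]; exact h
  calc (a * b) ^ j * a * ((a * b) ^ j)⁻¹ = (a * b) ^ j * (a * ((a * b) ^ j)⁻¹) := by group
    _ = (a * b) ^ j * ((a * b) ^ j * a) := by rw [h2]
    _ = ((a * b) ^ j * (a * b) ^ j * (a * b)) * (b⁻¹ * a⁻¹ * a) := by group
    _ = b := by rw [h3, one_mul, inv_mul_cancel_right, bi]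

variable {D : Set G}

theorem exists_conj_of_adj (hD : IsRootInvolutionSet D) {a b : G} (h : OddAdj D a b) :
    ∃ g : G, b = g * a * g⁻¹ := by
  obtain ⟨ha, hb, -, j, hj⟩ := h
  refine ⟨(a * b) ^ j, (conj_of_odd (mul_self_of_mem hD ha) (mul_self_of_mem hD hb) ?_).symm⟩
  rw [← hj]; exact pow_orderOf_eq_one _

theorem exists_conj_of_rtg (hD : IsRootInvolutionSet D) {a b : G}
    (h : Relation.ReflTransGen (OddAdj D) a b) : ∃ g : G, b = g * a * g⁻¹ := by
  induction h with
  | refl => exact ⟨1, by group⟩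
  | tail _ hbc ih =>
    obtain ⟨g, rfl⟩ := ih
    obtain ⟨g', hg'⟩ := exists_conj_of_adj hD hbc
    exact ⟨g' * g, by rw [hg']; group⟩

theorem mem_of_rtg (hD : IsRootInvolutionSet D) (N : Subgroup G) [N.Normal] {a b : G}
    (h : Relation.ReflTransGen (OddAdj D) a b) (ha : a ∈ N) : b ∈ N := by
  obtain ⟨g, rfl⟩ := exists_conj_of_rtg hD h
  exact ‹N.Normal›.conj_mem a ha g

/-- A normal subgroup meeting `D` is everything (when `𝓕(D)` is connected). -/
theorem eq_top_of_mem (hD : IsRootInvolutionSet D) (hc : IsConnectedSet (OddAdj D) D)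
    (N : Subgroup G) [N.Normal] {d : G} (hd : d ∈ D) (hdN : d ∈ N) : N = ⊤ := by
  rw [eq_top_iff, ← hD.generates, closure_le]
  intro b hb
  exact mem_of_rtg hD N (hc d hd b hb) hdN

theorem productPartners_conj (hD : IsRootInvolutionSet D) {c e : G}
    (h : e ∈ productPartners D c) (g : G) :
    g * e * g⁻¹ ∈ productPartners D (g * c * g⁻¹) := by
  obtain ⟨⟨heD, hec, hne⟩, hp⟩ := h
  refine ⟨⟨hD.conj_mem e heD g, ?_, ?_⟩, ?_⟩
  · calc g * e * g⁻¹ * (g * c * g⁻¹) = g * (e * c) * g⁻¹ := by group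
      _ = g * (c * e) * g⁻¹ := by rw [hec]
      _ = g * c * g⁻¹ * (g * e * g⁻¹) := by group
  · intro h
    apply hne
    have : e = g⁻¹ * (g * e * g⁻¹) * g := by group
    rw [this, h]; group
  · have : g * e * g⁻¹ * (g * c * g⁻¹) = g * (e * c) * g⁻¹ := by group
    rw [this]; exact hD.conj_mem _ hp g

/-- Every vertex has a product partner when `D ∩ D² ≠ ∅` and `𝓕(D)` is connected. -/
theorem exists_productPartner (hD : IsRootInvolutionSet D)
    (hc : IsConnectedSet (OddAdj D) D) (hDD : (D ∩ commutingProducts D).Nonempty) {d : G}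
    (hd : d ∈ D) : ∃ e, e ∈ productPartners D d := by
  obtain ⟨c, hcD, a, ha, b, hb, hab, -, rfl⟩ := hDD
  have a2 := mul_self_of_mem hD ha
  have h1 : a ∈ productPartners D (a * b) := by
    refine ⟨⟨ha, ?_, ?_⟩, ?_⟩
    · calc a * (a * b) = a * (b * a) := by rw [hab]
        _ = a * b * a := by group
    · intro h
      apply ne_one_of_mem hD hb
      have : a * 1 = a * b := by rw [mul_one]; exact h
      exact (mul_left_cancel this).symm
    · have : a * (a * b) = b := by
        calc a * (a * b) = (a * a) * b := by group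
          _ = b := by rw [a2, one_mul]
      rw [this]; exact hb
  obtain ⟨g, rfl⟩ := exists_conj_of_rtg hD (hc (a * b) hcD d hd)
  exact ⟨_, productPartners_conj hD h1 g⟩

/-- If `u` is an involution, `v` has odd order and `u⁻¹ v ∈ N`, then `u ∈ N`. -/
theorem mem_of_odd_mul (N : Subgroup G) [N.Normal] {u v : G} (hu : u * u = 1)
    (hv : Odd (orderOf v)) (h : u⁻¹ * v ∈ N) : u ∈ N := by
  have h1 : (QuotientGroup.mk u : G ⧸ N) = QuotientGroup.mk v := QuotientGroup.eq.mpr h
  obtain ⟨j, hj⟩ := hv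
  have h2 : (QuotientGroup.mk u : G ⧸ N) ^ (2 * j + 1) = 1 := by
    rw [h1, ← QuotientGroup.mk_pow, ← hj, pow_orderOf_eq_one]; rfl
  have h3 : (QuotientGroup.mk u : G ⧸ N) ^ 2 = 1 := by
    rw [← QuotientGroup.mk_pow, pow_two, hu]; rfl
  have h4 : (QuotientGroup.mk u : G ⧸ N) = 1 := by
    rw [pow_succ, pow_mul, h3, one_pow, one_mul] at h2
    exact h2
  exact (QuotientGroup.eq_one_iff u).mp h4

/-- Key claim: for a normal subgroup `N` not meeting `D`, no `N`-conjugate of `d ∈ D` is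
adjacent to `d`. -/
theorem not_adj_conj (hD : IsRootInvolutionSet D) (hc : IsConnectedSet (OddAdj D) D)
    (hDD : (D ∩ commutingProducts D).Nonempty) (N : Subgroup G) [N.Normal]
    (hN : ∀ x ∈ D, x ∉ N) {d : G} (hd : d ∈ D) {n : G} (hn : n ∈ N) :
    ¬ OddAdj D d (n * d * n⁻¹) := by
  intro hadj
  obtain ⟨e, ⟨heD, hed, hne⟩, hp⟩ := exists_productPartner hD hc hDD hd
  have d2 := mul_self_of_mem hD hd
  have di := inv_of_mem hD hd
  have hp' : d * e ∈ D := by rw [← hed]; exact hp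
  have hm : d * n * d⁻¹ * n⁻¹ ∈ N :=
    N.mul_mem (‹N.Normal›.conj_mem n hn d) (N.inv_mem hn)
  rcases odd_or_odd hD heD hd hadj.2.1 hed.symm hp' hadj.2.2.2 (Ne.symm hadj.2.2.1) with h | h
  · -- `e (n d n⁻¹)` has odd order
    apply hN (e * d) hp
    apply mem_of_odd_mul N (mul_self_of_mem hD hp) h
    have : (e * d)⁻¹ * (e * (n * d * n⁻¹)) = d * n * d⁻¹ * n⁻¹ := by
      rw [mul_inv_rev, di]; group
    rw [this]; exact hm
  · apply hN e heD
    apply mem_of_odd_mul N (mul_self_of_mem hD heD) h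
    have : e⁻¹ * (d * e * (n * d * n⁻¹)) = d * n * d⁻¹ * n⁻¹ := by
      rw [← hed, di]; group
    rw [this]; exact hm

/-- A `p`-subgroup `Q` of a normal subgroup `N`, normalized by `N`, lies in `O_p(G)`. -/
theorem le_pCore_of_normal_in_normal [Finite G] {p : ℕ} [Fact p.Prime] (N Q : Subgroup G)
    [N.Normal] (hQN : Q ≤ N) (hnorm : ∀ m ∈ N, ∀ q ∈ Q, m * q * m⁻¹ ∈ Q) (hQ : IsPGroup p Q) :
    Q ≤ pCore p G := by
  set K : Set G := {x | ∃ g : G, ∃ q ∈ Q, x = g * q * g⁻¹} with hK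
  have hKconj : ∀ g x, x ∈ K → g * x * g⁻¹ ∈ K := by
    rintro g x ⟨h, q, hq, rfl⟩
    exact ⟨g * h, q, hq, by group⟩
  have hmem : ∀ g x : G, x ∈ Q.map (MulAut.conj g).toMonoidHom ↔ g⁻¹ * x * g ∈ Q :=
    fun g x => Cfsg.Agent.Lib.Helper90.Basic.mem_map_conj_iff Q g x
  have hconjP : ∀ g : G, IsPGroup p (Q.map (MulAut.conj g).toMonoidHom) := fun g => hQ.map _
  have hconjN : ∀ g : G, Q.map (MulAut.conj g).toMonoidHom ≤ N := by
    intro g x hx
    rw [hmem] at hx
    have := ‹N.Normal›.conj_mem _ (hQN hx) g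
    have e : g * (g⁻¹ * x * g) * g⁻¹ = x := by group
    rwa [e] at this
  have hconjnorm : ∀ g : G,
      N ≤ normalizer ((Q.map (MulAut.conj g).toMonoidHom : Subgroup G) : Set G) := by
    intro g m hm
    rw [mem_normalizer_iff]
    intro x
    have hm' : g⁻¹ * m * g ∈ N := by
      have := ‹N.Normal›.conj_mem m hm g⁻¹
      rwa [inv_inv] at this
    show x ∈ Q.map (MulAut.conj g).toMonoidHom ↔ m * x * m⁻¹ ∈ Q.map (MulAut.conj g).toMonoidHom
    rw [hmem, hmem]
    have e : g⁻¹ * (m * x * m⁻¹) * g = (g⁻¹ * m * g) * (g⁻¹ * x * g) * (g⁻¹ * m * g)⁻¹ := by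
      group
    rw [e]
    constructor
    · intro h
      exact hnorm _ hm' _ h
    · intro h
      have := hnorm _ (N.inv_mem hm') _ h
      have e2 : (g⁻¹ * m * g)⁻¹ * ((g⁻¹ * m * g) * (g⁻¹ * x * g) * (g⁻¹ * m * g)⁻¹) *
          (g⁻¹ * m * g)⁻¹⁻¹ = g⁻¹ * x * g := by group
      rwa [e2] at this
  have hpair : ∀ x ∈ K, ∀ y ∈ K, IsPGroup p (closure ({x, y} : Set G)) := by
    rintro x ⟨g, q, hq, rfl⟩ y ⟨h, r, hr, rfl⟩
    have := IsPGroup.to_sup_of_normal_right' (hconjP g) (hconjP h)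
      ((hconjN g).trans (hconjnorm h))
    refine this.to_le ?_
    rw [closure_le]
    rintro z (rfl | hz)
    · refine mem_sup_left ?_
      rw [hmem]
      have e : g⁻¹ * (g * q * g⁻¹) * g = q := by group
      rw [e]; exact hq
    · rw [Set.mem_singleton_iff] at hz
      refine mem_sup_right ?_
      rw [hmem, hz]
      have e : h⁻¹ * (h * r * h⁻¹) * h = r := by group
      rw [e]; exact hr
  have hP := Cfsg.Agent.Lib.Helper67.BaerSuzuki.isPGroup_closure K hKconj hpair
  have hNorm := closure_normal_of_conj K hKconj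
  refine le_trans ?_ (Cfsg.Agent.Lib.Helper90.Basic.le_pCore p _ hNorm hP)
  intro q hq
  exact subset_closure ⟨1, q, hq, by group⟩

/-- For a normal subgroup `N` not meeting `D`: commutators `[n, d]` lie in `O₂(G)`. -/
theorem commutator_mem_pCore [Finite G] (hD : IsRootInvolutionSet D)
    (hc : IsConnectedSet (OddAdj D) D) (hDD : (D ∩ commutingProducts D).Nonempty)
    (N : Subgroup G) [N.Normal] (hN : ∀ x ∈ D, x ∉ N) {d : G} (hd : d ∈ D) {n : G}
    (hn : n ∈ N) : n * d * n⁻¹ * d⁻¹ ∈ pCore 2 G := by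
  set H : Subgroup G := N ⊔ zpowers d with hH
  have hdH : d ∈ H := mem_sup_right (mem_zpowers d)
  have hNH : N ≤ H := le_sup_left
  have hconj : ∀ g ∈ H, ∃ m ∈ N, g * d * g⁻¹ = m * d * m⁻¹ := by
    intro g hg
    have : g ∈ (N : Set G) * (zpowers d : Set G) := by rw [← normal_mul]; exact hg
    obtain ⟨m, hm, z, hz, rfl⟩ := Set.mem_mul.mp this
    refine ⟨m, hm, ?_⟩
    obtain ⟨i, rfl⟩ := mem_zpowers_iff.mp hz
    have hcomm : d ^ i * d = d * d ^ i := ((Commute.refl d).zpow_left i).eq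
    calc m * d ^ i * d * (m * d ^ i)⁻¹ = m * (d ^ i * d) * (d ^ i)⁻¹ * m⁻¹ := by group
      _ = m * (d * d ^ i) * (d ^ i)⁻¹ * m⁻¹ := by rw [hcomm]
      _ = m * d * m⁻¹ := by group
  set K : Set H := {x | ∃ g : H, x = g * ⟨d, hdH⟩ * g⁻¹} with hK
  have hKconj : ∀ (g x : H), x ∈ K → g * x * g⁻¹ ∈ K := by
    rintro g x ⟨h, rfl⟩
    exact ⟨g * h, by group⟩
  have hKD : ∀ x ∈ K, ∃ m ∈ N, (x : G) = m * d * m⁻¹ := by
    rintro x ⟨g, rfl⟩
    obtain ⟨m, hm, h⟩ := hconj g g.2
    exact ⟨m, hm, h⟩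
  have hpair : ∀ x ∈ K, ∀ y ∈ K, IsPGroup 2 (closure ({x, y} : Set H)) := by
    intro x hx y hy
    obtain ⟨m₁, hm₁, hx'⟩ := hKD x hx
    obtain ⟨m₂, hm₂, hy'⟩ := hKD y hy
    have hxD : (x : G) ∈ D := by rw [hx']; exact hD.conj_mem d hd m₁
    have hyD : (y : G) ∈ D := by rw [hy']; exact hD.conj_mem d hd m₂
    have hyx : (y : G) = (m₂ * m₁⁻¹) * (x : G) * (m₂ * m₁⁻¹)⁻¹ := by rw [hx', hy']; group
    have x2 : x * x = 1 := Subtype.ext (mul_self_of_mem hD hxD)
    have y2 : y * y = 1 := Subtype.ext (mul_self_of_mem hD hyD)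
    have key : ∃ k : ℕ, ((x : G) * (y : G)) ^ (2 ^ k) = 1 := by
      rcases hD.pair _ hxD _ hyD with h | h | h
      · refine ⟨1, ?_⟩
        rw [pow_one, pow_two]
        calc (x : G) * ↑y * (↑x * ↑y) = ↑x * (↑y * ↑x) * ↑y := by group
          _ = ↑x * (↑x * ↑y) * ↑y := by rw [h]
          _ = (↑x * ↑x) * (↑y * ↑y) := by group
          _ = 1 := by rw [mul_self_of_mem hD hxD, mul_self_of_mem hD hyD, one_mul]
      · by_cases hxy : (x : G) = y
        · refine ⟨0, ?_⟩
          rw [pow_zero, pow_one, hxy]; exact mul_self_of_mem hD hyD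
        · exfalso
          apply not_adj_conj hD hc hDD N hN hxD (N.mul_mem hm₂ (N.inv_mem hm₁))
          rw [← hyx]
          exact ⟨hxD, hyD, hxy, h⟩
      · refine ⟨2, ?_⟩
        have : (2 : ℕ) ^ 2 = 4 := by norm_num
        rw [this, ← h.1]; exact pow_orderOf_eq_one _
    obtain ⟨k, hk⟩ := key
    exact isPGroup_closure_pair x2 y2 (k := k) (Subtype.ext hk)
  have hP := Cfsg.Agent.Lib.Helper67.BaerSuzuki.isPGroup_closure K hKconj hpair
  have hKnormal := closure_normal_of_conj K hKconj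
  set P : Subgroup G := (closure K).map H.subtype with hPdef
  have hPp : IsPGroup 2 P := hP.map _
  have hQ : IsPGroup 2 ↥(P ⊓ N) := hPp.to_le inf_le_left
  have hQnorm : ∀ m ∈ N, ∀ q ∈ P ⊓ N, m * q * m⁻¹ ∈ P ⊓ N := by
    rintro m hm q ⟨hqP, hqN⟩
    refine ⟨?_, ‹N.Normal›.conj_mem q hqN m⟩
    obtain ⟨q', hq', rfl⟩ := hqP
    exact ⟨⟨m, hNH hm⟩ * q' * ⟨m, hNH hm⟩⁻¹, hKnormal.conj_mem q' hq' _, rfl⟩
  have hle := le_pCore_of_normal_in_normal N (P ⊓ N) inf_le_right hQnorm hQ
  apply hle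
  constructor
  · have h1 : (⟨n, hNH hn⟩ : H) * ⟨d, hdH⟩ * (⟨n, hNH hn⟩ : H)⁻¹ ∈ closure K :=
      subset_closure ⟨_, rfl⟩
    have h2 : (⟨d, hdH⟩ : H) ∈ closure K := subset_closure ⟨1, by group⟩
    exact ⟨_, mul_mem h1 (inv_mem h2), rfl⟩
  · have : n * d * n⁻¹ * d⁻¹ = n * (d * n⁻¹ * d⁻¹) := by group
    rw [this]
    exact N.mul_mem hn (‹N.Normal›.conj_mem _ (N.inv_mem hn) d)

/-- A normal subgroup not meeting `D` lies in `O_{2,Z}(G)`. -/
theorem le_twoZCore [Finite G] (hD : IsRootInvolutionSet D)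
    (hc : IsConnectedSet (OddAdj D) D) (hDD : (D ∩ commutingProducts D).Nonempty)
    (N : Subgroup G) [N.Normal] (hN : ∀ x ∈ D, x ∉ N) : N ≤ twoZCore G := by
  have hpn : (pCore 2 G).Normal := Cfsg.Agent.Lib.Helper90.Basic.pCore_normal (G := G) 2
  intro n hn
  set C : Subgroup G := (Subgroup.centralizer
    {(QuotientGroup.mk n : G ⧸ pCore 2 G)}).comap (QuotientGroup.mk' (pCore 2 G)) with hC
  have hDC : D ⊆ C := by
    intro d hd
    show QuotientGroup.mk' (pCore 2 G) d ∈
      Subgroup.centralizer {(QuotientGroup.mk n : G ⧸ pCore 2 G)}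
    rw [Subgroup.mem_centralizer_iff]
    intro h hh
    rw [Set.mem_singleton_iff] at hh
    subst hh
    show (QuotientGroup.mk n : G ⧸ pCore 2 G) * QuotientGroup.mk d
      = QuotientGroup.mk d * QuotientGroup.mk n
    rw [← QuotientGroup.mk_mul, ← QuotientGroup.mk_mul, QuotientGroup.eq]
    have h1 := commutator_mem_pCore hD hc hDD N hN hd (N.inv_mem hn)
    have h2 := hpn.conj_mem _ h1 d⁻¹
    have e : d⁻¹ * (n⁻¹ * d * n⁻¹⁻¹ * d⁻¹) * d⁻¹⁻¹ = (n * d)⁻¹ * (d * n) := by group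
    rwa [e] at h2
  have hCtop : C = ⊤ := by
    rw [eq_top_iff, ← hD.generates, closure_le]; exact hDC
  show QuotientGroup.mk' (pCore 2 G) n ∈ Subgroup.center (G ⧸ pCore 2 G)
  rw [Subgroup.mem_center_iff]
  intro g
  obtain ⟨g, rfl⟩ := QuotientGroup.mk_surjective g
  have hg : g ∈ C := by rw [hCtop]; trivial
  have := (Subgroup.mem_centralizer_iff.mp hg) _ (Set.mem_singleton _)
  exact this.symm

/-- `O_{2,Z}(G)` does not meet `D`. -/
theorem not_mem_twoZCore [Finite G] (hD : IsRootInvolutionSet D)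
    (hc : IsConnectedSet (OddAdj D) D) (hDD : (D ∩ commutingProducts D).Nonempty) :
    ∀ x ∈ D, x ∉ twoZCore G := by
  have hpn : (pCore 2 G).Normal := Cfsg.Agent.Lib.Helper90.Basic.pCore_normal (G := G) 2
  intro x hx hxZ
  have htop : twoZCore G = ⊤ := eq_top_of_mem hD hc (twoZCore G) hx hxZ
  have hno : ∀ a b, ¬ OddAdj D a b := by
    intro a b hab
    obtain ⟨ha, hb, hne, hodd⟩ := hab
    have haZ : a ∈ twoZCore G := by rw [htop]; trivial
    have h1 := (Subgroup.mem_center_iff.mp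
      (show QuotientGroup.mk' (pCore 2 G) a ∈ Subgroup.center _ from haZ)) (QuotientGroup.mk b)
    have h2 : (b * a)⁻¹ * (a * b) ∈ pCore 2 G := by
      rw [← QuotientGroup.eq]; exact h1
    have ai := inv_of_mem hD ha
    have bi := inv_of_mem hD hb
    have h3 : (a * b) ^ 2 ∈ pCore 2 G := by
      have e : (b * a)⁻¹ * (a * b) = (a * b) ^ 2 := by rw [mul_inv_rev, ai, bi, pow_two]
      rwa [e] at h2
    obtain ⟨k, hk⟩ := (Cfsg.Agent.Lib.Helper90.Basic.pCore_isPGroup (G := G) 2) ⟨_, h3⟩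
    have hk' : ((a * b) ^ 2) ^ (2 ^ k) = 1 := by
      have := congrArg Subtype.val hk
      simpa using this
    have h4 : (a * b) ^ (2 ^ (k + 1)) = 1 := by rw [pow_succ', pow_mul]; exact hk'
    have h5 := eq_one_of_odd_of_pow_two_pow hodd h4
    apply hne
    have : a = b⁻¹ := eq_inv_of_mul_eq_one_left h5
    rw [this, bi]
  have hsing : ∀ a ∈ D, ∀ b ∈ D, a = b := by
    intro a ha b hb
    rcases Relation.ReflTransGen.cases_head (hc a ha b hb) with h | ⟨c, hc', -⟩
    · exact h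
    · exact absurd hc' (hno a c)
  obtain ⟨c, -, a, ha, b, hb, -, hne, -⟩ := hDD
  apply hne
  rw [hsing a ha b hb]; exact mul_self_of_mem hD hb

/-- `G / O_{2,Z}(G)` is simple. -/
theorem isSimpleGroup_quotient [Finite G] (hD : IsRootInvolutionSet D)
    (hc : IsConnectedSet (OddAdj D) D) (hDD : (D ∩ commutingProducts D).Nonempty) :
    IsSimpleGroup (G ⧸ twoZCore G) := by
  obtain ⟨d, hd⟩ : D.Nonempty := let ⟨c, hc', _⟩ := hDD; ⟨c, hc'⟩
  refine { exists_pair_ne := ?_, eq_bot_or_eq_top_of_normal := ?_ }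
  · refine ⟨QuotientGroup.mk d, 1, ?_⟩
    intro h
    exact not_mem_twoZCore hD hc hDD d hd ((QuotientGroup.eq_one_iff d).mp h)
  · intro H hH
    set N : Subgroup G := H.comap (QuotientGroup.mk' (twoZCore G)) with hNdef
    have : N.Normal := Subgroup.Normal.comap hH _
    by_cases h : ∃ x ∈ D, x ∈ N
    · right
      obtain ⟨x, hx, hxN⟩ := h
      have htop := eq_top_of_mem hD hc N hx hxN
      rw [eq_top_iff]
      intro y _
      obtain ⟨g, rfl⟩ := QuotientGroup.mk_surjective y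
      have : g ∈ N := by rw [htop]; trivial
      exact this
    · left
      push Not at h
      have hle := le_twoZCore hD hc hDD N h
      rw [eq_bot_iff]
      intro y hy
      obtain ⟨g, rfl⟩ := QuotientGroup.mk_surjective y
      have : g ∈ N := hy
      rw [Subgroup.mem_bot]
      exact (QuotientGroup.eq_one_iff g).mpr (hle this)

theorem twoZCore_isSolvable [Finite G] : Group.IsSolvable ↥(twoZCore G) := by
  have hpn : (pCore 2 G).Normal := Cfsg.Agent.Lib.Helper90.Basic.pCore_normal (G := G) 2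
  have hle : pCore 2 G ≤ twoZCore G := by
    intro x hx
    show QuotientGroup.mk' (pCore 2 G) x ∈ Subgroup.center _
    have : QuotientGroup.mk' (pCore 2 G) x = 1 := (QuotientGroup.eq_one_iff x).mpr hx
    rw [this]; exact one_mem _
  have : Group.IsSolvable ↥(pCore 2 G) := by
    have : Group.IsNilpotent ↥(pCore 2 G) :=
      (Cfsg.Agent.Lib.Helper90.Basic.pCore_isPGroup (G := G) 2).isNilpotent
    infer_instance
  let f : ↥(pCore 2 G) →* ↥(twoZCore G) := Subgroup.inclusion hle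
  let g : ↥(twoZCore G) →* ↥(Subgroup.center (G ⧸ pCore 2 G)) :=
    ((QuotientGroup.mk' (pCore 2 G)).comp (twoZCore G).subtype).codRestrict _ (fun z => z.2)
  have : Group.IsSolvable ↥(Subgroup.center (G ⧸ pCore 2 G)) :=
    Group.isSolvable_of_comm (fun a b => Subtype.ext (Subgroup.mem_center_iff.mp b.2 a.1))
  refine Group.isSolvable_of_ker_le_range f g ?_
  intro z hz
  rw [MonoidHom.mem_ker] at hz
  have h1 : QuotientGroup.mk' (pCore 2 G) z.1 = 1 := congrArg Subtype.val hz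
  have h2 : z.1 ∈ pCore 2 G := (QuotientGroup.eq_one_iff _).mp h1
  exact ⟨⟨z.1, h2⟩, Subtype.ext rfl⟩

theorem eq_one_of_sq_of_odd {H : Type*} [Group H] {x : H} (h2 : x ^ 2 = 1) {j : ℕ}
    (h : x ^ (2 * j + 1) = 1) : x = 1 := by
  rw [pow_succ, pow_mul, h2, one_pow, one_mul] at h
  exact h

/-- The solvable radical is `O_{2,Z}(G)`. -/
theorem solvableRadical_eq [Finite G] (hD : IsRootInvolutionSet D)
    (hc : IsConnectedSet (OddAdj D) D) (hDD : (D ∩ commutingProducts D).Nonempty) :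
    solvableRadical G = twoZCore G := by
  apply le_antisymm
  · apply sSup_le
    rintro N ⟨hNn, hNs⟩
    have := hNn
    apply le_twoZCore hD hc hDD N
    intro x hx hxN
    exfalso
    have htop := eq_top_of_mem hD hc N hx hxN
    have : Group.IsSolvable G := by
      have := hNs
      exact Group.isSolvable_of_surjective (f := N.subtype)
        (fun y => ⟨⟨y, by rw [htop]; trivial⟩, rfl⟩)
    have := isSimpleGroup_quotient hD hc hDD
    have hcomm : ∀ a b : G ⧸ twoZCore G, a * b = b * a :=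
      IsSimpleGroup.comm_iff_isSolvable.mpr inferInstance
    have hsame : ∀ a b, Relation.ReflTransGen (OddAdj D) a b →
        (QuotientGroup.mk a : G ⧸ twoZCore G) = QuotientGroup.mk b := by
      intro a b h
      induction h with
      | refl => rfl
      | @tail u v _ hbc ih =>
        rw [ih]
        obtain ⟨hb, hc', -, j, hj⟩ := hbc
        rw [QuotientGroup.eq, inv_of_mem hD hb, ← QuotientGroup.eq_one_iff]
        apply eq_one_of_sq_of_odd (j := j)
        · rw [pow_two, QuotientGroup.mk_mul]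
          have h1 := hcomm (QuotientGroup.mk v) (QuotientGroup.mk u)
          calc (QuotientGroup.mk u : G ⧸ twoZCore G) * QuotientGroup.mk v *
                (QuotientGroup.mk u * QuotientGroup.mk v)
              = QuotientGroup.mk u * (QuotientGroup.mk v * QuotientGroup.mk u) *
                QuotientGroup.mk v := by group
            _ = QuotientGroup.mk u * (QuotientGroup.mk u * QuotientGroup.mk v) *
                QuotientGroup.mk v := by rw [h1]
            _ = (QuotientGroup.mk u * QuotientGroup.mk u) *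
                (QuotientGroup.mk v * QuotientGroup.mk v) := by group
            _ = 1 := by
              rw [← QuotientGroup.mk_mul, ← QuotientGroup.mk_mul, mul_self_of_mem hD hb,
                mul_self_of_mem hD hc']
              exact one_mul _
        · rw [← QuotientGroup.mk_pow, ← hj, pow_orderOf_eq_one]; rfl
    have hDD' := hDD
    obtain ⟨c, hcD, a, ha, b, hb, -, -, rfl⟩ := hDD
    apply not_mem_twoZCore hD hc hDD' (a * b) hcD
    rw [← QuotientGroup.eq_one_iff, QuotientGroup.mk_mul, hsame a b (hc a ha b hb),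
      ← QuotientGroup.mk_mul, mul_self_of_mem hD hb]
    rfl
  · apply le_sSup
    exact ⟨inferInstance, twoZCore_isSolvable⟩

end Cfsg.Agent.Lib.Helper83.RootInv2
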