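import Mathlib
import Cfsg.Prelude.Def_RootSubgroups
import Cfsg.Agent.Lib.Helper83.RankOne
import Cfsg.Agent.Lib.Helper83.QuadAct
import Cfsg.Agent.Lib.Helper83.Triple
import Cfsg.Agent.Lib.Helper83.Comp

/-!
# Special rank one pairs from quadratic actions

A rank one group acting on an abelian group so that one unipotent subgroup acts quadratically
and the action is not "doubly trivial" is special.
-/

set_option autoImplicit false

namespace Cfsg.Agent.Lib.Helper83.Special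

open Cfsg Cfsg.Agent.Lib.Helper83.RankOne Cfsg.Agent.Lib.Helper83.QuadAct
open Cfsg.Agent.Lib.Helper83.Triple Cfsg.Agent.Lib.Helper83.Comp

/-- Abstract version: a rank one group `X` acting on an additive abelian group `M`. -/
theorem special_of_action {X : Type*} [Group X] {A B : Subgroup X} (h : IsRankOneGroup X A B)
    {M : Type*} [AddCommGroup M] (ρ : X →* AddMonoid.End M)
    (hq : ∀ a ∈ A, ∀ a' ∈ A, ∀ m : M, ρ a' (ρ a m - m) = ρ a m - m)
    (hX : ∃ x y : X, ∃ m : M, ρ y (ρ x m - m) ≠ ρ x m - m) : IsSpecialRankOnePair A B := by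
  have hA : Quad ρ A := by
    intro u hu u' hu'
    ext m
    have := hq u hu u' hu' m
    show ρ u' (ρ u m - m) - (ρ u m - m) = 0
    rw [this, sub_self]
  have hX' : ∃ x y : X, dd ρ y * dd ρ x ≠ 0 := by
    obtain ⟨x, y, m, hm⟩ := hX
    refine ⟨x, y, fun h0 => hm ?_⟩
    have h1 : ρ y (ρ x m - m) - (ρ x m - m) = 0 := DFunLike.congr_fun h0 m
    exact sub_eq_zero.mp h1
  refine ⟨h.2, ?_⟩
  intro a ha _ b hb _ hab
  exact (special_core h hA hX' ha hb hab).1

open scoped IsMulCommutative in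
/-- Internal version: a rank one pair `A, B` of `G` normalizing an abelian subgroup `V` on which
`A` acts quadratically and `⟨A, B⟩` does not act "doubly trivially". -/
theorem special_of_module {G : Type*} [Group G] {A B V : Subgroup G} (hp : IsRankOnePair A B)
    (hV : Cm V V) (hnA : A ≤ Subgroup.normalizer (V : Set G))
    (hnB : B ≤ Subgroup.normalizer (V : Set G))
    (hquad : ∀ a ∈ A, ∀ a' ∈ A, ∀ v ∈ V, a' * (a * v * a⁻¹ * v⁻¹) = (a * v * a⁻¹ * v⁻¹) * a')
    (hX : ∃ x ∈ A ⊔ B, ∃ y ∈ A ⊔ B, ∃ v ∈ V,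
      y * (x * v * x⁻¹ * v⁻¹) ≠ (x * v * x⁻¹ * v⁻¹) * y) :
    IsSpecialRankOnePair A B := by
  have : IsMulCommutative ↥V := comm_of_cm_self hV
  have hn : A ⊔ B ≤ Subgroup.normalizer (V : Set G) := sup_le hnA hnB
  let ρ : ↥(A ⊔ B) →* AddMonoid.End (Additive ↥V) :=
    { toFun := fun x => AddMonoidHom.mk' (fun v => Additive.ofMul
        (⟨(x : G) * ((Additive.toMul v : ↥V) : G) * (x : G)⁻¹,
          conj_mem_of_le_normalizer hn x.2 (Additive.toMul v).2⟩ : ↥V)) (by
          intro v w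
          apply Additive.toMul.injective
          apply Subtype.ext
          simp)
      map_one' := by
        refine AddMonoidHom.ext (fun v => ?_)
        apply Additive.toMul.injective
        apply Subtype.ext
        show ((1 : ↥(A ⊔ B)) : G) * ((Additive.toMul v : ↥V) : G) * ((1 : ↥(A ⊔ B)) : G)⁻¹
          = ((Additive.toMul v : ↥V) : G)
        simp
      map_mul' := by
        intro x y
        refine AddMonoidHom.ext (fun v => ?_)
        apply Additive.toMul.injective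
        apply Subtype.ext
        show ((x * y : ↥(A ⊔ B)) : G) * ((Additive.toMul v : ↥V) : G) * ((x * y : ↥(A ⊔ B)) : G)⁻¹
          = (x : G) * ((y : G) * ((Additive.toMul v : ↥V) : G) * (y : G)⁻¹) * (x : G)⁻¹
        rw [Subgroup.coe_mul]
        group }
  have hρ : ∀ (x : ↥(A ⊔ B)) (v : Additive ↥V),
      (((Additive.toMul (ρ x v)) : ↥V) : G) = (x : G) * ((Additive.toMul v : ↥V) : G) * (x : G)⁻¹ :=
    fun x v => rfl
  have hsub : ∀ (x : ↥(A ⊔ B)) (v : Additive ↥V),
      (((Additive.toMul (ρ x v - v)) : ↥V) : G)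
        = (x : G) * ((Additive.toMul v : ↥V) : G) * (x : G)⁻¹ * ((Additive.toMul v : ↥V) : G)⁻¹ := by
    intro x v
    rw [toMul_sub, div_eq_mul_inv, Subgroup.coe_mul, Subgroup.coe_inv, hρ]
  have h1 : IsSpecialRankOnePair (A.subgroupOf (A ⊔ B)) (B.subgroupOf (A ⊔ B)) := by
    apply special_of_action (isRankOneGroup_subgroupOf hp) ρ
    · intro a ha a' ha' m
      apply Additive.toMul.injective
      apply Subtype.ext
      rw [hρ, hsub]
      have := hquad a ha a' ha' _ (Additive.toMul m).2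
      rw [this]
      group
    · obtain ⟨x, hx, y, hy, v, hv, hne⟩ := hX
      refine ⟨⟨x, hx⟩, ⟨y, hy⟩, Additive.ofMul ⟨v, hv⟩, ?_⟩
      intro h0
      have h2 := congrArg (fun m : Additive ↥V => ((Additive.toMul m : ↥V) : G)) h0
      rw [hρ, hsub] at h2
      apply hne
      show y * (x * v * x⁻¹ * v⁻¹) = x * v * x⁻¹ * v⁻¹ * y
      have h3 : y * (x * v * x⁻¹ * v⁻¹) * y⁻¹ = x * v * x⁻¹ * v⁻¹ := h2
      calc y * (x * v * x⁻¹ * v⁻¹) = (y * (x * v * x⁻¹ * v⁻¹) * y⁻¹) * y := by group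
        _ = x * v * x⁻¹ * v⁻¹ * y := by rw [h3]
  refine ⟨hp, ?_⟩
  intro a ha ha1 b hb hb1 hab
  have hA' : A ≤ A ⊔ B := le_sup_left
  have hB' : B ≤ A ⊔ B := le_sup_right
  have hab' : conjBy (A.subgroupOf (A ⊔ B)) (⟨b, hB' hb⟩ : ↥(A ⊔ B))⁻¹
      = conjBy (B.subgroupOf (A ⊔ B)) (⟨a, hA' ha⟩ : ↥(A ⊔ B))⁻¹ := by
    ext x
    rw [mem_conjBy, mem_conjBy, Subgroup.mem_subgroupOf, Subgroup.mem_subgroupOf]
    have h2 : (x : G) ∈ conjBy A b⁻¹ ↔ (x : G) ∈ conjBy B a⁻¹ := by rw [hab]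
    rw [mem_conjBy, mem_conjBy] at h2
    simpa using h2
  have h3 := h1.2 ⟨a, hA' ha⟩ (Subgroup.mem_subgroupOf.mpr ha) (fun h => ha1 (congrArg Subtype.val h))
    ⟨b, hB' hb⟩ (Subgroup.mem_subgroupOf.mpr hb) (fun h => hb1 (congrArg Subtype.val h)) hab'
  exact congrArg Subtype.val h3

end Cfsg.Agent.Lib.Helper83.Special
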