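import Mathlib
import Cfsg.Prelude.Def_RootSubgroups
import Cfsg.Prelude.Def_CaseTheorems
import Cfsg.Agent.Lib.Helper83.RankOne
import Cfsg.Agent.Lib.Helper83.RootSub
import Cfsg.Agent.Lib.Helper83.RootSub2
import Cfsg.Agent.Lib.Helper83.Comp
import Cfsg.Agent.Lib.Helper83.QPSimple
import Cfsg.Agent.Lib.Helper83.QPCen
import Cfsg.Agent.Lib.Helper98.RankOneSp2
import Cfsg.Agent.S5017
import Cfsg.Agent.S5025
import Cfsg.Agent.S5032
import Cfsg.Agent.S5034

/-!
# Quasisimplicity criterion for groups generated by abstract root subgroups (helper83)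

`S` a set of abstract root subgroups of `G` with more than one member, `𝓕(S)` connected, different
members having different sets of commuting members, every rank one pair special, and every
member of more than three elements if `S` is degenerate.  Then `G` is perfect (`perfect`), every
normal subgroup is central or everything (`normal_cases`), so `G` is quasisimple (`quasi`).
-/

set_option autoImplicit false
set_option linter.unusedVariables false
set_option linter.unusedSectionVars false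
set_option linter.unusedSimpArgs false
set_option linter.unnecessarySeqFocus false
set_option linter.unreachableTactic false
set_option linter.unusedTactic false
set_option linter.style.haveILetI false

namespace Cfsg.Agent.Lib.Helper83.RootQS

open Cfsg
open Cfsg.Agent.Lib.Helper83.RankOne Cfsg.Agent.Lib.Helper83.RootSub
open Cfsg.Agent.Lib.Helper83.RootSub2 Cfsg.Agent.Lib.Helper83.Comp
open Cfsg.Agent.Lib.Helper98.RankOneSp
open scoped commutatorElement

variable {G : Type*} [Group G] {S : Set (Subgroup G)}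

lemma comm_left_mem {N : Subgroup G} (hN : N.Normal) {x y m : G} (hxy : x * y = y * x)
    (hm : m ∈ N) : ⁅x, m * y⁆ ∈ N := by
  have e : ⁅x, m * y⁆ = (x * m * x⁻¹) * m⁻¹ := by
    rw [commutatorElement_def]
    have h1 : x * (m * y) * x⁻¹ * (m * y)⁻¹ = x * m * (y * x⁻¹) * y⁻¹ * m⁻¹ := by group
    have h2 : y * x⁻¹ = x⁻¹ * y := by
      rw [eq_inv_mul_iff_mul_eq, ← mul_assoc, hxy, mul_inv_cancel_right]
    rw [h1, h2]; group
  rw [e]
  exact N.mul_mem (hN.conj_mem m hm x) (N.inv_mem hm)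

lemma comm_right_mem {N : Subgroup G} (hN : N.Normal) {x y m : G} (hxy : x * y = y * x)
    (hm : m ∈ N) : ⁅m * x, y⁆ ∈ N := by
  have e : ⁅m * x, y⁆ = m * (y * m⁻¹ * y⁻¹) := by
    rw [commutatorElement_def]
    have h1 : m * x * y * (m * x)⁻¹ * y⁻¹ = m * (x * y) * x⁻¹ * m⁻¹ * y⁻¹ := by group
    rw [h1, hxy]; group
  rw [e]
  exact N.mul_mem hm (hN.conj_mem _ (N.inv_mem hm) y)

/-- in a connected family with more than one member every member has a rank one partner -/
theorem exists_partner_of_conn (h2 : ∃ A ∈ S, ∃ B ∈ S, A ≠ B)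
    (h1 : IsConnectedFamily (FAdj S) S) : ∀ A ∈ S, ∃ B ∈ S, IsRankOnePair A B := by
  intro A hA
  obtain ⟨A₀, hA₀, B₀, hB₀, hne⟩ := h2
  obtain ⟨C, hC, hAC⟩ : ∃ C ∈ S, A ≠ C := by
    by_cases h : A = A₀
    · exact ⟨B₀, hB₀, h ▸ hne⟩
    · exact ⟨A₀, hA₀, h⟩
  rcases Relation.ReflTransGen.cases_head (h1 A hA C hC) with h | ⟨B, hAB, -⟩
  · exact absurd h hAC
  · exact ⟨B, hAB.2.1, hAB.2.2⟩

/-- **`G` is perfect** -/
theorem perfect (hS : IsRootSubgroupSet S) (h2 : ∃ A ∈ S, ∃ B ∈ S, A ≠ B)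
    (h1 : IsConnectedFamily (FAdj S) S)
    (h3 : IsDegenerateRootSet S → ∀ A ∈ S, 3 < ENat.card A)
    (h4 : ∀ A ∈ S, ∀ B ∈ rankOnePartners S A, IsSpecialRankOnePair A B) :
    commutator G = ⊤ := by
  have hpart := exists_partner_of_conn h2 h1
  have hcl := ((Cfsg.Agent.S5032.result hS h2).1 h1).1
  by_cases hdeg : IsDegenerateRootSet S
  · have hle : ∀ A ∈ S, A ≤ commutator G := by
      intro A hA
      obtain ⟨B, hB, hp⟩ := hpart A hA
      have hSP : SP A B := SP.of_special hp ⟨hS.commutative A hA, hS.commutative B hB⟩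
        (h4 A hA B ⟨hB, hp⟩)
      have hcard : ¬ ENat.card A ≤ 3 := not_le.2 (h3 hdeg A hA)
      refine (le_comm_diag hSP hcard).trans ?_
      rw [_root_.commutator_def]
      exact Subgroup.commutator_mono le_top le_top
    rw [eq_top_iff, ← hS.generates]
    exact iSup₂_le hle
  · unfold IsDegenerateRootSet at hdeg
    push Not at hdeg
    obtain ⟨A, hA, B, hB, hc⟩ := hdeg
    have hZ : ⁅A, B⁆ ≤ commutator G := by
      rw [_root_.commutator_def]
      exact Subgroup.commutator_mono le_top le_top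
    rw [eq_top_iff, ← hS.generates]
    apply iSup₂_le
    intro C hC
    obtain ⟨g, rfl⟩ := hcl.2 _ hc.1 C hC
    intro x hx
    rw [mem_conjBy] at hx
    have := (inferInstance : (commutator G).Normal).conj_mem _ (hZ hx) g
    have e : g * (g⁻¹ * x * g) * g⁻¹ = x := by group
    rwa [e] at this

/-- **Normal subgroups are central or everything** -/
theorem normal_cases (hS : IsRootSubgroupSet S) (h2 : ∃ A ∈ S, ∃ B ∈ S, A ≠ B)
    (h1 : IsConnectedFamily (FAdj S) S)
    (h2' : ∀ A ∈ S, ∀ C ∈ S, A ≠ C → centralizingMembers S A ≠ centralizingMembers S C)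
    (h3 : IsDegenerateRootSet S → ∀ A ∈ S, 3 < ENat.card A)
    (h4 : ∀ A ∈ S, ∀ B ∈ rankOnePartners S A, IsSpecialRankOnePair A B)
    (N : Subgroup G) (hN : N.Normal) : N ≤ Subgroup.center G ∨ N = ⊤ := by
  by_cases hNtop : N = ⊤
  · right; exact hNtop
  left
  have hpart := exists_partner_of_conn h2 h1
  have hcl := ((Cfsg.Agent.S5032.result hS h2).1 h1).1
  have F1 : ∀ A ∈ S, ¬ A ≤ N := by
    intro A hA hAN
    apply hNtop
    rw [eq_top_iff, ← hS.generates]
    apply iSup₂_le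
    intro C hC
    obtain ⟨g, rfl⟩ := hcl.2 A hA C hC
    intro x hx
    rw [mem_conjBy] at hx
    have := hN.conj_mem _ (hAN hx) g
    have e : g * (g⁻¹ * x * g) * g⁻¹ = x := by group
    rwa [e] at this
  have hnorm : ∀ (A : Subgroup G), ∀ a ∈ A, ∀ n ∈ N, a * n * a⁻¹ ∈ N :=
    fun A a _ n hn => hN.conj_mem n hn a
  have F2 : ∀ A ∈ S, ∀ B ∈ S, IsRankOnePair A B → ¬ B ≤ N ⊔ A := by
    intro A hA B hB hp hle
    have hcommA : ∀ a ∈ A, ∀ b ∈ A, a * b = b * a := fun a ha b hb => by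
      haveI := hS.commutative A hA
      exact setLike_mul_comm ha hb
    have hsup : N ⊔ A ≤ Cfsg.Agent.Lib.Helper83.QPSimple.prodSub N A (hnorm A) :=
      sup_le (Cfsg.Agent.Lib.Helper83.QPSimple.left_le_prodSub _ _ _)
        (Cfsg.Agent.Lib.Helper83.QPSimple.right_le_prodSub _ _ _)
    by_cases hdeg : IsDegenerateRootSet S
    · have hSP : SP A B := SP.of_special hp ⟨hS.commutative A hA, hS.commutative B hB⟩
        (h4 A hA B ⟨hB, hp⟩)
      have hcard : ¬ ENat.card A ≤ 3 := not_le.2 (h3 hdeg A hA)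
      apply F1 A hA
      have hX : A ⊔ B ≤ Cfsg.Agent.Lib.Helper83.QPSimple.prodSub N A (hnorm A) :=
        sup_le (Cfsg.Agent.Lib.Helper83.QPSimple.right_le_prodSub _ _ _) (hle.trans hsup)
      have hd : rankOneDiagonal A B ≤ A ⊔ B := inf_le_left.trans inf_le_left
      exact (le_comm_diag hSP hcard).trans ((Subgroup.commutator_mono (le_sup_left.trans hX)
        (hd.trans hX)).trans
        (Cfsg.Agent.Lib.Helper83.QPSimple.comm_prodSub_le N A (hnorm A) hcommA))
    · have hnd : IsNondegenerateRootSet S := by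
        unfold IsDegenerateRootSet at hdeg
        push Not at hdeg
        obtain ⟨A₀, hA₀, B₀, hB₀, hc⟩ := hdeg
        refine ⟨⟨A₀, hA₀, ⁅A₀, B₀⁆, hc.1, ne_commutator_of_commCase hS hc, ?_⟩,
          ⟨A, hA, B, hB, hp⟩, ⟨A₀, hA₀, B₀, hB₀, hc⟩⟩
        apply commutator_eq_bot_of_comm
        intro a ha z hz
        exact (hc.2.1 z hz a (Subgroup.mem_sup_left ha)).symm
      obtain ⟨⟨C, hCl, hCc⟩, -⟩ := Cfsg.Agent.S5034.result ⟨hS, hcl⟩ hnd hA ⟨hB, hp⟩
      have hAC : ⁅A, C⁆ = ⊥ := hCl.1.2.2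
      apply F1 _ hCc.2
      rw [Subgroup.commutator_le]
      intro b hb c hc
      obtain ⟨n, hn, a, ha, rfl⟩ := hsup (hle hb)
      exact comm_right_mem hN (comm_of_commutator_eq_bot hAC ha hc) hn
  have F3 : ∀ A ∈ S, ∀ B ∈ S, IsRankOnePair A B → ∀ x ∈ N, x ∈ A ⊔ B →
      ∀ y ∈ A ⊔ B, x * y = y * x := by
    intro A hA B hB hp x hxN hxX y hy
    have hR := isRankOneGroup_subgroupOf hp
    haveI : (N.subgroupOf (A ⊔ B)).Normal := hN.subgroupOf _
    rcases (Cfsg.Agent.S5017.result hR).1 (N.subgroupOf (A ⊔ B)) inferInstance with h | h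
    · exfalso
      apply F2 A hA B hB hp
      intro b hb
      have hb' : (⟨b, Subgroup.mem_sup_right hb⟩ : ↥(A ⊔ B)) ∈
          N.subgroupOf (A ⊔ B) ⊔ A.subgroupOf (A ⊔ B) := by rw [h]; trivial
      have h5 : b ∈ (N.subgroupOf (A ⊔ B) ⊔ A.subgroupOf (A ⊔ B)).map (A ⊔ B).subtype :=
        ⟨_, hb', rfl⟩
      rw [Subgroup.map_sup] at h5
      have hle1 : (N.subgroupOf (A ⊔ B)).map (A ⊔ B).subtype ≤ N := by
        rintro _ ⟨z, hz, rfl⟩
        exact Subgroup.mem_subgroupOf.1 hz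
      have hle2 : (A.subgroupOf (A ⊔ B)).map (A ⊔ B).subtype ≤ A := by
        rintro _ ⟨z, hz, rfl⟩
        exact Subgroup.mem_subgroupOf.1 hz
      exact (sup_le_sup hle1 hle2 : _ ≤ N ⊔ A) h5
    · have hx' : (⟨x, hxX⟩ : ↥(A ⊔ B)) ∈ N.subgroupOf (A ⊔ B) := Subgroup.mem_subgroupOf.2 hxN
      have := Subgroup.mem_center_iff.1 (h hx') ⟨y, hy⟩
      exact (congrArg Subtype.val this).symm
  have D3 : ∀ A ∈ S, ∀ B ∈ S, IsRankOnePair A B → ∀ a ∈ A, ∀ b ∈ B, b ≠ 1 →
      a * b = b * a → a = 1 := by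
    intro A hA B hB hp a ha b hb hb1 hab
    apply eq_one_of_conjBy_eq hp ha
    have hbc : b ∈ conjBy B a := by
      rw [mem_conjBy]
      have : a⁻¹ * b * a = b := by rw [mul_assoc, ← hab, inv_mul_cancel_left]
      rw [this]; exact hb
    rcases inf_eq_bot_or_eq hS hB hA (RankOnePair_symm hp) (hS.conj_mem B hB a) with h | h
    · exfalso
      apply hb1
      have : b ∈ B ⊓ conjBy B a := ⟨hb, hbc⟩
      rw [h, Subgroup.mem_bot] at this
      exact this
    · exact h.symm
  have F3' : ∀ A ∈ S, ∀ a ∈ A, a ∈ N → a = 1 := by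
    intro A hA a ha haN
    obtain ⟨B, hB, hp⟩ := hpart A hA
    obtain ⟨b, hb, hb1⟩ := exists_mem_ne_one (right_ne_bot hp)
    exact D3 A hA B hB hp a ha b hb hb1
      (F3 A hA B hB hp a haN (Subgroup.mem_sup_left ha) b (Subgroup.mem_sup_right hb))
  have F5 : ∀ A ∈ S, ∀ C ∈ S, ⁅C, A⁆ = ⊥ → ∀ n ∈ N, ⁅C, conjBy A n⁆ = ⊥ := by
    intro A hA C hC hCA n hn
    have hD : conjBy A n ∈ S := hS.conj_mem A hA n
    have key : ∀ c ∈ C, ∀ d ∈ conjBy A n, ⁅c, d⁆ ∈ N := by
      intro c hc d hd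
      rw [mem_conjBy] at hd
      have e : d = (d * n⁻¹ * d⁻¹ * n) * (n⁻¹ * d * n) := by group
      rw [e]
      exact comm_left_mem hN (comm_of_commutator_eq_bot hCA hc hd)
        (N.mul_mem (hN.conj_mem _ (N.inv_mem hn) d) hn)
    rcases hS.pair C hC _ hD with h | h | h
    · exact h
    · exfalso
      obtain ⟨c, hc, hc1⟩ := exists_mem_ne_one (left_ne_bot h)
      obtain ⟨d, hd, hd1⟩ := exists_mem_ne_one (right_ne_bot h)
      have hzN := key c hc d hd
      have hzX : ⁅c, d⁆ ∈ C ⊔ conjBy A n := by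
        rw [commutatorElement_def]
        exact Subgroup.mul_mem _ (Subgroup.mul_mem _ (Subgroup.mul_mem _
          (Subgroup.mem_sup_left hc) (Subgroup.mem_sup_right hd))
          (Subgroup.inv_mem _ (Subgroup.mem_sup_left hc)))
          (Subgroup.inv_mem _ (Subgroup.mem_sup_right hd))
      have hzc := F3 C hC _ hD h _ hzN hzX
      by_cases hz1 : ⁅c, d⁆ = 1
      · rw [commutatorElement_eq_one_iff_mul_comm] at hz1
        exact hc1 (D3 C hC _ hD h c hc d hd hd1 hz1)
      · have hzcent : ⁅c, d⁆ ∈ Subgroup.centralizer ((C ⊔ conjBy A n : Subgroup G) : Set G) := by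
          rw [Subgroup.mem_centralizer_iff]
          intro y hy
          exact (hzc y hy).symm
        have h5 := Cfsg.Agent.S5025.result hS hC ⟨hD, h⟩ hzcent hz1 c⁻¹ (C.inv_mem hc)
          (fun h => hc1 (inv_eq_one.1 h))
        apply h5
        have e : ⁅c, d⁆ * c⁻¹ = c * (d * c⁻¹ * d⁻¹) * c⁻¹ := by
          rw [commutatorElement_def]; group
        refine ⟨?_, conjBy (conjBy C d) c, hS.conj_mem _ (hS.conj_mem C hC d) c, ?_⟩
        · intro h1
          apply hc1
          rw [e] at h1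
          have h6 : d * c⁻¹ * d⁻¹ = 1 := by
            have := congrArg (fun t => c⁻¹ * t * c) h1
            simpa [mul_assoc] using this
          have h7 : c⁻¹ = 1 := by
            have := congrArg (fun t => d⁻¹ * t * d) h6
            simpa [mul_assoc] using this
          exact inv_eq_one.1 h7
        · rw [e]
          exact conj_mem_conjBy (conj_mem_conjBy (C.inv_mem hc) d) c
    · exfalso
      apply F1 _ h.1
      rw [Subgroup.commutator_le]
      exact key
  have F6 : ∀ A ∈ S, ∀ n ∈ N, conjBy A n = A := by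
    intro A hA n hn
    by_contra hne
    apply h2' A hA (conjBy A n) (hS.conj_mem A hA n) (fun h => hne h.symm)
    ext C
    show (C ∈ S ∧ C ≤ Subgroup.centralizer (A : Set G)) ↔
      (C ∈ S ∧ C ≤ Subgroup.centralizer ((conjBy A n : Subgroup G) : Set G))
    constructor
    · rintro ⟨hC, hle⟩
      refine ⟨hC, ?_⟩
      rw [← Subgroup.commutator_eq_bot_iff_le_centralizer] at hle ⊢
      exact F5 A hA C hC hle n hn
    · rintro ⟨hC, hle⟩
      refine ⟨hC, ?_⟩
      rw [← Subgroup.commutator_eq_bot_iff_le_centralizer] at hle ⊢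
      have := F5 _ (hS.conj_mem A hA n) C hC hle n⁻¹ (N.inv_mem hn)
      rwa [conjBy_inv_cancel] at this
  intro n hn
  rw [Subgroup.mem_center_iff]
  intro g
  have hcent : (⊤ : Subgroup G) ≤ Subgroup.centralizer {n} := by
    rw [← hS.generates]
    apply iSup₂_le
    intro A hA a ha
    rw [Subgroup.mem_centralizer_iff]
    intro y hy
    rw [Set.mem_singleton_iff] at hy
    rw [hy]
    have hx : n * a * n⁻¹ * a⁻¹ = 1 := by
      apply F3' A hA
      · have h1 : n * a * n⁻¹ ∈ conjBy A n := conj_mem_conjBy ha n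
        rw [F6 A hA n hn] at h1
        exact A.mul_mem h1 (A.inv_mem ha)
      · have e : n * a * n⁻¹ * a⁻¹ = n * (a * n⁻¹ * a⁻¹) := by group
        rw [e]
        exact N.mul_mem hn (hN.conj_mem _ (N.inv_mem hn) a)
    have e : n * a = (n * a * n⁻¹ * a⁻¹) * (a * n) := by group
    rw [e, hx, one_mul]
  exact (Subgroup.mem_centralizer_iff.1 (hcent (Subgroup.mem_top g)) n rfl).symm

/-- **Quasisimplicity criterion** -/
theorem quasi (hS : IsRootSubgroupSet S) (h2 : ∃ A ∈ S, ∃ B ∈ S, A ≠ B)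
    (h1 : IsConnectedFamily (FAdj S) S)
    (h2' : ∀ A ∈ S, ∀ C ∈ S, A ≠ C → centralizingMembers S A ≠ centralizingMembers S C)
    (h3 : IsDegenerateRootSet S → ∀ A ∈ S, 3 < ENat.card A)
    (h4 : ∀ A ∈ S, ∀ B ∈ rankOnePartners S A, IsSpecialRankOnePair A B) :
    commutator G = ⊤ ∧ IsQuasisimple G := by
  have hperf := perfect hS h2 h1 h3 h4
  refine ⟨hperf, Group.isPerfect_def.2 hperf, ?_⟩
  have hnt : Nontrivial G := by
    obtain ⟨A, hA, -⟩ := h2
    obtain ⟨a, ha, ha1⟩ := exists_mem_ne_one (hS.ne_bot A hA)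
    exact ⟨⟨a, 1, ha1⟩⟩
  exact Cfsg.Agent.Lib.Helper83.QPSimple.simple_quot hperf hnt
    (fun N hN => normal_cases hS h2 h1 h2' h3 h4 N hN)

end Cfsg.Agent.Lib.Helper83.RootQS
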