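import Mathlib
import Cfsg.Prelude.Def_RootSubgroups
import Cfsg.Prelude.Def_Classical
import Cfsg.Agent.Lib.Helper83.SgStmt
import Cfsg.Agent.Lib.Helper83.Triple
import Cfsg.Agent.Lib.Helper83.Line

/-!
# S5072: assembly of the Siegel transvection pieces
-/

set_option autoImplicit false
open Matrix

namespace Cfsg.Agent.Lib.Helper83.SgMain

open Cfsg Cfsg.Agent.Lib.Helper83.SgStmt Cfsg.Agent.Lib.Helper83.Triple
  Cfsg.Agent.Lib.Helper83.Line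

universe u

theorem pair_cases (hSIEG : SIEG.{u}) (hSPAN : SPAN.{u}) (hNORM : NORM.{u}) (hC0 : C0.{u})
    (hR1A : R1A.{u}) (hR1B : R1B.{u}) (hR2 : R2.{u})
    (m : ℕ) (F : Type u) [Field F] (p r p' r' : Vec m F) (h : IsLine m F p r)
    (h' : IsLine m F p' r') :
    ⁅Sg m F p r, Sg m F p' r'⁆ = ⊥ ∨
    (IsRankOnePair (Sg m F p r) (Sg m F p' r') ∧ IsPSL2PairOver F (Sg m F p r) (Sg m F p' r')) ∨
    RootCommutatorCase (Sig m F) (Sg m F p r) (Sg m F p' r') := by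
  rcases hNORM m F p r p' r' h h' with h0 | h2 | ⟨p₁, r₁, r₁', hl, hl', hs, hs'⟩ |
    ⟨p₁, r₁, p₁', r₁', hl, hl', hs, hs', e1, e2, e3, e4, hli⟩
  · exact Or.inl (hC0 hSIEG m F p r p' r' h h' h0.1 h0.2.1 h0.2.2.1 h0.2.2.2)
  · exact Or.inr (Or.inl (hR2 hSIEG hSPAN m F p r p' r' h h' h2))
  · left
    rw [← hSPAN m F p r p₁ r₁ hs, ← hSPAN m F p' r' p₁ r₁' hs']
    exact hR1A hSIEG m F p₁ r₁ r₁' hl hl'
  · right; right
    rw [← hSPAN m F p r p₁ r₁ hs, ← hSPAN m F p' r' p₁' r₁' hs']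
    exact hR1B hSIEG m F p₁ r₁ p₁' r₁' hl hl' e1 e2 e3 e4 hli

/-- S5072 from the pieces. -/
theorem assembly (hE : SIEGE.{u}) (hG : SIEGG.{u}) (hC : SIEGC.{u}) (hSPAN : SPAN.{u})
    (hCOMMU : COMMU.{u}) (hNEBOT : NEBOT.{u}) (hCONJ : CONJ.{u}) (hNORM : NORM.{u})
    (hC0 : C0.{u}) (hR1A : R1A.{u}) (hR1B : R1B.{u}) (hR2 : R2.{u}) (hCO : CO.{u})
    (hEXCL : EXCL.{u}) (hTR : TR.{u, u}) (F : Type u) [Field F] (m : ℕ) :
    Cfsg.IsKRootSubgroupSet F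
      ((fun A : Subgroup (OG m F) => A.subgroupOf (⨆ B ∈ Sig m F, B)) '' Sig m F) ∧
    Cfsg.IsConnectedFamily (Cfsg.FAdj (Sig m F)) (Sig m F) := by
  have hSIEG : SIEG.{u} := ⟨hE, hC hG⟩
  have hpc := pair_cases hSIEG hSPAN hNORM hC0 hR1A hR1B hR2
  have hcomm : ∀ A ∈ Sig m F, IsMulCommutative ↥A := by
    intro A hA
    obtain ⟨p, r, hl, rfl⟩ := (mem_Sig m F).1 hA
    exact hCOMMU hSIEG m F p r hl
  constructor
  · apply hTR (OG m F) F (Sig m F) hcomm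
    · intro A hA
      obtain ⟨p, r, hl, rfl⟩ := (mem_Sig m F).1 hA
      exact hNEBOT hSIEG m F p r hl
    · intro A hA g
      obtain ⟨p, r, hl, rfl⟩ := (mem_Sig m F).1 hA
      obtain ⟨h1, h2⟩ := hCONJ m F p r hl g
      rw [h2]
      exact (mem_Sig m F).2 ⟨_, _, h1, rfl⟩
    · intro A hA B hB
      obtain ⟨p, r, hl, rfl⟩ := (mem_Sig m F).1 hA
      obtain ⟨p', r', hl', rfl⟩ := (mem_Sig m F).1 hB
      rcases hpc m F p r p' r' hl hl' with h | h | h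
      · exact Or.inl h
      · exact Or.inr (Or.inl h.1)
      · exact Or.inr (Or.inr h)
    · intro A hA B hB hp
      obtain ⟨p, r, hl, rfl⟩ := (mem_Sig m F).1 hA
      obtain ⟨p', r', hl', rfl⟩ := (mem_Sig m F).1 hB
      rcases hpc m F p r p' r' hl hl' with h | h | h
      · exact absurd (cm_iff_bot.2 h) (not_cm_of_rankOne hp)
      · exact h.2
      · exact absurd hp (hEXCL _ _ _ _ (hcomm _ hA) (hcomm _ hB) h)
  · intro A hA B hB
    obtain ⟨p, r, hl, rfl⟩ := (mem_Sig m F).1 hA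
    obtain ⟨p', r', hl', rfl⟩ := (mem_Sig m F).1 hB
    obtain ⟨x, y, hxy, d1, d2⟩ := hCO m F p r p' r' hl hl'
    have hC' : Sg m F x y ∈ Sig m F := (mem_Sig m F).2 ⟨x, y, hxy, rfl⟩
    have r1 := (hR2 hSIEG hSPAN m F p r x y hl hxy d1).1
    have r2 := (hR2 hSIEG hSPAN m F p' r' x y hl' hxy d2).1
    exact (Relation.ReflTransGen.single ⟨hA, hC', r1⟩).tail ⟨hC', hB, RankOnePair_symm r2⟩

end Cfsg.Agent.Lib.Helper83.SgMain
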