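import Mathlib
import Cfsg.Prelude.Def_OddOrderLocal
import Cfsg.Agent.Lib.Helper31.SigBasic

set_option autoImplicit false

/-!
helper83: the TI-set `Ẑ = K K* ∖ (K ∪ K*)` of a maximal subgroup `M = K U M_σ` with `K ≠ 1`
(statements S1370, S1371), proved from an abstract package `Hyp` of the facts used (ClaimC,
S1404, S1354, `M' ≤ M_σ U`, ...), so that this file does not depend on the Bender–Glauberman
libraries.  The statement files instantiate `Hyp`.
-/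

open Cfsg

namespace Cfsg.Agent.Lib.Helper83.ZhatCore

universe u

/-- The facts about `M = K U M_σ` used below. -/
structure Hyp {G : Type u} [Group G] (M K U : Subgroup G) : Prop where
  hall : Cfsg.IsPiHallOf (Cfsg.kappa M) K M
  claimC : ∀ x x' : G, x ∈ Cfsg.sigmaCore M → x ≠ 1 → x' ∈ M → x' * x = x * x' →
    (orderOf x').Prime → orderOf x' ∈ Cfsg.kappa M → Subgroup.centralizer ({x} : Set G) ≤ M
  fusion : ∀ (p : ℕ) [Fact p.Prime], p ∈ Cfsg.sigma M → ∀ X : Subgroup G, IsPGroup p X →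
    X ≠ ⊥ → X ≤ M → ∀ g : G, X.map (MulAut.conj g).toMonoidHom ≤ M →
    ∃ m ∈ M, ∃ c ∈ Subgroup.centralizer (X : Set G), g = m * c
  sig : ∀ q : ℕ, q.Prime → q ∣ Nat.card (Cfsg.sigmaCore M) → q ∈ Cfsg.sigma M
  cent : Cfsg.sigmaCore M ⊓ Subgroup.centralizer (K : Set G) ≠ ⊥ ∧
      (K ≠ ⊥ → ∀ k ∈ K, k ≠ 1 →
        M ⊓ Subgroup.centralizer ({k} : Set G) =
          K ⊔ (Cfsg.sigmaCore M ⊓ Subgroup.centralizer (K : Set G)))
  compl : Cfsg.IsComplIn (Cfsg.sigmaCore M ⊔ U) K M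
  comm : ⁅M, M⁆ ≤ Cfsg.sigmaCore M ⊔ U
  sle : Cfsg.sigmaCore M ≤ M
  snorm : M ≤ Subgroup.normalizer (Cfsg.sigmaCore M : Set G)

variable {G : Type u} [Group G] [Finite G]

theorem Hyp.coprime {M K U : Subgroup G} (h : Hyp M K U) :
    (Nat.card K).Coprime
      (Nat.card ↥(Cfsg.sigmaCore M ⊓ Subgroup.centralizer (K : Set G))) := by
  have h1 : (Nat.card K).Coprime (Nat.card (Cfsg.sigmaCore M)) := by
    apply Nat.coprime_of_dvd
    intro q hq hqm hqS
    exact (h.hall.2.1 q hq hqm).2.2.1 (h.sig q hq hqS)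
  exact Nat.Coprime.coprime_dvd_right (Subgroup.card_dvd_of_le inf_le_left) h1

/-- Cauchy inside a nontrivial subgroup. -/
theorem exists_prime_order_mem (K : Subgroup G) (hK1 : K ≠ ⊥) :
    ∃ k ∈ K, (orderOf k).Prime := by
  obtain ⟨x, hxK, hx1⟩ : ∃ x ∈ K, x ≠ 1 := by
    obtain ⟨x, hx⟩ := (Subgroup.ne_bot_iff_exists_ne_one (H := K)).1 hK1
    exact ⟨(x : G), x.2, fun h => hx (Subtype.ext h)⟩
  have hne : orderOf x ≠ 1 := fun h => hx1 (orderOf_eq_one_iff.1 h)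
  obtain ⟨p, hp, hpd⟩ := Nat.exists_prime_and_dvd hne
  have hpos : orderOf x ≠ 0 := (orderOf_pos x).ne'
  exact ⟨x ^ (orderOf x / p), K.pow_mem hxK _, by rw [orderOf_pow_orderOf_div hpos hpd]; exact hp⟩

/-- `C_G(x) ≤ M` for `1 ≠ x ∈ K* = C_{M_σ}(K)`. -/
theorem cent_le {M K U : Subgroup G} (h : Hyp M K U) (hK1 : K ≠ ⊥)
    (x : G) (hx : x ∈ Cfsg.sigmaCore M ⊓ Subgroup.centralizer (K : Set G)) (hx1 : x ≠ 1) :
    Subgroup.centralizer ({x} : Set G) ≤ M := by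
  obtain ⟨k, hkK, hkp⟩ := exists_prime_order_mem K hK1
  have hkap : orderOf k ∈ Cfsg.kappa M :=
    h.hall.2.1 _ hkp (Subgroup.orderOf_dvd_natCard K hkK)
  have hcomm : k * x = x * k := (Subgroup.mem_centralizer_iff.1 hx.2) k hkK
  exact h.claimC x k hx.1 hx1 (h.hall.1 hkK) hcomm hkp hkap

/-- Fusion: `1 ≠ x ∈ K*`, `g x g⁻¹ ∈ M` ⟹ `g ∈ M`. -/
theorem fus_mem {M K U : Subgroup G} (h : Hyp M K U) (hK1 : K ≠ ⊥)
    (x : G) (hx : x ∈ Cfsg.sigmaCore M ⊓ Subgroup.centralizer (K : Set G)) (hx1 : x ≠ 1)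
    (g : G) (hg : g * x * g⁻¹ ∈ M) : g ∈ M := by
  have hne : orderOf x ≠ 1 := fun h => hx1 (orderOf_eq_one_iff.1 h)
  obtain ⟨p, hp, hpd⟩ := Nat.exists_prime_and_dvd hne
  have hpos : orderOf x ≠ 0 := (orderOf_pos x).ne'
  set x₀ : G := x ^ (orderOf x / p) with hx₀
  have hord : orderOf x₀ = p := orderOf_pow_orderOf_div hpos hpd
  have hx₀mem : x₀ ∈ Cfsg.sigmaCore M ⊓ Subgroup.centralizer (K : Set G) := Subgroup.pow_mem _ hx _
  have hx₀1 : x₀ ≠ 1 := by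
    intro h'
    rw [h', orderOf_one] at hord
    exact hp.one_lt.ne hord
  have hSM : Cfsg.sigmaCore M ≤ M := h.sle
  have : Fact p.Prime := ⟨hp⟩
  have hpσ : p ∈ Cfsg.sigma M := by
    apply h.sig p hp
    rw [← hord]
    exact Subgroup.orderOf_dvd_natCard _ hx₀mem.1
  have hXp : IsPGroup p (Subgroup.zpowers x₀) := by
    apply IsPGroup.of_card (n := 1)
    rw [Nat.card_zpowers, hord, pow_one]
  have hX1 : Subgroup.zpowers x₀ ≠ ⊥ := by
    intro h'
    exact hx₀1 (Subgroup.zpowers_eq_bot.1 h')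
  have hXM : Subgroup.zpowers x₀ ≤ M := (Subgroup.zpowers_le).2 (hSM hx₀mem.1)
  have hmap : (Subgroup.zpowers x₀).map (MulAut.conj g).toMonoidHom ≤ M := by
    have h1 : Subgroup.zpowers x₀ ≤ Subgroup.zpowers x :=
      (Subgroup.zpowers_le).2 (Subgroup.pow_mem _ (Subgroup.mem_zpowers x) _)
    refine (Subgroup.map_mono h1).trans ?_
    rw [MonoidHom.map_zpowers]
    apply (Subgroup.zpowers_le).2
    simpa [MulAut.conj_apply] using hg
  obtain ⟨m, hm, c, hc, rfl⟩ := h.fusion p hpσ (Subgroup.zpowers x₀) hXp hX1 hXM g hmap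
  have hcM : c ∈ M := by
    apply cent_le h hK1 x₀ hx₀mem hx₀1
    rw [Subgroup.mem_centralizer_iff]
    intro y hy
    rw [Set.mem_singleton_iff] at hy
    subst hy
    exact (Subgroup.mem_centralizer_iff.1 hc) _ (Subgroup.mem_zpowers _)
  exact M.mul_mem hm hcM

/-- A power coprime to the order is nontrivial. -/
theorem pow_ne_one_of_coprime (H : Subgroup G) (s : G) (hs : s ∈ H)
    (hs1 : s ≠ 1) (a : ℕ) (hab : a.Coprime (Nat.card H)) : s ^ a ≠ 1 := by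
  intro h
  have h1 : orderOf s ∣ a := orderOf_dvd_of_pow_eq_one h
  have h2 : orderOf s ∣ Nat.card H := Subgroup.orderOf_dvd_natCard H hs
  have h3 : orderOf s = 1 := Nat.eq_one_of_dvd_coprimes hab h1 h2
  exact hs1 (orderOf_eq_one_iff.1 h3)

/-- The core step: if `z ∈ Z ∖ (K ∪ K*)` and `g z g⁻¹ ∈ Z` then `g ∈ Z`. -/
theorem core {M K U : Subgroup G} (h : Hyp M K U) (hK1 : K ≠ ⊥) (z g : G)
    (hz : z ∈ K ⊔ (Cfsg.sigmaCore M ⊓ Subgroup.centralizer (K : Set G)))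
    (hzK : z ∉ K) (hzKs : z ∉ Cfsg.sigmaCore M ⊓ Subgroup.centralizer (K : Set G))
    (hw : g * z * g⁻¹ ∈ K ⊔ (Cfsg.sigmaCore M ⊓ Subgroup.centralizer (K : Set G))) :
    g ∈ K ⊔ (Cfsg.sigmaCore M ⊓ Subgroup.centralizer (K : Set G)) := by
  have hK := h.hall
  have hcop := h.coprime
  set Ks : Subgroup G := Cfsg.sigmaCore M ⊓ Subgroup.centralizer (K : Set G) with hKs
  have hKM : K ≤ M := hK.1
  have hSM : Cfsg.sigmaCore M ≤ M := h.sle
  have hKsM : Ks ≤ M := inf_le_left.trans hSM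
  have hnorm : Ks ≤ Subgroup.normalizer (K : Set G) :=
    inf_le_right.trans (Subgroup.centralizer_le_normalizer _)
  have hcomm : ∀ k ∈ K, ∀ s ∈ Ks, k * s = s * k := fun k hk s hs =>
    (Subgroup.mem_centralizer_iff.1 hs.2) k hk
  have hpowK : ∀ k ∈ K, k ^ Nat.card K = 1 := fun k hk =>
    orderOf_dvd_iff_pow_eq_one.1 (Subgroup.orderOf_dvd_natCard K hk)
  have hpowKs : ∀ s ∈ Ks, s ^ Nat.card Ks = 1 := fun s hs =>
    orderOf_dvd_iff_pow_eq_one.1 (Subgroup.orderOf_dvd_natCard Ks hs)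
  obtain ⟨k, hk, s, hs, rfl⟩ :=
    Cfsg.Agent.Lib.Helper31.SigBasic.mem_sup_of_le_normalizer K Ks hnorm hz
  obtain ⟨k', hk', s', hs', hw'⟩ :=
    Cfsg.Agent.Lib.Helper31.SigBasic.mem_sup_of_le_normalizer K Ks hnorm hw
  have hs1 : s ≠ 1 := by
    rintro rfl
    exact hzK (by simpa using hk)
  have hk1 : k ≠ 1 := by
    rintro rfl
    exact hzKs (by simpa using hs)
  have hks : Commute k s := hcomm k hk s hs
  have hks' : Commute k' s' := hcomm k' hk' s' hs'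
  -- step 1: g ∈ M
  have hgM : g ∈ M := by
    have hx : s ^ Nat.card K ∈ Ks := Ks.pow_mem hs _
    have hx1 : s ^ Nat.card K ≠ 1 := pow_ne_one_of_coprime Ks s hs hs1 _ hcop
    apply fus_mem h hK1 (s ^ Nat.card K) hx hx1 g
    have e1 : (k * s) ^ Nat.card K = s ^ Nat.card K := by
      rw [hks.mul_pow, hpowK k hk, one_mul]
    have e2 : (k' * s') ^ Nat.card K = s' ^ Nat.card K := by
      rw [hks'.mul_pow, hpowK k' hk', one_mul]
    have e3 : g * s ^ Nat.card K * g⁻¹ = s' ^ Nat.card K := by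
      rw [← e1, ← conj_pow, hw', e2]
    rw [e3]
    exact hKsM (Ks.pow_mem hs' _)
  -- step 2: g centralizes k₁ = k ^ |K*|
  have hk₁ : k ^ Nat.card Ks ∈ K := K.pow_mem hk _
  have hk₁1 : k ^ Nat.card Ks ≠ 1 := pow_ne_one_of_coprime K k hk hk1 _ hcop.symm
  have e1 : (k * s) ^ Nat.card Ks = k ^ Nat.card Ks := by
    rw [hks.mul_pow, hpowKs s hs, mul_one]
  have e2 : (k' * s') ^ Nat.card Ks = k' ^ Nat.card Ks := by
    rw [hks'.mul_pow, hpowKs s' hs', mul_one]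
  have e3 : g * k ^ Nat.card Ks * g⁻¹ = k' ^ Nat.card Ks := by
    rw [← e1, ← conj_pow, hw', e2]
  have hcomp := h.compl
  have hcommN := h.comm
  have hmemN : g * k ^ Nat.card Ks * g⁻¹ * (k ^ Nat.card Ks)⁻¹ ∈ Cfsg.sigmaCore M ⊔ U :=
    hcommN (Subgroup.commutator_mem_commutator hgM (hKM hk₁))
  have hmemK : g * k ^ Nat.card Ks * g⁻¹ * (k ^ Nat.card Ks)⁻¹ ∈ K := by
    rw [e3]
    exact K.mul_mem (K.pow_mem hk' _) (K.inv_mem hk₁)
  have hone : g * k ^ Nat.card Ks * g⁻¹ * (k ^ Nat.card Ks)⁻¹ = 1 := by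
    have : g * k ^ Nat.card Ks * g⁻¹ * (k ^ Nat.card Ks)⁻¹ ∈ (Cfsg.sigmaCore M ⊔ U) ⊓ K :=
      ⟨hmemN, hmemK⟩
    rw [hcomp.2.2.1] at this
    exact (Subgroup.mem_bot).1 this
  have hcen : g ∈ Subgroup.centralizer ({k ^ Nat.card Ks} : Set G) := by
    rw [Subgroup.mem_centralizer_iff]
    intro y hy
    rw [Set.mem_singleton_iff] at hy
    subst hy
    have h2 : g * k ^ Nat.card Ks * g⁻¹ = k ^ Nat.card Ks := mul_inv_eq_one.1 hone
    calc k ^ Nat.card Ks * g = (g * k ^ Nat.card Ks * g⁻¹) * g := by rw [h2]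
      _ = g * k ^ Nat.card Ks := by group
  have hfin := h.cent.2 hK1 (k ^ Nat.card Ks) hk₁ hk₁1
  rw [← hfin]
  exact ⟨hgM, hcen⟩

/-- S1370 from `Hyp`. -/
theorem s1370 {M K U : Subgroup G} (h : Hyp M K U) (hK1 : K ≠ ⊥) :
    Cfsg.IsTISubset ((↑(K ⊔ (Cfsg.sigmaCore M ⊓ Subgroup.centralizer (K : Set G))) : Set G) \ ((K : Set G) ∪ ↑(Cfsg.sigmaCore M ⊓ Subgroup.centralizer (K : Set G)))) ∧ Subgroup.normalizer ((↑(K ⊔ (Cfsg.sigmaCore M ⊓ Subgroup.centralizer (K : Set G))) : Set G) \ ((K : Set G) ∪ ↑(Cfsg.sigmaCore M ⊓ Subgroup.centralizer (K : Set G)))) = K ⊔ (Cfsg.sigmaCore M ⊓ Subgroup.centralizer (K : Set G)) := by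
  have hK := h.hall
  have hcop := h.coprime
  have hKsne := h.cent.1
  have hcore' := core h hK1
  set Ks : Subgroup G := Cfsg.sigmaCore M ⊓ Subgroup.centralizer (K : Set G) with hKs
  have hmemZ : ∀ x : G, x ∈ ((↑(K ⊔ Ks) : Set G) \ ((K : Set G) ∪ ↑Ks)) ↔
      x ∈ K ⊔ Ks ∧ x ∉ K ∧ x ∉ Ks := by
    intro x
    simp only [Set.mem_sdiff, Set.mem_union, SetLike.mem_coe, not_or]
  have hcore : ∀ z g : G, z ∈ ((↑(K ⊔ Ks) : Set G) \ ((K : Set G) ∪ ↑Ks)) →
      g * z * g⁻¹ ∈ ((↑(K ⊔ Ks) : Set G) \ ((K : Set G) ∪ ↑Ks)) → g ∈ K ⊔ Ks := by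
    intro z g hz hw
    rw [hmemZ] at hz hw
    exact hcore' z g hz.1 hz.2.1 hz.2.2 hw.1
  have hinf : K ⊓ Ks = ⊥ := disjoint_iff.1 (Subgroup.disjoint_of_coprime_natCard hcop)
  -- nonemptiness
  have hne : ∃ z : G, z ∈ ((↑(K ⊔ Ks) : Set G) \ ((K : Set G) ∪ ↑Ks)) := by
    obtain ⟨k, hkK, hk1⟩ : ∃ x ∈ K, x ≠ 1 := by
      obtain ⟨x, hx⟩ := (Subgroup.ne_bot_iff_exists_ne_one (H := K)).1 hK1
      exact ⟨(x : G), x.2, fun h => hx (Subtype.ext h)⟩
    obtain ⟨s, hsK, hs1⟩ : ∃ x ∈ Ks, x ≠ 1 := by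
      obtain ⟨x, hx⟩ := (Subgroup.ne_bot_iff_exists_ne_one (H := Ks)).1 hKsne
      exact ⟨(x : G), x.2, fun h => hx (Subtype.ext h)⟩
    refine ⟨k * s, ?_⟩
    rw [hmemZ]
    refine ⟨Subgroup.mul_mem _ (Subgroup.mem_sup_left hkK) (Subgroup.mem_sup_right hsK), ?_, ?_⟩
    · intro h'
      have hsK' : s ∈ K := by
        have := K.mul_mem (K.inv_mem hkK) h'
        simpa using this
      have : s ∈ K ⊓ Ks := ⟨hsK', hsK⟩
      rw [hinf] at this
      exact hs1 ((Subgroup.mem_bot).1 this)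
    · intro h'
      have hkK' : k ∈ Ks := by
        have := Ks.mul_mem h' (Ks.inv_mem hsK)
        simpa using this
      have : k ∈ K ⊓ Ks := ⟨hkK, hkK'⟩
      rw [hinf] at this
      exact hk1 ((Subgroup.mem_bot).1 this)
  -- Z normalizes K and Ks
  have hZK : K ⊔ Ks ≤ Subgroup.normalizer (K : Set G) :=
    sup_le Subgroup.le_normalizer (inf_le_right.trans (Subgroup.centralizer_le_normalizer _))
  have hZKs : K ⊔ Ks ≤ Subgroup.normalizer (Ks : Set G) := by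
    refine sup_le ?_ Subgroup.le_normalizer
    intro k hk
    rw [Subgroup.mem_normalizer_iff]
    intro y
    have key : ∀ t : G, t ∈ Ks → k * t * k⁻¹ = t := by
      intro t ht
      have := (Subgroup.mem_centralizer_iff.1 ht.2) k hk
      rw [this]; group
    constructor
    · intro hy
      rw [key y hy]; exact hy
    · intro hy
      have h1 := key _ hy
      have h2 : k⁻¹ * (k * y * k⁻¹) * k = y := by group
      have h3 : k⁻¹ * (k * y * k⁻¹) * k = k * y * k⁻¹ := by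
        have e : k * (k * y * k⁻¹) * k⁻¹ = k * y * k⁻¹ := h1
        calc k⁻¹ * (k * y * k⁻¹) * k = k⁻¹ * (k * (k * y * k⁻¹) * k⁻¹) * k := by rw [e]
          _ = k * y * k⁻¹ := by group
      rw [← h2, h3]; exact hy
  have hnormEq : Subgroup.normalizer ((↑(K ⊔ Ks) : Set G) \ ((K : Set G) ∪ ↑Ks)) = K ⊔ Ks := by
    apply le_antisymm
    · intro g hg
      obtain ⟨z, hz⟩ := hne
      exact hcore z g hz ((Subgroup.mem_set_normalizer_iff.1 hg z).1 hz)
    · intro g hg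
      rw [Subgroup.mem_set_normalizer_iff]
      intro y
      rw [hmemZ, hmemZ]
      have a1 : y ∈ K ⊔ Ks ↔ g * y * g⁻¹ ∈ K ⊔ Ks := by
        constructor
        · intro hh
          exact Subgroup.mul_mem _ (Subgroup.mul_mem _ hg hh) (Subgroup.inv_mem _ hg)
        · intro hh
          have := Subgroup.mul_mem _ (Subgroup.mul_mem _ (Subgroup.inv_mem _ hg) hh) hg
          simpa [mul_assoc] using this
      have a2 : y ∈ K ↔ g * y * g⁻¹ ∈ K := Subgroup.mem_normalizer_iff.1 (hZK hg) y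
      have a3 : y ∈ Ks ↔ g * y * g⁻¹ ∈ Ks := Subgroup.mem_normalizer_iff.1 (hZKs hg) y
      rw [a1, a2, a3]
  refine ⟨?_, hnormEq⟩
  intro g hg x hx hgx
  exfalso
  apply hg
  rw [hnormEq]
  exact hcore x g hx hgx

/-- A `p`-element of `M` is `M`-conjugate into any subgroup `K ≤ M` of index prime to `p`. -/
theorem exists_conj_mem_of_not_dvd_relIndex {p : ℕ} [Fact p.Prime]
    (M K : Subgroup G) (h : ¬ p ∣ K.relIndex M) (b : G) (hb : b ∈ M)
    (hbp : ∃ j : ℕ, b ^ p ^ j = 1) : ∃ m ∈ M, m⁻¹ * b * m ∈ K := by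
  obtain ⟨j, hj⟩ := hbp
  have hy : (⟨b, hb⟩ : M) ^ p ^ j = 1 := Subtype.ext (by simpa using hj)
  have hY : IsPGroup p (Subgroup.zpowers (⟨b, hb⟩ : M)) := by
    obtain ⟨i, -, hi⟩ := (Nat.dvd_prime_pow (Fact.out : p.Prime)).1 (orderOf_dvd_of_pow_eq_one hy)
    apply IsPGroup.of_card (n := i)
    rw [Nat.card_zpowers, hi]
  obtain ⟨q, hq⟩ := hY.nonempty_fixed_point_of_prime_not_dvd_card (M ⧸ K.subgroupOf M) h
  obtain ⟨g, rfl⟩ := QuotientGroup.mk_surjective q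
  have h1 := hq ⟨⟨b, hb⟩, Subgroup.mem_zpowers _⟩
  have h2 : (((⟨b, hb⟩ : M) * g : M) : M ⧸ K.subgroupOf M) = (g : M ⧸ K.subgroupOf M) := h1
  rw [QuotientGroup.eq] at h2
  have h3 : g⁻¹ * (⟨b, hb⟩ : M) * g = (((⟨b, hb⟩ : M) * g)⁻¹ * g)⁻¹ := by group
  have h4 : g⁻¹ * (⟨b, hb⟩ : M) * g ∈ K.subgroupOf M := by
    rw [h3]
    exact Subgroup.inv_mem _ h2
  refine ⟨(g : G), g.2, ?_⟩
  have h5 := Subgroup.mem_subgroupOf.1 h4
  simpa using h5

omit [Finite G] in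
/-- Powers of `n * k` modulo a subgroup normalized by the powers of `k`. -/
theorem pow_mul_inv_mem (N : Subgroup G) (n k : G) (hn : n ∈ N)
    (hk : ∀ i : ℕ, ∀ x ∈ N, k ^ i * x * (k ^ i)⁻¹ ∈ N) (i : ℕ) :
    (n * k) ^ i * (k ^ i)⁻¹ ∈ N := by
  induction i with
  | zero => simp
  | succ i ih =>
    have e : (n * k) ^ (i + 1) * (k ^ (i + 1))⁻¹ =
        ((n * k) ^ i * (k ^ i)⁻¹) * (k ^ i * n * (k ^ i)⁻¹) := by
      rw [pow_succ, pow_succ]; group
    rw [e]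
    exact N.mul_mem ih (hk i n hn)

/-- S1371 from `Hyp`. -/
theorem s1371 {M K U : Subgroup G} (h : Hyp M K U) (hK1 : K ≠ ⊥) :
    {a : G | ∃ m ∈ M, ∃ z ∈ ((↑(K ⊔ (Cfsg.sigmaCore M ⊓ Subgroup.centralizer (K : Set G))) : Set G) \ ((K : Set G) ∪ ↑(Cfsg.sigmaCore M ⊓ Subgroup.centralizer (K : Set G)))), a = m * z * m⁻¹} = Cfsg.sigmaA0 M K \ Cfsg.sigmaA M U ∧
      Cfsg.IsTISubset (Cfsg.sigmaA0 M K \ Cfsg.sigmaA M U) := by
  have hK := h.hall
  have hcop := h.coprime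
  have hcent2 := h.cent.2 hK1
  have hcore' := core h hK1
  have hUM : U ≤ M := by
    intro u hu
    exact (h.compl.1) (Subgroup.mem_sup_right hu)
  set Ks : Subgroup G := Cfsg.sigmaCore M ⊓ Subgroup.centralizer (K : Set G) with hKs
  have hKM : K ≤ M := hK.1
  have hSM : Cfsg.sigmaCore M ≤ M := h.sle
  have hKsM : Ks ≤ M := inf_le_left.trans hSM
  have hZM : K ⊔ Ks ≤ M := sup_le hKM hKsM
  have hN'M : U ⊔ Cfsg.sigmaCore M ≤ M := sup_le hUM hSM
  have hcomp := h.compl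
  rw [sup_comm] at hcomp
  have hcommN := h.comm
  rw [sup_comm] at hcommN
  -- `N' = U M_σ` is normal in `M`
  have hNnorm : ∀ m ∈ M, ∀ n ∈ U ⊔ Cfsg.sigmaCore M, m * n * m⁻¹ ∈ U ⊔ Cfsg.sigmaCore M := by
    intro m hm n hn
    have h1 : m * n * m⁻¹ * n⁻¹ ∈ U ⊔ Cfsg.sigmaCore M :=
      hcommN (Subgroup.commutator_mem_commutator hm (hN'M hn))
    have := Subgroup.mul_mem _ h1 hn
    simpa using this
  have hNK : ∀ x : G, x ∈ U ⊔ Cfsg.sigmaCore M → x ∈ K → x = 1 := by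
    intro x hx hxK
    have : x ∈ (U ⊔ Cfsg.sigmaCore M) ⊓ K := ⟨hx, hxK⟩
    rw [hcomp.2.2.1] at this
    exact (Subgroup.mem_bot).1 this
  have hmemZ : ∀ x : G, x ∈ ((↑(K ⊔ Ks) : Set G) \ ((K : Set G) ∪ ↑Ks)) ↔
      x ∈ K ⊔ Ks ∧ x ∉ K ∧ x ∉ Ks := by
    intro x
    simp only [Set.mem_sdiff, Set.mem_union, SetLike.mem_coe, not_or]
  have hnorm : Ks ≤ Subgroup.normalizer (K : Set G) :=
    inf_le_right.trans (Subgroup.centralizer_le_normalizer _)
  have hSnorm : ∀ m ∈ M, ∀ y ∈ Cfsg.sigmaCore M, m * y * m⁻¹ ∈ Cfsg.sigmaCore M := by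
    intro m hm y hy
    exact (Subgroup.mem_normalizer_iff.1 (h.snorm hm) y).1 hy
  have hset : {a : G | ∃ m ∈ M, ∃ z ∈ ((↑(K ⊔ Ks) : Set G) \ ((K : Set G) ∪ ↑Ks)), a = m * z * m⁻¹} =
      Cfsg.sigmaA0 M K \ Cfsg.sigmaA M U := by
    ext a
    constructor
    · rintro ⟨m, hm, z, hz, rfl⟩
      rw [hmemZ] at hz
      obtain ⟨hzZ, hzK, hzKs⟩ := hz
      obtain ⟨k, hk, s, hs, rfl⟩ :=
        Cfsg.Agent.Lib.Helper31.SigBasic.mem_sup_of_le_normalizer K Ks hnorm hzZ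
      have hs1 : s ≠ 1 := by
        rintro rfl
        exact hzK (by simpa using hk)
      have hk1 : k ≠ 1 := by
        rintro rfl
        exact hzKs (by simpa using hs)
      have hks : k * s = s * k := (Subgroup.mem_centralizer_iff.1 hs.2) k hk
      have hzM : k * s ∈ M := hZM hzZ
      have haM : m * (k * s) * m⁻¹ ∈ M := M.mul_mem (M.mul_mem hm hzM) (M.inv_mem hm)
      have hhat : m * (k * s) * m⁻¹ ∈ Cfsg.sigmaHat M := by
        refine ⟨haM, m * s * m⁻¹, hSnorm m hm s hs.1, ?_, ?_⟩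
        · intro h
          apply hs1
          have : s = m⁻¹ * (m * s * m⁻¹) * m := by group
          rw [this, h]; group
        · have e1 : m * (k * s) * m⁻¹ * (m * s * m⁻¹) = m * (k * s * s) * m⁻¹ := by group
          have e2 : m * s * m⁻¹ * (m * (k * s) * m⁻¹) = m * (s * k * s) * m⁻¹ := by group
          rw [e1, e2, hks]
      refine ⟨⟨hhat, ?_⟩, ?_⟩
      · -- not an `M`-conjugate of a non-identity element of `K`
        rintro ⟨k₀, hk₀, -, m', -, heq⟩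
        have hpow : (k * s) ^ Nat.card K = 1 := by
          have h1 : (m * (k * s) * m⁻¹) ^ Nat.card K = 1 := by
            rw [heq, conj_pow,
              orderOf_dvd_iff_pow_eq_one.1 (Subgroup.orderOf_dvd_natCard K hk₀)]
            group
          rw [conj_pow] at h1
          have : (k * s) ^ Nat.card K = m⁻¹ * (m * (k * s) ^ Nat.card K * m⁻¹) * m := by group
          rw [this, h1]; group
        have hks' : Commute k s := hks
        rw [hks'.mul_pow, orderOf_dvd_iff_pow_eq_one.1 (Subgroup.orderOf_dvd_natCard K hk),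
          one_mul] at hpow
        exact pow_ne_one_of_coprime Ks s hs hs1 _ hcop hpow
      · -- not in `A(M)`
        rintro ⟨-, hmem⟩
        have hmem' : m * (k * s) * m⁻¹ ∈ U ⊔ Cfsg.sigmaCore M := hmem
        have h1 : k * s ∈ U ⊔ Cfsg.sigmaCore M := by
          have := hNnorm m⁻¹ (M.inv_mem hm) _ hmem'
          have e : m⁻¹ * (m * (k * s) * m⁻¹) * m⁻¹⁻¹ = k * s := by group
          rwa [e] at this
        have h2 : k ∈ U ⊔ Cfsg.sigmaCore M := by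
          have := Subgroup.mul_mem _ h1 (Subgroup.inv_mem _ (Subgroup.mem_sup_right hs.1 :
            s ∈ U ⊔ Cfsg.sigmaCore M))
          simpa using this
        exact hk1 (hNK k h2 hk)
    · rintro ⟨⟨hhat, hnotK⟩, hnotA⟩
      have haM : a ∈ M := hhat.1
      have haN : a ∉ U ⊔ Cfsg.sigmaCore M := fun h => hnotA ⟨hhat, h⟩
      obtain ⟨n, hn, k, hk, rfl⟩ := hcomp.2.2.2 a haM
      have hk1 : k ≠ 1 := by
        rintro rfl
        exact haN (by simpa using hn)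
      have hkM : k ∈ M := hKM hk
      have hne : orderOf k ≠ 1 := fun h => hk1 (orderOf_eq_one_iff.1 h)
      obtain ⟨p, hp, hpd⟩ := Nat.exists_prime_and_dvd hne
      have : Fact p.Prime := ⟨hp⟩
      have hopos : orderOf (n * k) ≠ 0 := (orderOf_pos _).ne'
      set e : ℕ := (orderOf (n * k)).factorization p with he
      set o' : ℕ := orderOf (n * k) / p ^ e with ho'
      have hprod : p ^ e * o' = orderOf (n * k) := Nat.ordProj_mul_ordCompl_eq_self _ p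
      have hndvd : ¬ p ∣ o' := Nat.not_dvd_ordCompl hp hopos
      set b : G := (n * k) ^ o' with hb
      have hbM : b ∈ M := M.pow_mem haM _
      have hbp : b ^ p ^ e = 1 := by
        rw [hb, ← pow_mul, mul_comm, hprod, pow_orderOf_eq_one]
      have hko' : k ^ o' ≠ 1 := by
        intro h
        exact hndvd (hpd.trans (orderOf_dvd_of_pow_eq_one h))
      have hbN : b ∉ U ⊔ Cfsg.sigmaCore M := by
        intro h
        have h1 := pow_mul_inv_mem (U ⊔ Cfsg.sigmaCore M) n k hn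
          (fun i x hx => hNnorm _ (M.pow_mem hkM i) x hx) o'
        have h2 : k ^ o' ∈ U ⊔ Cfsg.sigmaCore M := by
          have := Subgroup.mul_mem _ (Subgroup.inv_mem _ h1) h
          have e' : ((n * k) ^ o' * (k ^ o')⁻¹)⁻¹ * b = k ^ o' := by rw [hb]; group
          rwa [e'] at this
        exact hko' (hNK _ h2 (K.pow_mem hk _))
      have hpκ : p ∈ Cfsg.kappa M :=
        hK.2.1 p hp (hpd.trans (Subgroup.orderOf_dvd_natCard K hk))
      obtain ⟨m, hm, hmK⟩ := exists_conj_mem_of_not_dvd_relIndex M K (hK.2.2 p hp hpκ) b hbM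
        ⟨e, hbp⟩
      have hk₁1 : m⁻¹ * b * m ≠ 1 := by
        intro h
        apply hbN
        have : b = m * (m⁻¹ * b * m) * m⁻¹ := by group
        rw [this, h]
        simp
      have hcomm_ab : Commute (n * k) b := (Commute.refl (n * k)).pow_right o'
      have ha'M : m⁻¹ * (n * k) * m ∈ M := M.mul_mem (M.mul_mem (M.inv_mem hm) haM) hm
      have hcen : m⁻¹ * (n * k) * m ∈ Subgroup.centralizer ({m⁻¹ * b * m} : Set G) := by
        rw [Subgroup.mem_centralizer_iff]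
        intro h hh
        rw [Set.mem_singleton_iff] at hh
        subst hh
        have e1 : m⁻¹ * b * m * (m⁻¹ * (n * k) * m) = m⁻¹ * (b * (n * k)) * m := by group
        have e2 : m⁻¹ * (n * k) * m * (m⁻¹ * b * m) = m⁻¹ * ((n * k) * b) * m := by group
        rw [e1, e2, hcomm_ab.eq]
      have hfin := hcent2 (m⁻¹ * b * m) hmK hk₁1
      have ha'Z : m⁻¹ * (n * k) * m ∈ K ⊔ Ks := by
        rw [← hfin]
        exact ⟨ha'M, hcen⟩
      have haeq : n * k = m * (m⁻¹ * (n * k) * m) * m⁻¹ := by group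
      refine ⟨m, hm, m⁻¹ * (n * k) * m, ?_, haeq⟩
      rw [hmemZ]
      refine ⟨ha'Z, ?_, ?_⟩
      · intro h
        apply hnotK
        refine ⟨m⁻¹ * (n * k) * m, h, ?_, m, hm, haeq⟩
        intro h1
        apply haN
        rw [haeq, h1]
        simp
      · intro h
        apply haN
        have h2 : m⁻¹ * (n * k) * m ∈ U ⊔ Cfsg.sigmaCore M := Subgroup.mem_sup_right h.1
        have := hNnorm m hm _ h2
        rwa [← haeq] at this
  refine ⟨hset, ?_⟩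
  rw [← hset]
  intro g hg x hx hgx
  exfalso
  apply hg
  obtain ⟨m, hm, z, hz, rfl⟩ := hx
  obtain ⟨m', hm', z', hz', heq⟩ := hgx
  rw [hmemZ] at hz hz'
  have hconj : (m'⁻¹ * g * m) * z * (m'⁻¹ * g * m)⁻¹ = z' := by
    have : (m'⁻¹ * g * m) * z * (m'⁻¹ * g * m)⁻¹ = m'⁻¹ * (g * (m * z * m⁻¹) * g⁻¹) * m' := by
      group
    rw [this, heq]; group
  have hmem : m'⁻¹ * g * m ∈ K ⊔ Ks :=
    hcore' z (m'⁻¹ * g * m) hz.1 hz.2.1 hz.2.2
      (by rw [hconj]; exact hz'.1)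
  have hgM : g ∈ M := by
    have h1 : m'⁻¹ * g * m ∈ M := hZM hmem
    have : g = m' * (m'⁻¹ * g * m) * m⁻¹ := by group
    rw [this]
    exact M.mul_mem (M.mul_mem hm' h1) (M.inv_mem hm)
  rw [Subgroup.mem_set_normalizer_iff]
  intro h
  constructor
  · rintro ⟨m₁, hm₁, z₁, hz₁, rfl⟩
    exact ⟨g * m₁, M.mul_mem hgM hm₁, z₁, hz₁, by group⟩
  · rintro ⟨m₁, hm₁, z₁, hz₁, heq₁⟩
    refine ⟨g⁻¹ * m₁, M.mul_mem (M.inv_mem hgM) hm₁, z₁, hz₁, ?_⟩
    have : h = g⁻¹ * (g * h * g⁻¹) * g := by group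
    rw [this, heq₁]; group


end Cfsg.Agent.Lib.Helper83.ZhatCore
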